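import Cfsg.Agent.Chars.AbelianIndexBound
import Cfsg.Agent.Chars.SelfCentralising
import Cfsg.Agent.Components.Prelim
import Mathlib.GroupTheory.GroupAction.CardCommute

/-! A group with all character degrees at most `b` has an abelian subgroup of index at most `(b!) ^ 2`. -/

set_option autoImplicit false
set_option linter.style.haveILetI false
set_option linter.unusedSectionVars false

open Cfsg Cfsg.Agent
open scoped ComplexConjugate commutatorElement

namespace Cfsg.Agent.Chars.AbelianBound

universe u

variable {G : Type u} [Group G] [Fintype G]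

noncomputable local instance (priority := high) fintypeSub' (H : Subgroup G) : Fintype H :=
  Fintype.ofFinite _

/-- No non-abelian simple group has all degrees at most four. -/
theorem simple_false {S : Type u} [Group S] [Finite S] [IsSimpleGroup S]
    (hna : ¬ ∀ a b : S, a * b = b * a) (h4 : Bdd S 4) : False := by
  classical
  letI : Fintype S := Fintype.ofFinite S
  set o : IrrCharacter S := ⟨fun _ => 1, isIrrCharacter_one⟩
  have hone : ∀ χ : IrrCharacter S, χ ≠ o → 2 ≤ charDegree (χ : S → ℂ) := by
    intro χ hχ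
    have h0 := (Blocks.charDegree_eq χ.2).2
    by_contra hlt
    obtain ⟨φ, hφ⟩ := exists_hom_of_degree_one (irr_isCharacter χ) (by
      rw [(Blocks.charDegree_eq χ.2).1, show charDegree (χ : S → ℂ) = 1 by omega, Nat.cast_one])
    refine hχ (Subtype.ext ?_)
    rcases IsSimpleGroup.eq_bot_or_eq_top_of_normal φ.ker inferInstance with h | h
    · exact absurd (fun a c => (MonoidHom.ker_eq_bot_iff φ).1 h (by rw [map_mul, map_mul, mul_comm]))
        hna
    · funext g
      rw [hφ]
      show (φ g : ℂ) = 1
      rw [MonoidHom.mem_ker.1 (h ▸ Subgroup.mem_top g), Units.val_one]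
  have ho : charDegree (o : S → ℂ) = 1 := by
    have := (Blocks.charDegree_eq o.2).1
    rw [show (o : S → ℂ) 1 = 1 from rfl] at this
    exact_mod_cast this.symm
  have hcard : Nat.card S =
      1 + ∑ χ ∈ Finset.univ.erase o, charDegree (χ : S → ℂ) ^ 2 := by
    have h := sum_sq_apply_one (G := S)
    simp only [(Blocks.charDegree_eq (Subtype.prop _)).1] at h
    have h' : ∑ χ : IrrCharacter S, charDegree (χ : S → ℂ) ^ 2 = Nat.card S := by exact_mod_cast h
    rw [← h', ← Finset.add_sum_erase _ _ (Finset.mem_univ o), ho, one_pow]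
  obtain ⟨χ₁, hχ₁⟩ : ∃ χ : IrrCharacter S, χ ≠ o := by
    by_contra hall
    push Not at hall
    exact hna (Chars2.comm_of_degree_one fun χ => by rw [hall χ, ho])
  have heven : 2 ∣ Nat.card S := by
    by_contra hodd
    have h3 : ∀ χ : IrrCharacter S, χ ≠ o → charDegree (χ : S → ℂ) = 3 := by
      intro χ hχ
      have h1 := hone χ hχ
      have h2 := h4 χ
      have h5 := Blocks.charDegree_dvd χ.2
      by_contra hne
      refine hodd (Dvd.dvd.trans ?_ h5)
      omega
    have hd : 3 ∣ Nat.card S := h3 χ₁ hχ₁ ▸ Blocks.charDegree_dvd χ₁.2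
    rw [hcard, Finset.sum_congr rfl fun χ hχ => by rw [h3 χ (Finset.ne_of_mem_erase hχ)],
      Finset.sum_const, smul_eq_mul] at hd
    omega
  haveI : Fact (Nat.Prime 2) := ⟨Nat.prime_two⟩
  obtain ⟨t, ht⟩ := exists_prime_orderOf_dvd_card' 2 heven
  have ht1 : t ≠ 1 := fun h => by rw [h, orderOf_one] at ht; omega
  have key : ∀ χ : IrrCharacter S, ∃ z : ℤ,
      (χ : S → ℂ) 1 * conj ((χ : S → ℂ) t) = (if χ = o then 1 else 0) + 3 * (z : ℂ) := by
    intro χ
    split_ifs with hχ
    · exact ⟨0, by rw [hχ]; simp [o]⟩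
    have h1 := hone χ hχ
    have h2 := h4 χ
    obtain ⟨k, hk, hv⟩ := SelfCentralising.apply_involution hna χ (t := t) (by rw [← ht, pow_orderOf_eq_one])
    set d := charDegree (χ : S → ℂ) with hd
    have hd1 := (Blocks.charDegree_eq χ.2).1
    have hns : ∀ c : ℂ, (χ : S → ℂ) t = c → ‖c‖ ≠ (d : ℝ) := by
      intro c hc hn
      refine ht1 (SimpleDeg.eq_one_of_norm_eq hna (χ := χ) ?_ ?_)
      · rw [hd1]; exact_mod_cast (show d ≠ 1 by omega)
      · rw [hc, hn, hd1, Complex.natCast_re]
    have hk0 : k ≠ 0 := fun h => hns d (by rw [hv, h]; simp) (by simp)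
    have hk2 : 2 * k ≠ d := fun h => hns (-(d : ℂ)) (by
      rw [hv, ← h]; push_cast; ring) (by simp)
    obtain ⟨rfl, hcase⟩ : k = 1 ∧ (d = 3 ∨ d = 4) := by omega
    rcases hcase with h | h
    · exact ⟨-1, by rw [hd1, hv, ← hd, h]; norm_num [map_sub, map_ofNat]⟩
    · exact ⟨0, by rw [hd1, hv, ← hd, h]; norm_num⟩
  choose z hz using key
  have horth := column_orth (G := S) 1 t
  rw [if_neg fun h => ht1 (isConj_one_right.1 h), Finset.sum_congr rfl fun χ _ => hz χ,
    Finset.sum_add_distrib, Finset.sum_ite_eq' Finset.univ o, if_pos (Finset.mem_univ _),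
    ← Finset.mul_sum] at horth
  have hz' : (1 : ℤ) + 3 * ∑ χ, z χ = 0 := by exact_mod_cast horth
  omega

/-- Elements with small classes lie in an abelian normal subgroup, unless we are done. -/
theorem small_class {n : ℕ} (hn : Bdd G n)
    (hno : ¬ ∃ H : Subgroup G, H.index ≤ n ^ 2 ∧ Bdd H (n - 1)) {g : G}
    (hg : (Subgroup.centralizer ({g} : Set G)).index ≤ n ^ 2) :
    g ∈ Components.solvableRadical G := by
  classical
  set H := Subgroup.centralizer ({g} : Set G)
  have hb : Big n H := by
    by_contra hb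
    exact hno ⟨H, hg, bdd_pred hn hb⟩
  obtain ⟨χ, hχ, h1, hr⟩ := hb
  have hgH : g ∈ H := Subgroup.mem_centralizer_singleton_iff.2 rfl
  have hgc : (⟨g, hgH⟩ : H) ∈ Subgroup.center H := by
    rw [Subgroup.mem_center_iff]
    exact fun x => Subtype.ext (Subgroup.mem_centralizer_singleton_iff.1 x.2)
  obtain ⟨φ, hφ⟩ := Chars2.exists_central_hom hr (le_refl (Subgroup.center H))
  have hne : χ g ≠ 0 := by
    have h := hφ ⟨_, hgc⟩ 1
    simp only [mul_one, Subgroup.coe_one] at h
    rw [h, h1]
    exact mul_ne_zero (Units.ne_zero _) (h1 ▸ irr_apply_one_ne_zero hχ)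
  have hcore : g ∈ H.normalCore := by
    by_contra hc
    exact hne (vanish_off_core hn hχ h1 hr hgH hc)
  set A := Subgroup.normalClosure ({g} : Set G)
  have hab : ∀ a ∈ A, ∀ b ∈ A, a * b = b * a := by
    have hc : ∀ x ∈ Group.conjugatesOfSet ({g} : Set G), x ∈ H.normalCore := by
      intro x hx
      obtain ⟨g₀, rfl, hcx⟩ := Group.mem_conjugatesOfSet_iff.1 hx
      obtain ⟨c, rfl⟩ := isConj_iff.1 hcx
      exact (inferInstance : H.normalCore.Normal).conj_mem _ hcore c
    have hA : A ≤ H.normalCore := (Subgroup.closure_le _).2 hc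
    have hcg : g ∈ Subgroup.centralizer (A : Set G) := Subgroup.mem_centralizer_iff.2 fun a ha =>
      Subgroup.mem_centralizer_singleton_iff.1 (H.normalCore_le (hA ha))
    have hA2 : A ≤ Subgroup.centralizer (A : Set G) := by
      haveI : (Subgroup.centralizer (A : Set G)).Normal := inferInstance
      exact Subgroup.normalClosure_le_normal (Set.singleton_subset_iff.2 hcg)
    exact fun a ha b hb => (Subgroup.mem_centralizer_iff.1 (hA2 ha) b hb).symm
  haveI : Group.IsSolvable A := Group.isSolvable_of_comm fun a b => Subtype.ext (hab a a.2 b b.2)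
  exact Components.le_solvableRadical (N := A) Subgroup.normalClosure_normal inferInstance
    (Subgroup.subset_normalClosure (Set.mem_singleton g))

/-- The radical has index at most `n ^ 4`, unless we are done. -/
theorem index_radical_le {n : ℕ} (hn : Bdd G n) (hn0 : 0 < n)
    (hno : ¬ ∃ H : Subgroup G, H.index ≤ n ^ 2 ∧ Bdd H (n - 1)) :
    (Components.solvableRadical G).index ≤ n ^ 4 := by
  classical
  set R := Components.solvableRadical G
  set C : G → ℕ := fun g => Nat.card (Subgroup.centralizer ({g} : Set G))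
  have hk : Nat.card (ConjClasses G) * Nat.card G = ∑ g, C g := by
    rw [← card_comm_eq_card_conjClasses_mul_card,
      Nat.card_congr (Equiv.subtypeProdEquivSigmaSubtype fun a b : G => Commute a b), Nat.card_sigma]
    refine Finset.sum_congr rfl fun g _ => Nat.card_congr (Equiv.subtypeEquivRight fun b => ?_)
    rw [Subgroup.mem_centralizer_singleton_iff]
    exact ⟨fun h => h.eq.symm, fun h => (show b * g = g * b from h).symm⟩
  have hG : Nat.card G ≤ n ^ 2 * Nat.card (ConjClasses G) := by
    have h := sum_sq_apply_one (G := G)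
    simp only [(Blocks.charDegree_eq (Subtype.prop _)).1] at h
    have h' : ∑ χ : IrrCharacter G, charDegree (χ : G → ℂ) ^ 2 = Nat.card G := by exact_mod_cast h
    rw [← h', ← card_irr_eq_card_conjClasses, Nat.card_eq_fintype_card, mul_comm]
    exact (Finset.sum_le_card_nsmul _ _ _ fun χ _ => Nat.pow_le_pow_left (hn χ) 2).trans_eq
      (by rw [smul_eq_mul, Finset.card_univ])
  set m := n ^ 2 + 1
  have hC : ∀ g, m * C g ≤ (if g ∈ R then m * Nat.card G else Nat.card G) := by
    intro g
    split_ifs with h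
    · exact Nat.mul_le_mul_left m (Nat.le_of_dvd Nat.card_pos (Subgroup.card_subgroup_dvd_card _))
    · rw [← (Subgroup.centralizer ({g} : Set G)).card_mul_index, mul_comm]
      refine Nat.mul_le_mul_left _ ?_
      by_contra hlt
      exact h (small_class hn hno (by omega))
  have h2 : m * (Nat.card (ConjClasses G) * Nat.card G) ≤
      (n ^ 2 * Nat.card R + Nat.card G) * Nat.card G := by
    rw [hk, Finset.mul_sum]
    refine (Finset.sum_le_sum fun g _ => hC g).trans_eq ?_
    rw [Finset.sum_congr rfl (g := fun g => (if g ∈ R then n ^ 2 * Nat.card G else 0) + Nat.card G)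
      fun g _ => by split_ifs <;> ring, Finset.sum_add_distrib, ← Finset.sum_filter, Finset.sum_const,
      Finset.sum_const, Finset.card_univ, ← Nat.card_eq_fintype_card, ← Fintype.card_subtype,
      ← Nat.card_eq_fintype_card, smul_eq_mul, smul_eq_mul]
    ring
  have h3 : m * Nat.card (ConjClasses G) ≤ n ^ 2 * Nat.card R + Nat.card G :=
    Nat.le_of_mul_le_mul_right (by rwa [mul_assoc]) Nat.card_pos
  have hidx := R.card_mul_index
  have h4 : m * Nat.card G ≤ n ^ 2 * (n ^ 2 * Nat.card R + Nat.card G) := calc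
    m * Nat.card G ≤ m * (n ^ 2 * Nat.card (ConjClasses G)) := Nat.mul_le_mul_left m hG
    _ = n ^ 2 * (m * Nat.card (ConjClasses G)) := by ring
    _ ≤ _ := Nat.mul_le_mul_left _ h3
  have h5 : Nat.card R * R.index ≤ Nat.card R * n ^ 4 := by
    rw [hidx]
    simp only [m] at h4
    nlinarith
  exact Nat.le_of_mul_le_mul_left h5 Nat.card_pos

/-- A quotient of a group with non-abelian top solvable layer. -/
theorem exists_of_layer {n : ℕ} (hn : Bdd G n) (h : ¬ commutator G ≤ ⁅commutator G, commutator G⁆) :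
    ∃ H : Subgroup G, H.index ≤ n ^ 2 ∧ Bdd H (n - 1) := by
  classical
  set D := commutator G
  obtain ⟨K, ⟨hKn, hDK, hK⟩, hmax⟩ := Set.Finite.exists_maximal
    (s := {K : Subgroup G | K.Normal ∧ ⁅D, D⁆ ≤ K ∧ ¬ D ≤ K}) (Set.toFinite _)
    ⟨⁅D, D⁆, inferInstance, le_rfl, h⟩
  haveI := hKn
  have hsurj := QuotientGroup.mk'_surjective K
  have hmap : (commutator G).map (QuotientGroup.mk' K) = commutator (G ⧸ K) := by
    rw [commutator_def, Subgroup.map_commutator, Subgroup.map_top_of_surjective _ hsurj,
      commutator_def]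
  refine exists_of_quotient hn (QuotientGroup.mk' K) hsurj ?_ ?_ ?_
  · rw [← hmap, ne_eq, Subgroup.map_eq_bot_iff, QuotientGroup.ker_mk']
    exact hK
  · intro a ha b hb
    rw [← hmap] at ha hb
    have : ⁅a, b⁆ ∈ (⁅D, D⁆).map (QuotientGroup.mk' K) := by
      rw [Subgroup.map_commutator]; exact Subgroup.commutator_mem_commutator ha hb
    rw [(Subgroup.map_eq_bot_iff _).2 (by rwa [QuotientGroup.ker_mk']), Subgroup.mem_bot,
      commutatorElement_eq_one_iff_mul_comm] at this
    exact this
  · intro L hL hLne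
    rw [← hmap, Subgroup.map_le_iff_le_comap]
    by_contra hD
    have hle : K ≤ L.comap (QuotientGroup.mk' K) := fun x hx => by
      rw [Subgroup.mem_comap, QuotientGroup.mk'_apply, (QuotientGroup.eq_one_iff x).2 hx]
      exact one_mem L
    have hback := hmax ⟨Subgroup.Normal.comap hL _, hDK.trans hle, hD⟩ hle
    apply hLne
    rw [eq_bot_iff]
    intro q hq
    obtain ⟨g, rfl⟩ := hsurj q
    rw [Subgroup.mem_bot, QuotientGroup.mk'_apply, QuotientGroup.eq_one_iff]
    exact hback hq

/-- The perfect case reduces to a non-abelian simple group. -/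
theorem five_le {n : ℕ} (hn : Bdd G n) (hP : ⁅commutator G, commutator G⁆ = commutator G)
    (hne : commutator G ≠ ⊥) : 5 ≤ n := by
  classical
  by_contra hlt
  set P := commutator G
  have hperf : commutator P = ⊤ := by
    refine Subgroup.map_injective P.subtype_injective ?_
    rw [Subgroup.map_subtype_commutator, hP, ← MonoidHom.range_eq_map, Subgroup.range_subtype]
  haveI : Nontrivial P := (Subgroup.nontrivial_iff_ne_bot P).2 hne
  obtain ⟨M, ⟨hMn, hMne⟩, hmax⟩ := Set.Finite.exists_maximal
    (s := {M : Subgroup P | M.Normal ∧ M ≠ ⊤}) (Set.toFinite _) ⟨⊥, inferInstance, bot_ne_top⟩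
  haveI := hMn
  have hsurj := QuotientGroup.mk'_surjective M
  haveI : Nontrivial (P ⧸ M) := QuotientGroup.nontrivial_iff.2 hMne
  haveI : IsSimpleGroup (P ⧸ M) := ⟨fun L hL => by
    by_contra hcon
    push Not at hcon
    have hle : M ≤ L.comap (QuotientGroup.mk' M) := fun x hx => by
      rw [Subgroup.mem_comap, QuotientGroup.mk'_apply, (QuotientGroup.eq_one_iff x).2 hx]
      exact one_mem L
    have hne' : L.comap (QuotientGroup.mk' M) ≠ ⊤ := fun h => hcon.2 (by
      rw [← Subgroup.map_comap_eq_self_of_surjective hsurj L, h,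
        Subgroup.map_top_of_surjective _ hsurj])
    have hback := hmax ⟨Subgroup.Normal.comap hL _, hne'⟩ hle
    refine hcon.1 ((Subgroup.eq_bot_iff_forall _).2 fun q hq => ?_)
    obtain ⟨g, rfl⟩ := hsurj q
    rw [QuotientGroup.mk'_apply, QuotientGroup.eq_one_iff]
    exact hback hq⟩
  refine simple_false (S := P ⧸ M) (fun hab => hMne ?_) fun χ =>
    (bdd_surjective (bdd_subgroup hn P) _ hsurj χ).trans (by omega)
  rw [eq_top_iff, ← hperf, commutator_def, Subgroup.commutator_le]
  intro a _ b _
  rw [← QuotientGroup.eq_one_iff (N := M), ← QuotientGroup.mk'_apply, map_commutatorElement,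
    commutatorElement_eq_one_iff_mul_comm]
  exact hab _ _

/-- The radical halves the degree bound. -/
theorem radical_bdd {n : ℕ} (hn : Bdd G n)
    (hP : ⁅commutator G, commutator G⁆ = commutator G) (hne : commutator G ≠ ⊥) :
    Bdd (Components.solvableRadical G) (n / 2) := by
  classical
  set R := Components.solvableRadical G
  intro θ
  by_contra hlt
  obtain ⟨χ, hχθ, -⟩ := exists_over θ.2
  have hr := isCharacter_restrict (irr_isCharacter χ) R
  have hdeg := Chars2.clifford_degree χ.2 θ.2 hχθ
  obtain ⟨e, he⟩ := exists_classInner_eq_nat hr (isCharacter_of_isIrr θ.2)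
  rw [he, (Blocks.charDegree_eq χ.2).1, (Blocks.charDegree_eq θ.2).1] at hdeg
  have hnat : charDegree (χ : G → ℂ) =
      (Chars2.inertiaSub (θ : R → ℂ)).index * e * charDegree (θ : R → ℂ) := by exact_mod_cast hdeg
  have h1 := hn χ
  have hie : (Chars2.inertiaSub (θ : R → ℂ)).index * e ≤ 1 := by
    by_contra h2
    have : 2 * charDegree (θ : R → ℂ) ≤ charDegree (χ : G → ℂ) := by
      rw [hnat]; exact Nat.mul_le_mul_right _ (by omega)
    omega
  have heq : charDegree (χ : G → ℂ) ≤ charDegree (θ : R → ℂ) :=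
    hnat ▸ (Nat.mul_le_mul_right _ hie).trans_eq (one_mul _)
  have hres : (fun x : R => (χ : G → ℂ) x) = θ :=
    (degree_le_of_inner hr θ.2 hχθ (Blocks.charDegree_eq χ.2).1 (Blocks.charDegree_eq θ.2).1).2 heq
  -- the quotient by the radical is abelian
  have hlin : ∀ β : IrrCharacter (G ⧸ R), charDegree (β : G ⧸ R → ℂ) = 1 := by
    intro β
    set β' : IrrCharacter G := ⟨_, isIrrCharacter_comp_surjective β.2 _
      (QuotientGroup.mk'_surjective R)⟩
    have hinv1 : Chars2.inertiaSub (G := G) (fun _ : R => (1 : ℂ)) = ⊤ :=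
      Chars2.inertiaSub_eq_top fun _ _ => rfl
    have hinvθ : Chars2.inertiaSub (G := G) (θ : R → ℂ) = ⊤ :=
      Chars2.inertiaSub_eq_top fun g x => by
        rw [← hres]; exact isCharacter_conj_apply (irr_isCharacter χ) x g
    have hg := Chars2.gallagher (G := G) (N := R) (χ := (χ : G → ℂ)) isIrrCharacter_one hinv1 hinvθ
      (by simpa [Pi.mul_def] using θ.2) χ.2 (fun x => congrFun hres x)
    have hmem : (β' : G → ℂ) ∈ {b : G → ℂ | IsIrrCharacter G b ∧
        classInner (indFun R (fun _ => 1)) b ≠ 0} := by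
      refine ⟨β'.2, ?_⟩
      rw [classInner_indFun R _ (isClassFunction_irr β'),
        show (fun x : R => (β' : G → ℂ) x) = (β : G ⧸ R → ℂ) 1 • fun _ => (1 : ℂ) from
          funext fun x => by simp [β', (QuotientGroup.eq_one_iff (x : G)).2 x.2],
        classInner_smul_right, classInner_self_irr isIrrCharacter_one, mul_one]
      simpa using irr_apply_one_ne_zero β.2
    obtain ⟨hirr, -⟩ := hg.mapsTo hmem
    have h2 := hn ⟨_, hirr⟩
    have h3 := (Blocks.charDegree_eq hirr).1
    haveI : Fintype (G ⧸ R) := Fintype.ofFinite _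
    simp only at h2 h3
    rw [Pi.mul_apply, show (β' : G → ℂ) 1 = (β : G ⧸ R → ℂ) 1 by simp [β'],
      (Blocks.charDegree_eq β.2).1, (Blocks.charDegree_eq χ.2).1] at h3
    have h4 : charDegree (β : G ⧸ R → ℂ) * charDegree (χ : G → ℂ) =
        charDegree ((β' : G → ℂ) * (χ : G → ℂ)) := by exact_mod_cast h3
    have h5 := (Blocks.charDegree_eq β.2).2
    have h6 : charDegree (θ : R → ℂ) ≤ charDegree (χ : G → ℂ) :=
      (degree_le_of_inner hr θ.2 hχθ (Blocks.charDegree_eq χ.2).1 (Blocks.charDegree_eq θ.2).1).1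
    by_contra hb
    have h7 : 2 * charDegree (χ : G → ℂ) ≤ charDegree (β : G ⧸ R → ℂ) * charDegree (χ : G → ℂ) :=
      Nat.mul_le_mul_right _ (by omega)
    omega
  have hle : commutator G ≤ R := by
    rw [commutator_def, Subgroup.commutator_le]
    intro a _ b _
    rw [← QuotientGroup.eq_one_iff (N := R), ← QuotientGroup.mk'_apply, map_commutatorElement,
      commutatorElement_eq_one_iff_mul_comm]
    exact Chars2.comm_of_degree_one hlin _ _
  haveI := Components.solvableRadical_isSolvable (G := G)
  haveI : Group.IsSolvable (commutator G) :=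
    Group.isSolvable_of_isSolvable_injective (Subgroup.inclusion_injective hle)
  haveI : Nontrivial (commutator G) := (Subgroup.nontrivial_iff_ne_bot _).2 hne
  refine (Group.IsSolvable.commutator_lt_top_of_nontrivial (commutator G)).ne ?_
  refine Subgroup.map_injective (commutator G).subtype_injective ?_
  rw [Subgroup.map_subtype_commutator, hP, ← MonoidHom.range_eq_map, Subgroup.range_subtype]

/-- The theorem. -/
theorem exists_abelian : ∀ (n : ℕ) (G : Type u) [Group G] [Fintype G], Bdd G n →
    ∃ A : Subgroup G, (∀ x ∈ A, ∀ y ∈ A, x * y = y * x) ∧ A.index ≤ n.factorial ^ 2 := by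
  intro n
  induction n using Nat.strong_induction_on with
  | _ n ih =>
    intro G _ _ hn
    classical
    by_cases habel : ∀ a b : G, a * b = b * a
    · exact ⟨⊤, fun x _ y _ => habel x y, by
        rw [Subgroup.index_top]; exact Nat.one_le_pow _ _ n.factorial_pos⟩
    have hn2 : 2 ≤ n := by
      by_contra hlt
      refine habel (Chars2.comm_of_degree_one fun χ => ?_)
      have := hn χ
      have := (Blocks.charDegree_eq χ.2).2
      omega
    by_cases hex : ∃ H : Subgroup G, H.index ≤ n ^ 2 ∧ Bdd H (n - 1)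
    · obtain ⟨H, hH, hb⟩ := hex
      haveI : Fintype H := Fintype.ofFinite _
      obtain ⟨A, hA, hAi⟩ := ih (n - 1) (by omega) H hb
      refine ⟨A.map H.subtype, ?_, ?_⟩
      · rintro _ ⟨x, hx, rfl⟩ _ ⟨y, hy, rfl⟩
        rw [← map_mul, hA x hx y hy, map_mul]
      · rw [Subgroup.index_map_subtype]
        refine (Nat.mul_le_mul hAi hH).trans_eq ?_
        rw [← Nat.mul_factorial_pred (show n ≠ 0 by omega)]
        ring
    have hP : ⁅commutator G, commutator G⁆ = commutator G := le_antisymm
      (Subgroup.commutator_le.2 fun a ha b hb => by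
        rw [commutatorElement_def]
        exact mul_mem (mul_mem (mul_mem ha hb) (inv_mem ha)) (inv_mem hb))
      (by by_contra h; exact hex (exists_of_layer hn h))
    have hne : commutator G ≠ ⊥ := fun h => habel fun a b => by
      have : ⁅a, b⁆ ∈ commutator G :=
        Subgroup.commutator_mem_commutator (Subgroup.mem_top a) (Subgroup.mem_top b)
      rwa [h, Subgroup.mem_bot, commutatorElement_eq_one_iff_mul_comm] at this
    have h5 := five_le hn hP hne
    obtain ⟨A, hA, hAi⟩ := ih (n / 2) (by omega) _ (radical_bdd hn hP hne)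
    refine ⟨A.map (Components.solvableRadical G).subtype, ?_, ?_⟩
    · rintro _ ⟨x, hx, rfl⟩ _ ⟨y, hy, rfl⟩
      rw [← map_mul, hA x hx y hy, map_mul]
    · rw [Subgroup.index_map_subtype]
      refine (Nat.mul_le_mul hAi (index_radical_le hn (by omega) hex)).trans ?_
      obtain ⟨k, rfl⟩ : ∃ k, n = k + 5 := ⟨n - 5, by omega⟩
      have hfac : (k + 5).factorial = (k + 5) * ((k + 4) * ((k + 3) * (k + 2).factorial)) := by
        rw [Nat.factorial_succ (k + 4), Nat.factorial_succ (k + 3), Nat.factorial_succ (k + 2)]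
      have h6 : ((k + 5) / 2).factorial ≤ (k + 2).factorial := Nat.factorial_le (by omega)
      have h7 : (k + 5) ≤ (k + 4) * (k + 3) := by nlinarith
      calc ((k + 5) / 2).factorial ^ 2 * (k + 5) ^ 4
          = ((k + 5) * ((k + 5) * ((k + 5) / 2).factorial)) ^ 2 := by ring
        _ ≤ ((k + 5) * ((k + 4) * (k + 3) * (k + 2).factorial)) ^ 2 :=
            Nat.pow_le_pow_left (Nat.mul_le_mul_left _ (Nat.mul_le_mul h7 h6)) 2
        _ = (k + 5).factorial ^ 2 := by rw [hfac]; ring

end Cfsg.Agent.Chars.AbelianBound
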