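import Cfsg.Agent.Blocks.Height
import Cfsg.Agent.Chars.RegularPart
import Cfsg.Agent.Blocks.Graph

/-!
Inner products with the regular part of a character, expressed through central characters.
-/

set_option autoImplicit false
set_option linter.style.haveILetI false

open Cfsg Cfsg.Agent.Blocks
open scoped ComplexConjugate

namespace Cfsg.Agent.Chars

universe u

variable {G : Type u} [Group G] [Fintype G] {p : ℕ}

theorem classInner_regPart (c : ℂ) (f ξ : G → ℂ) :
    classInner (fun x : G => if p ∣ orderOf x then (0 : ℂ) else c * f x) ξ = c * regInner p f ξ := by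
  classical
  rw [classInner_def, regInner, regs, Finset.sum_filter, ← mul_assoc, mul_comm c, mul_assoc,
    Finset.mul_sum (a := c)]
  congr 1
  refine Finset.sum_congr rfl fun x _ => ?_
  by_cases h : p ∣ orderOf x <;> simp [h, mul_assoc]

theorem regInner_symm [Fact p.Prime] {f ξ : G → ℂ} (hf : IsCharacter G f) (hξ : IsCharacter G ξ) :
    regInner p f ξ = regInner p ξ f := by
  classical
  rw [regInner, regInner]
  congr 1
  refine Finset.sum_nbij' (fun g => g⁻¹) (fun g => g⁻¹) (fun g hg => ?_) (fun g hg => ?_)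
    (fun g _ => inv_inv g) (fun g _ => inv_inv g) (fun g _ => ?_)
  · rw [mem_regs] at hg ⊢; rwa [orderOf_inv]
  · rw [mem_regs] at hg ⊢; rwa [orderOf_inv]
  · rw [← char_inv_eq_conj hξ, ← char_inv_eq_conj hf, inv_inv, mul_comm]

/-- The inner product with the regular part, divided by the degree, is a central character up to
a unit. -/
theorem classInner_regPart_div [Fact p.Prime] {f : G → ℂ} (hf : IsCharacter G f) (ξ : IrrCharacter G) :
    ∃ m : ℕ, ¬ p ∣ m ∧
      classInner (fun x : G => if p ∣ orderOf x then (0 : ℂ)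
        else ((p ^ (Nat.card G).factorization p : ℕ) : ℂ) * f x) (ξ : G → ℂ) /
          (ξ : G → ℂ) 1 = omega (ξ : G → ℂ) (regConj p f) / (m : ℂ) := by
  obtain ⟨m, hm, hcard⟩ := card_eq_ppart_mul (G := G) (p := p)
  refine ⟨m, hm, ?_⟩
  have hm0 : (m : ℂ) ≠ 0 := Nat.cast_ne_zero.2 fun h => hm (h ▸ dvd_zero p)
  rw [classInner_regPart, regInner_symm hf (irr_isCharacter ξ), omega_regConj, hcard]
  field_simp

variable {M : Ideal AlgInt} [M.IsMaximal] [Fact p.Prime]

/-- A ratio of natural numbers that is a local unit has equal `p`-parts. -/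
theorem nat_ratio_unit (hpM : (p : AlgInt) ∈ M) {a b : ℕ} (hb : b ≠ 0)
    (hR : MemLocalRing M ((a : ℂ) / b)) (hI : ¬ MemLocalIdeal M ((a : ℂ) / b)) :
    a ≠ 0 ∧ a.factorization p = b.factorization p := by
  have ha : a ≠ 0 := by
    rintro rfl
    exact hI (by rw [Nat.cast_zero, zero_div]; exact memI_zero)
  refine ⟨ha, le_antisymm (le_of_not_gt fun h => hI (natRatio_memI hpM ha hb h)) ?_⟩
  exact factorization_le_of_ratio hpM ha hb not_memI_one (by rwa [mul_one])

/-- A ratio of natural numbers in the local ideal. -/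
theorem nat_ratio_ideal (hpM : (p : AlgInt) ∈ M) {a b : ℕ} (hb : b ≠ 0)
    (hI : MemLocalIdeal M ((a : ℂ) / b)) : a = 0 ∨ b.factorization p < a.factorization p := by
  rcases eq_or_ne a 0 with h | ha
  · exact Or.inl h
  refine Or.inr (lt_of_not_ge fun h => not_memI_one (M := M) ?_)
  have h1 := memI_mul_left (natRatio_memR hpM hb ha h) hI
  rwa [div_mul_div_comm, mul_comm, div_self (mul_ne_zero (Nat.cast_ne_zero.2 ha)
    (Nat.cast_ne_zero.2 hb))] at h1

theorem memI_div_iff (hpM : (p : AlgInt) ∈ M) {x : ℂ} {m : ℕ} (hm : ¬ p ∣ m) :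
    MemLocalIdeal M (x / m) ↔ MemLocalIdeal M x := by
  have hm0 : (m : ℂ) ≠ 0 := Nat.cast_ne_zero.2 fun h => hm (h ▸ dvd_zero p)
  constructor
  · intro h
    simpa [div_mul_cancel₀ _ hm0] using memI_mul_right h (memR_natCast m)
  · intro h
    rw [div_eq_mul_inv]
    exact memI_mul_right h (memR_inv_natCast hpM hm)

end Cfsg.Agent.Chars
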