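import Cfsg.Agent.Chars.CanonicalExt
import Cfsg.Agent.Chars.GaloisValues
import Cfsg.Agent.Chars.Gen
import Cfsg.Agent.Chars.GlaubermanSolvable
import Cfsg.Agent.OddChar.Virtual
import Cfsg.Agent.S0188
import Mathlib.GroupTheory.NoncommCoprod

/-!
The Glauberman correspondence for a cyclic group through canonical extensions.
-/

set_option autoImplicit false
set_option linter.style.haveILetI false
set_option linter.unusedSectionVars false

open Cfsg
open scoped ComplexConjugate

namespace Cfsg.Agent.Chars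

universe u

/-- An automorphism of `ℂ` acting as a power on roots of unity acts so on characters. -/
theorem aut_apply_of_dvd {G : Type u} [Group G] [Finite G] {N k : ℕ} (σ : ℂ ≃+* ℂ)
    (hσ : ∀ z : ℂ, z ^ N = 1 → σ z = z ^ k) (hd : Nat.card G ∣ N) {χ : G → ℂ}
    (hχ : IsCharacter G χ) (g : G) : σ (χ g) = χ (g ^ k) := by
  obtain ⟨n, ρ, rfl⟩ := hχ
  obtain ⟨z, hz, hc, -, -⟩ := exists_eigenvalues ρ g
  rw [show ρ.character g = ∑ i, z i by simpa using hc 1, hc k, map_sum]
  refine Finset.sum_congr rfl fun i _ => hσ _ ?_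
  obtain ⟨c, hc⟩ := (orderOf_dvd_natCard g).trans hd
  rw [hc, pow_mul, hz i, one_pow]

/-- Every automorphism of `ℂ` is a coprime power map on the roots of unity of a given order. -/
theorem exists_exponent (σ : ℂ ≃+* ℂ) {N : ℕ} (hN : N ≠ 0) :
    ∃ k : ℕ, k.Coprime N ∧ ∀ z : ℂ, z ^ N = 1 → σ z = z ^ k := by
  haveI : NeZero N := ⟨hN⟩
  have hω := Complex.isPrimitiveRoot_exp N hN
  obtain ⟨k, -, hk, hk2⟩ := (hω.isPrimitiveRoot_iff).1 (hω.map_of_injective (f := σ) σ.injective)
  refine ⟨k, hk, fun z hz => ?_⟩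
  obtain ⟨j, -, rfl⟩ := hω.eq_pow_of_pow_eq_one hz
  rw [map_pow, ← hk2, ← pow_mul, ← pow_mul, mul_comm k j]

/-- Characters of the ambient group with irreducible restrictions are orthogonal on each coset,
when the quotient is abelian. -/
theorem coset_orth {Γ : Type u} [Group Γ] [Fintype Γ] (K : Subgroup Γ) [hKn : K.Normal] [Fintype K]
    (hab : ∀ a b : Γ ⧸ K, a * b = b * a) {χ ψ : Γ → ℂ} (hχ : IsIrrCharacter Γ χ)
    (hψ : IsIrrCharacter Γ ψ) (hψK : IsIrrCharacter K (fun k => ψ k))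
    (hψinv : Chars2.inertiaSub (fun k : K => ψ k) = ⊤)
    (hcase : χ = ψ ∨ (fun k : K => χ k) ≠ fun k : K => ψ k) (x : Γ) :
    ∑ k : K, χ (k * x) * conj (ψ (k * x)) =
      (Nat.card K : ℂ) * classInner χ ψ := by
  classical
  haveI : Fintype (Γ ⧸ K) := Fintype.ofFinite _
  let A : Γ ⧸ K → ℂ := fun q => ∑ y ∈ Finset.univ.filter (fun y : Γ => (y : Γ ⧸ K) = q),
    χ y * conj (ψ y)
  have hA : IsClassFunction (Γ ⧸ K) A := fun a b => by rw [hab b a, mul_inv_cancel_right]
  have hinner : ∀ η : IrrCharacter (Γ ⧸ K),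
      classInner A (η : Γ ⧸ K → ℂ) = (Nat.card K : ℂ) *
        classInner χ (fun y : Γ => (η : Γ ⧸ K → ℂ) (y : Γ ⧸ K) * ψ y) := by
    intro η
    have hc : (Nat.card Γ : ℂ) = (Nat.card (Γ ⧸ K) : ℂ) * Nat.card K := by
      rw [Subgroup.card_eq_card_quotient_mul_card_subgroup K, Nat.cast_mul]
    have e : ∑ q, A q * conj ((η : Γ ⧸ K → ℂ) q) =
        ∑ y : Γ, χ y * conj ((η : Γ ⧸ K → ℂ) (y : Γ ⧸ K) * ψ y) := by
      simp only [A, Finset.sum_mul]
      rw [← Finset.sum_fiberwise Finset.univ (fun y : Γ => (y : Γ ⧸ K))]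
      refine Finset.sum_congr rfl fun q _ => Finset.sum_congr rfl fun y hy => ?_
      rw [(Finset.mem_filter.1 hy).2, map_mul]
      ring
    rw [classInner_def, classInner_def, e, hc]
    have h1 : (Nat.card K : ℂ) ≠ 0 := subgroup_card_ne_zero K
    field_simp
  have hlin : ∀ η : IrrCharacter (Γ ⧸ K), (η : Γ ⧸ K → ℂ) ≠ (fun _ => 1) →
      classInner χ (fun y : Γ => (η : Γ ⧸ K → ℂ) (y : Γ ⧸ K) * ψ y) = 0 := by
    intro η hη
    have h1 := irr_apply_one_of_comm hab η.2
    obtain ⟨l, hl⟩ := exists_hom_of_degree_one (irr_isCharacter η) h1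
    let L : Γ →* ℂˣ := l.comp (QuotientGroup.mk' K)
    have hL : (fun y : Γ => (η : Γ ⧸ K → ℂ) (y : Γ ⧸ K) * ψ y) = fun y => (L y : ℂ) * ψ y := by
      funext y; rw [hl]; rfl
    rw [hL]
    have hLψ : IsIrrCharacter Γ (fun y => (L y : ℂ) * ψ y) := by
      have h := isIrrCharacter_mul_hom hψ L
      first
        | exact h
        | simpa [mul_comm] using h
    have hLK : ∀ k : K, (L k : ℂ) = 1 := fun k => by
      simp [L, (QuotientGroup.eq_one_iff (N := K) (k : Γ)).2 k.2]
    refine classInner_irr_of_ne hχ hLψ fun he => ?_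
    rcases hcase with rfl | hne
    · apply hη
      have hg := Chars2.gallagher (N := K) (φ := 1) (ϑ := fun k : K => χ k)
        isIrrCharacter_one (Chars2.inertiaSub_eq_top fun g n => rfl) hψinv
        (by rw [one_mul]; exact hψK) hψ (fun _ => rfl)
      have hmem : ∀ μ : Γ →* ℂˣ, (∀ k : K, (μ k : ℂ) = 1) →
          (fun y => (μ y : ℂ)) ∈ {β : Γ → ℂ | IsIrrCharacter Γ β ∧ classInner (indFun K 1) β ≠ 0} := by
        intro μ hμ
        refine ⟨isIrrCharacter_hom μ, ?_⟩
        rw [classInner_indFun K 1 (isClassFunction_of_isCharacter (isCharacter_hom μ)),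
          show (fun k : K => (μ k : ℂ)) = fun _ => 1 from funext hμ]
        show classInner (fun _ : K => (1 : ℂ)) (fun _ => 1) ≠ 0
        rw [classInner_self_irr isIrrCharacter_one]
        exact one_ne_zero
      have h2 := hg.injOn (hmem L hLK) (hmem 1 (fun _ => by simp)) (by
        funext y
        have := congrFun he y
        simp only [Pi.mul_apply, MonoidHom.one_apply, Units.val_one, one_mul]
        exact this.symm)
      funext q
      obtain ⟨y, rfl⟩ := QuotientGroup.mk'_surjective K q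
      have := congrFun h2 y
      rw [hl]
      simpa [L] using this
    · refine hne (funext fun k => ?_)
      have := congrFun he k
      simpa [hLK] using this
  have hA1 : A x = (Nat.card K : ℂ) * classInner χ ψ := by
    rw [eq_sum_classInner hA, Finset.sum_apply,
      Finset.sum_eq_single (⟨fun _ => 1, isIrrCharacter_one⟩ : IrrCharacter (Γ ⧸ K))]
    · simp only [Pi.smul_apply, smul_eq_mul, mul_one]
      refine (hinner ⟨fun _ => 1, isIrrCharacter_one⟩).trans ?_
      simp only [one_mul]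
    · intro η _ hη
      rw [Pi.smul_apply, hinner, hlin η (fun e => hη (Subtype.ext e)), mul_zero, zero_smul]
    · simp
  rw [← hA1]
  refine Finset.sum_nbij' (fun k : K => (k : Γ) * x)
    (fun y => if h : y * x⁻¹ ∈ K then ⟨_, h⟩ else 1) ?_ ?_ ?_ ?_ (fun _ _ => rfl)
  · intro k _
    refine Finset.mem_filter.2 ⟨Finset.mem_univ _, ?_⟩
    rw [QuotientGroup.mk_mul, (QuotientGroup.eq_one_iff (N := K) (k : Γ)).2 k.2, one_mul]
  · intro y _; exact Finset.mem_coe.2 (Finset.mem_univ _)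
  · intro k _
    simp [mul_inv_cancel_right]
  · intro y hy
    replace hy := (Finset.mem_filter.1 hy).2
    have h : y * x⁻¹ ∈ K := by
      have := (QuotientGroup.eq_one_iff (N := K) (y * x⁻¹)).1 (by
        rw [QuotientGroup.mk_mul, QuotientGroup.mk_inv, hy, mul_inv_cancel])
      exact this
    simp only [dif_pos h, inv_mul_cancel_right]

section setup

variable {Γ : Type u} [Group Γ] [Fintype Γ] {K : Subgroup Γ} [hKn : K.Normal] [Fintype K]
  {C : Subgroup Γ} [Fintype C] {s : Γ}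

/-- Elements of the coset of `s` are conjugate to elements of `C s`. -/
theorem sum_coset (hC : ∀ c, c ∈ C ↔ c ∈ K ∧ c * s = s * c)
    (hcop : (Nat.card K).Coprime (orderOf s)) {F : Γ → ℂ}
    (hF : ∀ x y : Γ, F (y * x * y⁻¹) = F x) :
    (Nat.card C : ℂ) * ∑ k : K, F (k * s) = (Nat.card K : ℂ) * ∑ c : C, F (c * s) := by
  classical
  obtain ⟨m, hm1, hm2⟩ := Nat.chineseRemainder hcop 0 1
  have hsC : ∀ c ∈ C, (c * s) ^ m = s := by
    intro c hc
    rw [(show Commute c s from ((hC c).1 hc).2).mul_pow]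
    have h1 : c ^ m = 1 := by
      refine orderOf_dvd_iff_pow_eq_one.1 ?_
      exact (Subgroup.orderOf_dvd_natCard K ((hC c).1 hc).1).trans (Nat.modEq_zero_iff_dvd.1 hm1)
    rw [h1, one_mul]
    conv_rhs => rw [← pow_one s]
    exact pow_eq_pow_iff_modEq.2 hm2
  have hmem : ∀ p : K × C, (p.1 : Γ) * (p.2 * s) * (p.1 : Γ)⁻¹ * s⁻¹ ∈ K := fun p => by
    rw [show (p.1 : Γ) * (p.2 * s) * (p.1 : Γ)⁻¹ * s⁻¹ =
      p.1 * p.2 * (s * (p.1 : Γ)⁻¹ * s⁻¹) by group]
    exact K.mul_mem (K.mul_mem p.1.2 ((hC _).1 p.2.2).1) (hKn.conj_mem _ (K.inv_mem p.1.2) s)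
  let f : K × C → K := fun p => ⟨_, hmem p⟩
  have hf : ∀ p, (f p : Γ) * s = p.1 * (p.2 * s) * (p.1 : Γ)⁻¹ := fun p => inv_mul_cancel_right _ _
  have hfib : ∀ p q : K × C, f p = f q → (p.1 : Γ)⁻¹ * q.1 ∈ C := by
    intro p q he
    have e : (p.1 : Γ) * (p.2 * s) * (p.1 : Γ)⁻¹ = q.1 * (q.2 * s) * (q.1 : Γ)⁻¹ := by
      rw [← hf, ← hf, he]
    have e' := congrArg (· ^ m) e
    simp only [conj_pow, hsC _ p.2.2, hsC _ q.2.2] at e'
    refine (hC _).2 ⟨K.mul_mem (K.inv_mem p.1.2) q.1.2, ?_⟩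
    calc (p.1 : Γ)⁻¹ * q.1 * s = (p.1 : Γ)⁻¹ * (q.1 * s * (q.1 : Γ)⁻¹) * q.1 := by group
      _ = (p.1 : Γ)⁻¹ * (p.1 * s * (p.1 : Γ)⁻¹) * q.1 := by rw [e']
      _ = s * ((p.1 : Γ)⁻¹ * q.1) := by group
  have hcard : ∀ y : K, (Finset.univ.filter fun p => f p = y).card ≤ Nat.card C := by
    intro y
    rcases (Finset.univ.filter fun p => f p = y).eq_empty_or_nonempty with h | ⟨p, hp⟩
    · simp [h]
    rw [Nat.card_eq_fintype_card, ← Finset.card_univ]
    refine Finset.card_le_card_of_injOn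
      (fun q => if h : (p.1 : Γ)⁻¹ * q.1 ∈ C then ⟨_, h⟩ else 1) (fun _ _ => Finset.mem_univ _) ?_
    intro q hq r hr hqr
    have hq' := hfib p q ((Finset.mem_filter.1 hp).2.trans (Finset.mem_filter.1 hq).2.symm)
    have hr' := hfib p r ((Finset.mem_filter.1 hp).2.trans (Finset.mem_filter.1 hr).2.symm)
    simp only [dif_pos hq', dif_pos hr', Subtype.mk.injEq, mul_left_cancel_iff] at hqr
    have h1 : q.1 = r.1 := Subtype.ext hqr
    have e := congrArg (fun z : K => (z : Γ) * s)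
      ((Finset.mem_filter.1 hq).2.trans (Finset.mem_filter.1 hr).2.symm)
    simp only [hf] at e
    rw [h1, mul_left_inj, mul_right_inj, mul_left_inj] at e
    exact Prod.ext h1 (Subtype.ext e)
  have hfull : ∀ y : K, (Finset.univ.filter fun p => f p = y).card = Nat.card C := by
    have h : ∑ y : K, (Finset.univ.filter fun p => f p = y).card = ∑ _y : K, Nat.card C := by
      rw [← Finset.card_eq_sum_card_fiberwise (fun _ _ => Finset.mem_univ _), Finset.sum_const,
        Finset.card_univ, Finset.card_univ, smul_eq_mul, Fintype.card_prod, Nat.card_eq_fintype_card]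
    exact fun y => (Finset.sum_eq_sum_iff_of_le fun z _ => hcard z).1 h y (Finset.mem_univ _)
  calc (Nat.card C : ℂ) * ∑ k : K, F (k * s) = ∑ p : K × C, F ((f p : Γ) * s) := by
        rw [Finset.mul_sum, ← Finset.sum_fiberwise Finset.univ f]
        refine Finset.sum_congr rfl fun y _ => ?_
        rw [Finset.sum_congr rfl (g := fun _ => F ((y : Γ) * s))
          (fun p hp => by rw [(Finset.mem_filter.1 hp).2]), Finset.sum_const, hfull, nsmul_eq_mul]
    _ = (Nat.card K : ℂ) * ∑ c : C, F (c * s) := by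
        simp only [hf, hF]
        rw [Fintype.sum_prod_type]
        show ∑ _x : K, ∑ c : C, F (c * s) = _
        rw [Finset.sum_const, Finset.card_univ, nsmul_eq_mul, Nat.card_eq_fintype_card]

/-- Powers of `s` with the same residue give the same values of a canonical extension. -/
theorem canonical_pow (hC : ∀ c, c ∈ C ↔ c ∈ K ∧ c * s = s * c)
    (hKi : (Nat.card K).Coprime K.index) (hdvd : orderOf s ∣ K.index)
    {χ : Γ → ℂ} (hχ : IsIrrCharacter Γ χ) (hχK : IsIrrCharacter K (fun k => χ k))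
    (hinv : Chars2.inertiaSub (fun k : K => χ k) = ⊤) (hdet : (detOrder χ).Coprime K.index)
    {k : ℕ} (hk : k.Coprime (orderOf s)) {c : Γ} (hc : c ∈ C) :
    χ (c * s ^ k) = χ (c * s) := by
  haveI : NeZero K.index := ⟨Subgroup.index_ne_zero_of_finite⟩
  obtain ⟨u, hu⟩ := ZMod.unitsMap_surjective hdvd (ZMod.unitOfCoprime k hk)
  obtain ⟨k', hk1, hk2⟩ := Nat.chineseRemainder hKi 1 (u : ZMod K.index).val
  have hk' : k'.Coprime (Nat.card Γ) := by
    rw [← Subgroup.card_mul_index K]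
    refine Nat.Coprime.mul_right ?_ ?_
    · rw [Nat.coprime_iff_gcd_eq_one, hk1.gcd_eq, Nat.gcd_one_left]
    · rw [Nat.coprime_iff_gcd_eq_one, hk2.gcd_eq]; exact ZMod.val_coe_unit_coprime u
  have hks : k' ≡ k [MOD orderOf s] := by
    refine (hk2.of_dvd hdvd).trans ((ZMod.natCast_eq_natCast_iff _ _ _).1 ?_)
    have h := congrArg (fun v : (ZMod (orderOf s))ˣ => (v : ZMod (orderOf s))) hu
    simp only [ZMod.unitsMap_def, Units.coe_map, MonoidHom.coe_coe, ZMod.castHom_apply,
      ZMod.coe_unitOfCoprime] at h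
    rw [ZMod.natCast_val]
    exact h
  obtain ⟨σ, hσ⟩ := OddChar.exists_aut_pow (Nat.card_pos (α := Γ)).ne' hk'
  have hact := fun g => aut_apply_of_dvd σ hσ dvd_rfl (isCharacter_of_isIrr hχ) g
  have hfix : ∀ x : K, σ (χ x) = χ x := fun x => by
    rw [hact, pow_eq_pow_of_modEq (hk1.of_dvd (Subgroup.orderOf_dvd_natCard K x.2))
      (pow_orderOf_eq_one _), pow_one]
  have h := map_eq_of_canonical K hKi hχ hχK hinv hdet σ hfix (c * s)
  rw [hact, (show Commute c s from ((hC c).1 hc).2).mul_pow,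
    pow_eq_pow_of_modEq (hk1.of_dvd (Subgroup.orderOf_dvd_natCard K ((hC c).1 hc).1))
      (pow_orderOf_eq_one _), pow_one, pow_eq_pow_of_modEq hks (pow_orderOf_eq_one _)] at h
  exact h

/-- The twisted restriction is orthonormal. -/
theorem twisted_inner (hC : ∀ c, c ∈ C ↔ c ∈ K ∧ c * s = s * c)
    (hcop : (Nat.card K).Coprime (orderOf s)) (hab : ∀ a b : Γ ⧸ K, a * b = b * a)
    {χ ψ : Γ → ℂ} (hχ : IsIrrCharacter Γ χ) (hψ : IsIrrCharacter Γ ψ)
    (hψK : IsIrrCharacter K (fun k => ψ k)) (hψinv : Chars2.inertiaSub (fun k : K => ψ k) = ⊤)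
    (hcase : χ = ψ ∨ (fun k : K => χ k) ≠ fun k : K => ψ k) :
    classInner (fun c : C => χ (c * s)) (fun c : C => ψ (c * s)) = classInner χ ψ := by
  have h := sum_coset hC hcop (F := fun x => χ x * conj (ψ x)) fun x y => by
    rw [isClassFunction_of_isCharacter (isCharacter_of_isIrr hχ) x y,
      isClassFunction_of_isCharacter (isCharacter_of_isIrr hψ) x y]
  rw [coset_orth K hab hχ hψ hψK hψinv hcase s] at h
  rw [classInner_def]
  have h1 : (Nat.card C : ℂ) ≠ 0 := subgroup_card_ne_zero C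
  have h2 : (Nat.card K : ℂ) ≠ 0 := subgroup_card_ne_zero K
  rw [inv_mul_eq_iff_eq_mul₀ h1]
  exact (mul_left_cancel₀ h2 (by rw [← h]; ring))

omit hKn in
/-- The coefficients of a twisted restriction are algebraic integers, and vanish when those of
the plain restriction do. -/
theorem twisted_coeff (hC : ∀ c, c ∈ C ↔ c ∈ K ∧ c * s = s * c) {χ : Γ → ℂ}
    (hχ : IsCharacter Γ χ) {β : C → ℂ} (hβ : IsIrrCharacter C β) :
    IsIntegral ℤ (classInner (fun c : C => χ (c * s)) β) ∧
      (classInner (fun c : C => χ c) β = 0 → classInner (fun c : C => χ (c * s)) β = 0) := by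
  classical
  let S := Subgroup.zpowers s
  haveI : Fintype S := Fintype.ofFinite S
  let f : C × S →* Γ := MonoidHom.noncommCoprod C.subtype S.subtype fun c x => by
    obtain ⟨i, hi⟩ := x.2
    show Commute (c : Γ) (x : Γ)
    rw [← hi]
    exact (show Commute (c : Γ) s from ((hC c).1 c.2).2).zpow_right i
  have hfv : ∀ (c : C) (x : S), f (c, x) = c * x := fun _ _ => rfl
  obtain ⟨m, hm, hsum⟩ := exists_eq_sum_nsmul (isCharacter_comp hχ f)
  choose φ ψ hφ hψ hφψ using fun η : IrrCharacter (C × S) =>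
    (S0188.result (G := C) (H := S) (η : C × S → ℂ)).1 η.2
  have hval : ∀ (x : S), classInner (fun c : C => χ (c * x)) β =
      ∑ η : IrrCharacter (C × S), (m η : ℂ) * (ψ η x * classInner (φ η) β) := by
    intro x
    have e : (fun c : C => χ (c * x)) =
        ∑ η : IrrCharacter (C × S), ((m η : ℂ) * ψ η x) • φ η := by
      funext c
      have := congrFun hsum (c, x)
      simp only [Function.comp_apply, hfv, Finset.sum_apply, Pi.smul_apply, nsmul_eq_mul] at this
      rw [this, Finset.sum_apply]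
      refine Finset.sum_congr rfl fun η _ => ?_
      rw [Pi.smul_apply, smul_eq_mul, hφψ η]
      simp only [Pi.mul_apply, Pi.natCast_apply]
      ring
    rw [e, classInner_sum_left]
    exact Finset.sum_congr rfl fun η _ => by rw [classInner_smul_left, mul_assoc]
  let x₀ : S := ⟨s, Subgroup.mem_zpowers s⟩
  have hs : classInner (fun c : C => χ (c * s)) β =
      ∑ η : IrrCharacter (C × S), (m η : ℂ) * (ψ η x₀ * classInner (φ η) β) := hval x₀
  constructor
  · rw [hs]
    refine IsIntegral.sum _ fun η _ => IsIntegral.mul ?_ (IsIntegral.mul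
      (isIntegral_of_isCharacter (isCharacter_of_isIrr (hψ η)) _) ?_)
    · exact_mod_cast isIntegral_algebraMap (R := ℤ) (A := ℂ) (x := (m η : ℤ))
    · rw [classInner_irr (hφ η) hβ]
      split_ifs
      exacts [isIntegral_one, isIntegral_zero]
  · intro h0
    have h1 := hval 1
    simp only [Subgroup.coe_one, mul_one] at h1
    rw [h0] at h1
    choose d hd0 hd using fun η => exists_irr_apply_one_eq (hψ η)
    simp only [hd, classInner_irr (hφ _) hβ, mul_ite, mul_one, mul_zero] at h1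
    have h2 : ∑ η : IrrCharacter (C × S), (if φ η = β then m η * d η else 0) = 0 := by
      have : ((∑ η : IrrCharacter (C × S), (if φ η = β then m η * d η else 0) : ℕ) : ℂ) = 0 := by
        rw [h1]; push_cast; rfl
      exact_mod_cast this
    rw [Finset.sum_eq_zero_iff] at h2
    rw [hs]
    refine Finset.sum_eq_zero fun η hη => ?_
    rw [classInner_irr (hφ η) hβ]
    split_ifs with e
    · have := h2 η hη
      rw [if_pos e, Nat.mul_eq_zero] at this
      rw [this.resolve_right (hd0 η).ne', Nat.cast_zero, zero_mul]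
    · rw [mul_zero, mul_zero]

/-- The coefficients of the twisted restriction of a canonical extension are integers. -/
theorem twisted_isGen (hC : ∀ c, c ∈ C ↔ c ∈ K ∧ c * s = s * c)
    (hKi : (Nat.card K).Coprime K.index) (hdvd : orderOf s ∣ K.index)
    {χ : Γ → ℂ} (hχ : IsIrrCharacter Γ χ) (hχK : IsIrrCharacter K (fun k => χ k))
    (hinv : Chars2.inertiaSub (fun k : K => χ k) = ⊤) (hdet : (detOrder χ).Coprime K.index) :
    IsGeneralizedCharacter C (fun c : C => χ (c * s)) := by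
  have hcl : IsClassFunction C (fun c : C => χ (c * s)) := by
    intro a b
    have hb : (b : Γ) * s = s * b := ((hC _).1 b.2).2
    show χ (((b * a * b⁻¹ : C) : Γ) * s) = χ (a * s)
    rw [← isClassFunction_of_isCharacter (isCharacter_of_isIrr hχ) ((a : Γ) * s) (b : Γ)]
    congr 1
    push_cast
    rw [mul_assoc ((b : Γ) * a), (Commute.inv_left hb).eq]
    group
  refine isGen_of_classInner_int hcl fun β hβ => ?_
  obtain ⟨z, hz⟩ := exists_int_of_fixed (twisted_coeff hC (isCharacter_of_isIrr hχ) hβ).1 fun σ => by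
    obtain ⟨k, hk, hσ⟩ := exists_exponent σ (Nat.card_pos (α := Γ)).ne'
    have hkC : k.Coprime (Nat.card C) :=
      hk.coprime_dvd_right (Subgroup.card_subgroup_dvd_card C)
    have hks : k.Coprime (orderOf s) := hk.coprime_dvd_right (orderOf_dvd_natCard s)
    rw [classInner_def, map_mul, map_inv₀, map_natCast, map_sum]
    congr 1
    refine Fintype.sum_equiv (powCoprime hkC.symm) _ _ fun c => ?_
    rw [map_mul, aut_apply_of_dvd σ hσ dvd_rfl (isCharacter_of_isIrr hχ),
      ← char_inv_eq_conj (isCharacter_of_isIrr hβ), ← char_inv_eq_conj (isCharacter_of_isIrr hβ),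
      aut_apply_of_dvd σ hσ (Subgroup.card_subgroup_dvd_card C) (isCharacter_of_isIrr hβ),
      (show Commute (c : Γ) s from ((hC c).1 c.2).2).mul_pow,
      canonical_pow hC hKi hdvd hχ hχK hinv hdet hks (C.pow_mem c.2 k), inv_pow]
    rfl
  exact ⟨z, hz⟩

end setup

/-- The data attached to a cyclic coprime complement. -/
theorem cyclic_setup {Γ : Type u} [Group Γ] [Finite Γ] {G S C : Subgroup Γ}
    (hnorm : ∀ s ∈ S, ∀ g ∈ G, s * g * s⁻¹ ∈ G) (hcop : (Nat.card G).Coprime (Nat.card S))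
    (htop : G ⊔ S = ⊤) (hcyc : IsCyclic S) (hC : C = G ⊓ Subgroup.centralizer (S : Set Γ)) :
    G.Normal ∧ ∃ s : Γ, Subgroup.zpowers s = S ∧ orderOf s = Nat.card S ∧ G.index = orderOf s ∧
      ∀ c, c ∈ C ↔ c ∈ G ∧ c * s = s * c := by
  have hle : G ⊔ S ≤ Subgroup.normalizer (G : Set Γ) := sup_le Subgroup.le_normalizer fun t ht => by
    rw [Subgroup.mem_normalizer_iff]
    intro n
    refine ⟨fun hn => hnorm t ht n hn, fun hn => ?_⟩
    have h := hnorm t⁻¹ (S.inv_mem ht) _ hn
    simpa [mul_assoc] using h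
  have hGn : G.Normal := Subgroup.normalizer_eq_top_iff.1 (top_le_iff.1 (htop ▸ hle))
  obtain ⟨s, hs⟩ := (Subgroup.isCyclic_iff_exists_zpowers_eq_top S).1 hcyc
  have hord : orderOf s = Nat.card S := by rw [← hs, Nat.card_zpowers]
  have hdisj : Disjoint G S :=
    disjoint_iff.2 (Subgroup.inf_eq_bot_of_coprime hcop)
  have hidx : G.index = orderOf s := by
    rw [hord]
    exact (Subgroup.isComplement'_of_disjoint_and_mul_eq_univ hdisj (by
      rw [← Subgroup.normal_mul, htop, Subgroup.coe_top])).symm.index_eq_card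
  refine ⟨hGn, s, hs, hord, hidx, fun c => ?_⟩
  rw [hC, Subgroup.mem_inf, Subgroup.mem_centralizer_iff]
  refine and_congr_right fun _ => ⟨fun h => (h s (hs ▸ Subgroup.mem_zpowers s)).symm, fun h x hx => ?_⟩
  obtain ⟨i, rfl⟩ : x ∈ Subgroup.zpowers s := hs ▸ hx
  exact ((show Commute c s from h).zpow_right i).symm.eq

/-- A quotient by a normal subgroup with cyclic supplement is abelian. -/
theorem quotient_comm {Γ : Type u} [Group Γ] {G : Subgroup Γ} [G.Normal] {s : Γ}
    (htop : G ⊔ Subgroup.zpowers s = ⊤) (a b : Γ ⧸ G) : a * b = b * a := by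
  have h : ∀ a : Γ ⧸ G, ∃ i : ℤ, a = (s : Γ ⧸ G) ^ i := by
    intro a
    obtain ⟨x, rfl⟩ := QuotientGroup.mk'_surjective G a
    obtain ⟨g, hg, t, ⟨i, rfl⟩, rfl⟩ := Subgroup.mem_sup_of_normal_left.1
      (htop ▸ Subgroup.mem_top x : x ∈ G ⊔ Subgroup.zpowers s)
    refine ⟨i, ?_⟩
    simp [(QuotientGroup.eq_one_iff g).2 hg]
  obtain ⟨i, rfl⟩ := h a
  obtain ⟨j, rfl⟩ := h b
  exact (Commute.zpow_zpow_self _ i j).eq

/-- A character invariant under a supplement is invariant. -/
theorem inertia_top_of_invariant {Γ : Type u} [Group Γ] [Finite Γ] {G S : Subgroup Γ} [G.Normal]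
    [Fintype G] (htop : G ⊔ S = ⊤) {χ : G → ℂ} (hχ : IsClassFunction G χ)
    (hinv : ∀ s ∈ S, ∀ g g' : G, (g' : Γ) = s * g * s⁻¹ → χ g' = χ g) :
    Chars2.inertiaSub χ = ⊤ := by
  haveI := Fintype.ofFinite Γ
  refine Chars2.inertiaSub_eq_top fun x n => ?_
  obtain ⟨g, hg, t, ht, rfl⟩ := Subgroup.mem_sup_of_normal_left.1
    (htop ▸ Subgroup.mem_top x : x ∈ G ⊔ S)
  have hn : t * (n : Γ) * t⁻¹ ∈ G := Subgroup.Normal.conj_mem inferInstance _ n.2 t
  rw [← hinv t ht n ⟨_, hn⟩ rfl, ← hχ ⟨_, hn⟩ ⟨g, hg⟩]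
  refine congrArg χ (Subtype.ext ?_)
  simp [mul_assoc]

end Cfsg.Agent.Chars
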