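import Cfsg.Agent.Chars.Induced
import Cfsg.Agent.Chars.Linear
import Cfsg.Agent.Chars.Eigen
import Mathlib.GroupTheory.GroupAction.Quotient

/-! Primitive linear groups of degree two: counting the eigenlines of the non-central elements. -/

set_option autoImplicit false
set_option linter.style.haveILetI false
set_option linter.unusedSectionVars false

open Cfsg

namespace Cfsg.Agent.Chars

universe u

/-- The orbit sizes of a polyhedral rotation group. -/
theorem polyhedral_solve {n o₁ o₂ o₃ a₁ a₂ a₃ : ℕ} (e₁ : o₁ * a₁ = n) (e₂ : o₂ * a₂ = n)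
    (e₃ : o₃ * a₃ = n) (h₁ : 2 ≤ a₁) (h₂ : 2 ≤ a₂) (h₃ : 2 ≤ a₃) (g₁ : 3 ≤ o₁) (g₂ : 3 ≤ o₂)
    (g₃ : 3 ≤ o₃) (hs : o₁ + o₂ + o₃ = n + 2) : n = 12 ∨ n = 24 ∨ n = 60 := by
  have aux : ∀ {o₁ o₂ o₃ a₂ a₃ : ℕ}, o₁ * 2 = n → o₂ * a₂ = n → o₃ * a₃ = n → 2 ≤ a₂ → 2 ≤ a₃ →
      3 ≤ o₂ → 3 ≤ o₃ → a₂ ≤ a₃ → o₁ + o₂ + o₃ = n + 2 → n = 12 ∨ n = 24 ∨ n = 60 := by
    intro o₁ o₂ o₃ a₂ a₃ e₁ e₂ e₃ h₂ h₃ g₂ g₃ hle hs
    have ha2 : a₂ ≤ 3 := by
      by_contra h
      have : o₂ * 4 ≤ n := e₂ ▸ Nat.mul_le_mul_left _ (by omega)
      have : o₃ * 4 ≤ n := e₃ ▸ Nat.mul_le_mul_left _ (by omega)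
      omega
    interval_cases a₂
    · omega
    · have ha3 : a₃ < 6 := by
        by_contra h
        have : o₃ * 6 ≤ n := e₃ ▸ Nat.mul_le_mul_left _ (by omega)
        omega
      interval_cases a₃ <;> omega
  have hor : a₁ = 2 ∨ a₂ = 2 ∨ a₃ = 2 := by
    by_contra h
    push Not at h
    have : o₁ * 3 ≤ n := e₁ ▸ Nat.mul_le_mul_left _ (by omega)
    have : o₂ * 3 ≤ n := e₂ ▸ Nat.mul_le_mul_left _ (by omega)
    have : o₃ * 3 ≤ n := e₃ ▸ Nat.mul_le_mul_left _ (by omega)
    omega
  rcases hor with rfl | rfl | rfl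
  · rcases le_total a₂ a₃ with h | h
    · exact aux e₁ e₂ e₃ h₂ h₃ g₂ g₃ h hs
    · exact aux e₁ e₃ e₂ h₃ h₂ g₃ g₂ h (by omega)
  · rcases le_total a₁ a₃ with h | h
    · exact aux e₂ e₁ e₃ h₁ h₃ g₁ g₃ h (by omega)
    · exact aux e₂ e₃ e₁ h₃ h₁ g₃ g₁ h (by omega)
  · rcases le_total a₁ a₂ with h | h
    · exact aux e₃ e₁ e₂ h₁ h₂ g₁ g₂ h (by omega)
    · exact aux e₃ e₂ e₁ h₂ h₁ g₂ g₁ h (by omega)

theorem index_center_of_primitive_degree_two {G : Type u} [Group G] [Fintype G]
    (ρ : Representation ℂ G (Fin 2 → ℂ)) [ρ.IsIrreducible]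
    (hfaith : ∀ g : G, ρ g = 1 → g = 1)
    (hprim : ∀ H : Subgroup G, H ≠ ⊤ → ∀ θ : H → ℂ, IsCharacter H θ →
      ρ.character ≠ indFun H θ) :
    (Subgroup.center G).index = 12 ∨ (Subgroup.center G).index = 24 ∨
      (Subgroup.center G).index = 60 := by
  classical
  let V := Fin 2 → ℂ
  set Z := Subgroup.center G
  -- central elements are exactly the scalars
  have hscal : ∀ g : G, g ∈ Z ↔ ∃ c : ℂ, ρ g = c • (1 : Module.End ℂ V) := by
    intro g
    refine ⟨fun hg => scalar_of_commute ρ (ρ g) fun h => ?_, ?_⟩
    · rw [← map_mul, ← map_mul, Subgroup.mem_center_iff.1 hg h]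
    · rintro ⟨c, hc⟩
      rw [Subgroup.mem_center_iff]
      intro h
      have : h * g * (g * h)⁻¹ = 1 := hfaith _ (by
        rw [map_mul, map_mul, hc, mul_smul_comm, mul_one,
          show c • ρ h = ρ g * ρ h by rw [hc, smul_mul_assoc, one_mul], ← map_mul, ← map_mul,
          mul_inv_cancel, map_one])
      exact mul_inv_eq_one.1 this
  letI act : MulAction G (Submodule ℂ V) :=
    { smul := fun g L => L.map (ρ g)
      one_smul := fun L => by
        show L.map (ρ 1) = L
        rw [map_one]; exact Submodule.map_id L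
      mul_smul := fun g h L => by
        show L.map (ρ (g * h)) = (L.map (ρ h)).map (ρ g)
        rw [map_mul, Module.End.mul_eq_comp, Submodule.map_comp] }
  have hsmul : ∀ (g : G) (L : Submodule ℂ V), g • L = L.map (ρ g) := fun _ _ => rfl
  -- fixed lines of a non-central element
  have hfix : ∀ g : G, g ∉ Z → ∃ A B : Submodule ℂ V, A ≠ B ∧
      ∀ L : Submodule ℂ V, (Module.finrank ℂ L = 1 ∧ g • L = L) ↔ (L = A ∨ L = B) := by
    intro g hg
    obtain ⟨b₀, z₀, hz₀, -⟩ := exists_eigenbasis ρ g
    have e2 : Module.finrank ℂ V = 2 := Module.finrank_fin_fun ℂ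
    let e := finCongr e2
    let b := b₀.reindex e
    let z := fun i => z₀ (e.symm i)
    have hz : ∀ i, ρ g (b i) = z i • b i := fun i => by
      simp only [b, z, Module.Basis.reindex_apply]; exact hz₀ _
    have hne : z 0 ≠ z 1 := by
      intro h
      apply hg
      rw [hscal]
      refine ⟨z 0, b.ext fun i => ?_⟩
      rw [hz, LinearMap.smul_apply, Module.End.one_apply]
      fin_cases i
      · rfl
      · simp [h]
    have h01 : ∀ v : V, ∃ x y : ℂ, v = x • b 0 + y • b 1 := fun v =>
      ⟨b.repr v 0, b.repr v 1, by conv_lhs => rw [← b.sum_repr v, Fin.sum_univ_two]⟩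
    have hli : ∀ x y : ℂ, x • b 0 + y • b 1 = 0 → x = 0 ∧ y = 0 := by
      intro x y h
      have h0 := congrArg (fun v => b.repr v 0) h
      have h1 := congrArg (fun v => b.repr v 1) h
      simp at h0 h1
      exact ⟨h0, h1⟩
    have hline : ∀ i, Module.finrank ℂ (Submodule.span ℂ {b i}) = 1 ∧
        g • Submodule.span ℂ {b i} = Submodule.span ℂ {b i} := by
      intro i
      have hb : b i ≠ 0 := b.ne_zero i
      refine ⟨finrank_span_singleton hb, ?_⟩
      rw [hsmul, Submodule.map_span, Set.image_singleton, hz]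
      refine Submodule.span_singleton_smul_eq ?_ _
      rw [isUnit_iff_ne_zero]
      intro h0
      apply hb
      have : ρ g⁻¹ (ρ g (b i)) = b i := by
        rw [← Module.End.mul_apply, ← map_mul, inv_mul_cancel, map_one, Module.End.one_apply]
      rw [← this, hz, h0, zero_smul, map_zero]
    refine ⟨Submodule.span ℂ {b 0}, Submodule.span ℂ {b 1}, ?_, fun L => ⟨?_, ?_⟩⟩
    · intro h
      have hmem : b 0 ∈ Submodule.span ℂ {b 1} := h ▸ Submodule.mem_span_singleton_self _
      obtain ⟨c, hc⟩ := Submodule.mem_span_singleton.1 hmem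
      have := (hli 1 (-c) (by rw [neg_smul, hc, one_smul, add_neg_cancel])).1
      exact one_ne_zero this
    · rintro ⟨h1, h2⟩
      obtain ⟨⟨v, hv⟩, hv0, hspan⟩ := finrank_eq_one_iff'.1 h1
      have hv0' : v ≠ 0 := fun h => hv0 (Subtype.ext h)
      have hLv : L = Submodule.span ℂ {v} := by
        refine le_antisymm (fun w hw => ?_) ((Submodule.span_singleton_le_iff_mem v L).2 hv)
        obtain ⟨c, hc⟩ := hspan ⟨w, hw⟩
        exact Submodule.mem_span_singleton.2 ⟨c, congrArg Subtype.val hc⟩
      have hgv : ρ g v ∈ L := h2 ▸ Submodule.mem_map_of_mem hv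
      rw [hLv] at hgv
      obtain ⟨c, hc⟩ := Submodule.mem_span_singleton.1 hgv
      obtain ⟨x, y, rfl⟩ := h01 v
      simp only [map_add, map_smul, hz, smul_add, smul_smul] at hc
      obtain ⟨hx, hy⟩ := hli (c * x - x * z 0) (c * y - y * z 1) (by
        linear_combination (norm := module) hc)
      rcases eq_or_ne x 0 with rfl | hx0
      · right
        rw [hLv]
        simp only [zero_smul, zero_add] at hv0' ⊢
        refine Submodule.span_singleton_smul_eq (isUnit_iff_ne_zero.2 ?_) _
        rintro rfl
        exact hv0' (zero_smul _ _)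
      · rcases eq_or_ne y 0 with rfl | hy0
        · left
          rw [hLv]
          simp only [zero_smul, add_zero]
          exact Submodule.span_singleton_smul_eq (isUnit_iff_ne_zero.2 hx0) _
        · exfalso
          apply hne
          have a0 : c = z 0 := mul_left_cancel₀ hx0 (by linear_combination hx)
          have a1 : c = z 1 := mul_left_cancel₀ hy0 (by linear_combination hy)
          rw [← a0, ← a1]
    · rintro (rfl | rfl)
      exacts [hline 0, hline 1]
  -- the set of eigenlines
  let P : SubMulAction G (Submodule ℂ V) :=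
    { carrier := {L | Module.finrank ℂ L = 1 ∧ ∃ g : G, g ∉ Z ∧ g • L = L}
      smul_mem' := fun h L hL => by
        obtain ⟨h1, g, hg, hgL⟩ := hL
        refine ⟨?_, h * g * h⁻¹, fun hc => hg ?_, ?_⟩
        · rw [hsmul]
          rw [← (Submodule.equivMapOfInjective (ρ h) ?_ L).finrank_eq, h1]
          intro v w hvw
          have := congrArg (ρ h⁻¹) hvw
          simpa [← Module.End.mul_apply, ← map_mul] using this
        · have := (inferInstance : Z.Normal).conj_mem _ hc h⁻¹
          simpa [mul_assoc] using this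
        · rw [← mul_smul, inv_mul_cancel_right, mul_smul, hgL] }
  haveI : Finite P := by
    choose A B _ hAB using hfix
    let T : Set (Submodule ℂ V) := Set.range fun g : {g : G // g ∉ Z} => A g.1 g.2
    let T' : Set (Submodule ℂ V) := Set.range fun g : {g : G // g ∉ Z} => B g.1 g.2
    have hsub : (P : Set (Submodule ℂ V)) ⊆ T ∪ T' := by
      rintro L ⟨h1, g, hg, hgL⟩
      rcases (hAB g hg L).1 ⟨h1, hgL⟩ with h | h
      · exact Or.inl ⟨⟨g, hg⟩, h.symm⟩
      · exact Or.inr ⟨⟨g, hg⟩, h.symm⟩
    exact (((Set.finite_range _).union (Set.finite_range _)).subset hsub).to_subtype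
  haveI : Fintype P := Fintype.ofFinite _
  have hcardfix : ∀ g : G, Fintype.card (MulAction.fixedBy P g) =
      if g ∈ Z then Fintype.card P else 2 := by
    intro g
    split_ifs with hg
    · refine Fintype.card_congr (Equiv.subtypeUnivEquiv fun L => ?_)
      obtain ⟨c, hc⟩ := (hscal g).1 hg
      apply Subtype.ext
      show g • (L : Submodule ℂ V) = L
      rw [hsmul, hc]
      rcases eq_or_ne c 0 with rfl | hc0
      · exfalso
        have h1 : ρ g⁻¹ * ρ g = 1 := by rw [← map_mul, inv_mul_cancel, map_one]
        rw [hc, zero_smul, mul_zero] at h1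
        exact one_ne_zero h1.symm
      · rw [Submodule.map_smul _ _ _ hc0]
        exact Submodule.map_id _
    · obtain ⟨A, B, hAB, hiff⟩ := hfix g hg
      have hA := (hiff A).2 (Or.inl rfl)
      have hB := (hiff B).2 (Or.inr rfl)
      let A' : P := ⟨A, hA.1, g, hg, hA.2⟩
      let B' : P := ⟨B, hB.1, g, hg, hB.2⟩
      have hset : MulAction.fixedBy P g = ↑({A', B'} : Finset P) := by
        ext L
        simp only [MulAction.mem_fixedBy, Finset.coe_insert, Finset.coe_singleton,
          Set.mem_insert_iff, Set.mem_singleton_iff]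
        constructor
        · intro h
          rcases (hiff L.1).1 ⟨L.2.1, congrArg Subtype.val h⟩ with h' | h'
          · exact Or.inl (Subtype.ext h')
          · exact Or.inr (Subtype.ext h')
        · rintro (rfl | rfl)
          exacts [Subtype.ext hA.2, Subtype.ext hB.2]
      rw [← Nat.card_eq_fintype_card, hset, Nat.card_coe_set_eq, Set.ncard_coe_finset,
        Finset.card_pair fun h => hAB (congrArg Subtype.val h)]
  haveI : Fintype (Quotient (MulAction.orbitRel G P)) := Fintype.ofFinite _
  have hburn := MulAction.sum_card_fixedBy_eq_card_orbits_mul_card_group G P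
  simp only [hcardfix] at hburn
  rw [Finset.sum_ite, Finset.sum_const, Finset.sum_const, smul_eq_mul, smul_eq_mul] at hburn
  set n := Z.index
  set k := Fintype.card (Quotient (MulAction.orbitRel G P))
  have hG : Fintype.card G = Nat.card Z * n := by
    rw [← Nat.card_eq_fintype_card]; exact (Subgroup.card_mul_index Z).symm
  have hZ : (Finset.univ.filter fun g : G => g ∈ Z).card = Nat.card Z := by
    rw [Nat.card_eq_fintype_card, ← Fintype.card_subtype]
  have hnZ : (Finset.univ.filter fun g : G => ¬ g ∈ Z).card = Nat.card Z * n - Nat.card Z := by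
    rw [Finset.filter_not, Finset.card_sdiff, Finset.inter_univ, hZ, Finset.card_univ, hG]
  rw [hZ, hnZ, hG] at hburn
  have hn1 : 1 ≤ n := Nat.one_le_iff_ne_zero.2 Subgroup.index_ne_zero_of_finite
  have key : Fintype.card P + 2 * (n - 1) = k * n := by
    refine Nat.eq_of_mul_eq_mul_left (Nat.card_pos (α := Z)) ?_
    rw [Nat.mul_add, Nat.mul_left_comm (Nat.card Z) k, ← hburn, Nat.mul_left_comm (Nat.card Z) 2,
      Nat.mul_sub, Nat.mul_one, Nat.mul_comm (_ - _) 2]
  let o : Quotient (MulAction.orbitRel G P) → ℕ :=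
    fun ω => (MulAction.stabilizer G ω.out).index
  have hP : Fintype.card P = ∑ ω, o ω := by
    rw [← Nat.card_eq_fintype_card, Nat.card_congr (MulAction.selfEquivSigmaOrbits G P),
      Nat.card_sigma]
    refine Finset.sum_congr rfl fun ω _ => ?_
    show _ = (MulAction.stabilizer G ω.out).index
    rw [MulAction.index_stabilizer, Nat.card_coe_set_eq]
  have horb : ∀ ω, ∃ a, o ω * a = n ∧ 2 ≤ a ∧ 3 ≤ o ω := by
    intro ω
    set L := ω.out
    set H := MulAction.stabilizer G L
    have hZH : Z ≤ H := by
      intro g hg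
      obtain ⟨c, hc⟩ := (hscal g).1 hg
      rw [MulAction.mem_stabilizer_iff]
      have : Fintype.card (MulAction.fixedBy P g) = Fintype.card P := by
        rw [hcardfix, if_pos hg]
      have hall : MulAction.fixedBy P g = Set.univ := by
        rw [← Set.toFinset_inj, Set.toFinset_univ]
        exact Finset.eq_univ_of_card _ (by rw [Set.toFinset_card, this])
      exact (hall.symm ▸ Set.mem_univ L : L ∈ MulAction.fixedBy P g)
    refine ⟨Z.relIndex H, ?_, ?_, ?_⟩
    · rw [mul_comm]; exact Subgroup.relIndex_mul_index hZH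
    · obtain ⟨-, g, hg, hgL⟩ := L.2
      have h0 : Z.relIndex H ≠ 0 := by
        intro h
        have := Subgroup.relIndex_mul_index hZH
        rw [h, zero_mul] at this
        exact Subgroup.index_ne_zero_of_finite this.symm
      have h1 : Z.relIndex H ≠ 1 := fun h =>
        hg (Subgroup.relIndex_eq_one.1 h (MulAction.mem_stabilizer_iff.2 (Subtype.ext hgL)))
      omega
    · have hdim : Module.finrank ℂ (L : Submodule ℂ V) = 1 := L.2.1
      obtain ⟨⟨v, hv⟩, hv0, hspan⟩ := finrank_eq_one_iff'.1 hdim
      have hv0' : v ≠ 0 := fun h => hv0 (Subtype.ext h)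
      have hstab : ∀ h : H, ρ h v ∈ (L : Submodule ℂ V) := fun h => by
        have := congrArg Subtype.val (MulAction.mem_stabilizer_iff.1 h.2)
        exact this ▸ Submodule.mem_map_of_mem (f := ρ (h : G)) hv
      have hex : ∀ h : H, ∃ c : ℂ, ρ h v = c • v := fun h => by
        obtain ⟨c, hc⟩ := hspan ⟨_, hstab h⟩
        exact ⟨c, (congrArg Subtype.val hc).symm⟩
      choose c hc using hex
      have hinj : Function.Injective fun t : ℂ => t • v := smul_left_injective ℂ hv0'
      have hc0 : ∀ h, c h ≠ 0 := by
        intro h h0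
        apply hv0'
        have : ρ (h : G)⁻¹ (ρ h v) = v := by
          rw [← Module.End.mul_apply, ← map_mul, inv_mul_cancel, map_one, Module.End.one_apply]
        rw [← this, hc, h0, zero_smul, map_zero]
      let l : H →* ℂˣ :=
        { toFun := fun h => Units.mk0 (c h) (hc0 h)
          map_one' := Units.ext (hinj (by
            show c 1 • v = ((1 : ℂˣ) : ℂ) • v
            rw [← hc, Units.val_one, one_smul, OneMemClass.coe_one, map_one, Module.End.one_apply]))
          map_mul' := fun a b => Units.ext (hinj (by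
            show c (a * b) • v = (c a * c b) • v
            rw [← hc, Subgroup.coe_mul, map_mul, Module.End.mul_apply, hc, map_smul, hc, smul_smul,
              mul_comm])) }
      by_contra hlt
      have hidx : H.index ≤ 2 := by
        show o ω ≤ 2
        omega
      have hidx0 : H.index ≠ 0 := Subgroup.index_ne_zero_of_finite
      have hirr : IsIrrCharacter G ρ.character := isIrrCharacter_of_rep ρ
      haveI : Fintype H := Fintype.ofFinite _
      have hHtop : H ≠ ⊤ := by
        intro htop
        have hinv : ∀ g : G, ∀ w ∈ (L : Submodule ℂ V), ρ g w ∈ (L : Submodule ℂ V) := by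
          intro g w hw
          have hgH : g ∈ H := by rw [htop]; exact Subgroup.mem_top g
          have := congrArg Subtype.val (MulAction.mem_stabilizer_iff.1 hgH)
          exact this ▸ Submodule.mem_map_of_mem (f := ρ g) hw
        rcases ((isIrreducible_iff ρ).1 inferInstance).2 (L : Submodule ℂ V) hinv with h | h
        · rw [h] at hdim; simp at hdim
        · rw [h, finrank_top, Module.finrank_fin_fun] at hdim; omega
      have hH2 : H.index = 2 := by
        have : H.index ≠ 1 := fun h => hHtop (Subgroup.index_eq_one.1 h)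
        omega
      have hθ : IsCharacter H (fun h => (l h : ℂ)) := isCharacter_hom l
      have hne : classInner ρ.character (indFun H fun h => (l h : ℂ)) ≠ 0 := by
        rw [classInner_indFun_right H _ (isClassFunction_of_isCharacter (isCharacter_of_isIrr hirr))]
        let σ : Representation ℂ H V := ρ.comp H.subtype
        have hcomp : (fun h : H => ρ.character h) = σ.character := rfl
        rw [hcomp, show (fun h => (l h : ℂ)) = (homRep l).character from (homRep_character l).symm,
          classInner_rep]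
        intro h0
        rw [Nat.cast_eq_zero, finrank_zero_iff_forall_zero] at h0
        let F : (homRep l).IntertwiningMap σ :=
          ⟨LinearMap.toSpanSingleton ℂ V v, fun h => by
            ext
            simp [σ, homRep, hc, l]⟩
        apply hv0'
        have := congrArg (fun φ : (homRep l).IntertwiningMap σ => φ.toLinearMap (1 : ℂ)) (h0 F)
        simpa [F] using this
      obtain ⟨m, hm, hsum⟩ := exists_eq_sum_nsmul (isCharacter_indFun H hθ)
      refine hprim H hHtop _ hθ ?_
      let χ : IrrCharacter G := ⟨ρ.character, hirr⟩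
      have hmχ : classInner (χ : G → ℂ) (indFun H fun h => (l h : ℂ)) = (m χ : ℂ) := by
        rw [hsum, classInner_sum_right, Finset.sum_eq_single χ]
        · rw [← Nat.cast_smul_eq_nsmul ℂ, classInner_smul_right, classInner_self_irr χ.2,
            map_natCast, mul_one]
        · intro γ _ hγ
          rw [← Nat.cast_smul_eq_nsmul ℂ, classInner_smul_right, classInner_irrCharacter,
            if_neg (Ne.symm hγ), mul_zero]
        · simp
      have hm1 : 1 ≤ m χ := by
        refine Nat.one_le_iff_ne_zero.2 fun h => hne ?_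
        have := hmχ
        rw [h, Nat.cast_zero] at this
        exact this
      choose d hd0 hd using fun γ : IrrCharacter G => exists_irr_apply_one_eq γ.2
      have hdeg : ∑ γ : IrrCharacter G, m γ * d γ = 2 := by
        have h1 := congrFun hsum 1
        rw [indFun_apply_one, map_one, Units.val_one, mul_one, hH2] at h1
        simp only [Finset.sum_apply, Pi.smul_apply, nsmul_eq_mul, hd, Pi.mul_apply,
          Pi.natCast_apply] at h1
        exact_mod_cast h1.symm
      have hdχ : d χ = 2 := by
        have h1 := hd χ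
        have h2 : (χ : G → ℂ) 1 = 2 := by
          show ρ.character 1 = 2
          rw [Representation.char_one, Module.finrank_fin_fun]; norm_num
        rw [h2] at h1
        exact_mod_cast h1.symm
      rw [← Finset.add_sum_erase _ _ (Finset.mem_univ χ), hdχ] at hdeg
      have hm1' : m χ = 1 := by omega
      have hrest : ∑ γ ∈ Finset.univ.erase χ, m γ * d γ = 0 := by rw [hm1'] at hdeg; omega
      rw [hsum, ← Finset.add_sum_erase _ _ (Finset.mem_univ χ), hm1', one_smul,
        Finset.sum_eq_zero fun γ hγ => ?_, add_zero]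
      have := Finset.sum_eq_zero_iff.1 hrest γ hγ
      rw [Nat.mul_eq_zero, or_iff_left (hd0 γ).ne'] at this
      rw [this, zero_smul]
  choose a ha h2a h3o using horb
  have hsumle : ∀ ω, 2 * o ω ≤ n := fun ω => by
    rw [← ha ω, mul_comm]; exact Nat.mul_le_mul_left _ (h2a ω)
  rw [hP] at key
  have hk4 : k < 4 := by
    by_contra h
    have h1 : 2 * ∑ ω, o ω ≤ k * n := by
      rw [Finset.mul_sum]
      refine (Finset.sum_le_sum fun ω _ => hsumle ω).trans ?_
      rw [Finset.sum_const, Finset.card_univ, smul_eq_mul]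
    have h4 : 4 * n ≤ k * n := Nat.mul_le_mul_right _ (by omega)
    omega
  have hn2 : 2 ≤ n := by
    by_contra h
    have : n = 1 := by omega
    rcases isEmpty_or_nonempty (Quotient (MulAction.orbitRel G P)) with he | ⟨⟨ω⟩⟩
    · have hall : ∀ g : G, g ∈ Z := fun g => by
        rw [Subgroup.index_eq_one.1 (show Z.index = 1 from this)]; exact Subgroup.mem_top g
      have hc : ∀ x y : G, x * y = y * x := fun x y => (Subgroup.mem_center_iff.1 (hall y) x)
      have := irr_apply_one_of_comm hc (isIrrCharacter_of_rep ρ)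
      rw [Representation.char_one, Module.finrank_fin_fun] at this
      norm_num at this
    · have := hsumle ω; have := h3o ω; omega
  interval_cases hk : k
  · omega
  · obtain ⟨ω, hω⟩ := Fintype.card_eq_one_iff.1 hk
    rw [show (Finset.univ : Finset (Quotient (MulAction.orbitRel G P))) = {ω} from
      Finset.eq_singleton_iff_unique_mem.2 ⟨Finset.mem_univ _, fun x _ => hω x⟩,
      Finset.sum_singleton] at key
    have := h3o ω
    omega
  · obtain ⟨x, y, hxy, he⟩ := Finset.card_eq_two.1 (Finset.card_univ.trans hk)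
    rw [he, Finset.sum_pair hxy] at key
    have := h3o x; have := h3o y
    omega
  · obtain ⟨x, y, w, hxy, hxw, hyw, he⟩ := Finset.card_eq_three.1 (Finset.card_univ.trans hk)
    rw [he, Finset.sum_insert (by simp [hxy, hxw]), Finset.sum_pair hyw] at key
    exact polyhedral_solve (ha x) (ha y) (ha w) (h2a x) (h2a y) (h2a w) (h3o x) (h3o y) (h3o w)
      (by omega)

end Cfsg.Agent.Chars
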