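import Cfsg.Agent.Chars.DegreesBelowPrime
import Cfsg.Agent.FGS2.Basic

/-!
Induction: if all irreducible character degrees are less than `p`, Sylow `p`-subgroups are normal.
-/

set_option autoImplicit false
set_option linter.style.haveILetI false
set_option linter.unusedSectionVars false

open Cfsg Cfsg.Agent Cfsg.Agent.Blocks Cfsg.Agent.Chars2
open scoped ComplexConjugate

namespace Cfsg.Agent.Chars.DegreesBelow

universe u

variable {G : Type u} [Group G] [Finite G] {p : ℕ} [hp : Fact p.Prime]

/-- An abelian group has a normal Sylow subgroup. -/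
theorem normal_of_comm (hab : ∀ a b : G, a * b = b * a) (H : Subgroup G) : H.Normal :=
  ⟨fun x hx g => by rwa [hab g x, mul_inv_cancel_right]⟩

/-- A `p`-subgroup acting on a normal `p'`-subgroup fixing all its characters centralises it. -/
theorem centralizes_of_lt (h : ∀ χ : IrrCharacter G, charDegree (χ : G → ℂ) < p) (N : Subgroup G)
    [N.Normal] (P : Subgroup G) (hP : IsPGroup p P) (hsup : N ⊔ P = ⊤)
    (hN : ¬ p ∣ Nat.card N) : ∀ n ∈ N, ∀ s ∈ P, s * n = n * s := by
  classical
  haveI := Fintype.ofFinite G
  haveI : Fintype N := Fintype.ofFinite _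
  have hpp := (Fact.out : p.Prime)
  -- every character is invariant
  have hinv : ∀ θ : IrrCharacter N, inertiaSub (θ : N → ℂ) = ⊤ := by
    intro θ
    obtain ⟨χ, hχ⟩ := exists_irr_above N θ.2
    obtain ⟨m, hm⟩ := exists_classInner_eq_nat (isCharacter_restrict (irr_isCharacter χ) N)
      (irr_isCharacter θ)
    have hd := clifford_degree χ.2 θ.2 hχ
    rw [hm, (Blocks.charDegree_eq χ.2).1, (Blocks.charDegree_eq θ.2).1] at hd
    have hd' : charDegree (χ : G → ℂ) =
        (inertiaSub (θ : N → ℂ)).index * m * charDegree (θ : N → ℂ) := by exact_mod_cast hd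
    have hNI : N ≤ inertiaSub (θ : N → ℂ) := le_inertiaSub (isClassFunction_irr θ)
    obtain ⟨k, hk⟩ : ∃ k : ℕ, N.index = p ^ k := by
      obtain ⟨a, ha⟩ := IsPGroup.iff_card.1 hP
      have h1 : N.index ∣ Nat.card P := by
        have h2 : N.relIndex (N ⊔ P) = N.relIndex P := Subgroup.relIndex_sup_left P N
        rw [hsup, Subgroup.relIndex_top_right] at h2
        rw [h2]
        exact Subgroup.index_dvd_card _
      obtain ⟨k, -, hk⟩ := (Nat.dvd_prime_pow hpp).1 (ha ▸ h1)
      exact ⟨k, hk⟩
    obtain ⟨j, -, hj⟩ := (Nat.dvd_prime_pow hpp).1 (hk ▸ Subgroup.index_dvd_of_le hNI)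
    rcases j with _ | j
    · rw [pow_zero] at hj
      exact Subgroup.index_eq_one.1 hj
    · exfalso
      have h1 : p ∣ charDegree (χ : G → ℂ) := by
        rw [hd', hj]
        exact ((dvd_pow_self p (Nat.succ_ne_zero j)).mul_right _).mul_right _
      exact absurd (Nat.le_of_dvd (Blocks.charDegree_eq χ.2).2 h1) (not_le.2 (h χ))
  -- every class is invariant
  have hcls : ∀ (s : G) (C : ConjClasses N),
      ConjClasses.map (MulAut.conjNormal s : MulAut N).toMonoidHom C = C := by
    intro s C
    let α : N ≃* N := MulAut.conjNormal s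
    have hα : ∀ χ : IrrCharacter N, (χ : N → ℂ) ∘ α = (χ : N → ℂ) := fun χ => by
      funext n
      have h1 := congrFun (mem_inertiaSub.1 ((hinv χ).symm ▸ Subgroup.mem_top s⁻¹)) n
      rw [conjFun] at h1
      rw [inv_inv] at h1
      exact h1
    have h1 := S0173.result (G := N) α
    rw [Nat.card_congr (Equiv.subtypeUnivEquiv hα)] at h1
    haveI : Finite (ConjClasses N) := inferInstance
    have h2 : Nat.card {C : ConjClasses N // ConjClasses.map α.toMonoidHom C = C} =
        Nat.card (ConjClasses N) := by
      rw [h1, card_irr_eq_card_conjClasses]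
    by_contra hne
    haveI := Fintype.ofFinite (ConjClasses N)
    rw [Nat.card_eq_fintype_card, Nat.card_eq_fintype_card] at h2
    exact absurd h2 (ne_of_lt (Fintype.card_subtype_lt (x := C) hne))
  -- fixed points in every class
  intro n hn s hs
  let D : Subgroup N := (Subgroup.centralizer (P : Set G)).subgroupOf N
  have hDtop : D = ⊤ := by
    refine FGS2.eq_top_of_forall_conj_mem D fun x => ?_
    let Ω := (ConjClasses.mk (⟨(x : G), x.2⟩ : N)).carrier
    let act : MulAction P Ω :=
      { smul := fun t y => ⟨MulAut.conjNormal (t : G) y.1, by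
          have h1 := hcls t (ConjClasses.mk y.1)
          rw [ConjClasses.mem_carrier_iff_mk_eq]
          have h2 := ConjClasses.mem_carrier_iff_mk_eq.1 y.2
          rw [← h2, ← h1]
          rfl⟩
        one_smul := fun y => Subtype.ext (by
          show MulAut.conjNormal ((1 : P) : G) y.1 = y.1
          rw [Subgroup.coe_one, map_one, MulAut.one_apply])
        mul_smul := fun t t' y => Subtype.ext (by
          show MulAut.conjNormal ((t * t' : P) : G) y.1 =
            MulAut.conjNormal (t : G) (MulAut.conjNormal (t' : G) y.1)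
          rw [Subgroup.coe_mul, map_mul, MulAut.mul_apply]) }
    letI := act
    have hcard : Nat.card Ω = (Subgroup.centralizer ({x} : Set N)).index := by
      rw [← card_filter_isConj, ← Nat.card_eq_finsetCard]
      refine Nat.card_congr (Equiv.subtypeEquivRight fun y => ?_)
      rw [ConjClasses.mem_carrier_iff_mk_eq, ConjClasses.mk_eq_mk_iff_isConj]
      simp only [Finset.mem_filter, Finset.mem_univ, true_and]
      exact isConj_comm
    have hΩ : ¬ p ∣ Nat.card Ω := fun hd =>
      hN (hd.trans (hcard ▸ Subgroup.index_dvd_card _))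
    obtain ⟨y, hy⟩ := hP.nonempty_fixed_point_of_prime_not_dvd_card Ω hΩ
    obtain ⟨g, hg⟩ := isConj_iff.1 (ConjClasses.mk_eq_mk_iff_isConj.1
      (ConjClasses.mem_carrier_iff_mk_eq.1 y.2).symm)
    refine ⟨g⁻¹, ?_⟩
    rw [inv_inv, hg]
    show ((y.1 : N) : G) ∈ Subgroup.centralizer (P : Set G)
    rw [Subgroup.mem_centralizer_iff]
    intro t ht
    have h1 : MulAut.conjNormal t y.1 = y.1 := congrArg Subtype.val (hy ⟨t, ht⟩)
    have h2 := congrArg Subtype.val h1
    rw [MulAut.conjNormal_apply] at h2
    exact mul_inv_eq_iff_eq_mul.1 h2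
  have : (⟨n, hn⟩ : N) ∈ D := hDtop ▸ Subgroup.mem_top _
  exact Subgroup.mem_centralizer_iff.1 this s hs

/-- Sylow subgroups are normal. -/
theorem sylow_normal : ∀ (m : ℕ) (G : Type u) [Group G] [Finite G], Nat.card G ≤ m →
    (∀ χ : IrrCharacter G, charDegree (χ : G → ℂ) < p) → ∀ P : Sylow p G, (P : Subgroup G).Normal := by
  intro m
  induction m with
  | zero => intro G _ _ hm; exact absurd hm (by have := Nat.card_pos (α := G); omega)
  | succ m ih =>
    intro G _ _ hm h P
    classical
    haveI := Fintype.ofFinite G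
    have hpp := (Fact.out : p.Prime)
    by_cases hab : ∀ a b : G, a * b = b * a
    · exact normal_of_comm hab _
    have hp2 : p ≠ 2 := fun h2 => hab (comm_of_degree_one fun χ => by
      have := h χ
      have := (Blocks.charDegree_eq χ.2).2
      omega)
    -- proper subgroups
    have hsubN : ∀ H : Subgroup G, H ≠ ⊤ → ∀ Q : Sylow p H, (Q : Subgroup H).Normal :=
      fun H hH => ih H (by
        have : Nat.card H < Nat.card G :=
          lt_of_le_of_ne (Subgroup.card_le_card_group H) fun e => hH (Subgroup.card_eq_iff_eq_top H |>.1 e)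
        omega) (subgroup_lt h H)
    have hPle : ∀ H : Subgroup G, H.Normal → H ≠ ⊤ → (P : Subgroup G) ≤ H →
        (P : Subgroup G).Normal := by
      intro H hHn hH hPH
      haveI := hHn
      haveI := hsubN H hH (P.subtype hPH)
      haveI : ((P.subtype hPH : Sylow p H) : Subgroup H).Characteristic :=
        (P.subtype hPH).characteristic_of_normal inferInstance
      have hmap : (((P.subtype hPH : Sylow p H) : Subgroup H).map H.subtype) = P := by
        rw [Sylow.coe_subtype, Subgroup.subgroupOf_map_subtype, inf_of_le_left hPH]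
      rw [← hmap]
      exact ConjAct.normal_of_characteristic_of_normal
    by_cases hsimple : IsSimpleGroup G
    · rcases eq_or_ne (P : Subgroup G) ⊥ with hb | hb
      · rw [hb]; infer_instance
      exfalso
      refine not_dvd_of_simple hab h hp2 P (fun x hx hx1 => ?_) ?_
      · have hCtop : Subgroup.centralizer ({x} : Set G) ≠ ⊤ := fun ht => by
          rcases IsSimpleGroup.eq_bot_or_eq_top_of_normal (Subgroup.center G) inferInstance with hc | hc
          · refine hx1 (Subgroup.mem_bot.1 (hc ▸ Subgroup.mem_center_iff.2 fun g => ?_))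
            exact Subgroup.mem_centralizer_singleton_iff.1 (ht ▸ Subgroup.mem_top g)
          · exact hab fun a b => Subgroup.mem_center_iff.1 (hc ▸ Subgroup.mem_top b) a
        have hPC : (P : Subgroup G) ≤ Subgroup.centralizer ({x} : Set G) := fun y hy =>
          Subgroup.mem_centralizer_singleton_iff.2
            (SimpleDeg.comm_of_degree_lt _ P.isPGroup' (subgroup_lt h _) y hy x hx)
        have := hsubN _ hCtop (P.subtype hPC)
        rw [Sylow.coe_subtype] at this
        exact (Subgroup.normal_subgroupOf_iff_le_normalizer hPC).1 this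
      · exact (by
          obtain ⟨a, ha⟩ := IsPGroup.iff_card.1 P.isPGroup'
          have ha0 : a ≠ 0 := fun h0 => hb (Subgroup.eq_bot_of_card_eq _ (by rw [ha, h0, pow_zero]))
          exact ((dvd_pow_self p ha0).trans (dvd_of_eq ha.symm)).trans
            (Subgroup.card_subgroup_dvd_card _))
    -- a normal subgroup
    obtain ⟨N, hNn, hNb, hNt⟩ : ∃ N : Subgroup G, N.Normal ∧ N ≠ ⊥ ∧ N ≠ ⊤ := by
      by_contra hno
      push Not at hno
      haveI : Nontrivial G := by
        by_contra hnt
        rw [not_nontrivial_iff_subsingleton] at hnt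
        exact hab fun a b => Subsingleton.elim _ _
      exact hsimple ⟨fun N hN => or_iff_not_imp_left.2 (hno N hN)⟩
    haveI := hNn
    obtain ⟨R⟩ : Nonempty (Sylow p N) := inferInstance
    haveI := hsubN N hNt R
    haveI : (R : Subgroup N).Characteristic := R.characteristic_of_normal inferInstance
    haveI hQn : ((R : Subgroup N).map N.subtype).Normal := ConjAct.normal_of_characteristic_of_normal
    set Q := (R : Subgroup N).map N.subtype with hQ
    have hQle : Q ≤ (P : Subgroup G) := by
      obtain ⟨P', hP'⟩ := (R.isPGroup'.map N.subtype).exists_le_sylow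
      obtain ⟨g, rfl⟩ := MulAction.exists_smul_eq G P' P
      intro x hx
      rw [Sylow.coe_subgroup_smul, Subgroup.mem_pointwise_smul_iff_inv_smul_mem]
      refine hP' ?_
      have h5 := hQn.conj_mem x hx g⁻¹
      rw [inv_inv] at h5
      show (MulAut.conj g)⁻¹ • x ∈ Q
      simpa [MulAut.smul_def, mul_assoc] using h5
    rcases eq_or_ne Q ⊥ with hQb | hQb
    swap
    · have hlt : Nat.card (G ⧸ Q) ≤ m := by
        have h1 := Subgroup.card_eq_card_quotient_mul_card_subgroup Q
        have h2 : 1 < Nat.card Q := Subgroup.one_lt_card_iff_ne_bot Q |>.2 hQb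
        have h3 : 0 < Nat.card (G ⧸ Q) := Nat.card_pos
        nlinarith
      haveI := ih (G ⧸ Q) hlt (quotient_lt h Q) (P.mapSurjective (QuotientGroup.mk'_surjective Q))
      have hcm : ((P.mapSurjective (QuotientGroup.mk'_surjective Q) : Sylow p (G ⧸ Q)) :
          Subgroup (G ⧸ Q)).comap (QuotientGroup.mk' Q) = P := by
        rw [Sylow.coe_mapSurjective, Subgroup.comap_map_eq, QuotientGroup.ker_mk',
          sup_of_le_left hQle]
      rw [← hcm]
      exact Subgroup.Normal.comap inferInstance _
    -- `N` is a `p'`-group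
    have hNp : ¬ p ∣ Nat.card N := fun hd => by
      have := R.ne_bot_of_dvd_card hd
      exact this ((Subgroup.map_eq_bot_iff_of_injective _ (Subgroup.subtype_injective N)).1 hQb)
    by_cases hsup : N ⊔ (P : Subgroup G) = ⊤
    · have hc := centralizes_of_lt h N P P.isPGroup' hsup hNp
      refine Subgroup.normalizer_eq_top_iff.1 (top_unique (hsup ▸ sup_le (fun n hn => ?_)
        Subgroup.le_normalizer))
      refine (Subgroup.centralizer_le_normalizer _) ?_
      exact Subgroup.mem_centralizer_iff.2 fun s hs => hc n hn s hs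
    · have hlt : Nat.card (G ⧸ N) ≤ m := by
        have h1 := Subgroup.card_eq_card_quotient_mul_card_subgroup N
        have h2 : 1 < Nat.card N := Subgroup.one_lt_card_iff_ne_bot N |>.2 hNb
        have h3 : 0 < Nat.card (G ⧸ N) := Nat.card_pos
        nlinarith
      haveI := ih (G ⧸ N) hlt (quotient_lt h N) (P.mapSurjective (QuotientGroup.mk'_surjective N))
      have hn : (N ⊔ (P : Subgroup G)).Normal := by
        have hcm : ((P.mapSurjective (QuotientGroup.mk'_surjective N) : Sylow p (G ⧸ N)) :
            Subgroup (G ⧸ N)).comap (QuotientGroup.mk' N) = N ⊔ P := by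
          rw [Sylow.coe_mapSurjective, Subgroup.comap_map_eq, QuotientGroup.ker_mk', sup_comm]
        rw [← hcm]
        exact Subgroup.Normal.comap inferInstance _
      exact hPle _ hn hsup le_sup_right

end Cfsg.Agent.Chars.DegreesBelow
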