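/-
Gross's theorem, linear part: a nonabelian odd group normalised by an involution with a minus space of
dimension at most two.
-/
import Mathlib

set_option autoImplicit false
set_option linter.unusedSectionVars false

namespace Cfsg.Agent.Chars.GrossTwo

open Module
open scoped commutatorElement TensorProduct

universe u v

variable {F : Type u} [Field F] {U : Type v} [AddCommGroup U] [Module F U]

theorem fixed_of_sq {Z : Module.End F U} {v : U} (h : Z (Z v) = v) {m : ℕ} (hm : Odd m) (hZ : Z ^ m = 1) :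
    Z v = v := by
  obtain ⟨k, rfl⟩ := hm
  have : ∀ k : ℕ, (Z ^ (2 * k)) v = v := by
    intro k
    induction k with
    | zero => simp
    | succ k ih => rw [mul_add, mul_one, pow_add, Module.End.mul_apply, pow_two, Module.End.mul_apply, h, ih]
  have h1 := LinearMap.congr_fun hZ v
  rw [pow_succ', Module.End.mul_apply, this] at h1
  simpa using h1

theorem fixed_of_sq_sub {Z : Module.End F U} {v : U} {m : ℕ} (hm : (m : F) ≠ 0) (hZ : Z ^ m = 1)
    (h : Z (Z v - v) = Z v - v) : Z v = v := by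
  have : ∀ k : ℕ, (Z ^ k) v = v + (k : F) • (Z v - v) := by
    intro k
    induction k with
    | zero => simp
    | succ k ih =>
      rw [pow_succ', Module.End.mul_apply, ih, map_add, map_smul, h]
      push_cast
      rw [add_smul, one_smul]
      abel
  have h1 := this m
  rw [hZ, Module.End.one_apply, left_eq_add, smul_eq_zero, sub_eq_zero] at h1
  exact h1.resolve_left hm

/-- In a space of dimension at most two the centralizer of a non-scalar map is commutative. -/
theorem commute_on_plane [FiniteDimensional F U] (L : Submodule F U) (hL : finrank F L ≤ 2)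
    (Z C D : Module.End F U) (hZ : ∀ v ∈ L, Z v ∈ L) (hC : ∀ v ∈ L, C v ∈ L) (hD : ∀ v ∈ L, D v ∈ L)
    (hCZ : ∀ v ∈ L, C (Z v) = Z (C v)) (hDZ : ∀ v ∈ L, D (Z v) = Z (D v))
    (hns : finrank F L = 2 → ∀ ω : F, ¬ ∀ v ∈ L, Z v = ω • v) :
    ∀ v ∈ L, C (D v) = D (C v) := by
  rcases Nat.lt_or_ge (finrank F L) 2 with hlt | hge
  · -- scalar operators
    have hsc : ∀ x y, x ∈ L → y ∈ L → x ≠ 0 → ∃ c : F, c • x = y := by
      intro x y hx hy hx0
      by_contra hno
      have hli : LinearIndependent F ![(⟨x, hx⟩ : L), ⟨y, hy⟩] := by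
        rw [LinearIndependent.pair_iff' (fun h => hx0 (congrArg Subtype.val h))]
        exact fun c hc => hno ⟨c, congrArg Subtype.val hc⟩
      have := hli.fintype_card_le_finrank
      simp at this
      omega
    intro v hv
    rcases eq_or_ne v 0 with rfl | hv0
    · simp
    obtain ⟨c, hc⟩ := hsc v (C v) hv (hC v hv) hv0
    obtain ⟨d, hd⟩ := hsc v (D v) hv (hD v hv) hv0
    rw [← hd, ← hc, map_smul, map_smul, ← hc, ← hd, smul_comm]
  · have h2 : finrank F L = 2 := le_antisymm hL hge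
    obtain ⟨v0, hv0, hv0ns⟩ : ∃ v0 ∈ L, ∀ c : F, c • v0 ≠ Z v0 := by
      by_contra hno
      simp only [not_exists, not_and, not_forall, not_not] at hno
      -- every vector is an eigenvector, hence `Z` is scalar
      obtain ⟨x, hx, hx0⟩ := L.exists_mem_ne_zero_of_ne_bot (fun h => by rw [h, finrank_bot] at h2; omega)
      obtain ⟨ω, hω⟩ := hno x hx
      refine hns h2 ω fun y hy => ?_
      obtain ⟨μ, hμ⟩ := hno y hy
      obtain ⟨ν, hν⟩ := hno (x + y) (L.add_mem hx hy)
      rw [map_add, ← hω, ← hμ, smul_add] at hν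
      rcases eq_or_ne μ ω with h | h
      · rw [← hμ, h]
      · have e : (ν - μ) • y = (ω - ν) • x := by
          rw [sub_smul, sub_smul, sub_eq_sub_iff_add_eq_add, add_comm (ν • y), hν]
        have hne : ν ≠ μ ∨ ν = μ := (em _).symm
        rcases hne with hne | rfl
        · have hy' : y = ((ν - μ)⁻¹ * (ω - ν)) • x := by
            rw [mul_smul, ← e, smul_smul, inv_mul_cancel₀ (sub_ne_zero.mpr hne), one_smul]
          rw [hy', map_smul, ← hω, smul_comm]
        · rw [sub_self, zero_smul, eq_comm, smul_eq_zero, sub_eq_zero] at e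
          exact absurd (e.resolve_right hx0).symm h
    have hv00 : v0 ≠ 0 := fun h => hv0ns 0 (by simp [h])
    have hli : LinearIndependent F ![(⟨v0, hv0⟩ : L), ⟨Z v0, hZ v0 hv0⟩] := by
      rw [LinearIndependent.pair_iff' (fun h => hv00 (congrArg Subtype.val h))]
      exact fun c hc => hv0ns c (congrArg Subtype.val hc)
    have hspan := hli.span_eq_top_of_card_eq_finrank (by simp [h2])
    have hrep : ∀ v ∈ L, ∃ α β : F, α • v0 + β • Z v0 = v := by
      intro v hv
      have hm : (⟨v, hv⟩ : L) ∈ Submodule.span F ({⟨v0, hv0⟩, ⟨Z v0, hZ v0 hv0⟩} : Set L) := by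
        rw [← Matrix.range_cons_cons_empty ⟨v0, hv0⟩ (⟨Z v0, hZ v0 hv0⟩ : L) ![]]
        rw [hspan]; trivial
      obtain ⟨α, β, h⟩ := Submodule.mem_span_pair.mp hm
      exact ⟨α, β, congrArg Subtype.val h⟩
    have hkey : C (D v0) = D (C v0) := by
      obtain ⟨α, β, hc⟩ := hrep (C v0) (hC v0 hv0)
      obtain ⟨γ, δ, hd⟩ := hrep (D v0) (hD v0 hv0)
      rw [← hd, ← hc, map_add, map_add, map_smul, map_smul, map_smul, map_smul, hCZ v0 hv0, hDZ v0 hv0, ← hc,
        ← hd, map_add, map_add, map_smul, map_smul, map_smul, map_smul]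
      module
    intro v hv
    obtain ⟨α, β, rfl⟩ := hrep v hv
    simp only [map_add, map_smul]
    rw [hkey, hCZ v0 hv0, hDZ v0 hv0, hCZ _ (hD v0 hv0), hDZ _ (hC v0 hv0), hkey]

variable [FiniteDimensional F U] {A : Type*} [Group A] [Finite A]

/-- The minus space of an endomorphism. -/
def minus (τ : Module.End F U) : Submodule F U := LinearMap.ker (τ + 1)

theorem mem_minus {τ : Module.End F U} {v : U} : v ∈ minus τ ↔ τ v = -v := by
  simp [minus, add_eq_zero_iff_eq_neg]

theorem mul_left_inv_apply (π : A →* Module.End F U) (a : A) (v : U) :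
    π a (π a⁻¹ v) = v ∧ π a⁻¹ (π a v) = v := by
  rw [← Module.End.mul_apply, ← Module.End.mul_apply, ← map_mul, ← map_mul, mul_inv_cancel, inv_mul_cancel,
    map_one]
  exact ⟨rfl, rfl⟩

theorem pow_natCard_eq_one (π : A →* Module.End F U) (a : A) : π a ^ Nat.card A = 1 := by
  rw [← map_pow, pow_card_eq_one', map_one]

set_option maxHeartbeats 1000000 in
/-- Two noncommuting inverted elements give `q ≤ 5`. -/
theorem le_five_of_minus_le_two {q : ℕ} [hq : Fact q.Prime] (hA : IsPGroup q A) (hqF : (q : F) ≠ 0)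
    (π : A →* Module.End F U) (τ : Module.End F U) (hτ : τ * τ = 1) (hdim : finrank F (minus τ) ≤ 2)
    (hq2 : q ≠ 2) {a b : A} (hτa : τ * π a = π a⁻¹ * τ) (hc : ∀ x, ⁅a, b⁆ * x = x * ⁅a, b⁆)
    (hz : π ⁅a, b⁆ ≠ 1) : q ≤ 5 := by
  classical
  let K := AlgebraicClosure F
  let φ := Module.End.baseChangeHom F K U
  have hqK : (q : K) ≠ 0 := by
    rw [← map_natCast (algebraMap F K)]
    exact fun h => hqF ((algebraMap F K).injective (by rw [h, map_zero]))
  obtain ⟨k, hk⟩ := IsPGroup.iff_card.mp hA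
  -- a square root of `a`
  have hodd : Odd (orderOf a) := by
    obtain ⟨j, hj⟩ := hA a
    obtain ⟨i, -, hi⟩ := (Nat.dvd_prime_pow hq.out).mp (orderOf_dvd_of_pow_eq_one hj)
    rw [hi]; exact (hq.out.odd_of_ne_two hq2).pow
  obtain ⟨m, hm⟩ := hodd
  have hh : (a ^ (m + 1)) * (a ^ (m + 1)) = a := by
    rw [← pow_add, show m + 1 + (m + 1) = orderOf a + 1 by omega, pow_succ, pow_orderOf_eq_one, one_mul]
  set h := a ^ (m + 1) with hhdef
  have hτpow : ∀ i : ℕ, τ * π (a ^ i) = π (a⁻¹ ^ i) * τ := by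
    intro i
    induction i with
    | zero => simp
    | succ i ih => rw [pow_succ, map_mul, ← mul_assoc, ih, mul_assoc, hτa, ← mul_assoc, ← map_mul, ← pow_succ]
  have hfac : π a - 1 = π h * (τ - 1) * (π h⁻¹ * τ) + (τ - 1) := by
    have e1 : τ * (π h⁻¹ * τ) = π h := by
      have := hτpow (m + 1)
      rw [inv_pow, ← hhdef] at this
      rw [← this, ← mul_assoc, hτ, one_mul]
    have e2 : π h * π h⁻¹ = 1 := by rw [← map_mul, mul_inv_cancel, map_one]
    have e3 : π h * π h = π a := by rw [← map_mul, hh]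
    rw [mul_assoc, sub_mul, one_mul, mul_sub, e1, e3, ← mul_assoc, e2, one_mul]
    abel
  -- the rank of `a - 1` over `K`
  have hrange : finrank K (LinearMap.range (φ (τ - 1))) ≤ 2 := by
    have hmem : ∀ v, (τ - 1) v ∈ minus τ := fun v => by
      rw [mem_minus, LinearMap.sub_apply, Module.End.one_apply, map_sub, ← Module.End.mul_apply, hτ,
        Module.End.one_apply, neg_sub]
    have e : (φ (τ - 1) : (K ⊗[F] U) →ₗ[K] (K ⊗[F] U)) =
        ((minus τ).subtype.baseChange K) ∘ₗ (((τ - 1).codRestrict (minus τ) hmem).baseChange K) := by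
      rw [← LinearMap.baseChange_comp]; rfl
    rw [e]
    refine (Submodule.finrank_mono (LinearMap.range_comp_le_range _ _)).trans ((LinearMap.finrank_range_le _).trans ?_)
    rw [Module.finrank_baseChange]
    exact hdim
  have hR : finrank K (LinearMap.range (φ (π a) - 1)) ≤ 4 := by
    have e : φ (π a) - 1 = φ (π h) * φ (τ - 1) * (φ (π h⁻¹) * φ τ) + φ (τ - 1) := by
      have h1 := congrArg φ hfac
      simp only [map_add, map_sub, map_mul, map_one] at h1 ⊢
      exact h1
    have hle : LinearMap.range (φ (π a) - 1) ≤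
        (LinearMap.range (φ (τ - 1))).map (φ (π h)) ⊔ LinearMap.range (φ (τ - 1)) := by
      rintro _ ⟨v, rfl⟩
      rw [e, LinearMap.add_apply, Module.End.mul_apply, Module.End.mul_apply]
      exact Submodule.add_mem_sup ⟨_, LinearMap.mem_range_self _ _, rfl⟩ (LinearMap.mem_range_self _ _)
    refine (Submodule.finrank_mono hle).trans ((Submodule.finrank_add_le_finrank_add_finrank _ _).trans ?_)
    have := Submodule.finrank_map_le (φ (π h)) (LinearMap.range (φ (τ - 1)))
    omega
  -- a nontrivial eigenvalue of the commutator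
  set Z := φ (π ⁅a, b⁆) with hZ
  have hZpow : Z ^ q ^ k = 1 := by rw [hZ, ← map_pow, ← map_pow, ← hk, pow_card_eq_one', map_one, map_one]
  have hZne : Z ≠ 1 := fun h0 => hz (LinearMap.ext fun v => by
    have h1 := LinearMap.congr_fun h0 (1 ⊗ₜ[F] v)
    refine Module.FaithfullyFlat.tensorProduct_mk_injective (A := F) (B := K) U ?_
    have e : Z (1 ⊗ₜ[F] v) = (1 : K) ⊗ₜ[F] π ⁅a, b⁆ v := LinearMap.baseChange_tmul ..
    rw [e, Module.End.one_apply] at h1
    exact h1)
  obtain ⟨v, ω, hω, hv0, hv⟩ : ∃ (v : K ⊗[F] U) (ω : K), ω ≠ 1 ∧ v ≠ 0 ∧ Z v = ω • v := by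
    set R := LinearMap.range (Z - 1)
    have hinv : ∀ x ∈ R, Z x ∈ R := by
      rintro _ ⟨y, rfl⟩
      exact ⟨Z y, by simp⟩
    haveI : Nontrivial R := Submodule.nontrivial_iff_ne_bot.mpr fun h0 =>
      hZne (sub_eq_zero.mp (LinearMap.range_eq_bot.mp h0))
    obtain ⟨ω, hω⟩ := Module.End.exists_eigenvalue (K := K) (V := R) (Z.restrict hinv)
    obtain ⟨x, hx⟩ := hω.exists_hasEigenvector
    have hxe : Z (x : K ⊗[F] U) = ω • (x : K ⊗[F] U) := congrArg Subtype.val hx.apply_eq_smul
    refine ⟨x, ω, fun h1 => hx.2 (Subtype.ext ?_), fun h0 => hx.2 (Subtype.ext h0), hxe⟩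
    obtain ⟨y, hy⟩ := x.2
    rw [← hy] at hxe ⊢
    rw [h1, one_smul, LinearMap.sub_apply, Module.End.one_apply] at hxe
    rw [LinearMap.sub_apply, Module.End.one_apply,
      fixed_of_sq_sub (m := q ^ k) (by push_cast; exact pow_ne_zero _ hqK) hZpow hxe, sub_self]
    rfl
  -- eigenvectors of `a`
  let W := Module.End.eigenspace Z ω
  have hWA : ∀ x : A, ∀ w ∈ W, φ (π x) w ∈ W := fun x w hw => by
    rw [Module.End.mem_eigenspace_iff] at hw ⊢
    rw [hZ, ← Module.End.mul_apply, ← map_mul, ← map_mul, hc, map_mul, map_mul, Module.End.mul_apply, ← hZ, hw,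
      map_smul]
  haveI : Nontrivial W := Submodule.nontrivial_iff_ne_bot.mpr fun h0 => hv0 <| by
    rw [← Submodule.mem_bot K, ← h0]; exact Module.End.mem_eigenspace_iff.mpr hv
  obtain ⟨x, hx⟩ := Module.End.exists_eigenvalue (K := K) (V := W) ((φ (π a)).restrict (hWA a))
  obtain ⟨w, hw⟩ := hx.exists_hasEigenvector
  have hwe : φ (π a) (w : K ⊗[F] U) = x • (w : K ⊗[F] U) := congrArg Subtype.val hw.apply_eq_smul
  have hx0 : x ≠ 0 := fun h0 => hw.2 (Subtype.ext (by
    rw [h0, zero_smul] at hwe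
    have := congrArg (φ (π a⁻¹)) hwe
    rwa [← Module.End.mul_apply, ← map_mul, ← map_mul, inv_mul_cancel, map_one, map_one, map_zero] at this))
  have hbpow : ∀ i : ℕ, φ (π (b ^ i)) (w : K ⊗[F] U) ∈ W ∧
      φ (π a) (φ (π (b ^ i)) (w : K ⊗[F] U)) = (x * ω ^ i) • φ (π (b ^ i)) (w : K ⊗[F] U) := by
    intro i
    refine ⟨hWA _ _ w.2, ?_⟩
    induction i with
    | zero => simpa using hwe
    | succ i ih =>
      have e : a * b ^ (i + 1) = b * ⁅a, b⁆ * (a * b ^ i) := by
        rw [← hc b, commutatorElement_def, pow_succ']; group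
      rw [← Module.End.mul_apply, ← map_mul, ← map_mul, e, map_mul, map_mul, map_mul, map_mul, Module.End.mul_apply,
        Module.End.mul_apply, map_mul, map_mul, Module.End.mul_apply, ih, ← hZ, map_smul,
        Module.End.mem_eigenspace_iff.mp (hWA _ _ w.2), map_smul, map_smul, smul_smul, pow_succ' b, map_mul, map_mul,
        Module.End.mul_apply, pow_succ, ← mul_assoc]
  have hωq : ω ^ q ^ k = 1 := by
    have : ∀ j : ℕ, (Z ^ j) v = ω ^ j • v := by
      intro j
      induction j with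
      | zero => simp
      | succ j ih => rw [pow_succ', Module.End.mul_apply, ih, map_smul, hv, smul_smul, pow_succ]
    have h1 := this (q ^ k)
    rw [hZpow, Module.End.one_apply] at h1
    exact smul_left_injective K hv0 (show ω ^ q ^ k • v = (1 : K) • v by rw [one_smul]; exact h1.symm)
  have hinj : ∀ i j : ℕ, i < j → j < q → ω ^ i ≠ ω ^ j := fun i j hij hjq he => by
    have hω0 : ω ≠ 0 := fun h0 => by rw [h0, zero_pow (pow_ne_zero _ hq.out.ne_zero)] at hωq; exact zero_ne_one hωq
    have h1 : ω ^ (j - i) = 1 := by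
      rw [← Nat.add_sub_cancel' hij.le, pow_add] at he
      exact mul_left_cancel₀ (pow_ne_zero i hω0) (he.symm.trans (mul_one _).symm)
    refine hω (orderOf_eq_one_iff.mp (Nat.eq_one_of_dvd_coprimes (Nat.Coprime.pow_left k ?_)
      (orderOf_dvd_of_pow_eq_one hωq) (orderOf_dvd_of_pow_eq_one h1)))
    exact (hq.out.coprime_iff_not_dvd).mpr fun hd => absurd (Nat.le_of_dvd (by omega) hd) (by omega)
  set s := (Finset.range q).filter fun i => x * ω ^ i ≠ 1 with hs
  have hscard : q - 1 ≤ s.card := by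
    have h1 : ((Finset.range q).filter fun i => ¬ x * ω ^ i ≠ 1).card ≤ 1 := by
      refine Finset.card_le_one.mpr fun i hi j hj => ?_
      simp only [Finset.mem_filter, Finset.mem_range, not_not] at hi hj
      have he : ω ^ i = ω ^ j := mul_left_cancel₀ hx0 (hi.2.trans hj.2.symm)
      rcases lt_trichotomy i j with hlt | heq | hgt
      · exact absurd he (hinj i j hlt hj.1)
      · exact heq
      · exact absurd he.symm (hinj j i hgt hi.1)
    have h2 := Finset.card_filter_add_card_filter_not (s := Finset.range q) (fun i => x * ω ^ i ≠ 1)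
    rw [Finset.card_range, ← hs] at h2
    omega
  have hli : LinearIndependent K (fun i : s => φ (π (b ^ (i : ℕ))) (w : K ⊗[F] U)) := by
    refine Module.End.eigenvectors_linearIndependent' (φ (π a)) (fun i : s => x * ω ^ (i : ℕ)) ?_ _
      fun i => ⟨Module.End.mem_eigenspace_iff.mpr (hbpow i).2, fun h0 => hw.2 (Subtype.ext ?_)⟩
    · intro i j hij
      have hi := Finset.mem_range.mp (Finset.mem_filter.mp i.2).1
      have hj := Finset.mem_range.mp (Finset.mem_filter.mp j.2).1
      have he := mul_left_cancel₀ hx0 hij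
      refine Subtype.ext ?_
      rcases lt_trichotomy (i : ℕ) j with hlt | heq | hgt
      · exact absurd he (hinj _ _ hlt hj)
      · exact heq
      · exact absurd he.symm (hinj _ _ hgt hi)
    · have := congrArg (φ (π (b ^ (i : ℕ))⁻¹)) h0
      rwa [← Module.End.mul_apply, ← map_mul, ← map_mul, inv_mul_cancel, map_one, map_one, map_zero] at this
  have hle := Submodule.finrank_mono (show Submodule.span K
      (Set.range fun i : s => φ (π (b ^ (i : ℕ))) (w : K ⊗[F] U)) ≤ LinearMap.range (φ (π a) - 1) from ?_)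
  · rw [finrank_span_eq_card hli, Fintype.card_coe] at hle
    omega
  · rw [Submodule.span_le]
    rintro _ ⟨i, rfl⟩
    have hne : x * ω ^ (i : ℕ) - 1 ≠ 0 := sub_ne_zero.mpr (Finset.mem_filter.mp i.2).2
    refine ⟨(x * ω ^ (i : ℕ) - 1)⁻¹ • φ (π (b ^ (i : ℕ))) (w : K ⊗[F] U), ?_⟩
    rw [map_smul, LinearMap.sub_apply, Module.End.one_apply, (hbpow i).2, inv_smul_eq_iff₀ hne, sub_smul, one_smul]

set_option maxHeartbeats 1000000 in
/-- The linear contradiction. -/
theorem false_of_minus_le_two {q : ℕ} [hq : Fact q.Prime] (hA : IsPGroup q A) (hq2 : q ≠ 2) (hq5 : q ≠ 5)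
    (hqF : (q : F) ≠ 0) (h2F : (2 : F) ≠ 0) (π : A →* Module.End F U) (τA : MulAut A) (τ : Module.End F U)
    (hτ : τ * τ = 1) (hτA : ∀ a, τ * π a = π (τA a) * τ) (hdim : finrank F (minus τ) ≤ 2)
    (hcen : ∀ a b x : A, ⁅a, b⁆ * x = x * ⁅a, b⁆)
    (hinv : ∀ a, ∃ b, τA b = b⁻¹ ∧ a * b⁻¹ ∈ commutator A)
    (hne : ∃ a b : A, π ⁅a, b⁆ ≠ 1)
    (hiso : finrank F (minus τ) = 2 → ∀ (a : A) (ω : F), (∀ v ∈ minus τ, π a v = ω • v) → ω * ω = 1)
    (hthree : q = 3 → ∃ (T : Module.End F U) (TA : MulAut A), (∀ a, T * π a = π (TA a) * T) ∧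
      (∀ a, TA (TA a) = τA a) ∧ T * T = τ ∧ ∀ a, (∑ i ∈ Finset.range 4, T ^ i) * (π a - 1) = 0) : False := by
  classical
  have hcomp : ∀ (A : Module.End F U) (B : Module.End F U) v, (A * B) v = A (B v) := fun A B v => rfl
  have hcc : ∀ c ∈ commutator A, ∀ x, c * x = x * c := by
    intro c hc x
    have hle : commutator A ≤ Subgroup.center A := by
      rw [commutator_def, Subgroup.commutator_le]
      exact fun a _ b _ => Subgroup.mem_center_iff.mpr fun g => (hcen a b g).symm
    exact (Subgroup.mem_center_iff.mp (hle hc) x).symm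
  have hbimul : ∀ a b c : A, ⁅a * b, c⁆ = ⁅a, c⁆ * ⁅b, c⁆ := fun a b c => by
    calc ⁅a * b, c⁆ = a * ⁅b, c⁆ * a⁻¹ * ⁅a, c⁆ := by simp only [commutatorElement_def]; group
      _ = ⁅a, c⁆ * ⁅b, c⁆ := by
        rw [← hcen b c a, mul_inv_cancel_right, hcen b c]
  have hbimul' : ∀ a b c : A, ⁅a, b * c⁆ = ⁅a, b⁆ * ⁅a, c⁆ := fun a b c => by
    calc ⁅a, b * c⁆ = ⁅a, b⁆ * (b * ⁅a, c⁆ * b⁻¹) := by simp only [commutatorElement_def]; group
      _ = ⁅a, b⁆ * ⁅a, c⁆ := by rw [← hcen a c b, mul_inv_cancel_right]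
  have hkillL : ∀ c ∈ commutator A, ∀ a b : A, ⁅a * c, b⁆ = ⁅a, b⁆ := fun c hc a b => by
    rw [hbimul, show ⁅c, b⁆ = 1 from commutatorElement_eq_one_iff_mul_comm.mpr (hcc c hc b), mul_one]
  have hkillR : ∀ c ∈ commutator A, ∀ a b : A, ⁅b, a * c⁆ = ⁅b, a⁆ := fun c hc a b => by
    rw [hbimul', show ⁅b, c⁆ = 1 from commutatorElement_eq_one_iff_mul_comm.mpr (hcc c hc b).symm, mul_one]
  -- every element is a product of an inverted one and a central one
  have hdec : ∀ x, ∃ a, τA a = a⁻¹ ∧ ∃ c ∈ commutator A, x = a * c := fun x => by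
    obtain ⟨a, ha, hc⟩ := hinv x
    exact ⟨a, ha, _, hc, by rw [← hcc _ hc a, inv_mul_cancel_right]⟩
  obtain ⟨a0, ha0, b0, hb0, hz0⟩ : ∃ a : A, τA a = a⁻¹ ∧ ∃ b : A, τA b = b⁻¹ ∧ π ⁅a, b⁆ ≠ 1 := by
    obtain ⟨x, y, hxy⟩ := hne
    obtain ⟨a, ha, c, hc, rfl⟩ := hdec x
    obtain ⟨b, hb, d, hd, rfl⟩ := hdec y
    exact ⟨a, ha, b, hb, by rwa [hkillL c hc, hkillR d hd] at hxy⟩
  have hq3 : q = 3 := by
    have h5 := le_five_of_minus_le_two hA hqF π τ hτ hdim hq2 (a := a0) (b := b0) (by rw [hτA, ha0])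
      (hcen a0 b0) hz0
    have := hq.out.two_le
    interval_cases q
    · omega
    · rfl
    · exact absurd hq.out (by norm_num)
    · omega
  obtain ⟨T, TA, hTπ, hTA, hTT, hΘ⟩ := hthree hq3
  have hcardF : (Nat.card A : F) ≠ 0 := by
    obtain ⟨k, hk⟩ := IsPGroup.iff_card.mp hA
    rw [hk, Nat.cast_pow]; exact pow_ne_zero _ hqF
  have hcardO : Odd (Nat.card A) := by
    obtain ⟨k, hk⟩ := IsPGroup.iff_card.mp hA
    rw [hk]; exact (hq.out.odd_of_ne_two hq2).pow
  -- the range of `z - 1`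
  have hfixE : ∀ z : A, ∀ v ∈ LinearMap.range (π z - 1), π z v = v → v = 0 := by
    rintro z _ ⟨u, rfl⟩ hv
    rw [LinearMap.sub_apply, Module.End.one_apply] at hv ⊢
    rw [fixed_of_sq_sub hcardF (pow_natCard_eq_one π z) hv, sub_self]
  have hEinv : ∀ (z : A) (M : Module.End F U), M * π z = π z * M → ∀ v ∈ LinearMap.range (π z - 1),
      M v ∈ LinearMap.range (π z - 1) := by
    rintro z M hM _ ⟨u, rfl⟩
    exact ⟨M u, by rw [← hcomp, ← hcomp, sub_mul, mul_sub, hM, one_mul, mul_one]⟩
  have hkill : ∀ (z : A), ∀ v ∈ LinearMap.range (π z - 1), τ v = v → T v = -v := by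
    rintro z _ ⟨u, rfl⟩ hv
    have h := LinearMap.congr_fun (hΘ z) u
    rw [hcomp, LinearMap.zero_apply] at h
    set w := (π z - 1) u
    have e2 : T (T w) = w := by rw [← hcomp T T w, hTT, hv]
    have e : (2 : F) • (w + T w) = 0 := by
      rw [← h, LinearMap.sum_apply]
      simp only [Finset.sum_range_succ, Finset.sum_range_zero, pow_succ, pow_zero, one_mul, Module.End.mul_apply,
        Module.End.one_apply, e2]
      module
    exact eq_neg_of_add_eq_zero_right ((smul_eq_zero.mp e).resolve_left h2F)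
  have hTAz : ∀ a b : A, TA ⁅a, b⁆ = ⁅TA a, TA b⁆ := fun a b => map_commutatorElement TA a b
  by_cases hcase : ∃ a : A, τA a = a⁻¹ ∧ π ⁅a, TA a⁆ ≠ 1
  · -- first case
    obtain ⟨a, ha, hz⟩ := hcase
    set b := TA a with hb
    set z := ⁅a, b⁆ with hzdef
    have hTz : TA z = z := by
      rw [hzdef, hTAz, ← hb, show TA b = a⁻¹ by rw [hb, hTA, ha]]
      have h1 : ⁅b, a⁻¹⁆ * ⁅b, a⁆ = 1 := by rw [← hbimul', inv_mul_cancel, commutatorElement_one_right]
      rw [eq_inv_of_mul_eq_one_left h1, commutatorElement_inv]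
    have hbinv : τA b = b⁻¹ := by rw [← hTA, show TA b = a⁻¹ by rw [hb, hTA, ha], map_inv, ← hb]
    have hτz : τA z = z := by rw [← hTA, hTz, hTz]
    set E := LinearMap.range (π z - 1) with hE
    have hcomT : T * π z = π z * T := by rw [hTπ, hTz]
    have hcomτ : τ * π z = π z * τ := by rw [hτA, hτz]
    have hcomπ : ∀ x, π x * π z = π z * π x := fun x => by rw [← map_mul, ← map_mul, hcen]
    set C : Module.End F U := π a + π a⁻¹ with hC
    have hcomC : C * π z = π z * C := by rw [hC, add_mul, mul_add, hcomπ, hcomπ]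
    have hτC : τ * C = C * τ := by
      rw [hC, mul_add, hτA, hτA, map_inv, ha, inv_inv, add_mul, add_comm]
    have hτT : τ * T = T * τ := by rw [← hTT, mul_assoc]
    -- `T` commutes with `C` on `E`
    have hTC : ∀ v ∈ E, T (C v) = C (T v) := by
      have hplus : ∀ v ∈ E, τ v = v → T (C v) = C (T v) := fun v hv hτv => by
        rw [hkill z v hv hτv, hkill z (C v) (hEinv z C hcomC v hv) (by rw [← hcomp, hτC, hcomp, hτv]), map_neg]
      have hminus : ∀ v ∈ E ⊓ minus τ, T (C v) = C (T v) := by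
        have hin : ∀ M : Module.End F U, M * π z = π z * M → τ * M = M * τ → ∀ v ∈ E ⊓ minus τ, M v ∈ E ⊓ minus τ := by
          intro M h1 h2 v hv
          refine ⟨hEinv z M h1 v hv.1, mem_minus.mpr ?_⟩
          rw [← hcomp, h2, hcomp, mem_minus.mp hv.2, map_neg]
        refine commute_on_plane _ ((Submodule.finrank_mono inf_le_right).trans hdim) (π z) T C
          (hin _ rfl hcomτ) (hin _ hcomT hτT) (hin _ hcomC hτC)
          (fun v _ => LinearMap.congr_fun hcomT v) (fun v _ => LinearMap.congr_fun hcomC v) fun h2 ω hω => ?_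
        have heq : E ⊓ minus τ = minus τ := Submodule.eq_of_le_of_finrank_le inf_le_right (by omega)
        have hdim2 : finrank F (minus τ) = 2 := by rw [← heq]; exact h2
        have hω2 := hiso hdim2 z ω fun v hv => hω v (heq.symm ▸ hv)
        obtain ⟨v, hv, hv0⟩ := Submodule.exists_mem_ne_zero_of_ne_bot (p := E ⊓ minus τ)
          fun h0 => by rw [h0, finrank_bot] at h2; omega
        refine hv0 (hfixE z v hv.1 (fixed_of_sq ?_ hcardO (pow_natCard_eq_one π z)))
        rw [hω v hv, map_smul, hω v hv, smul_smul, hω2, one_smul]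
      intro v hv
      have hτv := hEinv z τ hcomτ v hv
      have e : v = (2 : F)⁻¹ • (v + τ v) + (2 : F)⁻¹ • (v - τ v) := by
        rw [← smul_add, show v + τ v + (v - τ v) = (2 : F) • v by module, smul_smul, inv_mul_cancel₀ h2F, one_smul]
      have h1 := hplus ((2 : F)⁻¹ • (v + τ v)) (E.smul_mem _ (E.add_mem hv hτv))
        (by rw [map_smul, map_add, ← hcomp τ τ, hτ, Module.End.one_apply, add_comm])
      have h2 := hminus ((2 : F)⁻¹ • (v - τ v)) ⟨E.smul_mem _ (E.sub_mem hv hτv), mem_minus.mpr (by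
        rw [map_smul, map_sub, ← hcomp τ τ, hτ, Module.End.one_apply, ← smul_neg, neg_sub])⟩
      rw [e]
      simp only [map_add]
      rw [h1, h2]
    -- hence `b` commutes with `C` on `E`
    set C' : Module.End F U := π b + π b⁻¹ with hC'
    have hTC' : T * C = C' * T := by rw [hC, mul_add, hTπ, hTπ, map_inv, ← hb, hC', add_mul]
    have hT4 : T * T * (T * T) = 1 := by rw [hTT, hτ]
    have hCC' : ∀ v ∈ E, C' v = C v := fun v hv => by
      have hw : T (T (T v)) ∈ E := hEinv z T hcomT _ (hEinv z T hcomT _ (hEinv z T hcomT v hv))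
      have h1 := hTC _ hw
      rw [← hcomp T C, hTC', hcomp] at h1
      have h2 : T (T (T (T v))) = v := by
        rw [← hcomp T T, ← hcomp T T, ← hcomp (T * T), hT4, Module.End.one_apply]
      rwa [h2] at h1
    have hbC : ∀ v ∈ E, π b (C v) = C (π b v) := fun v hv => by
      rw [← hCC' v hv, ← hCC' (π b v) (hEinv z _ (hcomπ b) v hv), hC', LinearMap.add_apply, LinearMap.add_apply,
        map_add, (mul_left_inv_apply π b v).1, (mul_left_inv_apply π b v).2]
    -- `a ^ 2 = z` on `E`
    have hsq : ∀ w ∈ E, π a w = π z (π a⁻¹ w) := by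
      intro w hw
      set v := π b⁻¹ w with hvdef
      have hv : v ∈ E := hEinv z _ (hcomπ b⁻¹) w hw
      have hw' : π b v = w := (mul_left_inv_apply π b w).1
      have h := hbC v hv
      rw [hC, LinearMap.add_apply, map_add, ← hcomp (π b), ← map_mul, ← hcomp (π b), ← map_mul,
        LinearMap.add_apply, hw'] at h
      rw [show b * a = z⁻¹ * a * b by simp [hzdef, commutatorElement_def, mul_assoc],
        show b * a⁻¹ = z * a⁻¹ * b by rw [hzdef, hcen]; simp [commutatorElement_def, mul_assoc],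
        map_mul, map_mul, map_mul, map_mul, hcomp, hcomp, hcomp, hcomp, hw'] at h
      set x := π a w with hx
      set y := π a⁻¹ w with hy
      have h1 := congrArg (π z) h
      rw [map_add, map_add, (mul_left_inv_apply π z x).1] at h1
      have hxE : x ∈ E := hEinv z _ (hcomπ a) w hw
      have hyE : π z y ∈ E := hEinv z _ rfl _ (hEinv z _ (hcomπ a⁻¹) w hw)
      refine sub_eq_zero.mp (hfixE z _ (E.sub_mem hxE hyE) ?_)
      rw [map_sub, sub_eq_sub_iff_add_eq_add, ← h1]
    have hzfix : ∀ v ∈ E, π z v = v := fun v hv => by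
      refine fixed_of_sq ?_ hcardO (pow_natCard_eq_one π z)
      have hsq' : ∀ u ∈ E, π (a * a) u = π z u := fun u hu => by
        have h1 := hsq (π a u) (hEinv z _ (hcomπ a) u hu)
        rw [(mul_left_inv_apply π a u).2] at h1
        rw [map_mul, hcomp, h1]
      have e1 : π (a * a * b) v = π (b * (a * a)) v := by
        rw [map_mul, map_mul π b, hcomp, hcomp, hsq' v hv, hsq' _ (hEinv z _ (hcomπ b) v hv), ← hcomp, ← hcomp,
          hcomπ]
      have e2 : a * a * b = z * z * (b * (a * a)) := by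
        have h1 : a * b = z * (b * a) := by simp [hzdef, commutatorElement_def, mul_assoc]
        rw [mul_assoc, h1, ← mul_assoc a z, ← hcen a b a, ← hzdef, mul_assoc z a, ← mul_assoc a b, h1]
        simp only [mul_assoc]
      obtain ⟨w, hw, rfl⟩ : ∃ w ∈ E, π (b * (a * a)) w = v :=
        ⟨π (b * (a * a))⁻¹ v, hEinv z _ (hcomπ _) v hv, (mul_left_inv_apply π _ v).1⟩
      rw [← hcomp, ← map_mul, ← hcomp (π (z * z)), ← map_mul, ← e2]
      have := hsq' w hw
      rw [map_mul, map_mul π b, hcomp, hcomp, hsq' w hw, hsq' _ (hEinv z _ (hcomπ b) w hw), ← hcomp, ← hcomp,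
        hcomπ]
    exact hz (LinearMap.ext fun u => by
      have := hfixE z _ (LinearMap.mem_range_self (π z - 1) u) (hzfix _ (LinearMap.mem_range_self _ _))
      rw [LinearMap.sub_apply, sub_eq_zero] at this
      exact this)
  · -- second case
    simp only [not_exists, not_and, not_not] at hcase
    have hall : ∀ x, π ⁅x, TA x⁆ = 1 := fun x => by
      obtain ⟨a, ha, c, hc, rfl⟩ := hdec x
      have hTc : TA c ∈ commutator A :=
        Subgroup.characteristic_iff_map_le.mp inferInstance TA ⟨c, hc, rfl⟩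
      rw [map_mul, hkillL c hc, hkillR (TA c) hTc]
      exact hcase a ha
    have hpol : ∀ x y, π ⁅x, TA y⁆ * π ⁅y, TA x⁆ = 1 := fun x y => by
      have h := hall (x * y)
      rw [map_mul, hbimul, hbimul', hbimul', map_mul, map_mul, map_mul, hall, hall, one_mul, mul_one] at h
      exact h
    set z := ⁅a0, b0⁆ with hzdef
    have hTz : π (TA z) = π z⁻¹ := by
      have h := hpol a0 (TA b0)
      rw [hTA, hb0, ← hTAz, ← commutatorElement_inv a0 b0, ← hzdef, map_inv] at h
      have h1 : ⁅a0, b0⁻¹⁆ = z⁻¹ := by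
        refine eq_inv_of_mul_eq_one_left ?_
        rw [hzdef, ← hbimul', inv_mul_cancel, commutatorElement_one_right]
      rw [h1] at h
      calc π (TA z) = π (TA z) * (π z⁻¹ * π (TA z)⁻¹) := by rw [h, mul_one]
        _ = π (TA z * (z⁻¹ * (TA z)⁻¹)) := by rw [map_mul, map_mul]
        _ = π z⁻¹ := by
          congr 1
          rw [hcc z⁻¹ (inv_mem (Subgroup.commutator_mem_commutator (Subgroup.mem_top _) (Subgroup.mem_top _))),
            mul_inv_cancel_left]
    have hτz : τA z = z := by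
      rw [hzdef, show τA ⁅a0, b0⁆ = ⁅τA a0, τA b0⁆ from map_commutatorElement τA _ _, ha0, hb0]
      have h1 : ∀ u w : A, ⁅u⁻¹, w⁆ = ⁅u, w⁆⁻¹ := fun u w =>
        eq_inv_of_mul_eq_one_left (by rw [← hbimul, inv_mul_cancel, commutatorElement_one_left])
      have h2 : ∀ u w : A, ⁅u, w⁻¹⁆ = ⁅u, w⁆⁻¹ := fun u w =>
        eq_inv_of_mul_eq_one_left (by rw [← hbimul', inv_mul_cancel, commutatorElement_one_right])
      rw [h1, h2, inv_inv]
    set E := LinearMap.range (π z - 1) with hE
    have hcomτ : τ * π z = π z * τ := by rw [hτA, hτz]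
    have hcomπ : ∀ x, π x * π z = π z * π x := fun x => by rw [← map_mul, ← map_mul, hcen]
    have hminus : ∀ v ∈ E, τ v = -v := by
      intro v hv
      have hτv := hEinv z τ hcomτ v hv
      set w := v + τ v with hw
      have hwE : w ∈ E := E.add_mem hv hτv
      have hτw : τ w = w := by rw [hw, map_add, ← hcomp τ τ, hτ, Module.End.one_apply, add_comm]
      have h1 := hkill z w hwE hτw
      have h2 := hkill z (π z w) (hEinv z _ rfl w hwE) (by rw [← hcomp, hcomτ, hcomp, hτw])
      rw [← hcomp, hTπ, hTz, hcomp, h1, map_neg, neg_inj] at h2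
      have h3 : π z (π z w) = w := by rw [← h2, (mul_left_inv_apply π z w).1]
      exact eq_neg_of_add_eq_zero_right (hfixE z w hwE (fixed_of_sq h3 hcardO (pow_natCard_eq_one π z)))
    have hfix : ∀ a, τA a = a⁻¹ → ∀ v ∈ E, π a v = v := fun a ha v hv => by
      refine fixed_of_sq ?_ hcardO (pow_natCard_eq_one π a)
      have h := LinearMap.congr_fun (hτA a) v
      rw [hcomp, hcomp, hminus _ (hEinv z _ (hcomπ a) v hv), hminus v hv, ha, map_neg, neg_inj] at h
      rw [h, (mul_left_inv_apply π a v).1]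
    have hzfix : ∀ v ∈ E, π z v = v := fun v hv => by
      have hai : τA a0⁻¹ = a0⁻¹⁻¹ := by rw [map_inv, ha0]
      have hbi : τA b0⁻¹ = b0⁻¹⁻¹ := by rw [map_inv, hb0]
      rw [hzdef, commutatorElement_def, map_mul, map_mul, map_mul, hcomp, hcomp, hcomp, hfix _ hbi v hv,
        hfix _ hai v hv, hfix _ hb0 v hv, hfix _ ha0 v hv]
    exact hz0 (LinearMap.ext fun u => by
      have := hfixE z _ (LinearMap.mem_range_self (π z - 1) u) (hzfix _ (LinearMap.mem_range_self _ _))
      rw [LinearMap.sub_apply, sub_eq_zero] at this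
      exact this)

end Cfsg.Agent.Chars.GrossTwo
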