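/-
Gross's theorem, representation part: the exceptional component of a fixed-point-free action of a cyclic
`2`-group on a class two `q`-group.
-/
import Cfsg.Agent.Core.HallHigman.ShultGross

set_option autoImplicit false
set_option linter.style.haveILetI false
set_option linter.unusedSectionVars false

namespace Cfsg.Agent.Chars.GrossTwo

open Module Cfsg Cfsg.Agent.Core
open scoped commutatorElement

universe v w

/-- `q ^ f + 1` is a power of two only for `f = 1`. -/
theorem eq_one_of_pow_add_one_two_pow {q f k : ℕ} (hq : 3 ≤ q) (hqo : Odd q) (hf : 0 < f)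
    (h : q ^ f + 1 = 2 ^ k) : f = 1 := by
  have h2k : 4 ≤ 2 ^ k := by
    have : q ^ 1 ≤ q ^ f := Nat.pow_le_pow_right (by omega) hf
    rw [pow_one] at this; omega
  have hk : 2 ≤ k := by
    rcases k with _ | _ | k <;> simp_all
  have h4 : 4 ∣ q ^ f + 1 := h ▸ (show 2 ^ 2 ∣ 2 ^ k from pow_dvd_pow 2 hk)
  obtain ⟨t, rfl | rfl⟩ : ∃ t, f = 2 * t ∨ f = 2 * t + 1 := ⟨f / 2, by omega⟩
  · exfalso
    obtain ⟨s, hs⟩ := hqo.pow (n := t)
    rw [show 2 * t = t + t by omega, pow_add, hs] at h4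
    have : (2 * s + 1) * (2 * s + 1) + 1 = 4 * (s * s + s) + 2 := by ring
    omega
  · by_contra hne
    -- the cofactor `(q ^ f + 1) / (q + 1)` is odd, hence one
    have hd : (q : ℤ) - (-1) ∣ (q : ℤ) ^ (2 * t + 1) - (-1) ^ (2 * t + 1) := sub_dvd_pow_sub_pow _ _ _
    rw [pow_succ (-1 : ℤ), pow_mul (-1 : ℤ), neg_one_sq, one_pow, one_mul, sub_neg_eq_add, sub_neg_eq_add] at hd
    have hd' : q + 1 ∣ q ^ (2 * t + 1) + 1 := by exact_mod_cast hd
    obtain ⟨c, hc⟩ := hd'
    obtain ⟨i, -, hi⟩ := (Nat.dvd_prime_pow Nat.prime_two).mp (h ▸ Dvd.intro _ hc.symm : q + 1 ∣ 2 ^ k)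
    obtain ⟨j, -, hj⟩ := (Nat.dvd_prime_pow Nat.prime_two).mp (h ▸ Dvd.intro_left _ hc.symm : c ∣ 2 ^ k)
    rcases Nat.eq_zero_or_pos j with rfl | hj0
    · rw [hj, pow_zero, mul_one] at hc
      have : q ^ 1 < q ^ (2 * t + 1) := Nat.pow_lt_pow_right (by omega) (by omega)
      rw [pow_one] at this; omega
    · -- modulo `2 * (q + 1)` the sum is `q + 1`
      have hcEven : Even c := by rw [hj]; exact (Nat.even_pow.mpr ⟨even_two, hj0.ne'⟩)
      obtain ⟨c', hc'⟩ := hcEven
      have key : ∀ s : ℕ, ∃ u : ℕ, q ^ (2 * s + 1) + 1 = (q + 1) * (2 * u + 1) := by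
        intro s
        induction s with
        | zero => exact ⟨0, by ring⟩
        | succ s ih =>
          obtain ⟨u, hu⟩ := ih
          obtain ⟨o, ho⟩ := hqo
          refine ⟨q ^ 2 * u + 2 * o ^ 2 + o, ?_⟩
          have e : q ^ (2 * (s + 1) + 1) + 1 + q ^ 2 = q ^ 2 * (q ^ (2 * s + 1) + 1) + 1 := by ring
          rw [hu] at e
          subst ho
          nlinarith [e]
      obtain ⟨u, hu⟩ := key t
      rw [hc] at hu
      have := Nat.eq_of_mul_eq_mul_left (by omega) hu
      omega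

variable {K : Type*} [Field K] [IsAlgClosed K]

set_option maxHeartbeats 1000000 in
/-- The exceptional component. -/
theorem exists_exceptional {V : Type v} [AddCommGroup V] [Module K V] [FiniteDimensional K V]
    {Q : Type w} [Group Q] [Finite Q] {q : ℕ} [hq : Fact q.Prime]
    (hq2 : q ≠ 2) (hQ : IsPGroup q Q) (hqK : (q : K) ≠ 0) (h2K : (2 : K) ≠ 0)
    (ρ : Q →* Module.End K V) (hnt : ∃ x, ρ x ≠ 1) (X : Module.End K V) (σ : MulAut Q) {n : ℕ}
    (hX : X ^ (2 ^ (n + 1)) = 1) (hXρ : ∀ x, X * ρ x = ρ (σ x) * X) (hσ : σ ^ (2 ^ (n + 1)) = 1)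
    (hfix : ∀ a b : Q, (σ ^ (2 ^ n)) ⁅a, b⁆ = ⁅a, b⁆)
    (hgen : Subgroup.closure (Set.range fun x => (σ ^ (2 ^ n)) x * x⁻¹) = ⊤)
    (hXfix : ∀ v, X v = v → v = 0) :
    ∃ (W : Submodule K V) (a : ℕ), a ≤ n ∧ q + 1 = 2 ^ (n + 1 - a) ∧ W ≠ ⊥ ∧
      (∀ w ∈ W, (X ^ (2 ^ a)) w ∈ W) ∧ (∀ x, ∀ w ∈ W, ρ x w ∈ W) ∧
      (∀ x y : Q, ∃ c : K, ∀ w ∈ W, ρ ⁅x, y⁆ w = c • w) ∧
      (∀ w ∈ W, (X ^ (2 ^ a)) w = w → w = 0) ∧
      (∀ r : Q, (∀ x, ∀ w ∈ W, ρ r (ρ x w) = ρ x (ρ r w)) → ∃ c : K, ∀ w ∈ W, ρ r w = c • w) ∧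
      (∃ x y : Q, x * y ≠ y * x) ∧
      Nat.card {x : Q // ∃ c : K, ∀ w ∈ W, ρ x w = c • w} * q ^ 2 = Nat.card Q := by
  classical
  haveI : Fact (Nat.Prime 2) := ⟨Nat.prime_two⟩
  obtain ⟨W, a, ha, hWne, hWd, hWinv, hWcomm, hind, -, hscalW, hcase⟩ :=
    HH.exists_component hQ hqK ρ hnt X σ (p := 2) (Ne.symm hq2) (Nat.succ_pos n) hX hXρ hσ hfix hgen
  obtain ⟨w0, hw0, hw0ne⟩ := Submodule.exists_mem_ne_zero_of_ne_bot hWne
  have hsum : ∀ (T : Module.End K V) (k : ℕ) v, (T ^ k) v = v →
      T (∑ i ∈ Finset.range k, (T ^ i) v) = ∑ i ∈ Finset.range k, (T ^ i) v := by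
    intro T k v hv
    have h1 := Finset.sum_range_succ (fun i => (T ^ i) v) k
    have h2 := Finset.sum_range_succ' (fun i => (T ^ i) v) k
    rw [hv] at h1
    rw [pow_zero, Module.End.one_apply, h1] at h2
    rw [map_sum]
    refine (add_right_cancel h2.symm ▸ ?_)
    exact Finset.sum_congr rfl fun i _ => by rw [← Module.End.mul_apply, ← pow_succ']
  have hnofix : ∀ w ∈ W, (X ^ (2 ^ a)) w = w → w = 0 := fun w hw hfixw => by
    by_contra hne
    have h := hind w hw hne (fun _ => (1 : K)) (by simpa using hXfix _ (hsum X _ w hfixw)) 0 (by positivity)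
    exact one_ne_zero h
  rcases hcase with rfl | ⟨han, hnab, N, e, hN2, hNe, hidx, u, hu, hcount, htrans⟩
  · exact absurd (hnofix w0 hw0 (by rw [hX]; rfl)) hw0ne
  set d := 2 ^ a with hd
  set P' := 2 ^ (n + 1 - a) with hP'
  have hdP : d * P' = 2 ^ (n + 1) := by rw [hd, hP', ← pow_add, Nat.add_sub_cancel' ha]
  have hP'K : (P' : K) ≠ 0 := by rw [hP', Nat.cast_pow]; exact pow_ne_zero _ (by exact_mod_cast h2K)
  -- the eigenvalues of `u`
  have hWpow : ∀ i, ∀ w ∈ W, ((X ^ d) ^ i) w ∈ W := by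
    intro i
    induction i with
    | zero => intro w hw; simpa using hw
    | succ i ih => intro w hw; rw [pow_succ', Module.End.mul_apply]; exact hWd _ (ih w hw)
  have hu0 : ∑ i ∈ Finset.range P', u ^ i = 0 := by
    have h := htrans (∑ i ∈ Finset.range P', Polynomial.X ^ i) fun w hw => by
      simp only [map_sum, map_pow, Polynomial.aeval_X, LinearMap.sum_apply]
      refine hnofix _ (Submodule.sum_mem _ fun i _ => hWpow i w hw) (hsum (X ^ d) P' w ?_)
      rw [← pow_mul, hdP, hX, Module.End.one_apply]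
    simpa using h
  let s : Finset K := ((Polynomial.nthRootsFinset P' (1 : K)).erase 1) ∩ u.charpoly.roots.toFinset
  have hP'pos : 0 < P' := by positivity
  have hs : ∀ μ, u.HasEigenvalue μ → μ ∈ s := fun μ hμ => by
    obtain ⟨v, hv⟩ := hμ.exists_hasEigenvector
    have h0 : ∑ i ∈ Finset.range P', μ ^ i = 0 := by
      have h := LinearMap.congr_fun hu0 v
      simp only [LinearMap.sum_apply, hv.pow_apply, LinearMap.zero_apply, ← Finset.sum_smul] at h
      exact (smul_eq_zero.mp h).resolve_right hv.2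
    refine Finset.mem_inter.mpr ⟨Finset.mem_erase.mpr ⟨fun h1 => ?_, ?_⟩, ?_⟩
    · rw [h1] at h0; simp only [one_pow, Finset.sum_const, Finset.card_range, nsmul_one] at h0
      exact hP'K h0
    · rw [Polynomial.mem_nthRootsFinset hP'pos, ← sub_eq_zero, ← geom_sum_mul, h0, zero_mul]
    · rw [Multiset.mem_toFinset, Polynomial.mem_roots u.charpoly_monic.ne_zero]
      exact (Module.End.hasEigenvalue_iff_isRoot_charpoly u μ).mp hμ
  have hsP : s.card < P' := by
    refine lt_of_le_of_lt (Finset.card_le_card Finset.inter_subset_left) ?_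
    have h1 : (1 : K) ∈ Polynomial.nthRootsFinset P' (1 : K) := by
      rw [Polynomial.mem_nthRootsFinset hP'pos, one_pow]
    refine lt_of_lt_of_le (Finset.card_erase_lt_of_mem h1) ?_
    rw [Polynomial.nthRootsFinset_def]
    exact (Multiset.toFinset_card_le _).trans (Polynomial.card_nthRoots _ _)
  have hsN : s.card ≤ N := by
    refine le_trans (Finset.card_le_card Finset.inter_subset_right) ((Multiset.toFinset_card_le _).trans ?_)
    refine (Polynomial.card_roots' _).trans ?_
    rw [LinearMap.charpoly_natDegree, Module.finrank_pi, Fintype.card_fin]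
  have hsq := HH.sq_finrank_le_of_semisimple u P' hP'K hu s hs
  rw [Module.finrank_pi, Fintype.card_fin] at hsq
  obtain ⟨hNP, -⟩ := HH.hh_arith hN2 hsN hsP hcount hsq
  obtain ⟨f, -, hf⟩ := (Nat.dvd_prime_pow hq.out).mp (hNe ▸ dvd_pow_self N two_ne_zero : N ∣ q ^ e)
  have hf0 : 0 < f := Nat.pos_of_ne_zero fun h => by rw [hf, h, pow_zero] at hN2; omega
  have hf1 : f = 1 := eq_one_of_pow_add_one_two_pow (by have := hq.out.two_le; omega)
    (hq.out.odd_of_ne_two hq2) hf0 (k := n + 1 - a) (by rw [← hf]; exact hNP)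
  rw [hf1, pow_one] at hf
  subst hf
  exact ⟨W, a, by omega, hNP, hWne, hWd, hWinv, hWcomm, hnofix, hscalW, hnab, hidx⟩

set_option maxHeartbeats 1000000 in
/-- Consequences of the exceptional component: the fixed space of the derived group is centralised, and for
`q = 3` the element of order four in `⟨X⟩` has no fixed point in `[V, Q]`. -/
theorem identities {V : Type v} [AddCommGroup V] [Module K V] [FiniteDimensional K V]
    {Q : Type w} [Group Q] [Fintype Q] [Fintype (commutator Q)] {q : ℕ} [hq : Fact q.Prime]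
    (hq2 : q ≠ 2) (hQ : IsPGroup q Q) (hqK : (q : K) ≠ 0) (h2K : (2 : K) ≠ 0)
    (ρ : Q →* Module.End K V) (X : Module.End K V) (σ : MulAut Q) {n : ℕ}
    (hX : X ^ (2 ^ (n + 1)) = 1) (hXρ : ∀ x, X * ρ x = ρ (σ x) * X) (hσ : σ ^ (2 ^ (n + 1)) = 1)
    (hfix : ∀ a b : Q, (σ ^ (2 ^ n)) ⁅a, b⁆ = ⁅a, b⁆)
    (hgen : Subgroup.closure (Set.range fun x => (σ ^ (2 ^ n)) x * x⁻¹) = ⊤)
    (hXfix : ∀ v, X v = v → v = 0) :
    (∀ a, ρ a * (∑ c : commutator Q, ρ c) = ∑ c : commutator Q, ρ c) ∧
      (q = 3 → (∃ x, ρ x ≠ 1) → 1 ≤ n ∧ ∀ a,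
        (∑ i ∈ Finset.range 4, (X ^ (2 ^ (n - 1))) ^ i) * (ρ a - 1) = 0) := by
  classical
  have hcomp : ∀ (A : Module.End K V) (B : Module.End K V) v, (A * B) v = A (B v) := fun A B v => rfl
  constructor
  · set S : Module.End K V := ∑ c : commutator Q, ρ c with hS
    have hρS : ∀ a, ρ a * S = S * ρ a := fun a => by
      rw [hS, Finset.mul_sum, Finset.sum_mul]
      refine Fintype.sum_equiv (MulAut.conjNormal (H := commutator Q) a).toEquiv _ _ fun c => ?_
      show ρ a * ρ c = ρ ((MulAut.conjNormal a c : commutator Q) : Q) * ρ a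
      rw [← map_mul, ← map_mul, MulAut.conjNormal_apply, inv_mul_cancel_right]
    have hXS : X * S = S * X := by
      rw [hS, Finset.mul_sum, Finset.sum_mul]
      have hmap : (commutator Q).map σ.toMonoidHom = commutator Q :=
        Subgroup.characteristic_iff_map_eq.mp inferInstance σ
      refine Fintype.sum_equiv (ThompsonFPF.restrict σ (commutator Q) hmap).toEquiv _ _ fun c => ?_
      exact hXρ c
    have hcS : ∀ c ∈ commutator Q, ρ c * S = S := fun c hc => by
      rw [hS, Finset.mul_sum]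
      refine Fintype.sum_equiv (Equiv.mulLeft (⟨c, hc⟩ : commutator Q)) _ _ fun d => ?_
      rw [← map_mul]
      rfl
    set V' := LinearMap.range S with hV'
    have hinv : ∀ a, ∀ v ∈ V', ρ a v ∈ V' := by
      rintro a _ ⟨v, rfl⟩
      exact ⟨ρ a v, by rw [← hcomp, ← hcomp, hρS]⟩
    have hXinv : ∀ v ∈ V', X v ∈ V' := by
      rintro _ ⟨v, rfl⟩
      exact ⟨X v, by rw [← hcomp, ← hcomp, hXS]⟩
    let ρ' : Q →* Module.End K V' :=
      { toFun := fun a => (ρ a).restrict (hinv a)
        map_one' := LinearMap.ext fun v => Subtype.ext (by simp)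
        map_mul' := fun a b => LinearMap.ext fun v => Subtype.ext (by simp) }
    by_contra hcon
    obtain ⟨a, ha⟩ := not_forall.mp hcon
    have hnt : ∃ x, ρ' x ≠ 1 := ⟨a, fun h => ha (LinearMap.ext fun v => by
      have := congrArg Subtype.val (LinearMap.congr_fun h ⟨S v, v, rfl⟩)
      simpa [ρ'] using this)⟩
    have hXpow : ∀ (k : ℕ) (v : V'), ((((X.restrict hXinv) ^ k) v : V') : V) = (X ^ k) (v : V) := by
      intro k
      induction k with
      | zero => simp
      | succ k ih => intro v; rw [pow_succ', pow_succ', Module.End.mul_apply, Module.End.mul_apply, ← ih]; rfl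
    obtain ⟨W, b, -, -, hWne, -, hWinv, -, -, hscal, -, hcard⟩ := exists_exceptional hq2 hQ hqK h2K ρ' hnt
      (X.restrict hXinv) σ (LinearMap.ext fun v => Subtype.ext (by rw [hXpow, hX]; rfl))
      (fun x => LinearMap.ext fun v => Subtype.ext (by
        simp [ρ']
        exact LinearMap.congr_fun (hXρ x) (v : V)))
      hσ hfix hgen (fun v hv => Subtype.ext (hXfix v (congrArg Subtype.val hv)))
    have hall : ∀ x, ∃ c : K, ∀ w ∈ W, ρ' x w = c • w := fun x => hscal x fun y w _ => by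
      obtain ⟨v, hv⟩ := (hinv (y * x) (w : V) w.2)
      refine Subtype.ext ?_
      show ρ x (ρ y (w : V)) = ρ y (ρ x (w : V))
      rw [← hcomp, ← hcomp, ← map_mul, ← map_mul,
        show x * y = ⁅x, y⁆ * (y * x) by simp [commutatorElement_def, mul_assoc], map_mul, hcomp, ← hv, ← hcomp,
        hcS _ (Subgroup.commutator_mem_commutator (Subgroup.mem_top _) (Subgroup.mem_top _))]
    have hq4 : q ^ 2 = 1 := by
      rw [Nat.card_congr (Equiv.subtypeUnivEquiv hall)] at hcard
      exact (Nat.mul_eq_left Nat.card_pos.ne').mp hcard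
    have := Nat.one_lt_pow two_ne_zero hq.out.one_lt
    omega
  · intro hq3 hnt
    obtain ⟨-, b, -, hb, -⟩ := exists_exceptional hq2 hQ hqK h2K ρ hnt X σ hX hXρ hσ hfix hgen hXfix
    have hn1 : 1 ≤ n := by
      have := Nat.pow_right_injective (le_refl 2) (show 2 ^ 2 = 2 ^ (n + 1 - b) by rw [← hb, hq3])
      omega
    refine ⟨hn1, ?_⟩
    set T : Module.End K V := X ^ (2 ^ (n - 1)) with hT
    set Θ : Module.End K V := ∑ i ∈ Finset.range 4, T ^ i with hΘ
    have hT4 : T ^ 4 = 1 := by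
      rw [hT, ← pow_mul, show (4 : ℕ) = 2 ^ 2 from rfl, ← pow_add, show n - 1 + 2 = n + 1 by omega, hX]
    have hTΘ : T * Θ = Θ := by
      simp [hΘ, Finset.sum_range_succ, mul_add, ← pow_succ', hT4, ← pow_two]
      abel
    have hXΘ : X * Θ = Θ * X := by
      rw [hΘ, Finset.mul_sum, Finset.sum_mul]
      exact Finset.sum_congr rfl fun i _ => by rw [hT, ← pow_mul, ← pow_succ', ← pow_succ]
    have hXpρ : ∀ (k : ℕ) x, X ^ k * ρ x = ρ ((σ ^ k) x) * X ^ k := by
      intro k
      induction k with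
      | zero => simp
      | succ k ih =>
        intro x
        rw [pow_succ', mul_assoc, ih, ← mul_assoc, hXρ, mul_assoc, pow_succ']
        rfl
    let Y : Submodule K V :=
      { carrier := {v | ∀ a i, Θ (ρ a ((T ^ i) v)) = 0}
        zero_mem' := fun a i => by simp
        add_mem' := fun ha hb a i => by simp [ha a i, hb a i]
        smul_mem' := fun k v hv a i => by simp [hv a i] }
    have hYρ : ∀ x, ∀ v ∈ Y, ρ x v ∈ Y := fun x v hv a i => by
      obtain ⟨m, hm⟩ : ∃ m, T ^ i = X ^ m := ⟨_, by rw [hT, ← pow_mul]⟩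
      rw [hm, ← hcomp (X ^ m) (ρ x), hXpρ, hcomp, ← hcomp (ρ a), ← map_mul, ← hm]
      exact hv _ i
    have hYX : ∀ v ∈ Y, X v ∈ Y := fun v hv a i => by
      have hc : T ^ i * X = X * T ^ i := by rw [hT, ← pow_mul, ← pow_succ, ← pow_succ']
      rw [← hcomp (T ^ i), hc, hcomp, ← hcomp (ρ a)]
      have e : ρ a * X = X * ρ (σ.symm a) := by
        rw [hXρ, MulEquiv.apply_symm_apply]
      rw [e, hcomp, ← hcomp Θ, ← hXΘ, hcomp, hv _ i, map_zero]
    intro a
    refine LinearMap.ext fun v => ?_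
    suffices hmem : ρ a v - v ∈ Y by
      have := hmem 1 0
      simpa using this
    by_contra hav
    let ρb : Q →* Module.End K (V ⧸ Y) :=
      { toFun := fun x => Submodule.mapQ Y Y (ρ x) (hYρ x)
        map_one' := Submodule.linearMap_qext _ (LinearMap.ext fun v => by simp)
        map_mul' := fun x y => Submodule.linearMap_qext _ (LinearMap.ext fun v => by simp) }
    let Xb : Module.End K (V ⧸ Y) := Submodule.mapQ Y Y X hYX
    have hXb : ∀ (k : ℕ) v, (Xb ^ k) (Submodule.Quotient.mk v) = Submodule.Quotient.mk ((X ^ k) v) := by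
      intro k
      induction k with
      | zero => simp
      | succ k ih =>
        intro v
        rw [pow_succ', Module.End.mul_apply, ih, pow_succ', Module.End.mul_apply]
        exact Submodule.mapQ_apply _ _ _ _
    have hXbfix : ∀ x, Xb x = x → x = 0 := by
      intro x hx
      obtain ⟨v, rfl⟩ := Submodule.Quotient.mk_surjective _ x
      have hk : ∀ k, (Xb ^ k) (Submodule.Quotient.mk v) = Submodule.Quotient.mk v := by
        intro k
        induction k with
        | zero => simp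
        | succ k ih => rw [pow_succ', Module.End.mul_apply, ih, hx]
      have h0 : ∑ i ∈ Finset.range (2 ^ (n + 1)), (X ^ i) v = 0 := by
        refine hXfix _ ?_
        have h1 := Finset.sum_range_succ (fun i => (X ^ i) v) (2 ^ (n + 1))
        have h2 := Finset.sum_range_succ' (fun i => (X ^ i) v) (2 ^ (n + 1))
        rw [hX] at h1
        rw [pow_zero, h1] at h2
        rw [map_sum]
        refine (add_right_cancel h2.symm ▸ ?_)
        exact Finset.sum_congr rfl fun i _ => by rw [← Module.End.mul_apply, ← pow_succ']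
      have h3 := congrArg (Submodule.Quotient.mk (p := Y)) h0
      rw [← Submodule.mkQ_apply, map_sum] at h3
      simp only [Submodule.mkQ_apply, ← hXb, hk, Finset.sum_const, Finset.card_range, Submodule.Quotient.mk_zero] at h3
      rw [← Nat.cast_smul_eq_nsmul K, smul_eq_zero] at h3
      exact h3.resolve_left (by push_cast; exact pow_ne_zero _ h2K)
    have hntb : ∃ x, ρb x ≠ 1 := ⟨a, fun h => hav (by
      have := LinearMap.congr_fun h (Submodule.Quotient.mk v)
      exact (Submodule.Quotient.eq Y).mp this)⟩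
    obtain ⟨W, b, -, hb, hWne, hWd, hWinv, -, hWfix, -, -, -⟩ := exists_exceptional hq2 hQ hqK h2K ρb hntb Xb σ
      (Submodule.linearMap_qext _ (LinearMap.ext fun v => by
        show (Xb ^ 2 ^ (n + 1)) (Submodule.Quotient.mk v) = Submodule.Quotient.mk v
        rw [hXb, hX]; rfl))
      (fun x => Submodule.linearMap_qext _ (LinearMap.ext fun v => congrArg Submodule.Quotient.mk
        (LinearMap.congr_fun (hXρ x) v)))
      hσ hfix hgen hXbfix
    have hbn : b = n - 1 := by
      have := Nat.pow_right_injective (le_refl 2) (show 2 ^ 2 = 2 ^ (n + 1 - b) by rw [← hb, hq3])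
      omega
    subst hbn
    refine hWne ((Submodule.eq_bot_iff _).mpr fun x hx => ?_)
    obtain ⟨w, rfl⟩ := Submodule.Quotient.mk_surjective _ x
    refine (Submodule.Quotient.mk_eq_zero Y).mpr fun a i => ?_
    set w' := ρ a ((T ^ i) w) with hw'
    have hTW : ∀ (i : ℕ) u, Submodule.Quotient.mk u ∈ W → Submodule.Quotient.mk ((T ^ i) u) ∈ W := by
      intro i
      induction i with
      | zero => intro u hu; simpa using hu
      | succ i ih =>
        intro u hu
        rw [pow_succ', Module.End.mul_apply, hT, ← hXb]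
        exact hWd _ (ih u hu)
    have hw'W : Submodule.Quotient.mk w' ∈ W := hWinv a _ (hTW i w hx)
    have hΘY : Θ w' ∈ Y := by
      refine (Submodule.Quotient.mk_eq_zero Y).mp (hWfix _ ?_ ?_)
      · rw [hΘ, LinearMap.sum_apply, ← Submodule.mkQ_apply, map_sum]
        exact Submodule.sum_mem _ fun j _ => hTW j w' hw'W
      · rw [hXb, ← hT, ← hcomp, hTΘ]
    have h4 := hΘY 1 0
    rw [map_one, pow_zero, Module.End.one_apply, Module.End.one_apply] at h4
    have hTj : ∀ j : ℕ, T ^ j * Θ = Θ := by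
      intro j
      induction j with
      | zero => simp
      | succ j ih => rw [pow_succ, mul_assoc, hTΘ, ih]
    rw [← hcomp, show Θ * Θ = (4 : K) • Θ by
      conv_lhs => arg 1; rw [hΘ]
      rw [Finset.sum_mul, Finset.sum_congr rfl fun j _ => hTj j, Finset.sum_const, Finset.card_range,
        ← Nat.cast_smul_eq_nsmul K]
      norm_num, LinearMap.smul_apply, smul_eq_zero] at h4
    refine h4.resolve_left ?_
    rw [show (4 : K) = 2 * 2 by norm_num]
    exact mul_ne_zero h2K h2K

end Cfsg.Agent.Chars.GrossTwo
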