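/-
Gross's theorem, core: an odd `q`-group acting on a faithfully represented `r`-group, both normalised by a
fixed-point-free automorphism of `2`-power order.
-/
import Cfsg.Agent.Chars.GrossTwoRep
import Cfsg.Agent.Chars.GrossTwoLinear

set_option autoImplicit false
set_option linter.style.haveILetI false
set_option linter.unusedSectionVars false

namespace Cfsg.Agent.Chars.GrossTwo

open Module Cfsg Cfsg.Agent.Core
open scoped commutatorElement

universe u v w

theorem mulAut_pow_apply_comm {P : Type u} [Group P] (σ : MulAut P) (i j : ℕ) (x : P) :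
    (σ ^ i) ((σ ^ j) x) = (σ ^ j) ((σ ^ i) x) := by
  rw [← MulAut.mul_apply, ← MulAut.mul_apply, ← pow_add, ← pow_add, add_comm]

/-- The closure of the `τ x * x⁻¹` for an involution `τ` of an odd group. -/
def movedSubgroup {P : Type u} [Group P] (τ : MulAut P) : Subgroup P :=
  Subgroup.closure (Set.range fun x => τ x * x⁻¹)

theorem tau_moved {P : Type u} [Group P] {τ : MulAut P} (hτ : ∀ x, τ (τ x) = x) (x : P) :
    τ (τ x * x⁻¹) = (τ x * x⁻¹)⁻¹ := by
  rw [map_mul, map_inv, hτ, mul_inv_rev, inv_inv]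

theorem exists_sqrt_of_inverted {P : Type u} [Group P] [Finite P] (hodd : Odd (Nat.card P)) {τ : MulAut P}
    {w : P} (hw : τ w = w⁻¹) : ∃ u, u * u = w ∧ τ u = u⁻¹ ∧ u ∈ Subgroup.zpowers w := by
  obtain ⟨m, hm⟩ := hodd.of_dvd_nat (orderOf_dvd_natCard w)
  refine ⟨w ^ (m + 1), ?_, by rw [map_pow, hw, inv_pow], Subgroup.npow_mem_zpowers _ _⟩
  rw [← pow_add, show m + 1 + (m + 1) = orderOf w + 1 by omega, pow_succ, pow_orderOf_eq_one, one_mul]

/-- A decomposition into a fixed and an inverted part. -/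
theorem exists_decomp {P : Type u} [Group P] [Finite P] (hodd : Odd (Nat.card P)) {τ : MulAut P}
    (hτ : ∀ x, τ (τ x) = x) (x : P) :
    ∃ u ∈ movedSubgroup τ, τ u = u⁻¹ ∧ τ (u⁻¹ * x) = u⁻¹ * x := by
  have hw := tau_moved hτ x
  have hw' : τ (τ x * x⁻¹)⁻¹ = (τ x * x⁻¹)⁻¹⁻¹ := by rw [map_inv, hw]
  obtain ⟨u, hu2, hu, humem⟩ := exists_sqrt_of_inverted hodd hw'
  refine ⟨u, ?_, hu, ?_⟩
  · exact (Subgroup.zpowers_le.mpr ((movedSubgroup τ).inv_mem (Subgroup.subset_closure ⟨x, rfl⟩ : τ x * x⁻¹ ∈ movedSubgroup τ))) humem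
  · rw [map_mul, map_inv, hu, inv_inv]
    have : τ x = (τ x * x⁻¹) * x := by group
    rw [this, ← inv_inv (τ x * x⁻¹), ← hu2, mul_inv_rev, ← mul_assoc, ← mul_assoc, mul_inv_cancel, one_mul]

/-- `P / Φ(P)` as a module. -/
theorem exists_frattini_module {P : Type u} [Group P] [Finite P] {r : ℕ} [Fact r.Prime] (hP : IsPGroup r P) :
    ∃ (M : Type u) (_ : AddCommGroup M) (_ : Module (ZMod r) M) (_ : Finite M) (π : P → M)
      (L : MulAut P →* Module.End (ZMod r) M),
      Function.Surjective π ∧ (∀ x y, π (x * y) = π x + π y) ∧ (∀ x, π x = 0 ↔ x ∈ frattini P) ∧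
      (∀ f x, L f (π x) = π (f x)) := by
  letI : CommGroup (P ⧸ frattini P) :=
    { (inferInstance : Group (P ⧸ frattini P)) with mul_comm := FGS3.quotient_frattini_comm hP }
  have hexp : ∀ a : Additive (P ⧸ frattini P), r • a = 0 := fun a => by
    apply Additive.toMul.injective
    rw [toMul_nsmul, toMul_zero]
    exact FGS3.quotient_frattini_pow hP (Additive.toMul a)
  haveI : Module (ZMod r) (Additive (P ⧸ frattini P)) := AddCommGroup.zmodModule hexp
  have hc : ∀ f : MulAut P, frattini P ≤ (frattini P).comap f.toMonoidHom := fun f =>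
    Subgroup.map_le_iff_le_comap.mp (Subgroup.characteristic_iff_map_le.mp (frattini_characteristic (G := P)) f)
  let fa : MulAut P → (Additive (P ⧸ frattini P) →+ Additive (P ⧸ frattini P)) := fun f =>
    MonoidHom.toAdditive (QuotientGroup.map _ _ f.toMonoidHom (hc f))
  let Lf : MulAut P → (Additive (P ⧸ frattini P) →ₗ[ZMod r] Additive (P ⧸ frattini P)) := fun f =>
    { toFun := fa f
      map_add' := (fa f).map_add
      map_smul' := fun c m => ZMod.map_smul (fa f) c m }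
  let π : P → Additive (P ⧸ frattini P) := fun x => Additive.ofMul (x : P ⧸ frattini P)
  have hLf : ∀ f x, Lf f (π x) = π (f x) := fun f x => rfl
  have hsurj : ∀ m : Additive (P ⧸ frattini P), ∃ x : P, π x = m := fun m => by
    obtain ⟨x, hx⟩ := QuotientGroup.mk_surjective (Additive.toMul m)
    exact ⟨x, by show Additive.ofMul (x : P ⧸ frattini P) = m; rw [hx, ofMul_toMul]⟩
  let L : MulAut P →* Module.End (ZMod r) (Additive (P ⧸ frattini P)) :=
    { toFun := Lf
      map_one' := LinearMap.ext fun m => by obtain ⟨x, rfl⟩ := hsurj m; rfl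
      map_mul' := fun f g => LinearMap.ext fun m => by obtain ⟨x, rfl⟩ := hsurj m; rfl }
  refine ⟨_, inferInstance, inferInstance, inferInstance, π, L, hsurj, fun x y => by simp [π], fun x => ?_,
    fun f x => rfl⟩
  show Additive.ofMul (x : P ⧸ frattini P) = 0 ↔ _
  rw [ofMul_eq_zero]
  exact QuotientGroup.eq_one_iff x

variable {K : Type*} [Field K] [IsAlgClosed K] {V : Type v} [AddCommGroup V] [Module K V] [FiniteDimensional K V]
  {P : Type u} [Group P] [Finite P] {r : ℕ} [hr : Fact r.Prime]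

/-- On an invariant abelian subgroup the involution in `⟨σ⟩` is trivial. -/
theorem trivial_on_abelian (hr2 : r ≠ 2) (hP : IsPGroup r P) (hrK : (r : K) ≠ 0) (h2K : (2 : K) ≠ 0)
    (ρ : P →* Module.End K V) (hρ : Function.Injective ρ) (X : Module.End K V) (σ : MulAut P) {n : ℕ}
    (hX : X ^ (2 ^ (n + 1)) = 1) (hXρ : ∀ x, X * ρ x = ρ (σ x) * X) (hσ : σ ^ (2 ^ (n + 1)) = 1)
    (hXfix : ∀ v, X v = v → v = 0) (B : Subgroup P) (hB : B.map σ.toMonoidHom = B)
    (hab : ∀ x ∈ B, ∀ y ∈ B, x * y = y * x) : ∀ x ∈ B, (σ ^ (2 ^ n)) x = x := by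
  haveI : Fact (Nat.Prime 2) := ⟨Nat.prime_two⟩
  by_contra hcon
  simp only [not_forall] at hcon
  obtain ⟨x, hx, hne⟩ := hcon
  obtain ⟨S, σS, hSB, hσS, hσSn, hfix, hgen, s, hs⟩ :=
    HH.exists_minimal_sub_aut (p := 2) (q := r) (Ne.symm hr2) σ hσ B (hP.to_subgroup B) hB ⟨x, hx, hne⟩
  obtain ⟨-, -, -, -, -, -, -, -, -, -, ⟨a, b, hab'⟩, -⟩ := exists_exceptional hr2 (hP.to_subgroup S) hrK h2K
    (ρ.comp S.subtype) ⟨s, fun h => hs (Subtype.ext (hρ (h.trans (map_one ρ).symm)))⟩ X σS hX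
    (fun t => by
      show X * ρ (t : P) = ρ ((σS t : S) : P) * X
      rw [hσS]; exact hXρ t)
    hσSn hfix hgen hXfix
  exact hab' (Subtype.ext (hab _ (hSB a.2) _ (hSB b.2)))

set_option maxHeartbeats 4000000 in
/-- The core, for a minimal `P`. -/
theorem false_of_minimal {A : Type w} [Group A] [Finite A] {q : ℕ} [hq : Fact q.Prime] (hr2 : r ≠ 2)
    (hq2 : q ≠ 2) (hqr : q ≠ r) (hP : IsPGroup r P) (hA : IsPGroup q A) (hrK : (r : K) ≠ 0) (h2K : (2 : K) ≠ 0)
    (ρ : P →* Module.End K V) (hρ : Function.Injective ρ) (X : Module.End K V) (σ : MulAut P) {n : ℕ}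
    (hX : X ^ (2 ^ (n + 1)) = 1) (hXρ : ∀ x, X * ρ x = ρ (σ x) * X) (hσ : σ ^ (2 ^ (n + 1)) = 1)
    (hXfix : ∀ v, X v = v → v = 0) (hfpf : ∀ x, σ x = x → x = 1)
    (act : A →* MulAut P) (α : MulAut A) (hcompat : ∀ a, σ * act a = act (α a) * σ)
    (hα : α ^ (2 ^ (n + 1)) = 1)
    (hfixA : ∀ a b : A, (α ^ (2 ^ n)) ⁅a, b⁆ = ⁅a, b⁆)
    (hgenA : Subgroup.closure (Set.range fun a => (α ^ (2 ^ n)) a * a⁻¹) = ⊤)
    (hnt : ∃ a x, act a x ≠ x)
    (hmin : ∀ H : Subgroup P, H.map σ.toMonoidHom = H → (∀ a, ∀ x ∈ H, act a x ∈ H) → H ≠ ⊤ →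
      ∀ a, ∀ x ∈ H, act a x = x) : False := by
  classical
  haveI : Fact (Nat.Prime 2) := ⟨Nat.prime_two⟩
  haveI : Group.IsNilpotent P := hP.isNilpotent
  have hoddP : Odd (Nat.card P) := by
    obtain ⟨k, hk⟩ := IsPGroup.iff_card.mp hP
    rw [hk]; exact (hr.out.odd_of_ne_two hr2).pow
  have hcardA : ∃ k, Nat.card A = q ^ k := IsPGroup.iff_card.mp hA
  have hoddA : Odd (Nat.card A) := by
    obtain ⟨k, hk⟩ := hcardA
    rw [hk]; exact (hq.out.odd_of_ne_two hq2).pow
  have hσpow : ∀ (j : ℕ) a, σ ^ j * act a = act ((α ^ j) a) * σ ^ j := by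
    intro j
    induction j with
    | zero => simp
    | succ j ih => intro a; rw [pow_succ', mul_assoc, ih, ← mul_assoc, hcompat, mul_assoc, pow_succ']; rfl
  set τ : MulAut P := σ ^ (2 ^ n) with hτdef
  set τA : MulAut A := α ^ (2 ^ n) with hτAdef
  have hτ2 : ∀ x, τ (τ x) = x := fun x => by
    rw [hτdef, ← MulAut.mul_apply, ← pow_add, ← two_mul, ← pow_succ', hσ]; rfl
  have hτA2 : ∀ a, τA (τA a) = a := fun a => by
    rw [hτAdef, ← MulAut.mul_apply, ← pow_add, ← two_mul, ← pow_succ', hα]; rfl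
  haveI : Nontrivial P := by
    obtain ⟨a, x, hax⟩ := hnt
    exact ⟨⟨act a x, x, hax⟩⟩
  -- the set of all `act a x * x⁻¹` generates
  have hDtop : Subgroup.closure (Set.range fun t : A × P => act t.1 t.2 * t.2⁻¹) = ⊤ := by
    set D := Subgroup.closure (Set.range fun t : A × P => act t.1 t.2 * t.2⁻¹)
    by_contra hD
    have hDσ : D.map σ.toMonoidHom = D := ThompsonFPF.map_eq_of_le (by
      rw [MonoidHom.map_closure, Subgroup.closure_le]
      rintro _ ⟨_, ⟨⟨a, x⟩, rfl⟩, rfl⟩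
      refine Subgroup.subset_closure ⟨(α a, σ x), ?_⟩
      show act (α a) (σ x) * (σ x)⁻¹ = σ (act a x * x⁻¹)
      rw [map_mul, map_inv, ← MulAut.mul_apply, ← hcompat]; rfl)
    have hDA : ∀ a, ∀ x ∈ D, act a x ∈ D := fun a x hx => by
      have hle : D.map (act a).toMonoidHom ≤ D := by
        rw [MonoidHom.map_closure, Subgroup.closure_le]
        rintro _ ⟨_, ⟨⟨b, y⟩, rfl⟩, rfl⟩
        show act a (act b y * y⁻¹) ∈ D
        rw [show act a (act b y * y⁻¹) = (act (a * b) y * y⁻¹) * (act a y * y⁻¹)⁻¹ by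
          rw [map_mul, map_mul, MulAut.mul_apply, map_inv]; group]
        exact D.mul_mem (Subgroup.subset_closure ⟨(a * b, y), rfl⟩)
          (D.inv_mem (Subgroup.subset_closure ⟨(a, y), rfl⟩))
      exact hle ⟨x, hx, rfl⟩
    obtain ⟨a, x, hax⟩ := hnt
    have hw := hmin D hDσ hDA hD a _ (Subgroup.subset_closure ⟨(a, x), rfl⟩)
    simp only at hw
    have hiter : ∀ j : ℕ, act (a ^ j) x = (act a x * x⁻¹) ^ j * x := by
      intro j
      induction j with
      | zero => simp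
      | succ j ih =>
        rw [pow_succ' a, map_mul, MulAut.mul_apply, ih, map_mul, map_pow, hw, pow_succ, mul_assoc,
          inv_mul_cancel_right]
    have h1 := hiter (Nat.card A)
    rw [pow_card_eq_one', map_one, MulAut.one_apply, right_eq_mul] at h1
    obtain ⟨k, hk⟩ := hcardA
    obtain ⟨j, hj⟩ := hP (act a x * x⁻¹)
    rw [hk] at h1
    exact hax (mul_inv_eq_one.mp (orderOf_eq_one_iff.mp (Nat.eq_one_of_dvd_coprimes
      (Nat.Coprime.pow k j ((Nat.coprime_primes hq.out hr.out).mpr hqr))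
      (orderOf_dvd_of_pow_eq_one h1) (orderOf_dvd_of_pow_eq_one hj))))
  -- normal subgroups fixed pointwise by `A` are central
  have hcentral : ∀ H : Subgroup P, H.Normal → (∀ a, ∀ x ∈ H, act a x = x) → H ≤ Subgroup.center P := by
    intro H hH hfix c hc
    refine Subgroup.mem_center_iff.mpr fun g => ?_
    have hle : Subgroup.closure (Set.range fun t : A × P => act t.1 t.2 * t.2⁻¹) ≤ Subgroup.centralizer {c} := by
      rw [Subgroup.closure_le]
      rintro _ ⟨⟨a, x⟩, rfl⟩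
      refine Subgroup.mem_centralizer_singleton_iff.mpr ?_
      show act a x * x⁻¹ * c = c * (act a x * x⁻¹)
      have h := hfix a (x⁻¹ * c * x) (by simpa using hH.conj_mem c hc x⁻¹)
      rw [map_mul, map_mul, map_inv, hfix a c hc] at h
      calc act a x * x⁻¹ * c = act a x * (x⁻¹ * c * x) * x⁻¹ := by group
        _ = act a x * ((act a x)⁻¹ * c * act a x) * x⁻¹ := by rw [← h]
        _ = c * (act a x * x⁻¹) := by group
    rw [hDtop] at hle
    exact Subgroup.mem_centralizer_singleton_iff.mp (hle (Subgroup.mem_top g))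
  have hchar : ∀ H : Subgroup P, H.Characteristic → H ≠ ⊤ → ∀ a, ∀ x ∈ H, act a x = x := fun H hH hne =>
    hmin H (Subgroup.characteristic_iff_map_eq.mp hH σ)
      (fun a x hx => Subgroup.characteristic_iff_map_le.mp hH (act a) ⟨x, hx, rfl⟩) hne
  have hP'A : ∀ a, ∀ x ∈ commutator P, act a x = x :=
    hchar _ inferInstance (Group.IsSolvable.commutator_lt_top_of_nontrivial (G := P)).ne
  have hΦA : ∀ a, ∀ x ∈ frattini P, act a x = x := by
    refine hchar _ (frattini_characteristic (G := P)) fun htop => ?_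
    exact not_nontrivial_iff_subsingleton.mpr (Subgroup.subsingleton_iff.mp
      (subsingleton_of_bot_eq_top (frattini_nongenerating (K := ⊥) (by rw [htop, bot_sup_eq])))) ‹_›
  have hP'Z : commutator P ≤ Subgroup.center P := hcentral _ inferInstance hP'A
  have hΦZ : frattini P ≤ Subgroup.center P :=
    hcentral _ (by haveI := frattini_characteristic (G := P); infer_instance) hΦA
  have hcom : ∀ x y g : P, ⁅x, y⁆ * g = g * ⁅x, y⁆ := fun x y g => (Subgroup.mem_center_iff.mp (hP'Z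
    (Subgroup.commutator_mem_commutator (Subgroup.mem_top x) (Subgroup.mem_top y))) g).symm
  have hbimul : ∀ a b c : P, ⁅a * b, c⁆ = ⁅a, c⁆ * ⁅b, c⁆ := fun a b c => by
    calc ⁅a * b, c⁆ = a * ⁅b, c⁆ * a⁻¹ * ⁅a, c⁆ := by simp only [commutatorElement_def]; group
      _ = ⁅a, c⁆ * ⁅b, c⁆ := by rw [← hcom b c a, mul_inv_cancel_right, hcom b c]
  have hbimul' : ∀ a b c : P, ⁅a, b * c⁆ = ⁅a, b⁆ * ⁅a, c⁆ := fun a b c => by
    calc ⁅a, b * c⁆ = ⁅a, b⁆ * (b * ⁅a, c⁆ * b⁻¹) := by simp only [commutatorElement_def]; group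
      _ = ⁅a, b⁆ * ⁅a, c⁆ := by rw [← hcom a c b, mul_inv_cancel_right]
  -- `τ` on `P`
  have habel : ∀ B : Subgroup P, B.map σ.toMonoidHom = B → (∀ x ∈ B, ∀ y ∈ B, x * y = y * x) →
      ∀ x ∈ B, τ x = x := trivial_on_abelian hr2 hP hrK h2K ρ hρ X σ hX hXρ hσ hXfix
  obtain ⟨a1, x1, hax1⟩ := hnt
  have hact1 : ∀ (B : Subgroup A), (∀ a, τA a * a⁻¹ ∈ B) → B = ⊤ := fun B hB => top_le_iff.mp (by
    rw [← hgenA, Subgroup.closure_le]; rintro _ ⟨a, rfl⟩; exact hB a)
  have hτact : ∀ a, τ * act a = act (τA a) * τ := hσpow (2 ^ n)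
  have hnab : ¬ ∀ x y : P, x * y = y * x := fun hab => by
    have hτ1 : τ = 1 := MulEquiv.ext fun x => habel ⊤ (Subgroup.map_top_of_surjective _ σ.surjective)
      (fun x _ y _ => hab x y) x (Subgroup.mem_top x)
    have hk : act.ker = ⊤ := hact1 _ fun a => MonoidHom.mem_ker.mpr (by
      have h := hτact a
      rw [hτ1, one_mul, mul_one] at h
      rw [map_mul, ← h, map_inv, mul_inv_cancel])
    have h1 : act a1 = 1 := MonoidHom.mem_ker.mp (hk ▸ Subgroup.mem_top a1)
    exact hax1 (by rw [h1]; rfl)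
  set Z := Subgroup.center P with hZdef
  have hτZ : ∀ x ∈ Z, τ x = x := habel Z (Subgroup.characteristic_iff_map_eq.mp inferInstance σ)
    (fun x hx y _ => (Subgroup.mem_center_iff.mp hx y).symm)
  have hτcomm : ∀ x y : P, τ ⁅x, y⁆ = ⁅x, y⁆ := fun x y =>
    hτZ _ (hP'Z (Subgroup.commutator_mem_commutator (Subgroup.mem_top x) (Subgroup.mem_top y)))
  have hactcomm : ∀ a (x y : P), ⁅act a x, act a y⁆ = ⁅x, y⁆ := fun a x y => by
    rw [← map_commutatorElement (act a)]
    exact hP'A a _ (Subgroup.commutator_mem_commutator (Subgroup.mem_top x) (Subgroup.mem_top y))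
  -- inverted elements commute with fixed elements
  have hIC : ∀ u c : P, τ u = u⁻¹ → τ c = c → ⁅u, c⁆ = 1 := by
    intro u c hu hc
    have h := hτcomm u c
    rw [map_commutatorElement, hu, hc] at h
    have h1 : ⁅u⁻¹, c⁆ * ⁅u, c⁆ = 1 := by rw [← hbimul, inv_mul_cancel, commutatorElement_one_left]
    rw [h] at h1
    refine orderOf_eq_one_iff.mp (Nat.eq_one_of_dvd_coprimes (Nat.coprime_two_left.mpr hoddP)
      (orderOf_dvd_of_pow_eq_one (by rw [pow_two]; exact h1)) (orderOf_dvd_natCard _))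
  -- a nontrivial commutator with an element moved by `A`
  obtain ⟨a2, x2, g2, he2⟩ : ∃ (a : A) (x g : P), ⁅act a x * x⁻¹, g⁆ ≠ 1 := by
    by_contra hno
    simp only [not_exists, not_not] at hno
    refine hnab fun x y => ?_
    have hle : Subgroup.closure (Set.range fun t : A × P => act t.1 t.2 * t.2⁻¹) ≤ Subgroup.center P := by
      rw [Subgroup.closure_le]
      rintro _ ⟨⟨a, x⟩, rfl⟩
      exact Subgroup.mem_center_iff.mpr fun g => (commutatorElement_eq_one_iff_mul_comm.mp (hno a x g)).symm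
    rw [hDtop] at hle
    exact (Subgroup.mem_center_iff.mp (hle (Subgroup.mem_top x)) y).symm
  -- a character of the centre
  have hinvρ : ∀ x v, ρ x (ρ x⁻¹ v) = v ∧ ρ x⁻¹ (ρ x v) = v := fun x v => mul_left_inv_apply ρ x v
  have hcardK : (Nat.card P : K) ≠ 0 := by
    obtain ⟨k, hk⟩ := IsPGroup.iff_card.mp hP
    rw [hk, Nat.cast_pow]; exact pow_ne_zero _ hrK
  set z2 := ⁅act a2 x2 * x2⁻¹, g2⁆ with hz2
  obtain ⟨W0, hW0ne, hW0inv, hW0scal, hW0z⟩ : ∃ W0 : Submodule K V, W0 ≠ ⊥ ∧ (∀ x, ∀ v ∈ W0, ρ x v ∈ W0) ∧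
      (∀ z ∈ Z, ∃ c : K, ∀ v ∈ W0, ρ z v = c • v) ∧ (∀ v ∈ W0, ρ z2 v = v → v = 0) := by
    set R := LinearMap.range (ρ z2 - 1) with hR
    have hRne : R ≠ ⊥ := fun h0 => he2 (hρ ((sub_eq_zero.mp (LinearMap.range_eq_bot.mp h0)).trans (map_one ρ).symm))
    have hRinv : ∀ x, ∀ v ∈ R, ρ x v ∈ R := by
      rintro x _ ⟨v, rfl⟩
      refine ⟨ρ x v, ?_⟩
      simp only [LinearMap.sub_apply, Module.End.one_apply, map_sub, ← Module.End.mul_apply, ← map_mul]
      rw [hz2, hcom, one_mul]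
    have hex : ∃ d, ∃ U : Submodule K V, (U ≠ ⊥ ∧ U ≤ R ∧ ∀ x, ∀ v ∈ U, ρ x v ∈ U) ∧ finrank K U = d :=
      ⟨_, R, ⟨hRne, le_rfl, hRinv⟩, rfl⟩
    obtain ⟨W0, ⟨hne, hleR, hinv⟩, hdim⟩ := Nat.find_spec hex
    refine ⟨W0, hne, hinv, fun z hz => ?_, fun v hv hfix => ?_⟩
    · haveI : Nontrivial W0 := Submodule.nontrivial_iff_ne_bot.mpr hne
      obtain ⟨c, hc⟩ := Module.End.exists_eigenvalue (K := K) (V := W0) ((ρ z).restrict (hinv z))
      obtain ⟨v0, hv0⟩ := hc.exists_hasEigenvector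
      let U : Submodule K V := W0 ⊓ Module.End.eigenspace (ρ z) c
      have hU : U = W0 := by
        refine Submodule.eq_of_le_of_finrank_le inf_le_left (hdim ▸ Nat.find_min' hex ⟨U, ⟨fun hb => hv0.2 ?_,
          inf_le_left.trans hleR, fun x v hv => ⟨hinv x v hv.1, ?_⟩⟩, rfl⟩)
        · refine Subtype.ext ((Submodule.mem_bot K).mp (hb ▸ ⟨v0.2, Module.End.mem_eigenspace_iff.mpr ?_⟩))
          exact congrArg Subtype.val hv0.apply_eq_smul
        · show ρ x v ∈ Module.End.eigenspace (ρ z) c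
          rw [Module.End.mem_eigenspace_iff, ← Module.End.mul_apply, ← map_mul,
            ← Subgroup.mem_center_iff.mp hz x, map_mul, Module.End.mul_apply,
            Module.End.mem_eigenspace_iff.mp hv.2, map_smul]
      exact ⟨c, fun v hv => Module.End.mem_eigenspace_iff.mp (hU.symm ▸ hv : v ∈ U).2⟩
    · obtain ⟨u, rfl⟩ := hleR hv
      rw [LinearMap.sub_apply, Module.End.one_apply] at hfix ⊢
      rw [fixed_of_sq_sub hcardK (pow_natCard_eq_one ρ z2) hfix, sub_self]
  obtain ⟨w0, hw0, hw0ne⟩ := Submodule.exists_mem_ne_zero_of_ne_bot hW0ne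
  choose lam hlam using fun z : Z => hW0scal z z.2
  have hlamu : ∀ (z : Z) (c : K), ρ z w0 = c • w0 → lam z = c := fun z c hc =>
    smul_left_injective K hw0ne ((hlam z w0 hw0).symm.trans hc)
  have hZσ : ∀ (j : ℕ), ∀ z ∈ Z, (σ ^ j) z ∈ Z := fun j z hz =>
    Subgroup.characteristic_iff_map_le.mp inferInstance (σ ^ j) ⟨z, hz, rfl⟩
  let sh : ℕ → Z → Z := fun j z => ⟨(σ ^ j) z, hZσ j z z.2⟩
  have hsh : ∀ i j z, sh i (sh j z) = sh (i + j) z := fun i j z => Subtype.ext (by
    show (σ ^ i) ((σ ^ j) z) = _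
    rw [← MulAut.mul_apply, ← pow_add])
  obtain ⟨d0, hd0pos, hd0S, hd0dvd, -⟩ := HH.exists_dvd_of_closed (S := fun d => ∀ z, lam (sh d z) = lam z)
    (fun a b ha hb z => by rw [← hsh, ha, hb])
    (fun a b ha hab z => by rw [← ha (sh b z), hsh, hab])
    (P := 2 ^ n) (by positivity) (fun z => congrArg lam (Subtype.ext (hτZ z z.2)))
  obtain ⟨s, hsn, rfl⟩ := (Nat.dvd_prime_pow Nat.prime_two).mp (hd0dvd _ fun z => congrArg lam (Subtype.ext (hτZ z z.2)))
  let Vl : Submodule K V :=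
    { carrier := {v | ∀ z : Z, ρ z v = lam z • v}
      zero_mem' := fun z => by simp
      add_mem' := fun ha hb z => by rw [map_add, ha z, hb z, smul_add]
      smul_mem' := fun k v hv z => by rw [map_smul, hv z, smul_comm] }
  have hVlinv : ∀ x, ∀ v ∈ Vl, ρ x v ∈ Vl := fun x v hv z => by
    rw [← Module.End.mul_apply, ← map_mul, ← Subgroup.mem_center_iff.mp z.2 x, map_mul, Module.End.mul_apply, hv z,
      map_smul]
  have hXpρ : ∀ (j : ℕ) x v, (X ^ j) (ρ x v) = ρ ((σ ^ j) x) ((X ^ j) v) := by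
    intro j
    induction j with
    | zero => simp
    | succ j ih =>
      intro x v
      rw [pow_succ', Module.End.mul_apply, ih, ← Module.End.mul_apply, hXρ, Module.End.mul_apply, pow_succ',
        MulAut.mul_apply]
      rfl
  have hXz : ∀ (j : ℕ), ∀ v ∈ Vl, ∀ z : Z, ρ (sh j z : Z) ((X ^ j) v) = lam z • (X ^ j) v := fun j v hv z => by
    show ρ ((σ ^ j) z) _ = _
    rw [← hXpρ, hv z, map_smul]
  have hXVl : ∀ v ∈ Vl, (X ^ 2 ^ s) v ∈ Vl := fun v hv z => by
    have hper : ∀ z, sh (2 ^ (n + 1)) z = z := fun z => Subtype.ext (by show (σ ^ _) _ = _; rw [hσ]; rfl)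
    have hle : 2 ^ s ≤ 2 ^ (n + 1) := Nat.pow_le_pow_right (by norm_num) (by omega)
    have h := hXz (2 ^ s) v hv (sh (2 ^ (n + 1) - 2 ^ s) z)
    rw [hsh, Nat.add_sub_cancel' hle, hper] at h
    rw [h, ← hd0S, hsh, Nat.add_sub_cancel' hle, hper]
  -- the translates are independent
  have hVlfix : ∀ v ∈ Vl, (X ^ 2 ^ s) v = v → v = 0 := by
    intro v hv hfixv
    have hkey : ∀ S : Finset ℕ, (∀ i ∈ S, 0 < i ∧ i < 2 ^ s) → ∃ (T : Module.End K V) (c : K), c ≠ 0 ∧ T v = c • v ∧
        (∀ i ∈ S, T ((X ^ i) v) = 0) ∧ ∀ j, ∃ d : K, T ((X ^ j) v) = d • (X ^ j) v := by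
      intro S
      induction S using Finset.induction with
      | empty => exact fun _ => ⟨1, 1, one_ne_zero, by simp, by simp, fun j => ⟨1, by simp⟩⟩
      | @insert i S _ ih =>
        intro hS
        obtain ⟨T, c, hc, hTv, hTS, hTd⟩ := ih fun k hk => hS k (Finset.mem_insert_of_mem hk)
        obtain ⟨hi0, his⟩ := hS i (Finset.mem_insert_self i S)
        obtain ⟨z, hz⟩ : ∃ z, lam (sh i z) ≠ lam z := by
          by_contra hno
          simp only [not_exists, not_not] at hno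
          exact absurd (Nat.le_of_dvd hi0 (hd0dvd i hno)) (by omega)
        let M : Module.End K V := ρ (sh i z : Z) - lam z • 1
        have hMj : ∀ j, ∃ d : K, M ((X ^ j) v) = d • (X ^ j) v := fun j => by
          have hper : ∀ z, sh (2 ^ (n + 1)) z = z := fun z => Subtype.ext (by show (σ ^ _) _ = _; rw [hσ]; rfl)
          obtain ⟨k, hk⟩ : ∃ k, sh j (sh k (sh i z)) = sh i z := by
            refine ⟨j * (2 ^ (n + 1) - 1), ?_⟩
            rw [hsh]
            have : j + j * (2 ^ (n + 1) - 1) = 2 ^ (n + 1) * j := by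
              obtain ⟨t, ht⟩ : ∃ t, 2 ^ (n + 1) = t + 1 := ⟨2 ^ (n + 1) - 1, by have := Nat.one_le_two_pow (n := n + 1); omega⟩
              rw [ht, Nat.add_sub_cancel]; ring
            rw [this]
            clear this
            generalize sh i z = y
            induction j with
            | zero => exact Subtype.ext (by simp [sh])
            | succ j ihj => rw [Nat.mul_succ, ← hsh, hper, ihj]
          refine ⟨lam (sh k (sh i z)) - lam z, ?_⟩
          have h := hXz j v hv (sh k (sh i z))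
          rw [hk] at h
          rw [LinearMap.sub_apply, LinearMap.smul_apply, Module.End.one_apply, h, sub_smul]
        refine ⟨M * T, c * (lam (sh i z) - lam z), mul_ne_zero hc (sub_ne_zero.mpr hz), ?_, ?_, fun j => ?_⟩
        · rw [Module.End.mul_apply, hTv, map_smul, LinearMap.sub_apply, LinearMap.smul_apply, Module.End.one_apply,
            hv (sh i z), ← sub_smul, smul_smul]
        · intro k hk
          rcases Finset.mem_insert.mp hk with rfl | hk
          · obtain ⟨d, hd⟩ := hTd k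
            rw [Module.End.mul_apply, hd, map_smul, LinearMap.sub_apply, LinearMap.smul_apply, Module.End.one_apply,
              hXz k v hv z, sub_self, smul_zero]
          · rw [Module.End.mul_apply, hTS k hk, map_zero]
        · obtain ⟨d, hd⟩ := hTd j
          obtain ⟨e, he⟩ := hMj j
          exact ⟨d * e, by rw [Module.End.mul_apply, hd, map_smul, he, smul_smul]⟩
    have hs2 : 0 < 2 ^ s := by positivity
    have h0 : ∑ i ∈ Finset.range (2 ^ s), (X ^ i) v = 0 := by
      refine hXfix _ ?_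
      have h1 := Finset.sum_range_succ (fun i => (X ^ i) v) (2 ^ s)
      have h2 := Finset.sum_range_succ' (fun i => (X ^ i) v) (2 ^ s)
      rw [hfixv] at h1
      rw [pow_zero, Module.End.one_apply, h1] at h2
      rw [map_sum]
      refine (add_right_cancel h2.symm ▸ ?_)
      exact Finset.sum_congr rfl fun i _ => by rw [← Module.End.mul_apply, ← pow_succ']
    obtain ⟨T, c, hc, hTv, hTS, -⟩ := hkey ((Finset.range (2 ^ s)).erase 0) fun i hi => by
      simp at hi; omega
    have h1 := congrArg T h0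
    rw [map_sum, map_zero, Finset.sum_eq_single 0] at h1
    · rw [pow_zero, Module.End.one_apply, hTv] at h1
      exact (smul_eq_zero.mp h1).resolve_left hc
    · intro i hi hi0
      exact hTS i (Finset.mem_erase.mpr ⟨hi0, hi⟩)
    · exact fun h => absurd (Finset.mem_range.mpr hs2) h
  -- `[P, τ]` acting on the character space
  set P1 := movedSubgroup τ with hP1
  have hP1gen : ∀ x : P, τ x = x⁻¹ → x ∈ P1 := fun x hx => by
    obtain ⟨u, hu2, hu, -⟩ := exists_sqrt_of_inverted hoddP hx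
    have h : τ u * u⁻¹ ∈ P1 := Subgroup.subset_closure ⟨u, rfl⟩
    rw [hu, ← mul_inv_rev, hu2] at h
    simpa using P1.inv_mem h
  have hP1σ : P1.map (σ ^ 2 ^ s).toMonoidHom = P1 := ThompsonFPF.map_eq_of_le (by
    rw [hP1, movedSubgroup, MonoidHom.map_closure, Subgroup.closure_le]
    rintro _ ⟨_, ⟨x, rfl⟩, rfl⟩
    refine Subgroup.subset_closure ⟨(σ ^ 2 ^ s) x, ?_⟩
    show τ ((σ ^ 2 ^ s) x) * ((σ ^ 2 ^ s) x)⁻¹ = (σ ^ 2 ^ s) (τ x * x⁻¹)
    rw [map_mul, map_inv, hτdef, mulAut_pow_apply_comm])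
  let σ1 : MulAut P1 := ThompsonFPF.restrict (σ ^ 2 ^ s) P1 hP1σ
  have hσ1 : ∀ (j : ℕ) (x : P1), (((σ1 ^ j) x : P1) : P) = (σ ^ (2 ^ s * j)) (x : P) := fun j x => by
    rw [HH.coe_pow_restrict, pow_mul]
  have hns : 2 ^ s * 2 ^ (n - s) = 2 ^ n := by rw [← pow_add, Nat.add_sub_cancel' hsn]
  have hns1 : 2 ^ s * 2 ^ (n - s + 1) = 2 ^ (n + 1) := by rw [pow_succ, ← mul_assoc, hns, ← pow_succ]
  let ρ1 : P1 →* Module.End K Vl :=
    { toFun := fun x => (ρ (x : P)).restrict (hVlinv (x : P))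
      map_one' := LinearMap.ext fun v => Subtype.ext (by simp)
      map_mul' := fun a b => LinearMap.ext fun v => Subtype.ext (by simp) }
  -- the radical at `W0`
  let Rad : Submodule K V → Subgroup P := fun W =>
    { carrier := {x | ∀ y, ∀ v ∈ W, ρ ⁅x, y⁆ v = v}
      one_mem' := fun y v _ => by rw [commutatorElement_one_left, map_one, Module.End.one_apply]
      mul_mem' := fun {a b} ha hb y v hv => by
        rw [hbimul, map_mul, Module.End.mul_apply, hb y v hv, ha y v hv]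
      inv_mem' := fun {a} ha y v hv => by
        have h1 : ⁅a⁻¹, y⁆ * ⁅a, y⁆ = 1 := by rw [← hbimul, inv_mul_cancel, commutatorElement_one_left]
        conv_lhs => rw [← ha y v hv, ← Module.End.mul_apply, ← map_mul, h1, map_one, Module.End.one_apply] }
  have hRadA : ∀ W a, ∀ x ∈ Rad W, act a x ∈ Rad W := fun W a x hx y v hv => by
    rw [show y = act a ((act a).symm y) from ((act a).apply_symm_apply y).symm, hactcomm]
    exact hx _ v hv
  have he0 : ∀ W : Submodule K V, W ≠ ⊥ → W ≤ Vl → act a2 x2 * x2⁻¹ ∉ Rad W := fun W hW hWl hmem => by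
    obtain ⟨w, hw, hwne⟩ := Submodule.exists_mem_ne_zero_of_ne_bot hW
    have hz2Z : z2 ∈ Z := hP'Z (Subgroup.commutator_mem_commutator (Subgroup.mem_top _) (Subgroup.mem_top _))
    have h1 := hWl hw ⟨z2, hz2Z⟩
    rw [hmem g2 w hw] at h1
    refine hw0ne (hW0z w0 hw0 ?_)
    rw [hlam ⟨z2, hz2Z⟩ w0 hw0, smul_left_injective K hwne (show lam ⟨z2, hz2Z⟩ • w = (1 : K) • w by
      rw [one_smul]; exact h1.symm), one_smul]
  have hP1Rad : ∀ W : Submodule K V, W ≠ ⊥ → W ≤ Vl → ¬ P1 ≤ Rad W := fun W hW hWl hle => by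
    refine he0 W hW hWl ?_
    let B : Subgroup A :=
      { carrier := {a | ∀ x, act a x * x⁻¹ ∈ Rad W}
        one_mem' := fun x => by simp
        mul_mem' := fun {a b} ha hb x => by
          rw [map_mul, MulAut.mul_apply,
            show act a (act b x) * x⁻¹ = act a (act b x) * (act b x)⁻¹ * (act b x * x⁻¹) by group]
          exact (Rad W).mul_mem (ha _) (hb x)
        inv_mem' := fun {a} ha x => by
          have h := ha (act a⁻¹ x)
          rw [← MulAut.mul_apply, ← map_mul, mul_inv_cancel, map_one, MulAut.one_apply] at h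
          simpa using (Rad W).inv_mem h }
    have hB : B = ⊤ := hact1 B fun a x => by
      set y := (act a).symm x with hy
      have hxy : act a y = x := (act a).apply_symm_apply x
      have e : act (τA a * a⁻¹) x = act (τA a) y := by
        rw [map_mul, map_inv]; rfl
      have e2 : act (τA a) y = τ (act a (τ y)) := by
        have := MulEquiv.congr_fun (hτact a) (τ y)
        rw [MulAut.mul_apply, MulAut.mul_apply, hτ2] at this
        exact this.symm
      have h1 : τ (act a (τ y)) * (act a (τ y))⁻¹ ∈ Rad W := hle (Subgroup.subset_closure ⟨_, rfl⟩)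
      have h2 : act a (τ y * y⁻¹) ∈ Rad W := hRadA W a _ (hle (Subgroup.subset_closure ⟨_, rfl⟩))
      rw [e, e2]
      have e3 : τ (act a (τ y)) * x⁻¹ = τ (act a (τ y)) * (act a (τ y))⁻¹ * act a (τ y * y⁻¹) := by
        rw [map_mul, map_inv, hxy]; group
      rw [e3]
      exact (Rad W).mul_mem h1 h2
    exact (hB ▸ Subgroup.mem_top a2 : a2 ∈ B) x2
  -- commutators with elements of `P1`
  have hdecP : ∀ y, ∃ u ∈ P1, τ (u⁻¹ * y) = u⁻¹ * y := fun y => by
    obtain ⟨u, hu, -, hc⟩ := exists_decomp hoddP hτ2 y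
    exact ⟨u, hu, hc⟩
  have hP1C : ∀ x ∈ P1, ∀ c, τ c = c → ⁅x, c⁆ = 1 := fun x hx c hc => by
    induction hx using Subgroup.closure_induction with
    | mem x hx =>
      obtain ⟨y, rfl⟩ := hx
      exact hIC _ c (tau_moved hτ2 y) hc
    | one => exact commutatorElement_one_left c
    | mul x y _ _ h1 h2 => rw [hbimul, h1, h2, one_mul]
    | inv x _ h1 =>
      have : ⁅x⁻¹, c⁆ * ⁅x, c⁆ = 1 := by rw [← hbimul, inv_mul_cancel, commutatorElement_one_left]
      rwa [h1, mul_one] at this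
  have hcommP1 : ∀ x ∈ P1, ∀ y, ∃ u ∈ P1, ⁅x, y⁆ = ⁅x, u⁆ := fun x hx y => by
    obtain ⟨u, hu, hc⟩ := hdecP y
    refine ⟨u, hu, ?_⟩
    conv_lhs => rw [show y = u * (u⁻¹ * y) by group, hbimul', hP1C x hx _ hc, mul_one]
  have hfix1 : ∀ a b : P1, (σ1 ^ 2 ^ (n - s)) ⁅a, b⁆ = ⁅a, b⁆ := fun a b => Subtype.ext (by
    rw [hσ1, hns]; exact hτcomm (a : P) (b : P))
  have hgen1 : Subgroup.closure (Set.range fun x => (σ1 ^ 2 ^ (n - s)) x * x⁻¹) = ⊤ := by
    refine Subgroup.map_injective P1.subtype_injective ?_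
    rw [MonoidHom.map_closure, ← MonoidHom.range_eq_map, Subgroup.range_subtype]
    refine le_antisymm (Subgroup.closure_le _ |>.mpr ?_) ?_
    · rintro _ ⟨x, -, rfl⟩; exact x.2
    · conv_lhs => rw [hP1, movedSubgroup]
      rw [Subgroup.closure_le]
      rintro _ ⟨y, rfl⟩
      obtain ⟨u, hu, hinv, hc⟩ := exists_decomp hoddP hτ2 y
      refine Subgroup.subset_closure ⟨(σ1 ^ 2 ^ (n - s)) ⟨u, hu⟩ * ⟨u, hu⟩⁻¹, ⟨_, rfl⟩, ?_⟩
      show (((σ1 ^ 2 ^ (n - s)) ⟨u, hu⟩ : P1) : P) * u⁻¹ = τ y * y⁻¹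
      rw [hσ1, hns, ← hτdef]
      have : τ y = τ u * (u⁻¹ * y) := by rw [← hc, ← map_mul, mul_inv_cancel_left]
      rw [this]; group
  have hnt1 : ∃ x, ρ1 x ≠ 1 := by
    have hW0Vl : W0 ≤ Vl := fun v hv z => hlam z v hv
    by_contra hno
    simp only [not_exists, not_not] at hno
    refine hP1Rad W0 hW0ne hW0Vl fun x hx y v hv => ?_
    obtain ⟨u, hu, he⟩ := hcommP1 x hx y
    rw [he]
    exact congrArg Subtype.val (LinearMap.congr_fun (hno ⁅(⟨x, hx⟩ : P1), (⟨u, hu⟩ : P1)⁆) ⟨v, hW0Vl hv⟩)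
  have hXlpow : ∀ (j : ℕ) (v : Vl), ((((X ^ 2 ^ s).restrict hXVl) ^ j) v : V) = (X ^ (2 ^ s * j)) (v : V) := by
    intro j
    induction j with
    | zero => simp
    | succ j ih =>
      intro v
      rw [pow_succ', Module.End.mul_apply, mul_add, mul_one, add_comm, pow_add, Module.End.mul_apply, ← ih]
      rfl
  obtain ⟨W, b, hbn, hrb, hWne, hWd, hWinv, -, -, hscal, -, hcard⟩ := exists_exceptional hr2
    (hP.to_subgroup P1) hrK h2K ρ1 hnt1 ((X ^ 2 ^ s).restrict hXVl) σ1
    (LinearMap.ext fun v => Subtype.ext (by rw [hXlpow, hns1, hX]; rfl))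
    (fun x => LinearMap.ext fun v => Subtype.ext (hXpρ _ (x : P) (v : V)))
    (MulEquiv.ext fun x => Subtype.ext (by rw [hσ1, hns1, hσ]; rfl))
    hfix1 hgen1 (fun v hv => Subtype.ext (hVlfix v v.2 (congrArg Subtype.val hv)))
  set W' := W.map Vl.subtype with hW'
  have hW'ne : W' ≠ ⊥ := fun h => hWne (Submodule.map_injective_of_injective Vl.injective_subtype
    (h.trans (Submodule.map_bot _).symm))
  have hW'l : W' ≤ Vl := Submodule.map_subtype_le _ _
  set R := Rad W' with hR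
  -- the module `U`
  obtain ⟨M, _, _, _, πM, L, hπs, hπa, hπker, hπL⟩ := exists_frattini_module hP
  haveI : Module.Finite (ZMod r) M := Module.Finite.of_finite
  have hπ1 : πM 1 = 0 := (hπker 1).mpr (one_mem _)
  have hπinv : ∀ x, πM x⁻¹ = -πM x := fun x => eq_neg_of_add_eq_zero_left (by rw [← hπa, inv_mul_cancel, hπ1])
  have hπpow : ∀ x (k : ℕ), πM (x ^ k) = k • πM x := by
    intro x k
    induction k with
    | zero => rw [pow_zero, hπ1, zero_smul]
    | succ k ih => rw [pow_succ, hπa, ih, succ_nsmul]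
  let img : Subgroup P → Submodule (ZMod r) M := fun H =>
    { carrier := πM '' (H : Set P)
      zero_mem' := ⟨1, H.one_mem, hπ1⟩
      add_mem' := by rintro _ _ ⟨x, hx, rfl⟩ ⟨y, hy, rfl⟩; exact ⟨x * y, H.mul_mem hx hy, hπa x y⟩
      smul_mem' := by
        rintro c _ ⟨x, hx, rfl⟩
        rw [← ZMod.natCast_zmod_val c, Nat.cast_smul_eq_nsmul]
        exact ⟨x ^ _, H.pow_mem hx _, hπpow x _⟩ }
  have hΦR : frattini P ≤ R := fun x hx y v _ => by
    rw [commutatorElement_eq_one_iff_mul_comm.mpr (Subgroup.mem_center_iff.mp (hΦZ hx) y).symm, map_one,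
      Module.End.one_apply]
  set RM := img R with hRM
  have hmemRM : ∀ x, πM x ∈ RM ↔ x ∈ R := fun x => by
    refine ⟨?_, fun hx => ⟨x, hx, rfl⟩⟩
    rintro ⟨y, hy, he⟩
    have h : y⁻¹ * x ∈ R := hΦR ((hπker _).mp (by rw [hπa, hπinv, he, neg_add_cancel]))
    simpa using R.mul_mem hy h
  let πU : P → M ⧸ RM := fun x => Submodule.Quotient.mk (πM x)
  have hπUs : ∀ u, ∃ x, πU x = u := fun u => by
    obtain ⟨m, rfl⟩ := Submodule.Quotient.mk_surjective _ u
    obtain ⟨x, rfl⟩ := hπs m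
    exact ⟨x, rfl⟩
  have hπUeq : ∀ x y, πU x = πU y ↔ x * y⁻¹ ∈ R := fun x y => by
    rw [← hmemRM, hπa, hπinv, ← sub_eq_add_neg]
    exact Submodule.Quotient.eq RM
  have hLA : ∀ a, ∀ m ∈ RM, L (act a) m ∈ RM := by
    rintro a _ ⟨x, hx, rfl⟩
    rw [hπL]; exact ⟨_, hRadA W' a x hx, rfl⟩
  -- elements of `⟨σ⟩` fixing the radical
  have hRσ : ∀ j, ∀ x ∈ R, (σ ^ (2 ^ (s + b) * j)) x ∈ R := by
    intro j
    induction j with
    | zero => intro x hx; simpa using hx
    | succ j ih =>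
      intro x hx y v hv
      obtain ⟨⟨v', hv'l⟩, hv'W, rfl⟩ := hv
      let T : W →ₗ[K] W := (((X ^ 2 ^ s).restrict hXVl) ^ (2 ^ b)).restrict hWd
      have hTinj : Function.Injective T := (injective_iff_map_eq_zero _).mpr fun w hw => by
        refine Subtype.ext (Subtype.ext ?_)
        have h := congrArg (fun t : W => ((t : Vl) : V)) hw
        simp only [T, LinearMap.coe_restrict_apply, hXlpow] at h
        have hle : 2 ^ s * 2 ^ b ≤ 2 ^ (n + 1) := by
          rw [← pow_add]; exact Nat.pow_le_pow_right (by norm_num) (by omega)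
        have h2 := congrArg (⇑(X ^ (2 ^ (n + 1) - 2 ^ s * 2 ^ b))) h
        rw [← Module.End.mul_apply, ← pow_add, Nat.sub_add_cancel hle, hX, Module.End.one_apply] at h2
        simpa using h2
      obtain ⟨⟨w, hw⟩, hTw⟩ := LinearMap.injective_iff_surjective.mp hTinj ⟨⟨v', hv'l⟩, hv'W⟩
      have hval : (X ^ 2 ^ (s + b)) (w : V) = v' := by
        have h := congrArg (fun t : W => ((t : Vl) : V)) hTw
        simp only [T, LinearMap.coe_restrict_apply, hXlpow] at h
        rwa [pow_add]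
      show ρ ⁅(σ ^ (2 ^ (s + b) * (j + 1))) x, y⁆ v' = v'
      obtain ⟨y', rfl⟩ : ∃ y', (σ ^ 2 ^ (s + b)) y' = y := MulEquiv.surjective _ y
      rw [mul_add, mul_one, add_comm, pow_add, MulAut.mul_apply, ← map_commutatorElement, ← hval, ← hXpρ,
        ih x hx y' w ⟨w, hw, rfl⟩]
  have hsb : 2 ^ (s + b) ∣ 2 ^ n := pow_dvd_pow 2 (by omega)
  have hτR : ∀ x ∈ R, τ x ∈ R := fun x hx => by
    obtain ⟨j, hj⟩ := hsb
    rw [hτdef, hj]; exact hRσ j x hx
  let π : A →* Module.End (ZMod r) (M ⧸ RM) :=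
    { toFun := fun a => Submodule.mapQ RM RM (L (act a)) (hLA a)
      map_one' := Submodule.linearMap_qext _ (LinearMap.ext fun m => by simp)
      map_mul' := fun a b => Submodule.linearMap_qext _ (LinearMap.ext fun m => by simp) }
  have hπU : ∀ a x, π a (πU x) = πU (act a x) := fun a x => congrArg Submodule.Quotient.mk (hπL _ x)
  have hLτ : ∀ m ∈ RM, L τ m ∈ RM := by
    rintro _ ⟨x, hx, rfl⟩
    rw [hπL]; exact ⟨_, hτR x hx, rfl⟩
  let τU : Module.End (ZMod r) (M ⧸ RM) := Submodule.mapQ RM RM (L τ) hLτ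
  have hτU : ∀ x, τU (πU x) = πU (τ x) := fun x => congrArg Submodule.Quotient.mk (hπL _ x)
  have hτU2 : τU * τU = 1 := LinearMap.ext fun u => by
    obtain ⟨x, rfl⟩ := hπUs u
    rw [Module.End.mul_apply, hτU, hτU, hτ2, Module.End.one_apply]
  have hτπ : ∀ a, τU * π a = π (τA a) * τU := fun a => LinearMap.ext fun u => by
    obtain ⟨x, rfl⟩ := hπUs u
    rw [Module.End.mul_apply, Module.End.mul_apply, hπU, hτU, hτU, hπU]
    exact congrArg πU (MulEquiv.congr_fun (hτact a) x)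
  have h2r : (2 : ZMod r) ≠ 0 := by
    rw [show (2 : ZMod r) = ((2 : ℕ) : ZMod r) by norm_num, Ne, ZMod.natCast_eq_zero_iff]
    exact fun h => hr2 ((Nat.prime_dvd_prime_iff_eq hr.out Nat.prime_two).mp h)
  -- the minus space is the image of `P1`
  have hπU1 : ∀ x y, πU (x * y) = πU x + πU y := fun x y => congrArg Submodule.Quotient.mk (hπa x y)
  have hminusP : ∀ x ∈ P1, πU x ∈ minus τU := by
    intro x hx
    induction hx using Subgroup.closure_induction with
    | mem x hx =>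
      obtain ⟨y, rfl⟩ := hx
      rw [mem_minus, hτU, tau_moved hτ2]
      exact congrArg Submodule.Quotient.mk (hπinv _)
    | one => rw [show πU 1 = 0 by simp [πU, hπ1]]; exact zero_mem _
    | mul x y _ _ h1 h2 => rw [hπU1]; exact add_mem h1 h2
    | inv x _ h1 =>
      rw [show πU x⁻¹ = -πU x from congrArg Submodule.Quotient.mk (hπinv x)]; exact neg_mem h1
  have hminus : ∀ u, u ∈ minus τU ↔ ∃ x ∈ P1, πU x = u := by
    intro u
    constructor
    · intro hu
      obtain ⟨x, rfl⟩ := hπUs u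
      rw [mem_minus, hτU] at hu
      obtain ⟨y, hy, -, hc⟩ := exists_decomp hoddP hτ2 x
      refine ⟨y, hy, ?_⟩
      set c := y⁻¹ * x with hcdef
      have hx : x = y * c := by rw [hcdef, mul_inv_cancel_left]
      have hy' : τU (πU y) = -πU y := mem_minus.mp (hminusP y hy)
      rw [hx, hπU1, map_mul, hπU1, neg_add, ← hτU y, hy', hc, add_right_inj] at hu
      have h0 : (2 : ZMod r) • πU c = 0 := by rw [two_smul]; exact eq_neg_iff_add_eq_zero.mp hu
      rw [hx, hπU1, (smul_eq_zero.mp h0).resolve_left h2r, add_zero]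
    · rintro ⟨x, hx, rfl⟩
      exact hminusP x hx
  have hP1W : ∀ (x : P) (hx : x ∈ P1), ∀ u ∈ P1, ∀ (w : Vl), w ∈ W → ∀ c : K, (∀ t ∈ W, ρ1 ⟨x, hx⟩ t = c • t) →
      ρ ⁅x, u⁆ (w : V) = w := by
    intro x hx u hu w hw c hc
    have hc' : ∀ t ∈ W, ρ x (t : V) = c • (t : V) := fun t ht => congrArg Subtype.val (hc t ht)
    have hu' : ∀ t : Vl, t ∈ W → ∀ g ∈ P1, ∃ t' : Vl, t' ∈ W ∧ ρ g (t : V) = t' := fun t ht g hg =>
      ⟨ρ1 ⟨g, hg⟩ t, hWinv _ t ht, rfl⟩
    obtain ⟨t1, ht1, h1⟩ := hu' w hw _ (P1.inv_mem hu)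
    obtain ⟨t2, ht2, h2⟩ := hu' t1 ht1 _ (P1.inv_mem hx)
    have hxu : ρ x (ρ x⁻¹ (t1 : V)) = (t1 : V) := (hinvρ x _).1
    rw [h2] at hxu
    have e1 : c • (t2 : V) = t1 := (hc' t2 ht2).symm.trans hxu
    obtain ⟨t3, ht3, h3⟩ := hu' t2 ht2 _ hu
    rw [commutatorElement_def, map_mul, map_mul, map_mul, Module.End.mul_apply, Module.End.mul_apply,
      Module.End.mul_apply, h1, h2, h3, hc' t3 ht3, ← h3, ← map_smul, e1, ← h1, (hinvρ u _).1]
  have hscalR : ∀ x : P1, (∃ c : K, ∀ t ∈ W, ρ1 x t = c • t) → (x : P) ∈ R := by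
    rintro ⟨x, hx⟩ ⟨c, hc⟩ y _ ⟨t, ht, rfl⟩
    obtain ⟨u, hu, he⟩ := hcommP1 x hx y
    rw [he]
    exact hP1W x hx u hu t ht c hc
  have hdim : finrank (ZMod r) (minus τU) ≤ 2 := by
    let f : P1 →* Multiplicative (M ⧸ RM) :=
      { toFun := fun x => Multiplicative.ofAdd (πU (x : P))
        map_one' := by simp [πU, hπ1]
        map_mul' := fun x y => by rw [Subgroup.coe_mul, hπU1, ofAdd_add] }
    have hker : ∀ x : P1, x ∈ f.ker ↔ (x : P) ∈ R := fun x => by
      rw [MonoidHom.mem_ker, ← hmemRM]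
      exact ofAdd_eq_one.trans (Submodule.Quotient.mk_eq_zero RM)
    have h1 : Nat.card {x : P1 // ∃ c : K, ∀ t ∈ W, ρ1 x t = c • t} ≤ Nat.card f.ker :=
      Nat.card_le_card_of_injective (fun x => ⟨x.1, (hker x.1).mpr (hscalR x.1 x.2)⟩)
        (fun x y h => Subtype.ext (congrArg (fun t : f.ker => (t : P1)) h))
    have h2 : f.ker.index ≤ r ^ 2 := by
      have h3 := f.ker.card_mul_index
      rw [← hcard] at h3
      have hpos : 0 < Nat.card {x : P1 // ∃ c : K, ∀ t ∈ W, ρ1 x t = c • t} := by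
        haveI : Nonempty {x : P1 // ∃ c : K, ∀ t ∈ W, ρ1 x t = c • t} := ⟨⟨1, 1, fun t _ => by simp⟩⟩
        exact Nat.card_pos
      by_contra hlt
      rw [not_le] at hlt
      have := Nat.mul_lt_mul_of_le_of_lt h1 hlt Nat.card_pos
      omega
    have h3 : Nat.card (minus τU) = f.ker.index := by
      rw [Subgroup.index_ker]
      refine Nat.card_congr ((Multiplicative.ofAdd).subtypeEquiv fun u => ?_)
      rw [hminus, MonoidHom.mem_range]
      exact ⟨fun ⟨x, hx, he⟩ => ⟨⟨x, hx⟩, congrArg Multiplicative.ofAdd he⟩,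
        fun ⟨x, he⟩ => ⟨x, x.2, Multiplicative.ofAdd.injective he⟩⟩
    rw [Module.natCard_eq_pow_finrank (K := ZMod r), Nat.card_zmod] at h3
    exact (Nat.pow_le_pow_iff_right hr.out.one_lt).mp (h3 ▸ h2)
  -- the group `A`
  have hcenA : ∀ a b g : A, ⁅a, b⁆ * g = g * ⁅a, b⁆ := by
    intro a b
    set c := ⁅a, b⁆
    have hyc : ∀ g : A, τA (g * c * g⁻¹) = g * c * g⁻¹ := fun g => by
      rw [show g * c * g⁻¹ = ⁅g, c⁆ * c by simp [commutatorElement_def], map_mul, hfixA, hfixA]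
    have hcle : Subgroup.closure (Set.range fun x => τA x * x⁻¹) ≤ Subgroup.centralizer {c} := by
      rw [Subgroup.closure_le]
      rintro _ ⟨x, rfl⟩
      refine Subgroup.mem_centralizer_singleton_iff.mpr ?_
      have h := hyc x⁻¹
      rw [map_mul, map_mul, map_inv, inv_inv, hfixA a b] at h
      change (τA x)⁻¹ * c * τA x = x⁻¹ * c * x at h
      show τA x * x⁻¹ * c = c * (τA x * x⁻¹)
      calc τA x * x⁻¹ * c = τA x * (x⁻¹ * c * x) * x⁻¹ := by group
        _ = τA x * ((τA x)⁻¹ * c * τA x) * x⁻¹ := by rw [← h]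
        _ = c * (τA x * x⁻¹) := by group
    intro g
    exact (Subgroup.mem_centralizer_singleton_iff.mp ((hgenA ▸ hcle) (Subgroup.mem_top g))).symm
  have hinvA : ∀ a, ∃ b, τA b = b⁻¹ ∧ a * b⁻¹ ∈ commutator A := by
    have hab : ∀ a : A, Abelianization.of (τA a * a) = 1 := by
      let h : A →* Abelianization A :=
        { toFun := fun a => Abelianization.of (τA a) * Abelianization.of a
          map_one' := by simp
          map_mul' := fun a b => by simp only [map_mul]; exact mul_mul_mul_comm _ _ _ _ }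
      have hk : h.ker = ⊤ := hact1 _ fun a => MonoidHom.mem_ker.mpr (by
        show Abelianization.of (τA (τA a * a⁻¹)) * Abelianization.of (τA a * a⁻¹) = 1
        rw [← map_mul, tau_moved hτA2, inv_mul_cancel, map_one])
      intro a
      rw [map_mul]
      exact MonoidHom.mem_ker.mp (hk ▸ Subgroup.mem_top a)
    intro a
    obtain ⟨b, -, hb, hc⟩ := exists_decomp hoddA hτA2 a
    refine ⟨b, hb, ?_⟩
    have h2 := hab (b⁻¹ * a)
    rw [hc, ← MonoidHom.mem_ker, Abelianization.ker_of] at h2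
    obtain ⟨m, hm⟩ := hoddA
    have hmem := (commutator A).pow_mem h2 (m + 1)
    rw [← pow_two, ← pow_mul, show 2 * (m + 1) = Nat.card A + 1 by omega, pow_succ, pow_card_eq_one', one_mul] at hmem
    simpa [mul_assoc] using (inferInstance : (commutator A).Normal).conj_mem _ hmem b
  -- identities on `P / Φ(P)`
  let K' := AlgebraicClosure (ZMod r)
  haveI : CharP K' r := charP_of_injective_algebraMap (algebraMap (ZMod r) K').injective r
  let bas := Module.finBasis (ZMod r) M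
  let φ : Module.End (ZMod r) M →+* Module.End K' (Fin (Module.finrank (ZMod r) M) → K') :=
    (Matrix.toLinAlgEquiv' (R := K')).toRingEquiv.toRingHom.comp
      ((algebraMap (ZMod r) K').mapMatrix.comp (LinearMap.toMatrixAlgEquiv bas).toRingEquiv.toRingHom)
  have hφ : Function.Injective φ := by
    intro A B hAB
    exact (LinearMap.toMatrixAlgEquiv bas).injective (Matrix.map_injective (algebraMap (ZMod r) K').injective
      ((Matrix.toLinAlgEquiv' (R := K')).injective hAB))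
  have hqr' : (q : ZMod r) ≠ 0 := by
    rw [Ne, ZMod.natCast_eq_zero_iff]
    exact fun h => hqr ((Nat.prime_dvd_prime_iff_eq hr.out hq.out).mp h).symm
  have hqK : (q : K') ≠ 0 := fun h => hqr' ((algebraMap (ZMod r) K').injective (by rw [map_natCast, h, map_zero]))
  have h2K' : (2 : K') ≠ 0 := fun h => h2r ((algebraMap (ZMod r) K').injective (by rw [map_ofNat, h, map_zero]))
  have hΦσ : (frattini P).map σ.toMonoidHom = frattini P :=
    Subgroup.characteristic_iff_map_eq.mp (frattini_characteristic (G := P)) σ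
  have hMfix : ∀ m, L σ m = m → m = 0 := fun m hm => by
    obtain ⟨x, rfl⟩ := hπs m
    rw [hπL] at hm
    refine (hπker x).mpr ((QuotientGroup.eq_one_iff x).mp
      (ThompsonFPF.fpf_quotient hfpf hΦσ (QuotientGroup.mk' _ x) ?_))
    show QuotientGroup.mk (σ x) = QuotientGroup.mk x
    refine QuotientGroup.eq.mpr ((hπker _).mp ?_)
    rw [hπa, hπinv, hm, neg_add_cancel]
  obtain ⟨Y, hY⟩ := LinearMap.exists_leftInverse_of_injective (L σ - 1)
    (LinearMap.ker_eq_bot'.mpr fun m hm => hMfix m (sub_eq_zero.mp hm))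
  have hfix' : ∀ v, φ (L σ) v = v → v = 0 := fun v hv => by
    have h1 : φ Y * (φ (L σ) - 1) = 1 := by
      rw [← map_one φ, ← map_sub, ← map_mul]
      exact congrArg φ hY
    have h2 := LinearMap.congr_fun h1 v
    rw [Module.End.mul_apply, LinearMap.sub_apply, Module.End.one_apply, hv, sub_self, map_zero] at h2
    exact h2.symm
  let ρM : A →* Module.End K' (Fin (Module.finrank (ZMod r) M) → K') := (φ.toMonoidHom.comp L).comp act
  have hXM : φ (L σ) ^ 2 ^ (n + 1) = 1 := by rw [← map_pow, ← map_pow, hσ, map_one, map_one]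
  have hXρM : ∀ a, φ (L σ) * ρM a = ρM (α a) * φ (L σ) := fun a => by
    show φ (L σ) * φ (L (act a)) = φ (L (act (α a))) * φ (L σ)
    rw [← map_mul, ← map_mul, hcompat, map_mul, map_mul]
  haveI : Fintype A := Fintype.ofFinite A
  haveI : Fintype (commutator A) := Fintype.ofFinite _
  obtain ⟨hid0, hid3⟩ := identities hq2 hA hqK h2K' ρM (φ (L σ)) α hXM hXρM hα hfixA hgenA hfix'
  have hntM : ∃ a, ρM a ≠ 1 := by
    by_contra hno
    simp only [not_exists, not_not] at hno
    have hle : Subgroup.closure (Set.range fun t : A × P => act t.1 t.2 * t.2⁻¹) ≤ frattini P := by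
      rw [Subgroup.closure_le]
      rintro _ ⟨⟨a, x⟩, rfl⟩
      refine (hπker _).mp ?_
      have h : L (act a) = 1 := hφ ((hno a).trans (map_one φ).symm)
      rw [hπa, hπinv, ← hπL, h, Module.End.one_apply, add_neg_cancel]
    rw [hDtop, top_le_iff] at hle
    exact he2 (commutatorElement_eq_one_iff_mul_comm.mpr
      (Subgroup.mem_center_iff.mp (hΦZ (hle ▸ Subgroup.mem_top (act a2 x2 * x2⁻¹))) g2).symm)
  obtain ⟨-, aM, haM, hqM, -⟩ := exists_exceptional hq2 hA hqK h2K' ρM hntM (φ (L σ)) α hXM hXρM hα hfixA hgenA hfix'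
  have hq5 : q ≠ 5 := fun h => by
    rw [h] at hqM
    have h8 : ∀ e : ℕ, 6 ≠ 2 ^ e := by
      intro e
      rcases e with _ | _ | _ | e <;> norm_num
      rw [pow_succ, pow_succ, pow_succ]; omega
    exact h8 _ hqM
  have hS0 : ∀ a, L (act a) * (∑ c : commutator A, L (act c)) = ∑ c : commutator A, L (act c) := fun a =>
    hφ (by rw [map_mul, map_sum]; exact hid0 a)
  have hπapp : ∀ a m, π a (Submodule.Quotient.mk m) = Submodule.Quotient.mk (L (act a) m) := fun a m => rfl
  have hne : ∃ a b : A, π ⁅a, b⁆ ≠ 1 := by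
    by_contra hno
    simp only [not_exists, not_not] at hno
    have hc1 : ∀ c ∈ commutator A, π c = 1 := by
      intro c hc
      have hle : commutator A ≤ π.ker := by
        rw [commutator_def, Subgroup.commutator_le]
        exact fun a _ b _ => MonoidHom.mem_ker.mpr (hno a b)
      exact MonoidHom.mem_ker.mp (hle hc)
    refine he0 W' hW'ne hW'l ((hπUeq _ _).mp ?_)
    obtain ⟨m, hm⟩ : ∃ m, πM x2 = m := ⟨_, rfl⟩
    have h := congrArg (Submodule.Quotient.mk (p := RM)) (LinearMap.congr_fun (hS0 a2) m)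
    rw [Module.End.mul_apply, ← hπapp, LinearMap.sum_apply, ← Submodule.mkQ_apply, map_sum] at h
    simp only [Submodule.mkQ_apply, ← hπapp, hc1 _ (Subtype.coe_prop _), Module.End.one_apply, Finset.sum_const,
      map_nsmul] at h
    rw [← Nat.cast_smul_eq_nsmul (ZMod r), ← Nat.cast_smul_eq_nsmul (ZMod r), ← hm] at h
    have hcne : ((Finset.univ : Finset (commutator A)).card : ZMod r) ≠ 0 := by
      rw [Finset.card_univ, ← Nat.card_eq_fintype_card]
      obtain ⟨k, hk⟩ := IsPGroup.iff_card.mp (hA.to_subgroup (commutator A))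
      rw [hk, Nat.cast_pow]; exact pow_ne_zero _ hqr'
    have h' := smul_right_injective (M ⧸ RM) hcne h
    show πU (act a2 x2) = πU x2
    rw [← hπU]; exact h'
  have hiso : finrank (ZMod r) (minus τU) = 2 → ∀ (a : A) (ω : ZMod r), (∀ v ∈ minus τU, π a v = ω • v) →
      ω * ω = 1 := by
    intro _ a ω hω
    obtain ⟨x, hx, u, hu, t, ht, hne1⟩ : ∃ x ∈ P1, ∃ u ∈ P1, ∃ t ∈ W', ρ ⁅x, u⁆ t ≠ t := by
      by_contra hno
      simp only [not_exists, not_and, not_not] at hno
      refine hP1Rad W' hW'ne hW'l fun x hx y v hv => ?_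
      obtain ⟨u, hu, he⟩ := hcommP1 x hx y
      rw [he]; exact hno x hx u hu v hv
    set k := ω.val
    have hrel : ∀ y ∈ P1, act a y * (y ^ k)⁻¹ ∈ R := fun y hy => (hπUeq _ _).mp (by
      rw [← hπU, hω _ (hminusP y hy)]
      show ω • Submodule.Quotient.mk (πM y) = Submodule.Quotient.mk (πM (y ^ k))
      rw [hπpow, ← Nat.cast_smul_eq_nsmul (ZMod r), ZMod.natCast_zmod_val, Submodule.Quotient.mk_smul])
    have hpowL : ∀ (g h : P) (j : ℕ), ⁅g ^ j, h⁆ = ⁅g, h⁆ ^ j := by
      intro g h j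
      induction j with
      | zero => simp
      | succ j ih => rw [pow_succ, hbimul, ih, pow_succ]
    have hpowR : ∀ (g h : P) (j : ℕ), ⁅g, h ^ j⁆ = ⁅g, h⁆ ^ j := by
      intro g h j
      induction j with
      | zero => simp
      | succ j ih => rw [pow_succ, hbimul', ih, pow_succ]
    have hzZ : ⁅x, u⁆ ∈ Z := hP'Z (Subgroup.commutator_mem_commutator (Subgroup.mem_top _) (Subgroup.mem_top _))
    have hzt : ∀ j : ℕ, ρ (⁅x, u⁆ ^ j) t = lam ⟨_, hzZ⟩ ^ j • t := by
      intro j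
      induction j with
      | zero => simp
      | succ j ih =>
        rw [pow_succ, map_mul, Module.End.mul_apply, hW'l ht ⟨_, hzZ⟩, map_smul, ih, smul_smul, pow_succ, mul_comm]
    have htne : t ≠ 0 := fun h => hne1 (by rw [h, map_zero])
    have hkk : lam ⟨_, hzZ⟩ ^ (k * k) = lam ⟨_, hzZ⟩ ^ 1 := by
      refine smul_left_injective K htne ?_
      show lam ⟨_, hzZ⟩ ^ (k * k) • t = lam ⟨_, hzZ⟩ ^ 1 • t
      rw [← hzt, ← hzt, pow_one]
      have hf1 : ∀ g ∈ R, ∀ y, ∀ v ∈ W', ρ ⁅g, y⁆ v = v := fun g hg => hg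
      have hf2 : ∀ g ∈ R, ∀ y, ∀ v ∈ W', ρ ⁅y, g⁆ v = v := fun g hg y v hv => by
        rw [← commutatorElement_inv g y]
        conv_lhs => rw [← hf1 g hg y v hv]
        exact (hinvρ _ _).2
      have ek : ⁅x ^ k, u ^ k⁆ = ⁅x, u⁆ ^ (k * k) := by rw [hpowL, hpowR, ← pow_mul]
      have hrU := hrel u hu
      have hrX := hrel x hx
      have hcx : ⁅act a x, act a u⁆ =
          ⁅act a x * (x ^ k)⁻¹, act a u⁆ * ⁅x ^ k, act a u * (u ^ k)⁻¹⁆ * ⁅x ^ k, u ^ k⁆ := by
        rw [mul_assoc, ← hbimul', inv_mul_cancel_right, ← hbimul, inv_mul_cancel_right]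
      have hv : ρ ⁅x ^ k, u ^ k⁆ t ∈ W' := by rw [ek, hzt]; exact W'.smul_mem _ ht
      conv_rhs => rw [← hactcomm a x u, hcx, map_mul, map_mul, Module.End.mul_apply, Module.End.mul_apply]
      rw [hf2 _ hrU _ _ hv, hf1 _ hrX _ _ hv, ek]
    have hr1 : lam ⟨_, hzZ⟩ ^ r = 1 := by
      refine smul_left_injective K htne ?_
      show lam ⟨_, hzZ⟩ ^ r • t = (1 : K) • t
      rw [← hzt, ← hpowL, commutatorElement_eq_one_iff_mul_comm.mpr
        (Subgroup.mem_center_iff.mp (hΦZ ((hπker _).mp ?_)) u).symm, map_one, Module.End.one_apply, one_smul]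
      rw [hπpow, ← Nat.cast_smul_eq_nsmul (ZMod r), ZMod.natCast_self, zero_smul]
    have hl1 : lam ⟨_, hzZ⟩ ≠ 1 := fun h => hne1 (by
      have := hzt 1
      rwa [pow_one, pow_one, h, one_smul] at this)
    have hprim : IsPrimitiveRoot (lam ⟨_, hzZ⟩) r := by
      rw [IsPrimitiveRoot.iff_orderOf, orderOf_eq_prime hr1 hl1]
    obtain ⟨lu, hlu⟩ := hprim.isUnit hr.out.ne_zero
    have hmod : k * k ≡ 1 [MOD r] := by
      have e : lu ^ (k * k) = lu ^ 1 := Units.ext (by push_cast; rw [hlu]; exact hkk)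
      rw [pow_eq_pow_iff_modEq] at e
      rwa [show orderOf lu = r by rw [← orderOf_units, hlu, orderOf_eq_prime hr1 hl1]] at e
    have := (ZMod.natCast_eq_natCast_iff _ _ r).mpr hmod
    rwa [Nat.cast_mul, Nat.cast_one, ZMod.natCast_zmod_val] at this
  refine false_of_minus_le_two hA hq2 hq5 hqr' h2r π τA τU hτU2 hτπ hdim hcenA hinvA hne hiso fun hq3 => ?_
  obtain ⟨hn1, hΘ⟩ := hid3 hq3 hntM
  have hb2 : s + b + 1 ≤ n := by
    have hr5 : 5 ≤ r := by
      have := hr.out.two_le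
      have h4 : r ≠ 4 := fun h => by
        have h' := hr.out
        rw [h] at h'
        norm_num at h'
      omega
    by_contra hlt
    have : 2 ^ (n - s + 1 - b) ≤ 2 ^ 2 := Nat.pow_le_pow_right (by norm_num) (by omega)
    omega
  set e := 2 ^ (n - 1) with hedef
  have hee : e + e = 2 ^ n := by rw [hedef, ← two_mul, ← pow_succ', Nat.sub_add_cancel hn1]
  have hTR : ∀ m ∈ RM, L (σ ^ e) m ∈ RM := by
    rintro _ ⟨x, hx, rfl⟩
    obtain ⟨j, hj⟩ : 2 ^ (s + b) ∣ e := pow_dvd_pow 2 (by omega)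
    rw [hπL, hj]
    exact ⟨_, hRσ j x hx, rfl⟩
  let T : Module.End (ZMod r) (M ⧸ RM) := Submodule.mapQ RM RM (L (σ ^ e)) hTR
  have hTapp : ∀ m, T (Submodule.Quotient.mk m) = Submodule.Quotient.mk (L (σ ^ e) m) := fun m => rfl
  refine ⟨T, α ^ e, fun a => Submodule.linearMap_qext _ (LinearMap.ext fun m => ?_), fun a => ?_,
    Submodule.linearMap_qext _ (LinearMap.ext fun m => ?_), fun a => Submodule.linearMap_qext _ (LinearMap.ext fun m => ?_)⟩
  · show T (π a (Submodule.Quotient.mk m)) = π ((α ^ e) a) (T (Submodule.Quotient.mk m))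
    rw [hπapp, hTapp, hTapp, hπapp, ← Module.End.mul_apply, ← Module.End.mul_apply, ← map_mul, ← map_mul, hσpow]
  · rw [← MulAut.mul_apply, ← pow_add, hee]
  · show T (T (Submodule.Quotient.mk m)) = τU (Submodule.Quotient.mk m)
    rw [hTapp, hTapp, ← Module.End.mul_apply, ← map_mul, ← pow_add, hee]
    rfl
  · have hΘ' : (∑ i ∈ Finset.range 4, (L (σ ^ e)) ^ i) * (L (act a) - 1) = 0 := by
      refine hφ ?_
      rw [map_mul, map_sum, map_sub, map_one, map_zero]
      simp only [map_pow]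
      exact hΘ a
    have hTpow : ∀ (i : ℕ) v, (T ^ i) (Submodule.Quotient.mk v) = Submodule.Quotient.mk ((L (σ ^ e) ^ i) v) := by
      intro i
      induction i with
      | zero => simp
      | succ i ih => intro v; rw [pow_succ', Module.End.mul_apply, ih, hTapp, pow_succ', Module.End.mul_apply]
    show ((∑ i ∈ Finset.range 4, T ^ i) * (π a - 1)) (Submodule.Quotient.mk m) = 0
    rw [Module.End.mul_apply, LinearMap.sub_apply, Module.End.one_apply, hπapp, ← Submodule.Quotient.mk_sub,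
      LinearMap.sum_apply]
    simp only [hTpow]
    have h := congrArg (RM.mkQ) (LinearMap.congr_fun hΘ' m)
    rw [Module.End.mul_apply, LinearMap.sum_apply, map_sum] at h
    exact h

end Cfsg.Agent.Chars.GrossTwo
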