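/-
Gross's theorem on fixed-point-free automorphisms of `2`-power order of solvable groups.
-/
import Cfsg.Agent.Chars.GrossTwoCore
import Cfsg.Agent.FGS3.ComplementAut
import Cfsg.Agent.S3794

set_option autoImplicit false
set_option linter.style.haveILetI false
set_option linter.unusedSectionVars false

namespace Cfsg.Agent.Chars.GrossTwo

open Module Cfsg Cfsg.Agent.Core
open scoped commutatorElement

universe u v w

set_option maxHeartbeats 1000000 in
/-- The core, for an arbitrary `P`. -/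
theorem false_of_action {K : Type*} [Field K] [IsAlgClosed K] {V : Type v} [AddCommGroup V] [Module K V]
    [FiniteDimensional K V] {P : Type u} [Group P] [Finite P] {r : ℕ} [hr : Fact r.Prime]
    {A : Type w} [Group A] [Finite A] {q : ℕ} [hq : Fact q.Prime]
    (hr2 : r ≠ 2) (hq2 : q ≠ 2) (hqr : q ≠ r) (hP : IsPGroup r P) (hA : IsPGroup q A) (hrK : (r : K) ≠ 0)
    (h2K : (2 : K) ≠ 0)
    (ρ : P →* Module.End K V) (hρ : Function.Injective ρ) (X : Module.End K V) (σ : MulAut P) {n : ℕ}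
    (hX : X ^ (2 ^ (n + 1)) = 1) (hXρ : ∀ x, X * ρ x = ρ (σ x) * X) (hσ : σ ^ (2 ^ (n + 1)) = 1)
    (hXfix : ∀ v, X v = v → v = 0) (hfpf : ∀ x, σ x = x → x = 1)
    (act : A →* MulAut P) (α : MulAut A) (hcompat : ∀ a, σ * act a = act (α a) * σ)
    (hα : α ^ (2 ^ (n + 1)) = 1)
    (hfixA : ∀ a b : A, (α ^ (2 ^ n)) ⁅a, b⁆ = ⁅a, b⁆)
    (hgenA : Subgroup.closure (Set.range fun a => (α ^ (2 ^ n)) a * a⁻¹) = ⊤)
    (hnt : ∃ a x, act a x ≠ x) : False := by
  classical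
  let Pr : Subgroup P → Prop := fun H =>
    H.map σ.toMonoidHom = H ∧ (∀ a, ∀ x ∈ H, act a x ∈ H) ∧ ∃ a, ∃ x ∈ H, act a x ≠ x
  obtain ⟨a0, x0, hax0⟩ := hnt
  have hex : ∃ c, ∃ H, Pr H ∧ Nat.card H = c :=
    ⟨_, ⊤, ⟨Subgroup.map_top_of_surjective _ σ.surjective, fun _ _ _ => Subgroup.mem_top _, a0, x0,
      Subgroup.mem_top _, hax0⟩, rfl⟩
  obtain ⟨H, ⟨hHσ, hHA, a, x, hx, hax⟩, hcard⟩ := Nat.find_spec hex
  have hmapA : ∀ a, H.map (act a).toMonoidHom = H := fun a => ThompsonFPF.map_eq_of_le (by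
    rintro _ ⟨y, hy, rfl⟩; exact hHA a y hy)
  let σ' : MulAut H := ThompsonFPF.restrict σ H hHσ
  let act' : A →* MulAut H :=
    { toFun := fun a => ThompsonFPF.restrict (act a) H (hmapA a)
      map_one' := MulEquiv.ext fun y => Subtype.ext (by
        show act 1 (y : P) = (y : P)
        rw [map_one]; rfl)
      map_mul' := fun a b => MulEquiv.ext fun y => Subtype.ext (by
        show act (a * b) (y : P) = act a (act b (y : P))
        rw [map_mul]; rfl) }
  refine false_of_minimal hr2 hq2 hqr (hP.to_subgroup H) hA hrK h2K (ρ.comp H.subtype)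
    (hρ.comp H.subtype_injective) X σ' hX (fun y => hXρ (y : P))
    (MulEquiv.ext fun y => Subtype.ext (by rw [HH.coe_pow_restrict, hσ]; rfl)) hXfix
    (fun y hy => Subtype.ext (hfpf y (congrArg Subtype.val hy))) act' α
    (fun a => MulEquiv.ext fun y => Subtype.ext (MulEquiv.congr_fun (hcompat a) (y : P))) hα hfixA hgenA
    ⟨a, ⟨x, hx⟩, fun h => hax (congrArg Subtype.val h)⟩ ?_
  intro T hTσ hTA hT b y hy
  by_contra hne
  have hPr : Pr (T.map H.subtype) := by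
    refine ⟨ThompsonFPF.map_eq_of_le ?_, ?_, b, (y : P), ⟨y, hy, rfl⟩, fun h => hne (Subtype.ext h)⟩
    · rintro _ ⟨_, ⟨t, ht, rfl⟩, rfl⟩
      exact ⟨σ' t, hTσ ▸ Subgroup.mem_map_of_mem _ ht, rfl⟩
    · rintro c _ ⟨t, ht, rfl⟩
      exact ⟨act' c t, hTA c t ht, rfl⟩
  have hle := Nat.find_min' hex ⟨_, hPr, rfl⟩
  rw [← hcard, card_map_subtype] at hle
  exact hT (Subgroup.eq_top_of_card_eq _ (le_antisymm (Subgroup.card_le_card_group T) hle))

/-- An element of `O_{F,q}(G)` centralising the cores of the other primes lies in the Fitting subgroup. -/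
theorem mem_fitting_of_centralizes {G : Type u} [Group G] [Finite G] {q : ℕ} [hq : Fact q.Prime] {y : G}
    (hy : QuotientGroup.mk' (fittingSubgroup G) y ∈ pCore q (G ⧸ fittingSubgroup G))
    (hc : ∀ r : Nat.Primes, (r : ℕ) ≠ q → ∀ v ∈ pCore (r : ℕ) G, y * v = v * y) : y ∈ fittingSubgroup G := by
  set F := fittingSubgroup G with hF
  let C : Subgroup G := (pCore q (G ⧸ F)).comap (QuotientGroup.mk' F) ⊓
    ⨅ r : {r : Nat.Primes // (r : ℕ) ≠ q}, Subgroup.centralizer (pCore (r.1 : ℕ) G : Set G)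
  haveI hinf : (⨅ r : {r : Nat.Primes // (r : ℕ) ≠ q},
      Subgroup.centralizer (pCore (r.1 : ℕ) G : Set G)).Normal :=
    Subgroup.normal_iInf_normal fun r => inferInstance
  haveI hC : C.Normal := Subgroup.normal_inf_normal _ _
  have hyC : y ∈ C := ⟨hy, Subgroup.mem_iInf.mpr fun r => Subgroup.mem_centralizer_iff.mpr fun v hv =>
    (hc r.1 r.2 v hv).symm⟩
  refine le_fittingSubgroup hC ?_ hyC
  set Cc := Subgroup.centralizer (C : Set G) with hCc
  haveI : Cc.Normal := inferInstance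
  have hFle : F ≤ pCore q G ⊔ Cc := by
    rw [hF, fittingSubgroup_eq_iSup]
    refine iSup_le fun r => ?_
    by_cases hr : (r : ℕ) = q
    · rw [hr]; exact le_sup_left
    · refine le_trans (fun v hv => Subgroup.mem_centralizer_iff.mpr fun c hc' => ?_) le_sup_right
      exact (Subgroup.mem_centralizer_iff.mp (Subgroup.mem_iInf.mp hc'.2 ⟨r, hr⟩) v hv).symm
  refine Group.of_quotient_center_nilpotent (IsPGroup.isNilpotent (p := q) ?_)
  intro z
  obtain ⟨⟨x, hx⟩, rfl⟩ := QuotientGroup.mk_surjective z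
  obtain ⟨j, hj⟩ := isPGroup_pCore q (G ⧸ F) ⟨_, hx.1⟩
  have hxF : x ^ q ^ j ∈ F := (QuotientGroup.eq_one_iff _).mp (congrArg Subtype.val hj)
  obtain ⟨o, ho, c, hcc, hoc⟩ := Subgroup.mem_sup_of_normal_right.mp (hFle hxF)
  obtain ⟨i, hi⟩ := isPGroup_pCore q G ⟨o, ho⟩
  have hi' : o ^ q ^ i = 1 := congrArg Subtype.val hi
  have hmem : x ^ (q ^ j * q ^ i) ∈ Cc := by
    rw [pow_mul, ← hoc]
    refine (QuotientGroup.eq_one_iff _).mp ?_
    show QuotientGroup.mk' Cc ((o * c) ^ q ^ i) = 1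
    rw [map_pow, map_mul, show QuotientGroup.mk' Cc c = 1 from (QuotientGroup.eq_one_iff c).mpr hcc, mul_one,
      ← map_pow, hi', map_one]
  refine ⟨j + i, ?_⟩
  rw [← QuotientGroup.mk_pow, QuotientGroup.eq_one_iff, Subgroup.mem_center_iff]
  intro g
  refine Subtype.ext ?_
  rw [pow_add]
  exact Subgroup.mem_centralizer_iff.mp hmem (g : G) g.2

set_option maxHeartbeats 2000000 in
/-- The involution in `⟨σ⟩` is trivial modulo the second Fitting subgroup. -/
theorem pow_trivial_mod_fitting_two {G : Type u} [Group G] [Finite G] (hG : Group.IsSolvable G) (σ : MulAut G)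
    {n : ℕ} (hσ : σ ^ (2 ^ (n + 1)) = 1) (hfpf : ∀ g, σ g = g → g = 1) (g : G) :
    QuotientGroup.mk' (fittingSubgroup G) (g⁻¹ * (σ ^ (2 ^ n)) g) ∈ fittingSubgroup (G ⧸ fittingSubgroup G) := by
  classical
  haveI := hG
  haveI : Fact (Nat.Prime 2) := ⟨Nat.prime_two⟩
  set F := fittingSubgroup G with hFdef
  have hF : F.map σ.toMonoidHom = F := fittingSubgroup_map_equiv σ
  let σH : MulAut (G ⧸ F) := QuotientGroup.congr F F σ hF
  have hσHpow : ∀ k (g : G), (σH ^ k) (QuotientGroup.mk' F g) = QuotientGroup.mk' F ((σ ^ k) g) :=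
    HH.congr_pow_mk σ F hF
  have hσH : σH ^ (2 ^ (n + 1)) = 1 := MulEquiv.ext fun x => by
    obtain ⟨g, rfl⟩ := QuotientGroup.mk'_surjective F x
    rw [hσHpow, hσ]; rfl
  have hfpfH : ∀ x, σH x = x → x = 1 := ThompsonFPF.fpf_quotient hfpf hF
  suffices h : ∀ h : G ⧸ F, h⁻¹ * (σH ^ (2 ^ n)) h ∈ fittingSubgroup (G ⧸ F) by
    have h1 := h (QuotientGroup.mk' F g)
    rwa [hσHpow, ← map_inv, ← map_mul] at h1
  by_contra hcon
  obtain ⟨h0, hh0⟩ := not_forall.mp hcon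
  haveI : Group.IsSolvable (G ⧸ F) := inferInstance
  set F2 := fittingSubgroup (G ⧸ F) with hF2def
  have hF2 : F2.map σH.toMonoidHom = F2 := fittingSubgroup_map_equiv σH
  let σ2 : MulAut ((G ⧸ F) ⧸ F2) := QuotientGroup.congr F2 F2 σH hF2
  have hσ2pow : ∀ k (h : G ⧸ F), (σ2 ^ k) (QuotientGroup.mk' F2 h) = QuotientGroup.mk' F2 ((σH ^ k) h) :=
    HH.congr_pow_mk σH F2 hF2
  have hfpf2 : ∀ x, σ2 x = x → x = 1 := ThompsonFPF.fpf_quotient hfpfH hF2
  haveI : Group.IsSolvable ((G ⧸ F) ⧸ F2) := inferInstance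
  set τ2 := σ2 ^ (2 ^ n) with hτ2def
  have hσ2 : σ2 ^ (2 ^ (n + 1)) = 1 := MulEquiv.ext fun x => by
    obtain ⟨h, rfl⟩ := QuotientGroup.mk'_surjective F2 x
    rw [hσ2pow, hσH]; rfl
  have hτ2sq : ∀ x, τ2 (τ2 x) = x := fun x => by
    rw [hτ2def, ← MulAut.mul_apply, ← pow_add, ← two_mul, ← pow_succ', hσ2]; rfl
  have h2H : ¬ 2 ∣ Nat.card ((G ⧸ F) ⧸ F2) := HH.not_dvd_card_of_fpf σ2 hσ2 hfpf2
  set N := fittingSubgroup ((G ⧸ F) ⧸ F2) with hNdef
  obtain ⟨q, hq, x1, hx1, hτx1⟩ : ∃ q : ℕ, q.Prime ∧ ∃ x ∈ pCore q ((G ⧸ F) ⧸ F2), τ2 x ≠ x := by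
    by_contra hno
    simp only [not_exists, not_and, not_not] at hno
    have hN : ∀ x ∈ N, τ2 x = x := by
      have hle : N ≤ τ2.toMonoidHom.eqLocus (MonoidHom.id _) := by
        rw [hNdef, fittingSubgroup_eq_iSup]
        exact iSup_le fun r x hx => hno r r.2 x hx
      exact fun x hx => hle hx
    set z := QuotientGroup.mk' F2 h0 with hz
    have hm : z⁻¹ * τ2 z ∈ N := by
      refine centralizer_fittingSubgroup_le (Subgroup.mem_centralizer_iff.mpr fun x hx => ?_)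
      have h1 := hN (z * x * z⁻¹) ((inferInstance : N.Normal).conj_mem x hx z)
      rw [map_mul, map_mul, map_inv, hN x hx] at h1
      calc x * (z⁻¹ * τ2 z) = z⁻¹ * (z * x * z⁻¹) * τ2 z := by group
        _ = z⁻¹ * (τ2 z * x * (τ2 z)⁻¹) * τ2 z := by rw [h1]
        _ = z⁻¹ * τ2 z * x := by group
    have h2 := hN _ hm
    rw [map_mul, map_inv, hτ2sq] at h2
    have h3 : (z⁻¹ * τ2 z) ^ 2 = 1 := by
      nth_rw 1 [pow_two, ← h2]; group
    have h4 : z⁻¹ * τ2 z = 1 := orderOf_eq_one_iff.mp (Nat.eq_one_of_dvd_coprimes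
      (Nat.prime_two.coprime_iff_not_dvd.mpr h2H) (orderOf_dvd_of_pow_eq_one h3) (orderOf_dvd_natCard _))
    rw [hz, hτ2def, hσ2pow, ← map_inv, ← map_mul] at h4
    exact hh0 ((QuotientGroup.eq_one_iff _).mp h4)
  haveI := Fact.mk hq
  set Pb := pCore q ((G ⧸ F) ⧸ F2) with hPb
  have hqd : q ∣ Nat.card ((G ⧸ F) ⧸ F2) := by
    obtain ⟨j, hj⟩ := isPGroup_pCore q ((G ⧸ F) ⧸ F2) ⟨x1, hx1⟩
    have hx1ne : x1 ≠ 1 := fun h => hτx1 (by rw [h, map_one])
    obtain ⟨i, -, hi⟩ := (Nat.dvd_prime_pow hq).mp (orderOf_dvd_of_pow_eq_one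
      (show x1 ^ q ^ j = 1 from congrArg Subtype.val hj))
    have hi0 : i ≠ 0 := fun h => hx1ne (orderOf_eq_one_iff.mp (by rw [hi, h, pow_zero]))
    exact (dvd_pow_self q hi0).trans (hi ▸ orderOf_dvd_natCard x1)
  have hq2 : q ≠ 2 := fun h => h2H (h ▸ hqd)
  -- an invariant Sylow subgroup covering `O_q(H / F(H))`
  set L : Subgroup (G ⧸ F) := Pb.comap (QuotientGroup.mk' F2) with hLdef
  have hL : L.map σH.toMonoidHom = L := ThompsonFPF.map_eq_of_le (by
    rintro _ ⟨y, hy, rfl⟩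
    have h1 := Subgroup.characteristic_iff_map_le.mp (inferInstance : Pb.Characteristic) σ2
      (Subgroup.mem_map_of_mem _ (show QuotientGroup.mk' F2 y ∈ Pb from hy))
    exact h1)
  let σL : MulAut L := ThompsonFPF.restrict σH L hL
  obtain ⟨S, hS⟩ := ThompsonFPF.exists_invariant_sylow (φ := σL)
    (fun y hy => Subtype.ext (hfpfH y (congrArg Subtype.val hy))) q
  let Q : Subgroup (G ⧸ F) := (S : Subgroup L).map L.subtype
  have hQσ : Q.map σH.toMonoidHom = Q := ThompsonFPF.map_eq_of_le (by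
    rintro _ ⟨_, ⟨y', hy', rfl⟩, rfl⟩
    exact ⟨σL y', hS ▸ Subgroup.mem_map_of_mem _ hy', rfl⟩)
  obtain ⟨y0, hy0Q, hy0⟩ : ∃ y ∈ Q, QuotientGroup.mk' F2 y = x1 := by
    let f : L →* Pb := ((QuotientGroup.mk' F2).comp L.subtype).codRestrict Pb fun y => y.2
    have hf : Function.Surjective f := fun y => by
      obtain ⟨z, hz⟩ := QuotientGroup.mk'_surjective F2 (y : (G ⧸ F) ⧸ F2)
      exact ⟨⟨z, show QuotientGroup.mk' F2 z ∈ Pb from hz.symm ▸ y.2⟩, Subtype.ext hz⟩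
    obtain ⟨j, hj⟩ := IsPGroup.iff_card.mp (isPGroup_pCore q ((G ⧸ F) ⧸ F2))
    have h1 : ((S : Subgroup L).map f).index ∣ (S : Subgroup L).index := Subgroup.index_map_dvd _ hf
    have h2 : ((S : Subgroup L).map f).index ∣ q ^ j := hj ▸ Subgroup.index_dvd_card _
    obtain ⟨i, -, hi⟩ := (Nat.dvd_prime_pow hq).mp h2
    have hi0 : i = 0 := by
      by_contra h
      exact S.not_dvd_index ((dvd_pow_self q h).trans (hi ▸ h1))
    rw [hi0, pow_zero, Subgroup.index_eq_one] at hi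
    obtain ⟨y, hy, hye⟩ := (hi ▸ Subgroup.mem_top (⟨x1, hx1⟩ : Pb) : (⟨x1, hx1⟩ : Pb) ∈ (S : Subgroup L).map f)
    exact ⟨y, ⟨y, hy, rfl⟩, congrArg Subtype.val hye⟩
  have hQmem : ∀ y : G ⧸ F, y ∈ Q → σH y ∈ Q := fun y hy => hQσ.le (Subgroup.mem_map_of_mem _ hy)
  set τH := σH ^ (2 ^ n) with hτHdef
  have hQτ : ∀ y ∈ Q, τH y ∈ Q := by
    have : ∀ k, ∀ y ∈ Q, (σH ^ k) y ∈ Q := by
      intro k
      induction k with
      | zero => intro y hy; simpa using hy
      | succ k ih =>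
        intro y hy
        rw [pow_succ', MulAut.mul_apply]
        exact hQmem _ (ih y hy)
    exact this _
  have hm0 : y0⁻¹ * τH y0 ∉ F2 := fun h => hτx1 (by
    have h1 : QuotientGroup.mk' F2 (y0⁻¹ * τH y0) = 1 := (QuotientGroup.eq_one_iff _).mpr h
    rw [map_mul, map_inv, inv_mul_eq_one, hy0, ← hσ2pow, hy0] at h1
    exact h1.symm)
  have hQL : Q ≤ L := Subgroup.map_subtype_le _
  obtain ⟨r, hrq, v0, hv0, hv0ne⟩ : ∃ r : Nat.Primes, (r : ℕ) ≠ q ∧ ∃ v ∈ pCore (r : ℕ) (G ⧸ F),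
      y0⁻¹ * τH y0 * v ≠ v * (y0⁻¹ * τH y0) := by
    by_contra hno
    simp only [not_exists, not_and, not_not] at hno
    exact hm0 (mem_fitting_of_centralizes (hQL (Q.mul_mem (Q.inv_mem hy0Q) (hQτ _ hy0Q))) hno)
  haveI := Fact.mk r.2
  set R := pCore (r : ℕ) (G ⧸ F) with hRdef
  have hrd : (r : ℕ) ∣ Nat.card (G ⧸ F) := by
    obtain ⟨j, hj⟩ := isPGroup_pCore (r : ℕ) (G ⧸ F) ⟨v0, hv0⟩
    have hne : v0 ≠ 1 := fun h => hv0ne (by rw [h, one_mul, mul_one])
    obtain ⟨i, -, hi⟩ := (Nat.dvd_prime_pow r.2).mp (orderOf_dvd_of_pow_eq_one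
      (show v0 ^ (r : ℕ) ^ j = 1 from congrArg Subtype.val hj))
    have hi0 : i ≠ 0 := fun h => hne (orderOf_eq_one_iff.mp (by rw [hi, h, pow_zero]))
    exact (dvd_pow_self _ hi0).trans (hi ▸ orderOf_dvd_natCard v0)
  have hr2 : (r : ℕ) ≠ 2 := fun h => HH.not_dvd_card_of_fpf σH hσH hfpfH (h ▸ hrd)
  have hRσ : R.map σH.toMonoidHom = R := Subgroup.characteristic_iff_map_eq.mp inferInstance σH
  let σR : MulAut R := ThompsonFPF.restrict σH R hRσ
  have hσR : σR ^ (2 ^ (n + 1)) = 1 := MulEquiv.ext fun x => Subtype.ext (by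
    rw [HH.coe_pow_restrict, hσH]; rfl)
  let cQ : Q →* MulAut R := (MulAut.conjNormal).comp Q.subtype
  have hcQ : ∀ (y : Q), σR * cQ y = cQ ⟨σH y, hQmem _ y.2⟩ * σR := fun y =>
    MulEquiv.ext fun x => Subtype.ext (by
      show σH ((MulAut.conjNormal (y : G ⧸ F) x : R) : G ⧸ F) = ((MulAut.conjNormal (σH y) (σR x) : R) : G ⧸ F)
      rw [MulAut.conjNormal_apply, MulAut.conjNormal_apply, map_mul, map_mul, map_inv]
      rfl)
  let A0 := cQ.range
  have hA0 : A0.map (MulAut.conj σR).toMonoidHom = A0 := ThompsonFPF.map_eq_of_le (by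
    rintro _ ⟨_, ⟨y, rfl⟩, rfl⟩
    refine ⟨⟨σH y, hQmem _ y.2⟩, ?_⟩
    show _ = σR * cQ y * σR⁻¹
    rw [hcQ, mul_inv_cancel_right])
  let β : MulAut A0 := ThompsonFPF.restrict (MulAut.conj σR) A0 hA0
  have hβ : β ^ (2 ^ (n + 1)) = 1 := MulEquiv.ext fun a => Subtype.ext (by
    rw [HH.coe_pow_restrict, ← map_pow, hσR, map_one]; rfl)
  haveI : Finite (MulAut R) := Finite.of_injective (fun e : MulAut R => (e : R → R)) DFunLike.coe_injective
  haveI : Finite A0 := inferInstance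
  have hQq : IsPGroup q Q := S.isPGroup'.map L.subtype
  have hA0q : IsPGroup q A0 := hQq.of_surjective cQ.rangeRestrict cQ.rangeRestrict_surjective
  have hmove : ∃ a ∈ (⊤ : Subgroup A0), (β ^ (2 ^ n)) a ≠ a := by
    refine ⟨⟨cQ ⟨y0, hy0Q⟩, ⟨_, rfl⟩⟩, Subgroup.mem_top _, fun h => hv0ne ?_⟩
    have h1 := congrArg Subtype.val h
    rw [HH.coe_pow_restrict, ← map_pow, MulAut.conj_apply] at h1
    have h2 : σR ^ (2 ^ n) * cQ ⟨y0, hy0Q⟩ = cQ ⟨τH y0, hQτ _ hy0Q⟩ * σR ^ (2 ^ n) :=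
      MulEquiv.ext fun x => Subtype.ext (by
        rw [MulAut.mul_apply, MulAut.mul_apply, HH.coe_pow_restrict]
        show τH ((MulAut.conjNormal y0 x : R) : G ⧸ F) =
          ((MulAut.conjNormal (τH y0) ((σR ^ (2 ^ n)) x) : R) : G ⧸ F)
        rw [MulAut.conjNormal_apply, MulAut.conjNormal_apply, map_mul, map_mul, map_inv, HH.coe_pow_restrict])
    have h3 : cQ ⟨τH y0, hQτ _ hy0Q⟩ = cQ ⟨y0, hy0Q⟩ := by
      rw [h2, mul_inv_cancel_right] at h1; exact h1
    have h4 := congrArg Subtype.val (MulEquiv.congr_fun h3 ⟨v0, hv0⟩)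
    change ((MulAut.conjNormal (τH y0) (⟨v0, hv0⟩ : R) : R) : G ⧸ F) =
      ((MulAut.conjNormal y0 (⟨v0, hv0⟩ : R) : R) : G ⧸ F) at h4
    simp only [MulAut.conjNormal_apply] at h4
    calc y0⁻¹ * τH y0 * v0 = y0⁻¹ * (τH y0 * v0 * (τH y0)⁻¹) * τH y0 := by group
      _ = y0⁻¹ * (y0 * v0 * y0⁻¹) * τH y0 := by rw [h4]
      _ = v0 * (y0⁻¹ * τH y0) := by group
  obtain ⟨A, α, -, hα, hαn, hfixA, hgenA, a1, ha1⟩ := HH.exists_minimal_sub_aut (p := 2) (q := q) (Ne.symm hq2) β hβ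
    ⊤ (hA0q.to_subgroup _) (Subgroup.map_top_of_surjective _ β.surjective) hmove
  let act : A →* MulAut R := A0.subtype.comp A.subtype
  have hcompat : ∀ a, σR * act a = act (α a) * σR := fun a => by
    show σR * ((a : A0) : MulAut R) = (((α a : A) : A0) : MulAut R) * σR
    rw [hα]
    show _ = σR * ((a : A0) : MulAut R) * σR⁻¹ * σR
    rw [inv_mul_cancel_right]
  obtain ⟨xR, hxR⟩ : ∃ x, act a1 x ≠ x := by
    by_contra hno
    simp only [not_exists, not_not] at hno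
    exact ha1 (Subtype.ext (Subtype.ext (MulEquiv.ext hno)))
  -- a module detecting the movement
  set e : R := act a1 xR * xR⁻¹ with he
  have hene : e ≠ 1 := fun h => hxR (mul_inv_eq_one.mp h)
  obtain ⟨g0, hg0r, hg0⟩ := HH.exists_lift_p_element (p := (r : ℕ)) F (e : G ⧸ F)
    ((isPGroup_pCore (r : ℕ) (G ⧸ F) e).imp fun k hk => congrArg Subtype.val hk)
  obtain ⟨s, hsr, w0, hw0, hw0ne⟩ : ∃ s : Nat.Primes, (s : ℕ) ≠ (r : ℕ) ∧ ∃ w ∈ pCore (s : ℕ) G,
      g0 * w ≠ w * g0 := by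
    by_contra hno
    simp only [not_exists, not_and, not_not] at hno
    have h := mem_fitting_of_centralizes (q := (r : ℕ)) (y := g0) (by rw [hg0]; exact e.2) hno
    exact hene (Subtype.ext (hg0.symm.trans ((QuotientGroup.eq_one_iff g0).mpr h)))
  haveI := Fact.mk s.2
  have hsd : (s : ℕ) ∣ Nat.card G := by
    obtain ⟨j, hj⟩ := isPGroup_pCore (s : ℕ) G ⟨w0, hw0⟩
    have hne : w0 ≠ 1 := fun h => hw0ne (by rw [h, one_mul, mul_one])
    obtain ⟨i, -, hi⟩ := (Nat.dvd_prime_pow s.2).mp (orderOf_dvd_of_pow_eq_one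
      (show w0 ^ (s : ℕ) ^ j = 1 from congrArg Subtype.val hj))
    have hi0 : i ≠ 0 := fun h => hne (orderOf_eq_one_iff.mp (by rw [hi, h, pow_zero]))
    exact (dvd_pow_self _ hi0).trans (hi ▸ orderOf_dvd_natCard w0)
  have hs2 : (s : ℕ) ≠ 2 := fun h => HH.not_dvd_card_of_fpf σ hσ hfpf (h ▸ hsd)
  set O := pCore (s : ℕ) G with hOdef
  haveI : Finite (MulAut O) := Finite.of_injective (fun e : MulAut O => (e : O → O)) DFunLike.coe_injective
  have hOs : IsPGroup (s : ℕ) O := isPGroup_pCore _ _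
  obtain ⟨M, _, _, _, πM, LM, hπs, hπa, hπker, hπL⟩ := exists_frattini_module hOs
  haveI : Module.Finite (ZMod (s : ℕ)) M := Module.Finite.of_finite
  have hπ1 : πM 1 = 0 := (hπker 1).mpr (one_mem _)
  have hπinv : ∀ x, πM x⁻¹ = -πM x := fun x => eq_neg_of_add_eq_zero_left (by rw [← hπa, inv_mul_cancel, hπ1])
  let Lc : G →* Module.End (ZMod (s : ℕ)) M := LM.comp MulAut.conjNormal
  have hFker : F ≤ Lc.ker := by
    rw [hFdef, fittingSubgroup_eq_iSup]
    refine iSup_le fun t g hg => MonoidHom.mem_ker.mpr (LinearMap.ext fun m => ?_)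
    obtain ⟨x, rfl⟩ := hπs m
    show LM (MulAut.conjNormal g) (πM x) = πM x
    rw [hπL]
    by_cases hts : (t : ℕ) = (s : ℕ)
    · rw [hts] at hg
      have e : MulAut.conjNormal g x = (⟨g, hg⟩ : O) * x * (⟨g, hg⟩ : O)⁻¹ := Subtype.ext (by
        rw [MulAut.conjNormal_apply]; rfl)
      rw [e, hπa, hπa, hπinv]
      abel
    · haveI := Fact.mk t.2
      congr 1
      refine Subtype.ext ?_
      rw [MulAut.conjNormal_apply]
      have hd : Disjoint (pCore (t : ℕ) G) O := IsPGroup.disjoint_of_ne (t : ℕ) (s : ℕ) hts _ _ (isPGroup_pCore _ _) hOs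
      have hcm := Subgroup.commute_of_normal_of_disjoint _ _ inferInstance inferInstance hd g (x : G) hg x.2
      rw [hcm.eq, mul_inv_cancel_right]
  let LH : (G ⧸ F) →* Module.End (ZMod (s : ℕ)) M := QuotientGroup.lift F Lc hFker
  let K := AlgebraicClosure (ZMod (s : ℕ))
  haveI : CharP K (s : ℕ) := charP_of_injective_algebraMap (algebraMap (ZMod (s : ℕ)) K).injective (s : ℕ)
  let bas := Module.finBasis (ZMod (s : ℕ)) M
  let φ : Module.End (ZMod (s : ℕ)) M →+* Module.End K (Fin (Module.finrank (ZMod (s : ℕ)) M) → K) :=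
    (Matrix.toLinAlgEquiv' (R := K)).toRingEquiv.toRingHom.comp
      ((algebraMap (ZMod (s : ℕ)) K).mapMatrix.comp (LinearMap.toMatrixAlgEquiv bas).toRingEquiv.toRingHom)
  have hφ : Function.Injective φ := by
    intro A B hAB
    exact (LinearMap.toMatrixAlgEquiv bas).injective (Matrix.map_injective (algebraMap (ZMod (s : ℕ)) K).injective
      ((Matrix.toLinAlgEquiv' (R := K)).injective hAB))
  let ρ0 : R →* Module.End K (Fin (Module.finrank (ZMod (s : ℕ)) M) → K) := (φ.toMonoidHom.comp LH).comp R.subtype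
  have hO : O.map σ.toMonoidHom = O := Subgroup.characteristic_iff_map_eq.mp inferInstance σ
  let σO : MulAut O := ThompsonFPF.restrict σ O hO
  have hXρ0 : ∀ x : R, φ (LM σO) * ρ0 x = ρ0 (σR x) * φ (LM σO) := fun x => by
    show φ (LM σO) * φ (LH (x : G ⧸ F)) = φ (LH (σH (x : G ⧸ F))) * φ (LM σO)
    obtain ⟨g, hg⟩ := QuotientGroup.mk'_surjective F (x : G ⧸ F)
    rw [← map_mul, ← map_mul, ← hg]
    show φ (LM σO * LM (MulAut.conjNormal g)) = φ (LM (MulAut.conjNormal (σ g)) * LM σO)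
    rw [← map_mul, ← map_mul]
    refine congrArg (fun t => φ (LM t)) (MulEquiv.ext fun z => Subtype.ext ?_)
    show σ ((MulAut.conjNormal g z : O) : G) = ((MulAut.conjNormal (σ g) (σO z) : O) : G)
    rw [MulAut.conjNormal_apply, MulAut.conjNormal_apply, map_mul, map_mul, map_inv]
    rfl
  set N0 := ρ0.ker with hN0def
  have hN0σ : N0.map σR.toMonoidHom = N0 := ThompsonFPF.map_eq_of_le (by
    rintro _ ⟨x, hx, rfl⟩
    refine MonoidHom.mem_ker.mpr ?_
    have h := hXρ0 x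
    rw [show ρ0 x = 1 from hx, mul_one] at h
    have hinv : φ (LM σO) * φ (LM σO⁻¹) = 1 := by rw [← map_mul, ← map_mul, mul_inv_cancel, map_one, map_one]
    calc ρ0 (σR x) = ρ0 (σR x) * (φ (LM σO) * φ (LM σO⁻¹)) := by rw [hinv, mul_one]
      _ = 1 := by rw [← mul_assoc, ← h, hinv])
  have hN0A : ∀ a : A, N0.map (act a).toMonoidHom = N0 := fun a => ThompsonFPF.map_eq_of_le (by
    rintro _ ⟨x, hx, rfl⟩
    obtain ⟨y, hy⟩ := (a : A0).2
    refine MonoidHom.mem_ker.mpr ?_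
    show φ (LH ((act a x : R) : G ⧸ F)) = 1
    have e : act a = cQ y := hy.symm
    rw [e]
    show φ (LH ((MulAut.conjNormal (y : G ⧸ F) x : R) : G ⧸ F)) = 1
    rw [MulAut.conjNormal_apply, map_mul, map_mul, map_mul, map_mul,
      show φ (LH (x : G ⧸ F)) = 1 from hx, mul_one, ← map_mul, ← map_mul, mul_inv_cancel, map_one, map_one])
  let σQ : MulAut (R ⧸ N0) := QuotientGroup.congr N0 N0 σR hN0σ
  let actQ : A →* MulAut (R ⧸ N0) :=
    { toFun := fun a => QuotientGroup.congr N0 N0 (act a) (hN0A a)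
      map_one' := MulEquiv.ext fun x => by
        obtain ⟨x, rfl⟩ := QuotientGroup.mk_surjective x
        show QuotientGroup.mk (act 1 x) = QuotientGroup.mk x
        rw [map_one]; rfl
      map_mul' := fun a b => MulEquiv.ext fun x => by
        obtain ⟨x, rfl⟩ := QuotientGroup.mk_surjective x
        show QuotientGroup.mk (act (a * b) x) = QuotientGroup.mk (act a (act b x))
        rw [map_mul]; rfl }
  have hfpfR : ∀ x, σR x = x → x = 1 := fun x hx => Subtype.ext (hfpfH x (congrArg Subtype.val hx))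
  have hne : ∀ t : ℕ, t.Prime → t ≠ (s : ℕ) → (t : K) ≠ 0 := fun t ht hts h => hts
    ((Nat.prime_dvd_prime_iff_eq s.2 ht).mp ((CharP.cast_eq_zero_iff K (s : ℕ) t).mp h)).symm
  have hσO : σO ^ (2 ^ (n + 1)) = 1 := MulEquiv.ext fun x => Subtype.ext (by
    rw [HH.coe_pow_restrict, hσ]; rfl)
  have hXfix : ∀ v, φ (LM σO) v = v → v = 0 := by
    have hMfix : ∀ m, LM σO m = m → m = 0 := fun m hm => by
      obtain ⟨x, rfl⟩ := hπs m
      rw [hπL] at hm
      refine (hπker x).mpr ((QuotientGroup.eq_one_iff x).mp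
        (ThompsonFPF.fpf_quotient (φ := σO) (fun y hy => Subtype.ext (hfpf y (congrArg Subtype.val hy)))
          (Subgroup.characteristic_iff_map_eq.mp (frattini_characteristic (G := O)) σO) (QuotientGroup.mk' _ x) ?_))
      show QuotientGroup.mk (σO x) = QuotientGroup.mk x
      refine QuotientGroup.eq.mpr ((hπker _).mp ?_)
      rw [hπa, hπinv, hm, neg_add_cancel]
    obtain ⟨Y, hY⟩ := LinearMap.exists_leftInverse_of_injective (LM σO - 1)
      (LinearMap.ker_eq_bot'.mpr fun m hm => hMfix m (sub_eq_zero.mp hm))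
    intro v hv
    have h1 : φ Y * (φ (LM σO) - 1) = 1 := by
      rw [← map_one φ, ← map_sub, ← map_mul]
      exact congrArg φ hY
    have h2 := LinearMap.congr_fun h1 v
    rw [Module.End.mul_apply, LinearMap.sub_apply, Module.End.one_apply, hv, sub_self, map_zero] at h2
    exact h2.symm
  let ρQ : (R ⧸ N0) →* Module.End K (Fin (Module.finrank (ZMod (s : ℕ)) M) → K) := QuotientGroup.lift N0 ρ0 le_rfl
  have hkl : ∀ x : R, ρQ (QuotientGroup.mk x) = ρ0 x := fun x => rfl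
  have hρQ : Function.Injective ρQ := by
    refine (MonoidHom.ker_eq_bot_iff ρQ).mp ((Subgroup.eq_bot_iff_forall _).mpr fun x hx => ?_)
    obtain ⟨x, rfl⟩ := QuotientGroup.mk_surjective x
    exact (QuotientGroup.eq_one_iff x).mpr hx
  have hP' : IsPGroup (r : ℕ) (R ⧸ N0) := (isPGroup_pCore _ _).to_quotient N0
  have hA' : IsPGroup q A := hA0q.to_subgroup A
  have hX' : φ (LM σO) ^ (2 ^ (n + 1)) = 1 := by rw [← map_pow, ← map_pow, hσO, map_one, map_one]
  have hXρ' : ∀ x : R ⧸ N0, φ (LM σO) * ρQ x = ρQ (σQ x) * φ (LM σO) := by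
    intro x
    obtain ⟨x, rfl⟩ := QuotientGroup.mk_surjective x
    rw [show σQ (QuotientGroup.mk x) = QuotientGroup.mk (σR x) from rfl, hkl, hkl]
    exact hXρ0 x
  have hσQ : σQ ^ (2 ^ (n + 1)) = 1 := MulEquiv.ext fun x => by
    obtain ⟨x, rfl⟩ := QuotientGroup.mk'_surjective N0 x
    rw [HH.congr_pow_mk σR N0 hN0σ, hσR]; rfl
  have hfpfQ : ∀ x, σQ x = x → x = 1 := ThompsonFPF.fpf_quotient hfpfR hN0σ
  have hcompatQ : ∀ a : A, σQ * actQ a = actQ (α a) * σQ := fun a => MulEquiv.ext fun x => by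
    obtain ⟨x, rfl⟩ := QuotientGroup.mk_surjective x
    exact congrArg QuotientGroup.mk (MulEquiv.congr_fun (hcompat a) x)
  have h2K : (2 : K) ≠ 0 := by exact_mod_cast hne 2 Nat.prime_two (Ne.symm hs2)
  refine false_of_action (K := K) (V := Fin (Module.finrank (ZMod (s : ℕ)) M) → K) (P := R ⧸ N0) (A := A)
    (r := (r : ℕ)) (q := q) (n := n) hr2 hq2 (Ne.symm hrq) hP' hA' (hne _ r.2 (Ne.symm hsr)) h2K
    ρQ hρQ (φ (LM σO)) σQ hX' hXρ' hσQ hXfix hfpfQ
    actQ α hcompatQ hαn hfixA hgenA ⟨a1, QuotientGroup.mk' N0 xR, fun h => hw0ne ?_⟩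
  -- detection
  have hker : e ∈ N0 := by
    have h1 := QuotientGroup.eq.mp h
    simpa [mul_assoc] using N0.inv_mem ((inferInstance : N0.Normal).conj_mem _ h1 (act a1 xR))
  have hL1 : LM (MulAut.conjNormal g0) = 1 := hφ (by
    rw [map_one]
    have := MonoidHom.mem_ker.mp hker
    change φ (LH (e : G ⧸ F)) = 1 at this
    rwa [← hg0] at this)
  set c : MulAut O := MulAut.conjNormal g0 with hc
  have hcone : c = 1 := by
    refine FGS3.ComplementAut.eq_one_of_frattini hOs c ?_ fun x => ?_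
    · obtain ⟨k, hk⟩ := hg0r
      refine Nat.Coprime.coprime_dvd_left (orderOf_dvd_of_pow_eq_one (n := (r : ℕ) ^ k) ?_)
        (((Nat.coprime_primes r.2 s.2).mpr (Ne.symm hsr)).pow_left k)
      rw [hc, ← map_pow, hk, map_one]
    · refine (hπker _).mp ?_
      rw [hπa, hπinv, ← hπL, hL1, Module.End.one_apply, neg_add_cancel]
  have h2 := congrArg Subtype.val (MulEquiv.congr_fun hcone ⟨w0, hw0⟩)
  rw [hc, MulAut.conjNormal_apply] at h2
  exact mul_inv_eq_iff_eq_mul.mp h2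

/-- Chains of length `m` over `G / A`, `A` of nilpotent type, give chains of length `m + 1`. -/
theorem extend_chain {G : Type u} [Group G] (A : Subgroup G) [A.Normal] {m : ℕ}
    (hA : Group.IsNilpotent A) (F : Fin (m + 1) → Subgroup (G ⧸ A)) (hF0 : F 0 = ⊥) (hFl : F (Fin.last m) = ⊤)
    (hFm : Monotone F) (hFn : ∀ i, (F i).Normal)
    (hFk : ∀ i : Fin m, ∃ k : ℕ, (F i.succ).lowerCentralSeries k ≤ F i.castSucc) :
    ∃ F' : Fin ((m + 1) + 1) → Subgroup G, F' 0 = ⊥ ∧ F' (Fin.last (m + 1)) = ⊤ ∧ Monotone F' ∧ (∀ i, (F' i).Normal) ∧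
      ∀ i : Fin (m + 1), ∃ k : ℕ, (F' i.succ).lowerCentralSeries k ≤ F' i.castSucc := by
  refine ⟨Fin.cons ⊥ fun i => (F i).comap (QuotientGroup.mk' A), rfl, ?_, ?_, ?_, ?_⟩
  · rw [← Fin.succ_last, Fin.cons_succ, hFl, Subgroup.comap_top]
  · intro i j hij
    refine Fin.cases (fun j _ => ?_) (fun i j hij => ?_) i j hij
    · rw [Fin.cons_zero]; exact bot_le
    · obtain ⟨j, rfl⟩ := Fin.exists_succ_eq.mpr (Fin.pos_iff_ne_zero.mp (lt_of_lt_of_le i.succ_pos hij))
      rw [Fin.cons_succ, Fin.cons_succ]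
      exact Subgroup.comap_mono (hFm (Fin.succ_le_succ_iff.mp hij))
  · intro i
    refine Fin.cases ?_ (fun i => ?_) i
    · rw [Fin.cons_zero]; infer_instance
    · rw [Fin.cons_succ]; exact (hFn i).comap _
  · intro i
    refine Fin.cases ?_ (fun i => ?_) i
    · rw [Fin.castSucc_zero, Fin.cons_zero, Fin.cons_succ, hF0, MonoidHom.comap_bot, QuotientGroup.ker_mk']
      obtain ⟨k, hk⟩ := (Subgroup.isNilpotent_iff_lowerCentralSeries A).mp hA
      exact ⟨k, hk.le⟩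
    · obtain ⟨k, hk⟩ := hFk i
      refine ⟨k, ?_⟩
      rw [Fin.cons_succ, Fin.castSucc_succ, Fin.cons_succ, ← Subgroup.map_le_iff_le_comap,
        Subgroup.map_lowerCentralSeries, Subgroup.map_comap_eq_self_of_surjective (QuotientGroup.mk'_surjective A)]
      exact hk

/-- **Gross**: the Fitting height is at most `2n + 2` for `σ` of order dividing `2 ^ (n + 2)`. -/
theorem exists_chain : ∀ (n : ℕ) {G : Type u} [Group G] [Finite G], Group.IsSolvable G → ∀ σ : MulAut G,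
    σ ^ (2 ^ (n + 2)) = 1 → (∀ g, σ g = g → g = 1) → ∃ F : Fin ((2 * n + 2) + 1) → Subgroup G, F 0 = ⊥ ∧
      F (Fin.last (2 * n + 2)) = ⊤ ∧ Monotone F ∧ (∀ i, (F i).Normal) ∧
      ∀ i : Fin (2 * n + 2), ∃ k : ℕ, (F i.succ).lowerCentralSeries k ≤ F i.castSucc := by
  intro n
  induction n with
  | zero =>
    intro G _ _ hG σ hσ hfpf
    have hnil := Cfsg.Agent.S3794.result hG σ hσ hfpf
    obtain ⟨k, hk⟩ := (Subgroup.isNilpotent_iff_lowerCentralSeries (commutator G)).mp hnil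
    refine ⟨![⊥, commutator G, ⊤], rfl, rfl, ?_, ?_, ?_⟩
    · refine Fin.monotone_iff_le_succ.mpr fun i => ?_
      fin_cases i <;> simp
    · intro i; fin_cases i <;> simp <;> infer_instance
    · intro i
      fin_cases i
      · exact ⟨k, by simpa using hk.le⟩
      · exact ⟨1, by simp [commutator_def]⟩
  | succ n ih =>
    intro G _ _ hG σ hσ hfpf
    haveI := hG
    set A := fittingSubgroup G with hAdef
    have hA : A.map σ.toMonoidHom = A := fittingSubgroup_map_equiv σ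
    let σA : MulAut (G ⧸ A) := QuotientGroup.congr A A σ hA
    set B := fittingSubgroup (G ⧸ A) with hBdef
    have hB : B.map σA.toMonoidHom = B := fittingSubgroup_map_equiv σA
    let σB : MulAut ((G ⧸ A) ⧸ B) := QuotientGroup.congr B B σA hB
    have hσB : σB ^ (2 ^ (n + 2)) = 1 := MulEquiv.ext fun x => by
      obtain ⟨y, rfl⟩ := QuotientGroup.mk'_surjective B x
      obtain ⟨g, rfl⟩ := QuotientGroup.mk'_surjective A y
      rw [HH.congr_pow_mk σA B hB, HH.congr_pow_mk σ A hA]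
      have h := pow_trivial_mod_fitting_two hG σ (n := n + 2) hσ hfpf g
      rw [map_mul, map_inv] at h
      exact (QuotientGroup.eq.mpr h).symm
    obtain ⟨F, h0, hl, hm, hn, hk⟩ := ih (inferInstance : Group.IsSolvable ((G ⧸ A) ⧸ B)) σB hσB
      (ThompsonFPF.fpf_quotient (ThompsonFPF.fpf_quotient hfpf hA) hB)
    obtain ⟨F1, h0, hl, hm, hn, hk⟩ := extend_chain B (isNilpotent_fittingSubgroup _) F h0 hl hm hn hk
    exact extend_chain A (isNilpotent_fittingSubgroup _) F1 h0 hl hm hn hk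

end Cfsg.Agent.Chars.GrossTwo
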