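import Cfsg.Agent.Chars.PPrimeExtension
import Cfsg.Agent.Chars.CentralExtension

/-!
Covers for an invariant irreducible character of a normal subgroup: the central extension of the
quotient, the correspondence of characters, restriction to intermediate subgroups and lifted actions.
-/

set_option autoImplicit false
set_option linter.style.haveILetI false
set_option linter.unusedSectionVars false

open Cfsg Cfsg.Agent Cfsg.Agent.Chars2
open scoped ComplexConjugate

namespace Cfsg.Agent.Chars.InvariantCover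

universe u v

noncomputable local instance (priority := high) fintypeSub {A : Type*} [Group A] [Finite A]
    (K : Subgroup A) : Fintype K :=
  Fintype.ofFinite _

/-- A cover of the quotient by `N` affording the character `θ` on `N`. -/
structure Cover {G : Type u} [Group G] (N : Subgroup G) (θ : N → ℂ) where
  d : ℕ
  H : Type u
  [grpH : Group H]
  [finH : Fintype H]
  K : Type u
  [grpK : Group K]
  [finK : Fintype K]
  q : H →* G
  π : H →* K
  R : Representation ℂ H (Fin d → ℂ)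
  b : N →* H
  c : q.ker →* ℂˣ
  hq : Function.Surjective q
  hπ : Function.Surjective π
  hker : π.ker = b.range
  hqb : ∀ n : N, q (b n) = (n : G)
  hc : ∀ z : q.ker, R (z : H) = (c z : ℂ) • (1 : Module.End ℂ (Fin d → ℂ))
  hcent : ∀ z ∈ q.ker, ∀ x : H, z * x = x * z
  hRb : ∀ n : N, R.character (b n) = θ n

attribute [instance] Cover.grpH Cover.finH Cover.grpK Cover.finK

variable {G : Type u} [Group G] [Fintype G] {N : Subgroup G} {θ : N → ℂ}

namespace Cover

variable (X : Cover N θ)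

/-- The image of the kernel. -/
def Z : Subgroup X.K := X.q.ker.map X.π

theorem Z_le_center : X.Z ≤ Subgroup.center X.K := by
  rintro _ ⟨z, hz, rfl⟩
  refine Subgroup.mem_center_iff.2 fun y => ?_
  obtain ⟨x, rfl⟩ := X.hπ y
  rw [← map_mul, ← map_mul, X.hcent z hz x]

theorem eq_one_of_π {z : X.H} (hz : z ∈ X.q.ker) (h : X.π z = 1) : z = 1 := by
  obtain ⟨n, rfl⟩ : z ∈ X.b.range := X.hker ▸ MonoidHom.mem_ker.2 h
  have hn : n = 1 := Subtype.ext (by
    rw [← X.hqb n]; exact hz)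
  rw [hn, map_one]

/-- The kernel and its image. -/
noncomputable def zEquiv : X.q.ker ≃* X.Z :=
  MulEquiv.ofBijective (X.π.subgroupMap X.q.ker) ⟨by
    intro z z' h
    have h1 : X.π (z : X.H) = X.π (z' : X.H) := congrArg Subtype.val h
    have h2 := X.eq_one_of_π (mul_mem z.2 (inv_mem z'.2))
      (show X.π ((z : X.H) * (z' : X.H)⁻¹) = 1 by rw [map_mul, map_inv, h1, mul_inv_cancel])
    exact Subtype.ext (mul_inv_eq_one.1 h2),
    X.π.subgroupMap_surjective _⟩

/-- The linear character of the image of the kernel. -/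
noncomputable def lam : X.Z →* ℂˣ := (X.c.comp X.zEquiv.symm.toMonoidHom)⁻¹

theorem lam_apply (z : X.q.ker) : X.lam (X.zEquiv z) = (X.c z)⁻¹ := by
  show (X.c (X.zEquiv.symm (X.zEquiv z)))⁻¹ = _
  rw [MulEquiv.symm_apply_apply]

/-- Lying over the linear character. -/
def Over (η : IrrCharacter X.K) : Prop :=
  classInner (fun z : X.Z => (η : X.K → ℂ) z) (fun z => (X.lam z : ℂ)) ≠ 0

theorem inertia_lam [X.Z.Normal] : inertiaSub (fun z : X.Z => (X.lam z : ℂ)) = ⊤ :=
  inertiaSub_eq_top fun g z => by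
    congr 2
    exact Subtype.ext (by
      show g * (z : X.K) * g⁻¹ = z
      rw [Subgroup.mem_center_iff.1 (X.Z_le_center z.2) g, mul_inv_cancel_right])

theorem apply_Z {η : IrrCharacter X.K} (h : X.Over η) (z : X.Z) :
    (η : X.K → ℂ) z = (η : X.K → ℂ) 1 * (X.lam z : ℂ) := by
  haveI : X.Z.Normal := ⟨fun w hw g => by
    rwa [Subgroup.mem_center_iff.1 (X.Z_le_center hw) g, mul_inv_cancel_right]⟩
  have h1 := clifford_invariant η.2 (isIrrCharacter_hom X.lam) X.inertia_lam h z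
  have h2 := clifford_invariant η.2 (isIrrCharacter_hom X.lam) X.inertia_lam h 1
  change (η : X.K → ℂ) z = _ at h1
  change (η : X.K → ℂ) 1 = _ at h2
  rw [map_one, Units.val_one, mul_one] at h2
  rw [h1, ← h2]

theorem character_mul_ker (x : X.H) (z : X.q.ker) :
    X.R.character ((z : X.H) * x) = (X.c z : ℂ) * X.R.character x := by
  rw [Representation.character, Representation.character, map_mul, X.hc, smul_mul_assoc, one_mul,
    map_smul, smul_eq_mul]

variable [N.Normal] (hθ : IsIrrCharacter N θ) (hinv : inertiaSub θ = ⊤)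
include hθ hinv

/-- A character over the linear character gives one over `θ`. -/
theorem fwd (η : IrrCharacter X.K) (hη : X.Over η) :
    ∃ χ : IrrCharacter G, classInner (fun n : N => (χ : G → ℂ) n) θ ≠ 0 ∧
      ∀ x : X.H, (χ : G → ℂ) (X.q x) = X.R.character x * (η : X.K → ℂ) (X.π x) := by
  classical
  haveI hn : X.b.range.Normal := X.hker ▸ inferInstance
  haveI : Fintype (X.H ⧸ X.b.range) := Fintype.ofFinite _
  let e : X.H ⧸ X.b.range ≃* X.K :=
    (QuotientGroup.quotientMulEquivOfEq X.hker.symm).trans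
      (QuotientGroup.quotientKerEquivOfSurjective X.π X.hπ)
  have he : ∀ x : X.H, e (QuotientGroup.mk' X.b.range x) = X.π x := fun x => rfl
  let η' := irrEquiv e η
  have hRb : (fun n => X.R.character (X.b n)) = θ := funext X.hRb
  haveI : Fintype (coverProj X.q X.b X.hqb).ker := Fintype.ofFinite _
  have hov : classInner (fun z : (coverProj X.q X.b X.hqb).ker =>
      (η' : X.H ⧸ X.b.range → ℂ) z) (fun z => (coverChar X.q X.b X.hqb X.c z : ℂ)) ≠ 0 := by
    have hres : (fun z : (coverProj X.q X.b X.hqb).ker => (η' : X.H ⧸ X.b.range → ℂ) z) =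
        (η : X.K → ℂ) 1 • fun z => (coverChar X.q X.b X.hqb X.c z : ℂ) := by
      funext w
      obtain ⟨z, rfl⟩ := (kerImage_bijective X.q X.b X.hqb).2 w
      rw [Pi.smul_apply, smul_eq_mul, coverChar_apply, ← X.lam_apply, ← X.apply_Z hη]
      rfl
    rw [hres, classInner_smul_left, classInner_self_irr (isIrrCharacter_hom _), mul_one]
    exact irr_apply_one_ne_zero η.2
  obtain ⟨χ, hχ⟩ := exists_irr_of_cover X.q X.R X.b X.hq X.hqb X.c X.hc X.hcent
    (by rw [hRb]; exact hθ) (by rw [hRb]; exact hinv) η' hov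
  refine ⟨χ, ?_, fun x => ?_⟩
  · have h1 : (fun n : N => (χ : G → ℂ) n) = (η : X.K → ℂ) 1 • θ := by
      funext n
      rw [← X.hqb n, hχ, X.hRb, Pi.smul_apply, smul_eq_mul, mul_comm (θ n), irrEquiv_apply, he,
        show X.π (X.b n) = 1 from MonoidHom.mem_ker.1 (X.hker.symm ▸ ⟨n, rfl⟩)]
    rw [h1, classInner_smul_left, classInner_self_irr hθ, mul_one]
    exact irr_apply_one_ne_zero η.2
  · rw [hχ, irrEquiv_apply, he]

/-- The fibres carry the norm of `θ`. -/
theorem fib (x : X.H) :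
    ∑ n : N, X.R.character (x * X.b n) * conj (X.R.character (x * X.b n)) = (Nat.card N : ℂ) := by
  classical
  have hd : X.d ≠ 0 := fun h => irr_apply_one_ne_zero hθ (by
    rw [← X.hRb, map_one, Representation.char_one, Module.finrank_fin_fun, h, Nat.cast_zero])
  let ρ : Representation ℂ N (Fin X.d → ℂ) := X.R.comp X.b
  have hρc : ρ.character = θ := funext X.hRb
  haveI : ρ.IsIrreducible := by
    obtain ⟨d', σ, hσ, hσc⟩ := id hθ
    haveI := hσ
    obtain ⟨e⟩ := equiv_of_character_eq σ ρ (hσc.trans hρc.symm)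
    exact isIrreducible_of_equiv e hσ
  let A : Module.End ℂ (Fin X.d → ℂ) →* Matrix (Fin X.d) (Fin X.d) ℂ :=
    { toFun := fun f => LinearMap.toMatrix' f
      map_one' := LinearMap.toMatrix'_one
      map_mul' := fun f g => LinearMap.toMatrix'_mul f g }
  let ρθ : N →* Matrix (Fin X.d) (Fin X.d) ℂ := A.comp ρ
  have hscalar : ∀ T : Matrix (Fin X.d) (Fin X.d) ℂ, (∀ n, T * ρθ n = ρθ n * T) →
      ∃ s : ℂ, T = s • 1 := by
    intro T hT
    obtain ⟨s, hs⟩ := Chars2.scalar_of_commute ρ (Matrix.toLin' T) fun n => by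
      have hT' : T * LinearMap.toMatrix' (ρ n) = LinearMap.toMatrix' (ρ n) * T := hT n
      apply LinearMap.toMatrix'.injective
      rw [LinearMap.toMatrix'_mul, LinearMap.toMatrix'_mul, LinearMap.toMatrix'_toLin']
      exact hT'
    refine ⟨s, ?_⟩
    rw [← LinearMap.toMatrix'_toLin' T, hs, Algebra.algebraMap_eq_smul_one, map_smul,
      LinearMap.toMatrix'_one]
  set U := A (X.R x) with hU
  set V := A (X.R x⁻¹) with hV
  have hUV : U * V = 1 := by rw [hU, hV, ← map_mul, ← map_mul, mul_inv_cancel, map_one, map_one]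
  have hterm : ∀ n : N, X.R.character (x * X.b n) * conj (X.R.character (x * X.b n)) =
      (U * ρθ n).trace * (ρθ n⁻¹ * V).trace := by
    intro n
    rw [← char_inv_eq_conj (isCharacter_of_rep X.R)]
    congr 1
    · show LinearMap.trace ℂ _ (X.R (x * X.b n)) = _
      rw [LinearMap.trace_eq_matrix_trace ℂ (Pi.basisFun ℂ (Fin X.d)), hU]
      show _ = (A (X.R x) * A (X.R (X.b n))).trace
      rw [← map_mul, ← map_mul]
      rfl
    · show LinearMap.trace ℂ _ (X.R (x * X.b n)⁻¹) = _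
      rw [LinearMap.trace_eq_matrix_trace ℂ (Pi.basisFun ℂ (Fin X.d)), hV, mul_inv_rev, ← map_inv]
      show _ = (A (X.R (X.b n⁻¹)) * A (X.R x⁻¹)).trace
      rw [← map_mul, ← map_mul]
      rfl
  rw [Finset.sum_congr rfl fun n _ => hterm n]
  simp only [Matrix.trace, Matrix.diag, Matrix.mul_apply, Finset.sum_mul, Finset.mul_sum]
  have hs := schur_entries ρθ hscalar
  have hd' : (X.d : ℂ) ≠ 0 := Nat.cast_ne_zero.2 hd
  have hN' : (Nat.card N : ℂ) ≠ 0 := Nat.cast_ne_zero.2 Nat.card_pos.ne'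
  have hs' : ∀ i j l m', ∑ n : N, ρθ n⁻¹ m' l * ρθ n i j =
      (Nat.card N : ℂ) / X.d * if i = l ∧ j = m' then 1 else 0 := fun i j l m' => by
    rw [← hs i j l m', ← mul_assoc, div_mul_div_cancel₀ hd', div_self hN', one_mul]
  rw [Finset.sum_comm]
  simp only [Finset.sum_comm (s := (Finset.univ : Finset N))]
  have e : ∀ i j l m', ∑ n : N, U i j * ρθ n j i * (ρθ n⁻¹ l m' * V m' l) =
      (Nat.card N : ℂ) / X.d * if j = m' ∧ i = l then U i j * V m' l else 0 := fun i j l m' => by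
    rw [Finset.sum_congr rfl fun n _ => show U i j * ρθ n j i * (ρθ n⁻¹ l m' * V m' l) =
        U i j * V m' l * (ρθ n⁻¹ l m' * ρθ n j i) by ring, ← Finset.mul_sum, hs']
    split_ifs <;> ring
  simp only [e, ← Finset.mul_sum, ite_and, Finset.sum_ite_eq, Finset.sum_ite_eq', Finset.mem_univ,
    if_true, Finset.sum_ite_irrel, Finset.sum_const_zero]
  have h2 : ∑ i, ∑ j, U i j * V j i = (X.d : ℂ) := by
    have := congrArg Matrix.trace hUV
    rw [Matrix.trace_one, Fintype.card_fin] at this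
    rw [← this]
    simp [Matrix.trace, Matrix.diag, Matrix.mul_apply]
  rw [h2, div_mul_cancel₀ _ hd']

/-- Every fibre contains a point where the representation has nonzero character. -/
theorem exists_ne_zero (y : X.K) : ∃ x : X.H, X.π x = y ∧ X.R.character x ≠ 0 := by
  obtain ⟨x, rfl⟩ := X.hπ y
  by_contra hall
  push Not at hall
  have h1 := X.fib hθ hinv x
  rw [Finset.sum_eq_zero fun n _ => by
    rw [hall (x * X.b n) (by
      rw [map_mul, show X.π (X.b n) = 1 from MonoidHom.mem_ker.1 (X.hker.symm ▸ ⟨n, rfl⟩),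
        mul_one]), zero_mul]] at h1
  exact Nat.cast_ne_zero.2 Nat.card_pos.ne' h1.symm

/-- The character over the linear character is determined by its image. -/
theorem eq_of_values {η η' : IrrCharacter X.K}
    (h : ∀ x, X.R.character x * (η : X.K → ℂ) (X.π x) = X.R.character x * (η' : X.K → ℂ) (X.π x)) :
    η = η' := by
  refine Subtype.ext (funext fun y => ?_)
  obtain ⟨x, rfl, hx⟩ := X.exists_ne_zero hθ hinv y
  exact mul_left_cancel₀ hx (h x)

/-- Every character over `θ` comes from the cover. -/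
theorem bwd (χ : IrrCharacter G) (hχ : classInner (fun n : N => (χ : G → ℂ) n) θ ≠ 0) :
    ∃ η : IrrCharacter X.K, X.Over η ∧
      ∀ x : X.H, (χ : G → ℂ) (X.q x) = X.R.character x * (η : X.K → ℂ) (X.π x) := by
  classical
  haveI : X.Z.Normal := ⟨fun w hw g => by
    rwa [Subgroup.mem_center_iff.1 (X.Z_le_center hw) g, mul_inv_cancel_right]⟩
  haveI : Nonempty (IrrCharacter G) := ⟨χ⟩
  choose! F hFθ hF using X.fwd hθ hinv
  let S : Finset (IrrCharacter X.K) := Finset.univ.filter fun η =>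
    classInner (fun z : X.Z => (η : X.K → ℂ) z) (fun z => (X.lam z : ℂ)) ≠ 0
  have hinj : ∀ η ∈ S, ∀ η' ∈ S, F η = F η' → η = η' := fun η hη η' hη' h =>
    X.eq_of_values hθ hinv fun x => by
      rw [← hF η (Finset.mem_filter.1 hη).2, h, hF η' (Finset.mem_filter.1 hη').2]
  by_contra hno
  push Not at hno
  have hnotin : χ ∉ S.image F := by
    intro h
    obtain ⟨η, hη, rfl⟩ := Finset.mem_image.1 h
    obtain ⟨x, hx⟩ := hno η (Finset.mem_filter.1 hη).2
    exact hx (hF η (Finset.mem_filter.1 hη).2 x)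
  let T : Finset (IrrCharacter G) := Finset.univ.filter fun φ =>
    classInner (fun n : N => (φ : G → ℂ) n) θ ≠ 0
  have hsumG : ∑ φ ∈ T, (φ : G → ℂ) 1 ^ 2 = (N.index : ℂ) * θ 1 ^ 2 :=
    PPrimeExt.sum_sq_over N hθ hinv
  have hidx : X.Z.index = N.index := by
    let f : X.H →* G ⧸ N := (QuotientGroup.mk' N).comp X.q
    have hf : X.π.ker ≤ f.ker := by
      rw [X.hker]
      rintro _ ⟨n, rfl⟩
      exact MonoidHom.mem_ker.2 ((QuotientGroup.eq_one_iff _).2 (X.hqb n ▸ n.2))
    have hk : f.ker = X.q.ker ⊔ X.π.ker := by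
      refine le_antisymm (fun x hx => ?_) (sup_le (fun z hz => ?_) hf)
      · have hx' : X.q x ∈ N := (QuotientGroup.eq_one_iff _).1 (MonoidHom.mem_ker.1 hx)
        rw [show x = x * (X.b ⟨_, hx'⟩)⁻¹ * X.b ⟨_, hx'⟩ by group]
        refine Subgroup.mul_mem_sup ?_ (X.hker.symm ▸ ⟨_, rfl⟩)
        rw [MonoidHom.mem_ker, map_mul, map_inv, X.hqb, mul_inv_cancel]
      · rw [MonoidHom.mem_ker] at hz ⊢
        show ((X.q z : G) : G ⧸ N) = 1
        rw [hz, QuotientGroup.mk_one]
    have hs : Function.Surjective f := (QuotientGroup.mk'_surjective N).comp X.hq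
    rw [Cover.Z, Subgroup.index_map, MonoidHom.range_eq_top.2 X.hπ, Subgroup.index_top, mul_one,
      ← hk, Subgroup.index_ker, MonoidHom.range_eq_top.2 hs, Subgroup.card_top,
      ← Subgroup.index_eq_card]
  have hsumK : ∑ η ∈ S, (η : X.K → ℂ) 1 ^ 2 = (N.index : ℂ) := by
    refine (PPrimeExt.sum_sq_over X.Z (isIrrCharacter_hom X.lam) X.inertia_lam).trans ?_
    rw [map_one, Units.val_one, one_pow, mul_one, hidx]
  have hTF : S.image F ⊆ T := fun φ hφ => by
    obtain ⟨η, hη, rfl⟩ := Finset.mem_image.1 hφ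
    exact Finset.mem_filter.2 ⟨Finset.mem_univ _, hFθ η (Finset.mem_filter.1 hη).2⟩
  have himg : ∑ φ ∈ S.image F, (φ : G → ℂ) 1 ^ 2 = (N.index : ℂ) * θ 1 ^ 2 := by
    rw [Finset.sum_image hinj, ← hsumK, Finset.sum_mul]
    refine Finset.sum_congr rfl fun η hη => ?_
    have h := hF η (Finset.mem_filter.1 hη).2 1
    rw [map_one, map_one] at h
    rw [h, ← X.hRb 1, map_one]
    ring
  have h0 : ∑ φ ∈ T \ S.image F, (φ : G → ℂ) 1 ^ 2 = 0 := by
    have := Finset.sum_sdiff hTF (f := fun φ : IrrCharacter G => (φ : G → ℂ) 1 ^ 2)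
    rw [himg, hsumG] at this
    exact add_eq_right.1 this
  choose dd hdd0 hdd using fun φ : IrrCharacter G => exists_irr_apply_one_eq φ.2
  simp only [hdd] at h0
  have h0' : ∑ φ ∈ T \ S.image F, dd φ ^ 2 = 0 := by exact_mod_cast h0
  exact pow_ne_zero 2 (hdd0 χ).ne' (Finset.sum_eq_zero_iff.1 h0' χ
    (Finset.mem_sdiff.2 ⟨Finset.mem_filter.2 ⟨Finset.mem_univ _, hχ⟩, hnotin⟩))

omit hθ hinv in
theorem fibre_card (hbinj : Function.Injective X.b) :
    Nat.card X.π.ker = Nat.card N := by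
  rw [X.hker]
  exact (Nat.card_congr (MonoidHom.ofInjective hbinj).toEquiv).symm

/-- The norm identity along the cover. -/
theorem fsum (F : X.K → ℂ) :
    ∑ x : X.H, X.R.character x * conj (X.R.character x) * F (X.π x) =
      (Nat.card N : ℂ) * ∑ y : X.K, F y := by
  classical
  have hbinj : Function.Injective X.b := fun n n' h => Subtype.ext (by
    rw [← X.hqb n, h, X.hqb])
  rw [← Finset.sum_fiberwise Finset.univ X.π, Finset.mul_sum]
  refine Finset.sum_congr rfl fun y _ => ?_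
  obtain ⟨x, rfl⟩ := X.hπ y
  rw [Finset.sum_congr rfl (g := fun i => X.R.character i * conj (X.R.character i) * F (X.π x))
    fun i hi => by rw [(Finset.mem_filter.1 hi).2], ← Finset.sum_mul]
  congr 1
  rw [← X.fib hθ hinv x]
  refine (Finset.sum_bij (fun n _ => x * X.b n) (fun n _ => ?_) (fun n _ n' _ h => ?_)
    (fun i hi => ?_) fun n _ => rfl).symm
  · refine Finset.mem_filter.2 ⟨Finset.mem_univ _, ?_⟩
    rw [map_mul, show X.π (X.b n) = 1 from MonoidHom.mem_ker.1 (X.hker.symm ▸ ⟨n, rfl⟩), mul_one]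
  · exact hbinj (mul_left_cancel h)
  · have h1 : x⁻¹ * i ∈ X.b.range := X.hker ▸ MonoidHom.mem_ker.2 (by
      rw [map_mul, map_inv, (Finset.mem_filter.1 hi).2, inv_mul_cancel])
    obtain ⟨n, hn⟩ := h1
    exact ⟨n, Finset.mem_univ _, by rw [hn, mul_inv_cancel_left]⟩

end Cover

/-- Restriction to an intermediate subgroup. -/
noncomputable def Cover.restrict (X : Cover N θ) (S : Subgroup G) (hNS : N ≤ S) :
    Cover (N.subgroupOf S) (fun n => θ ⟨(n : S), n.2⟩) where
  d := X.d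
  H := S.comap X.q
  K := (S.comap X.q).map X.π
  finK := Fintype.ofFinite _
  finH := Fintype.ofFinite _
  q := X.q.subgroupComap S
  π := X.π.subgroupMap (S.comap X.q)
  R := X.R.comp (S.comap X.q).subtype
  b :=
    { toFun := fun n => ⟨X.b ⟨(n : S), n.2⟩, Subgroup.mem_comap.2 (by rw [X.hqb]; exact hNS n.2)⟩
      map_one' := Subtype.ext (map_one X.b)
      map_mul' := fun n n' => Subtype.ext (map_mul X.b ⟨(n : S), n.2⟩ ⟨(n' : S), n'.2⟩) }
  c :=
    { toFun := fun z => X.c ⟨(z : S.comap X.q), congrArg Subtype.val (MonoidHom.mem_ker.1 z.2)⟩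
      map_one' := map_one X.c
      map_mul' := fun z z' => map_mul X.c
        ⟨(z : S.comap X.q), congrArg Subtype.val (MonoidHom.mem_ker.1 z.2)⟩
        ⟨(z' : S.comap X.q), congrArg Subtype.val (MonoidHom.mem_ker.1 z'.2)⟩ }
  hq := fun s => by
    obtain ⟨x, hx⟩ := X.hq s
    exact ⟨⟨x, Subgroup.mem_comap.2 (hx ▸ s.2)⟩, Subtype.ext hx⟩
  hπ := X.π.subgroupMap_surjective _
  hker := by
    ext x
    constructor
    · intro hx
      have h1 : (x : X.H) ∈ X.b.range :=
        X.hker ▸ MonoidHom.mem_ker.2 (congrArg Subtype.val (MonoidHom.mem_ker.1 hx))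
      obtain ⟨n, hn⟩ := h1
      exact ⟨⟨⟨n, hNS n.2⟩, n.2⟩, Subtype.ext hn⟩
    · rintro ⟨n, rfl⟩
      refine MonoidHom.mem_ker.2 (Subtype.ext ?_)
      show X.π (X.b ⟨(n : S), n.2⟩) = 1
      exact MonoidHom.mem_ker.1 (X.hker.symm ▸ ⟨_, rfl⟩)
  hqb := fun n => Subtype.ext (X.hqb ⟨(n : S), n.2⟩)
  hc := fun z => X.hc ⟨(z : S.comap X.q), congrArg Subtype.val (MonoidHom.mem_ker.1 z.2)⟩
  hcent := fun z hz x => Subtype.ext
    (X.hcent z (congrArg Subtype.val (MonoidHom.mem_ker.1 hz)) x)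
  hRb := fun n => X.hRb ⟨(n : S), n.2⟩

set_option maxHeartbeats 1000000 in
/-- A cover carrying the action of a group fixing `θ`. -/
theorem exists_cover_action [N.Normal] {A : Type v} [Group A] [Finite A] (φ : A →* MulAut G)
    (hN : ∀ a, ∀ n ∈ N, φ a n ∈ N) (hθ : IsIrrCharacter N θ)
    (hθi : ∀ (a : A) (n : N), θ ⟨φ a n, hN a n n.2⟩ = θ n) (hG : inertiaSub θ = ⊤) :
    ∃ (X : Cover N θ) (φK : A →* MulAut X.K) (fH : A → X.H → X.H),
      (∀ a x, X.q (fH a x) = φ a (X.q x)) ∧ (∀ a x, X.π (fH a x) = φK a (X.π x)) ∧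
      (∀ a x, X.R.character (fH a x) = X.R.character x) ∧
      (∀ a, ∀ z ∈ X.q.ker, φK a (X.π z) = X.π z) ∧ Function.Injective X.c ∧
      ∀ y : X.K, y ^ (N.index * (N.index * N.index)) = 1 := by
  classical
  have hθ0 := hθ
  obtain ⟨d, ρ, hirr, rfl⟩ := hθ0
  haveI := hirr
  haveI := Chars2.nontrivial_of_irreducible ρ
  have hsurj : Function.Surjective (interFst ρ) := by
    refine interFst_surjective ρ fun g n => ?_
    have := congrFun (mem_inertiaSub.1 (hG ▸ Subgroup.mem_top g⁻¹)) n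
    simpa [Chars2.conjFun] using this
  obtain ⟨m, hm⟩ : ∃ m, m = N.index := ⟨_, rfl⟩
  have hm0 : m ≠ 0 := hm ▸ Subgroup.index_ne_zero_of_finite
  haveI : NeZero (m * m) := ⟨mul_ne_zero hm0 hm0⟩
  obtain ⟨τ₂, hτ₂a, hτ₂n, hτ₂inv⟩ := exists_invariant_weight ρ hsurj
  simp only [← hm] at hτ₂a
  obtain ⟨H, hH⟩ : ∃ H : Subgroup (interSub ρ), ∀ x, x ∈ H ↔ τ₂ x = 1 :=
    ⟨τ₂.ker, fun x => Iff.rfl⟩
  let q : H →* G := (interFst ρ).comp H.subtype
  let R : Representation ℂ H (Fin d → ℂ) := (Units.coeHom _).comp ((interSnd ρ).comp H.subtype)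
  let b : N →* H := (baseHom ρ).codRestrict H fun n => (hH _).2 (hτ₂n n)
  have hqb : ∀ n : N, q (b n) = (n : G) := fun n => rfl
  haveI : b.range.Normal := ⟨by
    rintro _ ⟨n, rfl⟩ x
    exact ⟨MulAut.conjNormal (x : interSub ρ).1.1 n,
      Subtype.ext (baseHom_conj ρ (x : interSub ρ) n).symm⟩⟩
  have hscal : Function.Injective (scalarHom ρ) := fun a a' h =>
    scalarUnit_injective (V := Fin d → ℂ) (congrArg (fun z : interSub ρ => z.1.2) h)
  have hq : Function.Surjective q := by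
    intro g
    obtain ⟨x, hx⟩ := hsurj g
    obtain ⟨c, hc⟩ := IsAlgClosed.exists_pow_nat_eq ((τ₂ x⁻¹ : ℂˣ) : ℂ)
      (Nat.pos_of_ne_zero (mul_ne_zero hm0 hm0))
    have hc0 : c ≠ 0 := by
      rintro rfl
      rw [zero_pow (mul_ne_zero hm0 hm0)] at hc
      exact (τ₂ x⁻¹).ne_zero hc.symm
    refine ⟨⟨x * scalarHom ρ (Units.mk0 c hc0), (hH _).2 ?_⟩, ?_⟩
    · rw [map_mul, hτ₂a]
      have : (Units.mk0 c hc0) ^ (m * m) = τ₂ x⁻¹ := Units.ext (by simp [hc])
      rw [this, map_inv, mul_inv_cancel]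
    · show interFst ρ (x * scalarHom ρ (Units.mk0 c hc0)) = g
      rw [map_mul, hx]
      simp
  have hkerq : ∀ z : q.ker, ∃ a : ℂˣ,
      ((z : H) : interSub ρ) = scalarHom ρ a ∧ a ^ (m * m) = 1 := by
    intro z
    obtain ⟨a, ha⟩ := interFst_ker ρ ((z : H) : interSub ρ) (MonoidHom.mem_ker.1 z.2)
    exact ⟨a, ha, by rw [← hτ₂a, ← ha]; exact (hH _).1 (z : H).2⟩
  choose ca hca hca1 using hkerq
  let c : q.ker →* ℂˣ := MonoidHom.mk' ca fun z z' => hscal (by
    rw [map_mul, ← hca, ← hca, ← hca]; rfl)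
  have hc : ∀ z : q.ker, R (z : H) = (c z : ℂ) • (1 : Module.End ℂ (Fin d → ℂ)) := fun z => by
    show (((z : H) : interSub ρ).1.2).1 = (ca z : ℂ) • 1
    rw [hca]
    show algebraMap ℂ (Module.End ℂ (Fin d → ℂ)) (ca z : ℂ) = _
    rw [Algebra.algebraMap_eq_smul_one]
  have hcinj : Function.Injective c := fun z z' h => Subtype.ext (Subtype.ext (by
    rw [hca, hca]; exact congrArg _ h))
  have hcent : ∀ z ∈ q.ker, ∀ x : H, z * x = x * z := fun z hz x => Subtype.ext (by
    show (z : interSub ρ) * x = x * z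
    rw [show (z : interSub ρ) = scalarHom ρ (ca ⟨z, hz⟩) from hca ⟨z, hz⟩]
    exact scalarHom_commute ρ _ _)
  choose sec hsec using id hq
  haveI : Finite H := by
    refine Finite.of_surjective (fun p : G × rootsOfUnity (m * m) ℂ =>
      (⟨scalarHom ρ p.2.1, (hH _).2 ((hτ₂a _).trans ((mem_rootsOfUnity _ _).1 p.2.2))⟩ : H)
        * sec p.1) fun x => ?_
    have hz : x * (sec (q x))⁻¹ ∈ q.ker := by
      rw [MonoidHom.mem_ker, map_mul, map_inv, hsec, mul_inv_cancel]
    refine ⟨(q x, ⟨ca ⟨_, hz⟩, (mem_rootsOfUnity _ _).2 (hca1 _)⟩), Subtype.ext ?_⟩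
    show scalarHom ρ (ca ⟨_, hz⟩) * (sec (q x) : interSub ρ) = x
    rw [← hca ⟨_, hz⟩]
    simp
  haveI : Fintype H := Fintype.ofFinite H
  -- the action
  have hU : ∀ a : A, ∃ U : (Module.End ℂ (Fin d → ℂ))ˣ,
      ∀ n : N, U.1 * ρ n = ρ ⟨φ a n, hN a n n.2⟩ * U.1 := by
    intro a
    obtain ⟨e⟩ := equiv_of_character_eq ρ (ρ.comp (subAct φ N hN a).toMonoidHom)
      (funext fun n => (hθi a n).symm)
    exact ⟨LinearMap.GeneralLinearGroup.ofLinearEquiv e.toLinearEquiv,
      fun n => e.toIntertwiningMap.isIntertwining' n⟩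
  choose U hU using hU
  have hmem : ∀ (a : A) (x : interSub ρ),
      ((φ a x.1.1, U a * x.1.2 * (U a)⁻¹) : G × (Module.End ℂ (Fin d → ℂ))ˣ) ∈ interSub ρ := by
    intro a x n
    obtain ⟨n', rfl⟩ : ∃ n' : N, (⟨φ a n', hN a n' n'.2⟩ : N) = n :=
      ⟨⟨φ a⁻¹ n, hN a⁻¹ n n.2⟩, Subtype.ext (by
        show φ a (φ a⁻¹ (n : G)) = n
        rw [← MulAut.mul_apply, ← map_mul, mul_inv_cancel, map_one, MulAut.one_apply])⟩
    have e1 : ((U a)⁻¹ : (Module.End ℂ (Fin d → ℂ))ˣ).1 * ρ ⟨φ a n', hN a n' n'.2⟩ =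
        ρ n' * ((U a)⁻¹ : (Module.End ℂ (Fin d → ℂ))ˣ).1 := by
      apply (U a).isUnit.mul_left_cancel
      rw [← mul_assoc, Units.mul_inv, one_mul, ← mul_assoc, hU, mul_assoc, Units.mul_inv, mul_one]
    simp only [Units.val_mul]
    rw [mul_assoc, e1, ← mul_assoc, mul_assoc (U a).1, x.2 n', ← mul_assoc, hU]
    simp only [mul_assoc]
    congr 2
    ext
    simp
  let Ψ : A → (interSub ρ →* interSub ρ) := fun a =>
    { toFun := fun x => ⟨(φ a x.1.1, U a * x.1.2 * (U a)⁻¹), hmem a x⟩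
      map_one' := by ext1; simp
      map_mul' := fun x y => by ext1; simp [mul_assoc] }
  have hΨs : ∀ a (c : ℂˣ), Ψ a (scalarHom ρ c) = scalarHom ρ c := fun a c => by
    apply Subtype.ext
    refine Prod.ext (map_one _) ?_
    show U a * scalarUnit _ c * (U a)⁻¹ = scalarUnit _ c
    rw [← scalarUnit_commute, mul_inv_cancel_right]
  have hΨb : ∀ a (n : N), Ψ a (baseHom ρ n) = baseHom ρ ⟨φ a n, hN a n n.2⟩ := fun a n => by
    apply Subtype.ext
    refine Prod.ext rfl (Units.ext ?_)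
    show (U a).1 * ρ n * ((U a)⁻¹ : (Module.End ℂ (Fin d → ℂ))ˣ).1 = ρ _
    rw [hU, mul_assoc, Units.mul_inv, mul_one]
  let fH : A → (H →* H) := fun a => ((Ψ a).comp H.subtype).codRestrict H fun x => (hH _).2 (by
    show τ₂ (Ψ a (x : interSub ρ)) = 1
    rw [hτ₂inv (Ψ a) (hΨs a) (fun n => ⟨_, hΨb a n⟩)]
    exact (hH _).1 x.2)
  let fQ : A → (H ⧸ b.range →* H ⧸ b.range) := fun a => QuotientGroup.map _ _ (fH a) (by
    rintro _ ⟨n, rfl⟩
    exact ⟨⟨φ a n, hN a n n.2⟩, Subtype.ext (hΨb a n).symm⟩)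
  have hfQ : ∀ a x, fQ a (QuotientGroup.mk' b.range x) = QuotientGroup.mk' b.range (fH a x) :=
    fun a x => rfl
  have hone : ∀ x : H, fH 1 x = x := fun x => by
    refine Subtype.ext (Subtype.ext (Prod.ext ?_ ?_))
    · show φ 1 _ = _
      rw [map_one]; rfl
    · show U 1 * (x : interSub ρ).1.2 * (U 1)⁻¹ = _
      rw [conj_eq_of_intertwine ρ id (U 1) 1 (fun n => by simpa using hU 1 n) (fun n => by simp)]
      simp
  have hmul : ∀ a a' (x : H), fH (a * a') x = fH a (fH a' x) := fun a a' x => by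
    refine Subtype.ext (Subtype.ext (Prod.ext ?_ ?_))
    · show φ (a * a') _ = φ a (φ a' _)
      rw [map_mul]; rfl
    · show U (a * a') * (x : interSub ρ).1.2 * (U (a * a'))⁻¹ =
        U a * (U a' * (x : interSub ρ).1.2 * (U a')⁻¹) * (U a)⁻¹
      rw [conj_eq_of_intertwine ρ (fun n => ⟨φ (a * a') n, hN (a * a') n n.2⟩) (U (a * a'))
        (U a * U a') (hU (a * a')) (fun n => ?_)]
      · simp [mul_assoc]
      · rw [Units.val_mul, mul_assoc, hU, ← mul_assoc, hU, mul_assoc]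
        simp
  let φQ : A →* MulAut (H ⧸ b.range) := autOfFun fQ
    (fun y => by
      obtain ⟨x, rfl⟩ := QuotientGroup.mk'_surjective b.range y
      rw [hfQ, hone])
    (fun a a' y => by
      obtain ⟨x, rfl⟩ := QuotientGroup.mk'_surjective b.range y
      rw [hfQ, hfQ, hfQ, hmul])
  have hexp : ∀ y : H ⧸ b.range, y ^ (m * (m * m)) = 1 := by
    intro y
    obtain ⟨x, rfl⟩ := QuotientGroup.mk'_surjective b.range y
    obtain ⟨z, hz, n, hzn⟩ := exists_mem_ker q b hqb (x ^ m) (by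
      rw [map_pow, hm]; exact N.pow_index_mem _)
    rw [pow_mul, ← map_pow, hzn, map_mul,
      show QuotientGroup.mk' b.range (b n) = 1 from (QuotientGroup.eq_one_iff _).2 ⟨n, rfl⟩,
      mul_one, ← map_pow]
    have : z ^ (m * m) = 1 := Subtype.ext (by
      rw [Subgroup.coe_pow, show (z : interSub ρ) = scalarHom ρ (ca ⟨z, hz⟩) from hca ⟨z, hz⟩,
        ← map_pow, hca1, map_one]; rfl)
    rw [this, map_one]
  haveI : Fintype (H ⧸ b.range) := Fintype.ofFinite _
  let X : Cover N ρ.character :=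
    { d := d, H := H, K := H ⧸ b.range, q := q, π := QuotientGroup.mk' b.range, R := R, b := b,
      c := c, hq := hq, hπ := QuotientGroup.mk'_surjective _, hker := QuotientGroup.ker_mk' _,
      hqb := hqb, hc := hc, hcent := hcent, hRb := fun n => rfl }
  refine ⟨X, φQ, fun a x => fH a x, fun a x => rfl, fun a x => rfl, fun a x => ?_,
    fun a z hz => ?_, hcinj, hm ▸ hexp⟩
  · show LinearMap.trace ℂ _ ((U a * x.1.1.2 * (U a)⁻¹ : (Module.End ℂ (Fin d → ℂ))ˣ).1) =
      LinearMap.trace ℂ _ x.1.1.2.1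
    rw [Units.val_mul, LinearMap.trace_mul_comm, ← Units.val_mul]
    simp [← mul_assoc]
  · show fQ a (QuotientGroup.mk' b.range z) = QuotientGroup.mk' b.range z
    rw [hfQ]
    refine congrArg (QuotientGroup.mk' b.range) (Subtype.ext ?_)
    show Ψ a (z : interSub ρ) = _
    rw [show (z : interSub ρ) = scalarHom ρ (ca ⟨z, hz⟩) from hca ⟨z, hz⟩, hΨs]

end Cfsg.Agent.Chars.InvariantCover
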