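import Cfsg.Agent.DegreeGraph.Indicator
import Cfsg.Agent.Chars.Eigen
import Cfsg.Agent.S0662

/-! The number of involutions of a 2-group modulo 4. -/

set_option autoImplicit false
set_option linter.style.haveILetI false
set_option linter.unusedSectionVars false

namespace Cfsg.Agent.Chars

open Cfsg
open scoped ComplexConjugate

universe u

variable {G : Type u} [Group G]

/-- The number of solutions of `g ^ 2 = 1` from the Frobenius–Schur sums. -/
theorem sum_indicator [Fintype G] [DecidablePred fun g : G => g * g = 1] :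
    ∑ χ : IrrCharacter G, (χ : G → ℂ) 1 * ((Nat.card G : ℂ)⁻¹ * ∑ g : G, (χ : G → ℂ) (g * g)) =
      ((Finset.univ.filter fun g : G => g * g = 1).card : ℂ) := by
  classical
  simp only [mul_left_comm _ ((Nat.card G : ℂ)⁻¹), ← Finset.mul_sum]
  simp only [Finset.mul_sum (s := (Finset.univ : Finset G))]
  rw [Finset.sum_comm]
  simp only [← Finset.mul_sum, sum_apply_one_mul]
  rw [Finset.card_filter, Finset.mul_sum]
  push_cast
  refine Finset.sum_congr rfl fun g _ => ?_
  split_ifs
  · exact inv_mul_cancel₀ (Nat.cast_ne_zero.mpr Nat.card_pos.ne')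
  · exact mul_zero _

theorem isCyclic_of_two_group {A : Type*} [CommGroup A] [Fintype A] [DecidableEq A]
    (h2 : IsPGroup 2 A) (h : (Finset.univ.filter fun a : A => a ^ 2 = 1).card ≤ 2) :
    IsCyclic A := by
  have key : ∀ k, (Finset.univ.filter fun a : A => a ^ 2 ^ k = 1).card ≤ 2 ^ k := by
    intro k
    induction k with
    | zero => simp [Finset.card_le_one]
    | succ k ih =>
      refine (Finset.card_le_mul_card_image_of_maps_to (f := fun a : A => a ^ 2)
        (t := Finset.univ.filter fun a : A => a ^ 2 ^ k = 1) ?_ 2 fun b hb => ?_).trans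
        (le_trans (Nat.mul_le_mul_left 2 ih) (le_of_eq (by ring)))
      · intro a ha
        simpa [← pow_mul, ← pow_succ'] using ha
      · rcases Finset.eq_empty_or_nonempty
          ((Finset.univ.filter fun a : A => a ^ 2 ^ (k + 1) = 1).filter fun a => a ^ 2 = b) with
          h0 | ⟨a₀, ha₀⟩
        · simp [h0]
        · refine le_trans (Finset.card_le_card_of_injOn (fun a => a * a₀⁻¹) (fun a ha => ?_) ?_) h
          · simp only [Finset.coe_filter, Set.mem_setOf_eq] at ha
            simp only [Finset.mem_filter, Finset.mem_univ, true_and] at ha₀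
            simp [mul_pow, ha.2, ha₀.2]
          · intro a _ c _ hac
            exact mul_right_cancel hac
  refine isCyclic_of_card_pow_eq_one_le fun n hn => ?_
  obtain ⟨m, hm⟩ := IsPGroup.iff_card.mp h2
  obtain ⟨k, -, hk⟩ := (Nat.dvd_prime_pow Nat.prime_two).mp
    (hm ▸ Nat.gcd_dvd_right n (Nat.card A) : Nat.gcd n (Nat.card A) ∣ 2 ^ m)
  refine le_trans (Finset.card_le_card fun a ha => ?_)
    ((key k).trans (hk ▸ Nat.gcd_le_left _ hn))
  simp only [Finset.mem_filter, Finset.mem_univ, true_and] at ha ⊢
  rw [← hk]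
  exact pow_gcd_eq_one.mpr ⟨ha, pow_card_eq_one'⟩

theorem cyclic_or_index_four [Finite G] (hG : IsPGroup 2 G)
    (ht : Nat.card {x : G // orderOf x = 2} % 4 = 1) :
    IsCyclic G ∨ (commutator G).index = 4 := by
  classical
  haveI : Fintype G := Fintype.ofFinite G
  obtain ⟨m, hm⟩ := IsPGroup.iff_card.mp hG
  -- involutions and solutions of `g * g = 1`
  have hcount : (Finset.univ.filter fun g : G => g * g = 1).card % 4 = 2 := by
    have e : (Finset.univ.filter fun g : G => g * g = 1) =
        insert 1 (Finset.univ.filter fun g : G => orderOf g = 2) := by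
      ext g
      simp only [Finset.mem_filter, Finset.mem_univ, true_and, Finset.mem_insert]
      rw [orderOf_eq_iff (by norm_num : 0 < 2), ← pow_two]
      constructor
      · intro h
        by_cases h1 : g = 1
        · exact Or.inl h1
        · refine Or.inr ⟨h, fun i hi hi0 => ?_⟩
          interval_cases i
          simpa using h1
      · rintro (rfl | h)
        · simp
        · exact h.1
    rw [e, Finset.card_insert_of_notMem (by simp), ← Fintype.card_subtype,
      ← Nat.card_eq_fintype_card]
    omega
  -- degrees are powers of two, indicators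
  have hdeg : ∀ χ : IrrCharacter G, ∃ k : ℕ, (χ : G → ℂ) 1 = (2 : ℂ) ^ k := by
    intro χ
    obtain ⟨n, -, h1, h2⟩ := irr_degree_dvd_card χ.2
    obtain ⟨k, -, rfl⟩ := (Nat.dvd_prime_pow Nat.prime_two).mp (hm ▸ h2)
    exact ⟨k, by rw [h1]; push_cast; rfl⟩
  choose k hk using hdeg
  have hind : ∀ χ : IrrCharacter G, ∃ v : ℤ,
      (Nat.card G : ℂ)⁻¹ * ∑ g : G, (χ : G → ℂ) (g * g) = v ∧ (v = 0 ∨ v = 1 ∨ v = -1) ∧
      (v ≠ 0 ↔ (fun g => conj ((χ : G → ℂ) g)) = (χ : G → ℂ)) := by
    intro χ
    by_cases hr : (fun g => conj ((χ : G → ℂ) g)) = (χ : G → ℂ)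
    · rcases DegreeGraph.indicator_of_real χ.2 hr with h | h
      · exact ⟨1, by rw [h, Int.cast_one], Or.inr (Or.inl rfl), iff_of_true one_ne_zero hr⟩
      · exact ⟨-1, by rw [h, Int.cast_neg, Int.cast_one], Or.inr (Or.inr rfl), iff_of_true (by norm_num) hr⟩
    · refine ⟨0, ?_, Or.inl rfl, iff_of_false (fun h => h rfl) hr⟩
      by_contra h
      exact hr (DegreeGraph.real_of_indicator_ne_zero χ.2 fun h0 => h (by rw [h0, mul_zero, Int.cast_zero]))
  choose v hv hv3 hvr using hind
  have hsum : (∑ χ : IrrCharacter G, (2 : ℤ) ^ k χ * v χ) =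
      ((Finset.univ.filter fun g : G => g * g = 1).card : ℤ) := by
    have := sum_indicator (G := G)
    simp only [hk, hv] at this
    exact_mod_cast this
  have hsq : (∑ χ : IrrCharacter G, (4 : ℤ) ^ k χ) = (2 : ℤ) ^ m := by
    have h := sum_sq_apply_one (G := G)
    have e : ∀ χ : IrrCharacter G, (χ : G → ℂ) 1 ^ 2 = (((4 : ℤ) ^ k χ : ℤ) : ℂ) := fun χ => by
      rw [hk χ, ← pow_mul, mul_comm, pow_mul]
      push_cast
      norm_num
    rw [Finset.sum_congr rfl fun χ _ => e χ, hm] at h
    exact_mod_cast h
  -- linear characters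
  let e0 := homEquivLinear (G := G)
  have hk0 : ∀ χ : IrrCharacter G, k χ = 0 ↔ (χ : G → ℂ) 1 = 1 := fun χ => by
    rw [hk χ]
    refine ⟨fun h => by rw [h, pow_zero], fun h => ?_⟩
    have : (2 : ℕ) ^ k χ = 1 := by exact_mod_cast h
    simpa using this
  set L := Finset.univ.filter fun χ : IrrCharacter G => k χ = 0
  set D := Finset.univ.filter fun χ : IrrCharacter G => k χ = 1
  have hLcard : L.card = (commutator G).index := by
    rw [← card_linear (G := G), Nat.card_eq_fintype_card, Fintype.card_subtype]
    exact congrArg Finset.card (Finset.filter_congr fun χ _ => hk0 χ)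
  -- mod 4 and mod 8
  have hmod : ((Finset.univ.filter fun g : G => g * g = 1).card : ℤ) ≡
      ∑ χ ∈ L, v χ + 2 * ∑ χ ∈ D, v χ [ZMOD 4] := by
    rw [← hsum, Finset.mul_sum, Finset.sum_filter, Finset.sum_filter, ← Finset.sum_add_distrib]
    refine Int.ModEq.sum fun χ _ => ?_
    rcases lt_or_ge (k χ) 2 with h | h
    · interval_cases hc : k χ <;> simp
    · rw [if_neg (by omega), if_neg (by omega), add_zero]
      exact Int.modEq_zero_iff_dvd.mpr (Dvd.dvd.mul_right
        (by simpa using pow_dvd_pow (2 : ℤ) h) _)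
  have hmod8 : (2 : ℤ) ^ m ≡ (L.card : ℤ) + 4 * D.card [ZMOD 8] := by
    rw [← hsq, Finset.card_filter, Finset.card_filter]
    push_cast
    rw [Finset.mul_sum, ← Finset.sum_add_distrib]
    refine Int.ModEq.sum fun χ _ => ?_
    rcases lt_or_ge (k χ) 2 with h | h
    · interval_cases hc : k χ <;> simp
    · rw [if_neg (by omega), if_neg (by omega)]
      exact (Int.modEq_zero_iff_dvd.mpr ((by norm_num : (8 : ℤ) ∣ 4 ^ 2).trans
        (pow_dvd_pow (4 : ℤ) h))).trans (by simp)
  -- the linear real characters
  letI : Fintype (G →* ℂˣ) := Fintype.ofEquiv _ e0.symm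
  set R := Finset.univ.filter fun φ : G →* ℂˣ => φ ^ 2 = 1
  have hLR : (∑ χ ∈ L, v χ) = (R.card : ℤ) := by
    have hval : ∀ φ : G →* ℂˣ, v (e0 φ).1 = if φ ^ 2 = 1 then 1 else 0 := by
      intro φ
      have h1 := hv (e0 φ).1
      have hfun : ((e0 φ).1 : G → ℂ) = fun g => (φ g : ℂ) := rfl
      simp only [hfun, map_mul, Units.val_mul] at h1
      split_ifs with h
      · have h2 : ∀ g, (φ g : ℂ) * (φ g : ℂ) = 1 := fun g => by
          rw [← Units.val_mul, ← pow_two, ← MonoidHom.pow_apply, h, MonoidHom.one_apply,
            Units.val_one]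
        simp only [h2, Finset.sum_const, Finset.card_univ, nsmul_eq_mul, mul_one,
          ← Nat.card_eq_fintype_card] at h1
        rw [inv_mul_cancel₀ (Nat.cast_ne_zero.mpr Nat.card_pos.ne')] at h1
        exact_mod_cast h1.symm
      · by_contra hne
        apply h
        have hr := (hvr (e0 φ).1).mp hne
        simp only [hfun] at hr
        ext g
        have hn : ‖(φ g : ℂ)‖ = 1 := by
          refine Complex.norm_eq_one_of_pow_eq_one ?_ (orderOf_pos g).ne'
          rw [← Units.val_pow_eq_pow_val, ← map_pow, pow_orderOf_eq_one, map_one, Units.val_one]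
        have h4 := Complex.mul_conj' (φ g : ℂ)
        rw [congrFun hr g, hn] at h4
        simpa [pow_two] using h4
    rw [Finset.card_filter]
    push_cast
    symm
    refine Finset.sum_bij (fun φ _ => (e0 φ).1) (fun φ _ => ?_) (fun a _ b _ h => ?_)
      (fun χ hχ => ?_) (fun φ _ => (hval φ).symm)
    · exact Finset.mem_filter.mpr ⟨Finset.mem_univ _, (hk0 _).mpr (e0 φ).2⟩
    · exact e0.injective (Subtype.ext h)
    · exact ⟨e0.symm ⟨χ, (hk0 χ).mp (Finset.mem_filter.mp hχ).2⟩, Finset.mem_univ _, by simp⟩
  by_cases hR : R.card ≤ 2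
  · left
    haveI : Group.IsNilpotent G := hG.isNilpotent
    refine Cfsg.Agent.S0662.isCyclic_top' ?_
    haveI : Finite (Abelianization G) := Finite.of_surjective _ QuotientGroup.mk_surjective
    haveI : Fintype (Abelianization G) := Fintype.ofFinite _
    obtain ⟨eA⟩ := CommGroup.monoidHom_mulEquiv_of_hasEnoughRootsOfUnity (Abelianization G) ℂ
    let f : (G →* ℂˣ) ≃ Abelianization G :=
      (Abelianization.lift (G := G) (A := ℂˣ)).trans eA.toEquiv
    have hf : ∀ φ : G →* ℂˣ, φ ^ 2 = 1 ↔ f φ ^ 2 = 1 := by
      intro φ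
      show _ ↔ eA (Abelianization.lift φ) ^ 2 = 1
      rw [← map_pow, MulEquiv.map_eq_one_iff]
      refine ⟨fun h => ?_, fun h => ?_⟩
      · ext g
        simpa using congrArg (fun ψ : G →* ℂˣ => ((ψ g : ℂˣ) : ℂ)) h
      · ext g
        simpa using congrArg
          (fun ψ : Abelianization G →* ℂˣ => ((ψ (Abelianization.of g) : ℂˣ) : ℂ)) h
    have hc : IsCyclic (Abelianization G) := by
      refine isCyclic_of_two_group (hG.of_surjective Abelianization.of
        QuotientGroup.mk_surjective) (le_trans (le_of_eq ?_) hR)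
      symm
      refine Finset.card_bij (fun φ _ => f φ) (fun φ hφ => ?_) (fun a _ b _ h => f.injective h)
        (fun a ha => ⟨f.symm a, ?_, by simp⟩)
      · simpa [R, ← hf] using hφ
      · simpa [R, hf] using ha
    exact hc
  · right
    have hR4 : 4 ∣ R.card := by
      haveI : Finite (G →* ℂˣ) := inferInstance
      let K : Subgroup (G →* ℂˣ) := (powMonoidHom 2).ker
      have hKR : Nat.card K = R.card := by
        rw [Nat.card_eq_fintype_card, ← Fintype.card_subtype]
        exact Fintype.card_congr (Equiv.subtypeEquivRight fun φ => MonoidHom.mem_ker)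
      have hdvd : R.card ∣ 2 ^ m := by
        rw [← hKR, ← hm]
        refine (Subgroup.card_subgroup_dvd_card K).trans ?_
        haveI : Finite (Abelianization G) := Finite.of_surjective _ QuotientGroup.mk_surjective
        rw [Nat.card_congr (Abelianization.lift (G := G) (A := ℂˣ)),
          CommGroup.card_monoidHom_of_hasEnoughRootsOfUnity (Abelianization G) ℂ]
        exact Subgroup.card_quotient_dvd_card _
      obtain ⟨j, -, hj⟩ := (Nat.dvd_prime_pow Nat.prime_two).mp hdvd
      rw [hj] at hR ⊢
      exact (pow_dvd_pow 2 (show 2 ≤ j by by_contra hlt; interval_cases j <;> simp at hR) :)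
    have hRle : R.card ≤ L.card := by
      rw [hLcard, ← card_linear (G := G), Nat.card_eq_fintype_card, ← Fintype.card_congr e0]
      exact Finset.card_le_univ R
    -- parity of the non-real characters of degree two
    have hDodd : Odd D.card := by
      have hdv : (∑ χ ∈ D, v χ) % 2 = 1 := by
        have h1 : ((Finset.univ.filter fun g : G => g * g = 1).card : ℤ) % 4 = 2 := by omega
        rw [hLR] at hmod
        have hR' : (4 : ℤ) ∣ (R.card : ℤ) := by exact_mod_cast hR4
        have := hmod.symm.trans (Int.ModEq.refl _)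
        unfold Int.ModEq at this
        omega
      -- real ones are exactly those with non-zero indicator
      have hev : Even ((D.filter fun χ => v χ = 0).card) := by
        let σ : IrrCharacter G → IrrCharacter G := fun χ =>
          ⟨fun g => conj ((χ : G → ℂ) g), Chars.isIrrCharacter_star χ.2⟩
        have hs : ∑ _χ ∈ D.filter (fun χ => v χ = 0), (1 : ZMod 2) = 0 := by
          refine Finset.sum_involution (fun χ _ => σ χ) (fun _ _ => by decide)
            (fun χ hχ _ h => ?_) (fun χ hχ => ?_) (fun χ _ => Subtype.ext (by funext g; simp [σ]))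
          · exact ((hvr χ).mpr (congrArg Subtype.val h)) (Finset.mem_filter.mp hχ).2
          · simp only [D, Finset.mem_filter, Finset.mem_univ, true_and] at hχ ⊢
            have h1 : ((σ χ : IrrCharacter G) : G → ℂ) 1 = (χ : G → ℂ) 1 := by
              show conj ((χ : G → ℂ) 1) = _
              rw [hk χ, map_pow, map_ofNat]
            refine ⟨?_, ?_⟩
            · rw [hk (σ χ), hk χ, hχ.1] at h1
              have : (2 : ℕ) ^ k (σ χ) = 2 ^ 1 := by exact_mod_cast h1
              exact Nat.pow_right_injective le_rfl this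
            · by_contra hne
              have h2 := (hvr _).mp hne
              exact (hvr χ).mpr (funext fun g => by
                have := congrFun h2 g
                simp only [σ, Complex.conj_conj] at this
                exact this.symm) hχ.2
        rw [Finset.sum_const, nsmul_eq_mul, mul_one] at hs
        exact (ZMod.natCast_eq_zero_iff_even).mp hs
      have hsplit := Finset.card_filter_add_card_filter_not (s := D) (fun χ => v χ = 0)
      have hpar : (∑ χ ∈ D, v χ) ≡ ((D.filter fun χ => ¬ v χ = 0).card : ℤ) [ZMOD 2] := by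
        rw [Finset.card_filter]
        push_cast
        refine Int.ModEq.sum fun χ _ => ?_
        rcases hv3 χ with h | h | h <;> rw [h] <;> decide
      unfold Int.ModEq at hpar
      rw [Nat.even_iff] at hev
      rw [Nat.odd_iff]
      omega
    have hLdvd : (commutator G).index ∣ 2 ^ m := hm ▸ (commutator G).index_dvd_card
    obtain ⟨j, hjm, hj⟩ := (Nat.dvd_prime_pow Nat.prime_two).mp hLdvd
    rcases lt_or_ge j 3 with h3 | h3
    · have : 4 ≤ (commutator G).index := by
        rw [← hLcard]; exact (Nat.le_of_dvd (by omega) hR4).trans hRle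
      rw [hj] at this ⊢
      interval_cases j <;> simp_all
    · exfalso
      have h8 : (8 : ℤ) ∣ 2 ^ m := by
        simpa using pow_dvd_pow (2 : ℤ) (h3.trans hjm)
      have h8' : (8 : ℤ) ∣ (L.card : ℤ) := by
        rw [hLcard, hj]; exact_mod_cast (pow_dvd_pow 2 h3)
      rw [Nat.odd_iff] at hDodd
      unfold Int.ModEq at hmod8
      omega

end Cfsg.Agent.Chars
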