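import Cfsg.Agent.Blocks.FirstMain
import Cfsg.Agent.Blocks.Nilp
import Cfsg.Agent.BlockChar.PPowerIndex
import Cfsg.Agent.BlockChar.BlockFusion

/-!
A block of a normal subgroup stabilised by a `p`-subgroup outside it has a larger Brauer subgroup.
-/

set_option autoImplicit false
set_option linter.style.haveILetI false
set_option linter.unusedSectionVars false

open Cfsg Cfsg.Agent Cfsg.Agent.BlockChar
open scoped MonoidAlgebra

namespace Cfsg.Agent.Chars

universe u v

variable {G : Type u} [Group G] [Fintype G] {k : Type v} [Field k] {p : ℕ} [Fact p.Prime] [CharP k p]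

/-- Powers of a product, one factor normalising a subgroup and the other lying in it. -/
theorem pow_mul_pow_mem {H : Subgroup G} {h r : G} (hh : h ∈ H)
    (hr : r ∈ Subgroup.normalizer (H : Set G)) (n : ℕ) : (h * r) ^ n * (r ^ n)⁻¹ ∈ H := by
  induction n with
  | zero => simp
  | succ n ih =>
    have hn : r ^ n ∈ Subgroup.normalizer (H : Set G) := Subgroup.pow_mem _ hr n
    have h2 : r ^ n * h * (r ^ n)⁻¹ ∈ H := (Subgroup.mem_normalizer_iff.1 hn h).1 hh
    have e : (h * r) ^ (n + 1) * (r ^ (n + 1))⁻¹ =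
        ((h * r) ^ n * (r ^ n)⁻¹) * (r ^ n * h * (r ^ n)⁻¹) := by
      rw [pow_succ, pow_succ]; group
    rw [e]
    exact H.mul_mem ih h2

/-- A stable block has a stable class with non-zero coefficient. -/
theorem exists_stable_class [IsAlgClosed k] {H R : Subgroup G} {β : k[G]} (hβ : IsBlk H β)
    (hR : IsPGroup p R) (hN : R ≤ Subgroup.normalizer (H : Set G)) (hfix : Fixed R β) :
    ∃ g ∈ H, β.coeff g ≠ 0 ∧ ∀ r ∈ R, ∃ h ∈ H, h * g * h⁻¹ = r * g * r⁻¹ := by
  classical
  haveI := Fintype.ofFinite H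
  letI act : MulAction R (ConjClasses H) :=
    { smul := fun r C => C.map (normEquiv (hN r.2)).toMonoidHom
      one_smul := fun C => by
        obtain ⟨x, rfl⟩ := ConjClasses.mk_surjective C
        show ConjClasses.mk (normEquiv (hN (1 : R).2) x) = ConjClasses.mk x
        congr 1
        exact Subtype.ext (by simp [coe_normEquiv])
      mul_smul := fun a b C => by
        obtain ⟨x, rfl⟩ := ConjClasses.mk_surjective C
        show ConjClasses.mk (normEquiv (hN (a * b).2) x) =
          ConjClasses.mk (normEquiv (hN a.2) (normEquiv (hN b.2) x))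
        congr 1
        exact Subtype.ext (by simp [coe_normEquiv, mul_assoc]) }
  choose a ha using fun C : ConjClasses H =>
    exists_scalar hβ (centralIn_cls (k := k) (Blocks.clsRep C).2)
  have hsum : β = ∑ C : ConjClasses H,
      β.coeff ((Blocks.clsRep C : H) : G) • cls k H ((Blocks.clsRep C : H) : G) := by
    ext x
    rw [MonoidAlgebra.coeff_sum, Finsupp.finsetSum_apply]
    simp only [MonoidAlgebra.coeff_smul, Finsupp.smul_apply, smul_eq_mul]
    by_cases hx : x ∈ H
    · rw [Finset.sum_eq_single (ConjClasses.mk (⟨x, hx⟩ : H))]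
      · obtain ⟨c, hc⟩ := isConj_iff.1 (ConjClasses.mk_eq_mk_iff_isConj.1
          (Blocks.mk_clsRep (ConjClasses.mk (⟨x, hx⟩ : H))))
        have hc' : (c : G) * ((Blocks.clsRep (ConjClasses.mk (⟨x, hx⟩ : H)) : H) : G) * (c : G)⁻¹ = x :=
          congrArg Subtype.val hc
        rw [coeff_cls_of_conj ⟨(c : G), c.2, hc'⟩, mul_one]
        conv_lhs => rw [← hc']
        have h := congrArg (fun z : k[G] => z.coeff ((c : G) *
          ((Blocks.clsRep (ConjClasses.mk (⟨x, hx⟩ : H)) : H) : G) * (c : G)⁻¹)) (hβ.fixed c c.2)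
        simp only [coeff_cj] at h
        rw [← h]
        congr 1
        group
      · intro C _ hne
        rw [coeff_cls_of_not_conj, mul_zero]
        rintro ⟨y, hy, hyx⟩
        apply hne
        rw [← Blocks.mk_clsRep C]
        exact ConjClasses.mk_eq_mk_iff_isConj.2 (isConj_iff.2 ⟨⟨y, hy⟩, Subtype.ext hyx⟩)
      · simp
    · rw [hβ.supp x hx]
      refine (Finset.sum_eq_zero fun C _ => ?_).symm
      rw [coeff_cls_of_not_conj, mul_zero]
      rintro ⟨y, hy, rfl⟩
      exact hx (H.mul_mem (H.mul_mem hy (Blocks.clsRep C).2) (H.inv_mem hy))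
  set F : ConjClasses H → k := fun C => β.coeff ((Blocks.clsRep C : H) : G) * a C with hFdef
  have hone : ∑ C, F C = 1 := by
    by_contra hne
    refine not_nilpotent_smul hβ (sub_ne_zero.mpr (Ne.symm hne)) ?_
    have h1 : (1 - ∑ C, F C) • β = ∑ C : ConjClasses H,
        β.coeff ((Blocks.clsRep C : H) : G) • (cls k H ((Blocks.clsRep C : H) : G) * β - a C • β) := by
      simp only [smul_sub, smul_smul, Finset.sum_sub_distrib, ← Finset.sum_smul, ← smul_mul_assoc,
        ← Finset.sum_mul, ← hsum, hβ.idem, sub_smul, one_smul, hFdef]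
    rw [h1]
    have hcen : ∀ C : ConjClasses H, CentralIn H
        (β.coeff ((Blocks.clsRep C : H) : G) • (cls k H ((Blocks.clsRep C : H) : G) * β - a C • β)) := fun C =>
      (((centralIn_cls (k := k) (Blocks.clsRep C).2).mul hβ.central).sub
        (hβ.central.smul (a C))).smul _
    exact Commute.isNilpotent_sum (fun C _ => (ha C).smul _) fun C D _ _ =>
      (hcen C).comm (hcen D).supp
  have hinv : ∀ (r : R) (C : ConjClasses H), F (r • C) = F C := by
    intro r C
    have hmk : ConjClasses.mk (normEquiv (hN r.2) (Blocks.clsRep C)) = r • C := by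
      conv_rhs => rw [← Blocks.mk_clsRep C]
      rfl
    obtain ⟨c, hc⟩ := isConj_iff.1 (ConjClasses.mk_eq_mk_iff_isConj.1
      (hmk.trans (Blocks.mk_clsRep (r • C)).symm))
    have hc' : (c : G) * ((r : G) * ((Blocks.clsRep C : H) : G) * (r : G)⁻¹) * (c : G)⁻¹ =
        ((Blocks.clsRep (r • C) : H) : G) := congrArg Subtype.val hc
    have h1 : cls k H ((Blocks.clsRep (r • C) : H) : G) =
        BlockChar.cj (r : G) (cls k H ((Blocks.clsRep C : H) : G)) := by
      rw [cj_cls (hN r.2)]
      exact (cls_eq_of_conj ⟨(c : G), c.2, hc'⟩).symm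
    have h2 : β.coeff ((Blocks.clsRep (r • C) : H) : G) = β.coeff ((Blocks.clsRep C : H) : G) := by
      rw [← hc']
      have e1 := congrArg (fun z : k[G] => z.coeff ((c : G) *
        ((r : G) * ((Blocks.clsRep C : H) : G) * (r : G)⁻¹) * (c : G)⁻¹)) (hβ.fixed c c.2)
      have e2 := congrArg (fun z : k[G] => z.coeff ((r : G) * ((Blocks.clsRep C : H) : G) * (r : G)⁻¹))
        (hfix r r.2)
      simp only [coeff_cj] at e1 e2
      rw [← e1, show (c : G)⁻¹ * ((c : G) * ((r : G) * ((Blocks.clsRep C : H) : G) * (r : G)⁻¹) *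
        (c : G)⁻¹) * (c : G) = (r : G) * ((Blocks.clsRep C : H) : G) * (r : G)⁻¹ from by group, ← e2]
      congr 1
      group
    have h3 : a (r • C) = a C := by
      refine scalar_unique hβ (centralIn_cls (k := k) (Blocks.clsRep (r • C)).2) (ha _) ?_
      have h := (ha C).map (BlockChar.cj (r : G))
      rwa [map_sub, map_mul, map_smul, hfix r r.2, ← h1] at h
    simp only [hFdef, h2, h3]
  obtain ⟨C, hC, hFC⟩ := Finset.exists_ne_zero_of_sum_ne_zero
    ((Blocks.sum_eq_sum_fixed hR (fun z : k => by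
      rw [nsmul_eq_mul, CharP.cast_eq_zero, zero_mul]) F hinv).symm.trans hone ▸ one_ne_zero :
      ∑ x ∈ Finset.univ.filter (· ∈ MulAction.fixedPoints R (ConjClasses H)), F x ≠ 0)
  refine ⟨((Blocks.clsRep C : H) : G), (Blocks.clsRep C).2, left_ne_zero_of_mul hFC, fun r hr => ?_⟩
  have hfx : (⟨r, hr⟩ : R) • C = C := (Finset.mem_filter.1 hC).2 ⟨r, hr⟩
  have hmk : ConjClasses.mk (normEquiv (hN hr) (Blocks.clsRep C)) = C := by
    have h : (⟨r, hr⟩ : R) • C = (⟨r, hr⟩ : R) • ConjClasses.mk (Blocks.clsRep C) := by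
      rw [Blocks.mk_clsRep]
    exact h.symm.trans hfx
  obtain ⟨c, hc⟩ := isConj_iff.1 (ConjClasses.mk_eq_mk_iff_isConj.1
    ((Blocks.mk_clsRep C).trans hmk.symm))
  exact ⟨(c : G), c.2, congrArg Subtype.val hc⟩

/-- A stable block with Brauer subgroup `P` has a larger one when the stabilising `p`-group is
outside the normal subgroup. -/
theorem exists_larger_brauer [IsAlgClosed k] {H R P : Subgroup G} {β : k[G]} (hβ : IsBlk H β)
    (hPH : P ≤ H) (hP : IsPGroup p P) (hHN : H ≤ Subgroup.normalizer (P : Set G))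
    (hR : IsPGroup p R) (hN : R ≤ Subgroup.normalizer (H : Set G))
    (hRP : R ≤ Subgroup.normalizer (P : Set G)) (hfix : Fixed R β) (hbr : br P β = β)
    (hnle : ¬ R ≤ H) :
    ∃ Q : Subgroup G, IsPGroup p Q ∧ P < Q ∧ Q ≤ Subgroup.normalizer (P : Set G) ∧ Fixed Q β ∧
      br Q β ≠ 0 := by
  obtain ⟨g, hgH, hg0, hst⟩ := exists_stable_class hβ hR hN hfix
  have hgC : g ∈ Subgroup.centralizer (P : Set G) := by
    by_contra hn
    apply hg0
    rw [← hbr]
    exact coeff_trunc_of_notMem _ hn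
  obtain ⟨r, hr, hrH⟩ := SetLike.not_le_iff_exists.1 hnle
  obtain ⟨h, hh, he⟩ := hst r hr
  set c := h⁻¹ * r with hc
  have hcg : c * g = g * c := by
    calc c * g = h⁻¹ * (r * g * r⁻¹) * r := by rw [hc]; group
      _ = g * c := by rw [← he, hc]; group
  have hcH : c ∉ H := fun hm => hrH (by
    have := H.mul_mem hh hm
    rwa [hc, mul_inv_cancel_left] at this)
  let S : Subgroup G := stab P β
  have hHS : H ≤ S := fun x hx => ⟨hHN hx, hβ.fixed x hx⟩
  have hRS : R ≤ S := fun x hx => ⟨hRP hx, hfix x hx⟩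
  have hcS : c ∈ S := S.mul_mem (S.inv_mem (hHS hh)) (hRS hr)
  obtain ⟨n, hn⟩ := hR ⟨r, hr⟩
  have hn' : r ^ p ^ n = 1 := congrArg Subtype.val hn
  have hcn : c ^ p ^ n ∈ H := by
    have := pow_mul_pow_mem (H.inv_mem hh) (hN hr) (p ^ n)
    rwa [hn', inv_one, mul_one] at this
  set m := orderOf c / p ^ (orderOf c).factorization p with hm
  have hm0 : (p ^ n).Coprime m :=
    Nat.Coprime.pow_left n ((Fact.out : p.Prime).coprime_iff_not_dvd.2
      (Nat.not_dvd_ordCompl Fact.out (orderOf_pos c).ne'))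
  set x := c ^ m with hx
  have hxH : x ∉ H := fun hxm => hcH (mem_of_pow_mem_coprime hm0 hcn hxm)
  have hxp : IsPGroup p (Subgroup.zpowers x) := by
    refine IsPGroup.iff_card.2 ⟨(orderOf c).factorization p, ?_⟩
    rw [Nat.card_zpowers, hx, orderOf_pow_of_dvd (fun h0 => hxH (by
      rw [hx, show m = 0 from h0, pow_zero]; exact H.one_mem)) (Nat.ordCompl_dvd _ _),
      Nat.div_div_self (Nat.ordProj_dvd _ _) (orderOf_pos c).ne']
  have hxS : Subgroup.zpowers x ≤ S := Subgroup.zpowers_le.2 (S.pow_mem hcS m)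
  have hxg : x * g = g * x := (Commute.pow_left (show Commute c g from hcg) m).eq
  refine ⟨P ⊔ Subgroup.zpowers x, hP.to_sup_of_normal_left' hxp fun y hy => (hxS hy).1,
    lt_of_le_of_ne le_sup_left fun e => hxH (hPH (e ▸ Subgroup.mem_sup_right
      (Subgroup.mem_zpowers x))), ?_, ?_, ?_⟩
  · exact sup_le Subgroup.le_normalizer fun y hy => (hxS hy).1
  · have hle : P ⊔ Subgroup.zpowers x ≤ S := sup_le (hPH.trans hHS) hxS
    exact fun y hy => (hle hy).2
  · refine br_ne_zero_of_coeff (g := g) ?_ hg0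
    rw [Subgroup.mem_centralizer_iff]
    have hle : P ⊔ Subgroup.zpowers x ≤ Subgroup.centralizer ({g} : Set G) :=
      sup_le (fun y hy => Subgroup.mem_centralizer_singleton_iff.2
        (Subgroup.mem_centralizer_iff.1 hgC y hy))
        (Subgroup.zpowers_le.2 (Subgroup.mem_centralizer_singleton_iff.2 hxg))
    exact fun y hy => Subgroup.mem_centralizer_singleton_iff.1 (hle hy)

end Cfsg.Agent.Chars
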