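import Cfsg.Agent.Chars.Garrison
import Cfsg.Prelude.Def_DegreeGraph

/-! The nilpotent length of a solvable group is at most its number of character degrees. -/

set_option autoImplicit false
set_option linter.style.haveILetI false
set_option linter.unusedSectionVars false

open Cfsg Cfsg.Agent

namespace Cfsg.Agent.Chars

universe u

theorem nilpotentLength_le : ∀ (n : ℕ) (G : Type u) [Group G] [Finite G] [Group.IsSolvable G],
    Nat.card (charDegrees G) ≤ n →
    ∃ N : ℕ → Subgroup G, N 0 = ⊥ ∧ N n = ⊤ ∧ Monotone N ∧ (∀ i, (N i).Normal) ∧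
      ∀ i, ∀ _ : ((N i).subgroupOf (N (i + 1))).Normal,
        Group.IsNilpotent (↥(N (i + 1)) ⧸ (N i).subgroupOf (N (i + 1))) := by
  intro n
  induction n with
  | zero =>
    intro G _ _ _ h
    exfalso
    haveI := Fintype.ofFinite G
    have hfin : (charDegrees G).Finite := by
      haveI := irr_finite (G := G)
      exact (Set.finite_range fun χ : IrrCharacter G => charDegree (χ : G → ℂ)).subset
        fun d ⟨χ, hχ⟩ => ⟨χ, hχ⟩
    haveI := hfin.to_subtype
    haveI : Nonempty (charDegrees G) := ⟨⟨_, ⟨⟨fun _ => 1, isIrrCharacter_one⟩, rfl⟩⟩⟩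
    have := Nat.card_pos (α := charDegrees G)
    omega
  | succ n ih =>
    intro G _ _ _ h
    classical
    haveI := Fintype.ofFinite G
    haveI := irr_finite (G := G)
    set F := fittingSubgroup G with hF
    haveI : F.Normal := Core.fittingSubgroup_normal G
    by_cases hFtop : F = ⊤
    · refine ⟨fun i => if i = 0 then ⊥ else ⊤, if_pos rfl, if_neg (by omega), ?_, fun i => ?_, ?_⟩
      · intro a b hab
        dsimp only
        by_cases ha : a = 0
        · rw [if_pos ha]; exact bot_le
        · rw [if_neg ha, if_neg (by omega)]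
      · dsimp only; split_ifs <;> infer_instance
      · intro i _
        haveI : Group.IsNilpotent G := by
          haveI : Group.IsNilpotent F := Core.isNilpotent_fittingSubgroup G
          rw [hFtop] at this
          exact Group.nilpotent_of_surjective
            (Subgroup.topEquiv (G := G)).toMonoidHom (Subgroup.topEquiv (G := G)).surjective
        infer_instance
    -- the largest degree does not occur in the quotient
    have hdeg : ∀ χ : IrrCharacter (G ⧸ F), ∃ ψ : IrrCharacter G,
        (ψ : G → ℂ) = (χ : G ⧸ F → ℂ) ∘ QuotientGroup.mk ∧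
        charDegree (ψ : G → ℂ) = charDegree (χ : G ⧸ F → ℂ) := fun χ =>
      ⟨⟨_, isIrrCharacter_comp_surjective χ.2 (QuotientGroup.mk' F)
        (QuotientGroup.mk'_surjective F)⟩, rfl, rfl⟩
    haveI : Nonempty (IrrCharacter G) := ⟨⟨fun _ => 1, isIrrCharacter_one⟩⟩
    obtain ⟨χ₀, -, hmax⟩ := Finset.exists_max_image (Finset.univ : Finset (IrrCharacter G))
      (fun χ => charDegree (χ : G → ℂ)) Finset.univ_nonempty
    have hsub : charDegrees (G ⧸ F) ⊆ charDegrees G \ {charDegree (χ₀ : G → ℂ)} := by
      rintro d ⟨χ, rfl⟩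
      obtain ⟨ψ, hψ, hψd⟩ := hdeg χ
      refine ⟨⟨ψ, hψd⟩, fun hd => ?_⟩
      rw [Set.mem_singleton_iff] at hd
      let K := charKer (irr_isCharacter ψ)
      haveI : K.Normal := charKer_normal _
      have hFK : F ≤ K := fun x hx => by
        show (ψ : G → ℂ) x = (ψ : G → ℂ) 1
        rw [hψ, Function.comp_apply, Function.comp_apply, (QuotientGroup.eq_one_iff x).2 hx,
          QuotientGroup.mk_one]
      by_cases hKF : K ≤ F
      · obtain ⟨ξ, hξ, -⟩ := garrison ψ K (fun g => Iff.rfl)
          (Or.inr ⟨le_antisymm hKF hFK, inferInstance, fun e => hFtop (le_antisymm le_top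
            (e ▸ hKF))⟩)
        have := hmax ξ (Finset.mem_univ ξ)
        omega
      · obtain ⟨ξ, hξ, -⟩ := garrison ψ K (fun g => Iff.rfl) (Or.inl hKF)
        have := hmax ξ (Finset.mem_univ ξ)
        omega
    have hfin : (charDegrees G).Finite :=
      (Set.finite_range fun χ : IrrCharacter G => charDegree (χ : G → ℂ)).subset
        fun d ⟨χ, hχ⟩ => ⟨χ, hχ⟩
    have hlt : Nat.card (charDegrees (G ⧸ F)) ≤ n := by
      rw [Nat.card_coe_set_eq] at h ⊢
      have h1 := Set.ncard_le_ncard hsub (hfin.subset Set.sdiff_subset)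
      rw [Set.ncard_sdiff_singleton_of_mem
        (show charDegree (χ₀ : G → ℂ) ∈ charDegrees G from ⟨χ₀, rfl⟩)] at h1
      omega
    obtain ⟨N, hN0, hNn, hmono, hnorm, hnil⟩ := ih (G ⧸ F) hlt
    let M : ℕ → Subgroup G := fun i => match i with
      | 0 => ⊥
      | j + 1 => (N j).comap (QuotientGroup.mk' F)
    refine ⟨M, rfl, by show (N n).comap _ = ⊤; rw [hNn, Subgroup.comap_top],
      monotone_nat_of_le_succ fun i => ?_, fun i => ?_, ?_⟩
    · cases i with
      | zero => exact bot_le
      | succ j => exact Subgroup.comap_mono (hmono (Nat.le_succ j))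
    · cases i with
      | zero => show (⊥ : Subgroup G).Normal; infer_instance
      | succ j => exact (hnorm j).comap _
    · intro i hi
      cases i with
      | zero =>
        have hM1 : M 1 = F := by
          show (N 0).comap _ = F
          rw [hN0, MonoidHom.comap_bot, QuotientGroup.ker_mk']
        haveI : Group.IsNilpotent (M 1) := by rw [hM1]; exact Core.isNilpotent_fittingSubgroup G
        exact Group.nilpotent_of_surjective (QuotientGroup.mk' _)
          (QuotientGroup.mk'_surjective _)
      | succ j =>
        haveI := hnorm j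
        haveI hj : ((N j).subgroupOf (N (j + 1))).Normal := inferInstance
        haveI := hnil j hj
        let f : M (j + 1 + 1) →* ↥(N (j + 1)) := ((QuotientGroup.mk' F).comp
          (M (j + 1 + 1)).subtype).codRestrict _ fun x => x.2
        have hf : Function.Surjective f := by
          rintro ⟨x, hx⟩
          obtain ⟨g, rfl⟩ := QuotientGroup.mk_surjective x
          exact ⟨⟨g, hx⟩, rfl⟩
        let f' := (QuotientGroup.mk' ((N j).subgroupOf (N (j + 1)))).comp f
        have hker : f'.ker = (M (j + 1)).subgroupOf (M (j + 1 + 1)) := by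
          ext x
          rw [MonoidHom.mem_ker]
          exact QuotientGroup.eq_one_iff (f x)
        have hsurj : Function.Surjective f' := (QuotientGroup.mk'_surjective _).comp hf
        let e : (↥(M (j + 1 + 1)) ⧸ (M (j + 1)).subgroupOf (M (j + 1 + 1))) ≃*
            (↥(N (j + 1)) ⧸ (N j).subgroupOf (N (j + 1))) :=
          (QuotientGroup.quotientMulEquivOfEq hker.symm).trans
            (QuotientGroup.quotientKerEquivOfSurjective f' hsurj)
        exact Group.nilpotent_of_surjective e.symm.toMonoidHom e.symm.surjective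

end Cfsg.Agent.Chars
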