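import Cfsg.Agent.Chars.CoprimeFixed
import Cfsg.Agent.OddChar.BaerFixed
import Cfsg.Agent.BlockChar.CharCount

/-!
A group of odd order with a central subgroup `Z`, a normal subgroup `K` of class two over `Z`, and a
coprime action whose fixed points meet `K` in `Z` and supplement it: the invariant characters over a
faithful character of `Z` correspond, with odd multiplicity, to the characters of the fixed points.
The involution inverting `K` over `Z` turns this into the Glauberman correspondence for the prime two.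
-/

set_option autoImplicit false
set_option linter.style.haveILetI false
set_option linter.unusedSectionVars false

open Cfsg Cfsg.Agent
open scoped ComplexConjugate commutatorElement

namespace Cfsg.Agent.Chars.OddCore

universe u v

noncomputable local instance (priority := high) fintypeSub {A : Type*} [Group A] [Finite A]
    (K : Subgroup A) : Fintype K :=
  Fintype.ofFinite _

/-- Double orthogonal for a bilinear pairing with values in the roots of unity. -/
theorem mem_of_perp_perp {X : Type u} [Group X] [Finite X] (b : X → X →* ℂˣ)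
    (hb : ∀ u u' v, b (u * u') v = b u v * b u' v) (hsymm : ∀ u v, b v u = (b u v)⁻¹)
    (Y : Subgroup X) (hY : ∀ r, (∀ u, b u r = 1) → r ∈ Y) {k : X}
    (hk : ∀ u, (∀ y ∈ Y, b u y = 1) → b u k = 1) : k ∈ Y := by
  classical
  let R : Subgroup X :=
    { carrier := {r | ∀ u, b u r = 1}
      one_mem' := fun u => map_one _
      mul_mem' := fun hx hy u => by rw [map_mul, hx u, hy u, mul_one]
      inv_mem' := fun hx u => by rw [map_inv, hx u, inv_one] }
  have hcomm : commutator X ≤ R := by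
    rw [commutator_def, Subgroup.commutator_le]
    intro x _ y _ u
    rw [map_commutatorElement, commutatorElement_eq_one_iff_mul_comm, mul_comm]
  haveI : R.Normal := Subgroup.Normal.of_commutator_le X hcomm
  let Q := X ⧸ R
  letI : CommGroup Q :=
    { (inferInstance : Group Q) with
      mul_comm := fun x y => by
        induction x using QuotientGroup.induction_on with
        | _ x => induction y using QuotientGroup.induction_on with
          | _ y =>
            rw [← QuotientGroup.mk_mul, ← QuotientGroup.mk_mul, QuotientGroup.eq]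
            have hmem : ⁅y⁻¹, x⁻¹⁆ ∈ R := hcomm (Subgroup.commutator_mem_commutator
              (Subgroup.mem_top _) (Subgroup.mem_top _))
            rw [show (x * y)⁻¹ * (y * x) = ⁅y⁻¹, x⁻¹⁆ by
              simp only [commutatorElement_def]; group]
            exact hmem }
  let β : Q → (Q →* ℂˣ) := fun q => Quotient.liftOn' q
    (fun u => QuotientGroup.lift R (b u) fun r hr => hr u) (by
      intro u u' huu'
      have h1 : u⁻¹ * u' ∈ R := QuotientGroup.leftRel_apply.1 huu'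
      refine MonoidHom.ext fun q => ?_
      induction q using QuotientGroup.induction_on with
      | _ v =>
        show b u v = b u' v
        have h2 : b (u⁻¹ * u') v = 1 := by rw [hsymm v, h1 v, inv_one]
        calc b u v = b u v * b (u⁻¹ * u') v := by rw [h2, mul_one]
          _ = b u' v := by rw [← hb, mul_inv_cancel_left])
  have hβi : Function.Injective β := by
    intro q q' h
    induction q using QuotientGroup.induction_on with
    | _ u => induction q' using QuotientGroup.induction_on with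
      | _ u' =>
        rw [QuotientGroup.eq]
        intro v
        have h1 : b u v = b u' v := DFunLike.congr_fun h (v : Q)
        have hinv : b u⁻¹ v = (b u v)⁻¹ := by
          refine eq_inv_of_mul_eq_one_left ?_
          have e := hb 1 1 v
          rw [mul_one, left_eq_mul] at e
          rw [← hb, inv_mul_cancel, e]
        rw [hsymm (u⁻¹ * u') v, hb, hinv, h1, inv_mul_cancel, inv_one]
  have hfin : Finite (Q →* ℂˣ) := Nat.finite_of_card_ne_zero (by
    rw [CommGroup.card_monoidHom_of_hasEnoughRootsOfUnity Q ℂ]; exact Nat.card_pos.ne')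
  have hβs : Function.Surjective β := (hβi.bijective_of_nat_card_le (by
    rw [CommGroup.card_monoidHom_of_hasEnoughRootsOfUnity Q ℂ])).2
  by_contra hkY
  let Y' : Subgroup Q := Y.map (QuotientGroup.mk' R)
  have hkY' : (k : Q) ∉ Y' := by
    rintro ⟨y, hy, he⟩
    refine hkY ?_
    have h1 : y⁻¹ * k ∈ R := QuotientGroup.eq.1 he
    simpa using Y.mul_mem hy (hY (y⁻¹ * k) fun u => h1 u)
  obtain ⟨μ, hμ⟩ := CommGroup.exists_apply_ne_one_of_hasEnoughRootsOfUnity (Q ⧸ Y') ℂ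
    (a := ((k : Q) : Q ⧸ Y')) (fun h => hkY' ((QuotientGroup.eq_one_iff _).1 h))
  obtain ⟨q, hq⟩ := hβs (μ.comp (QuotientGroup.mk' Y'))
  induction q using QuotientGroup.induction_on with
  | _ u =>
    refine hμ ?_
    have h1 : b u k = μ ((k : Q) : Q ⧸ Y') := DFunLike.congr_fun hq (k : Q)
    rw [← h1]
    refine hk u fun y hy => ?_
    have h2 : b u y = μ ((y : Q) : Q ⧸ Y') := DFunLike.congr_fun hq (y : Q)
    rw [h2, (QuotientGroup.eq_one_iff (y : Q)).2 (⟨y, hy, rfl⟩ : ((y : Q)) ∈ Y.map (QuotientGroup.mk' R)), map_one]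

/-- The data of the correspondence. -/
structure Data (G : Type u) [Group G] (A : Type v) [Group A] where
  φ : A →* MulAut G
  Z : Subgroup G
  K : Subgroup G
  lam : Z →* ℂˣ
  odd : Odd (Nat.card G)
  cop : (Nat.card G).Coprime (Nat.card A)
  solv : Group.IsSolvable G
  hlam : Function.Injective lam
  hZc : Z ≤ Subgroup.center G
  hZf : Z ≤ fixSub φ
  hZK : Z ≤ K
  hKn : K.Normal
  hKinv : ∀ a, ∀ k ∈ K, φ a k ∈ K
  hKab : ∀ x ∈ K, ∀ y ∈ K, ⁅x, y⁆ ∈ Z
  hfpf : ∀ k ∈ K, k ∈ fixSub φ → k ∈ Z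
  hgen : ∀ g : G, ∃ k ∈ K, ∃ c ∈ fixSub φ, g = k * c

variable {G : Type u} [Group G] [Fintype G] {A : Type v} [Group A] [Finite A]

namespace Data

variable (D : Data G A)

/-- Over the character of the centre. -/
def Over (χ : IrrCharacter G) : Prop :=
  classInner (fun z : D.Z => (χ : G → ℂ) z) (fun z => (D.lam z : ℂ)) ≠ 0

/-- Over the character of the centre, for the fixed points. -/
def OverC (β : IrrCharacter (fixSub D.φ)) : Prop :=
  classInner (fun z : D.Z => (β : fixSub D.φ → ℂ) ⟨z, D.hZf z.2⟩) (fun z => (D.lam z : ℂ)) ≠ 0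

theorem central_mul {χ : IrrCharacter G} {z : G} (hz : z ∈ Subgroup.center G) (x : G) :
    (χ : G → ℂ) (z * x) = (χ : G → ℂ) z * (χ : G → ℂ) x / (χ : G → ℂ) 1 := by
  have h := BlockChar.sum_conj_mul χ.2 z x
  have h1 : ∀ a : G, a * z * a⁻¹ = z := fun a => by
    rw [Subgroup.mem_center_iff.1 hz a, mul_inv_cancel_right]
  simp only [h1, Finset.sum_const, Finset.card_univ, nsmul_eq_mul] at h
  rw [← Nat.card_eq_fintype_card] at h
  refine mul_left_cancel₀ (Nat.cast_ne_zero.2 (Nat.card_pos (α := G)).ne' : (Nat.card G : ℂ) ≠ 0) ?_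
  rw [h]; ring

theorem apply_Z {χ : IrrCharacter G} (h : D.Over χ) (z : D.Z) :
    (χ : G → ℂ) z = (χ : G → ℂ) 1 * (D.lam z : ℂ) := by
  haveI : D.Z.Normal := ⟨fun w hw g => by
    rwa [Subgroup.mem_center_iff.1 (D.hZc hw) g, mul_inv_cancel_right]⟩
  have hinv : Chars2.inertiaSub (fun w : D.Z => (D.lam w : ℂ)) = ⊤ :=
    Chars2.inertiaSub_eq_top fun g w => by
      congr 2
      exact Subtype.ext (by
        show g * (w : G) * g⁻¹ = w
        rw [Subgroup.mem_center_iff.1 (D.hZc w.2) g, mul_inv_cancel_right])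
  have h1 := Chars2.clifford_invariant χ.2 (isIrrCharacter_hom D.lam) hinv h z
  have h2 := Chars2.clifford_invariant χ.2 (isIrrCharacter_hom D.lam) hinv h 1
  change (χ : G → ℂ) z = _ at h1
  change (χ : G → ℂ) 1 = _ at h2
  rw [map_one, Units.val_one, mul_one] at h2
  rw [h1, ← h2]

theorem apply_Z_mul {χ : IrrCharacter G} (h : D.Over χ) (z : D.Z) (x : G) :
    (χ : G → ℂ) ((z : G) * x) = (D.lam z : ℂ) * (χ : G → ℂ) x := by
  rw [central_mul (D.hZc z.2), D.apply_Z h]
  field_simp [irr_apply_one_ne_zero χ.2]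

/-- Constituents on the fixed points lie over the same character. -/
theorem over_iff {χ : IrrCharacter G} {β : IrrCharacter (fixSub D.φ)}
    (h : classInner (fun c : fixSub D.φ => (χ : G → ℂ) c) (β : fixSub D.φ → ℂ) ≠ 0) :
    D.OverC β ↔ D.Over χ := by
  constructor
  · exact fun hβ => classInner_restrict_trans D.Z (fixSub D.φ) D.hZf (irr_isCharacter χ) β
      (isCharacter_of_isIrr (isIrrCharacter_hom D.lam)) h hβ
  · intro hχ
    have hβZ : IsCharacter D.Z (fun z : D.Z => (β : fixSub D.φ → ℂ) ⟨z, D.hZf z.2⟩) :=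
      isCharacter_comp (irr_isCharacter β) (Subgroup.inclusion D.hZf)
    obtain ⟨ν, hν⟩ : ∃ ν : IrrCharacter D.Z,
        classInner (fun z : D.Z => (β : fixSub D.φ → ℂ) ⟨z, D.hZf z.2⟩) (ν : D.Z → ℂ) ≠ 0 := by
      by_contra hc0
      push Not at hc0
      have h0 : (fun z : D.Z => (β : fixSub D.φ → ℂ) ⟨z, D.hZf z.2⟩) = 0 := by
        rw [eq_sum_classInner (isClassFunction_of_isCharacter hβZ)]
        simp [hc0]
      exact irr_apply_one_ne_zero β.2 (congrFun h0 1)
    have h1 : classInner (fun z : D.Z => (χ : G → ℂ) z) (ν : D.Z → ℂ) ≠ 0 :=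
      classInner_restrict_trans D.Z (fixSub D.φ) D.hZf (irr_isCharacter χ) β
        (irr_isCharacter ν) h hν
    have h2 : (ν : D.Z → ℂ) = fun z => (D.lam z : ℂ) := by
      by_contra hne
      refine h1 ?_
      rw [show (fun z : D.Z => (χ : G → ℂ) z) = (χ : G → ℂ) 1 • fun z => (D.lam z : ℂ) from
        funext fun z => D.apply_Z hχ z, classInner_smul_left,
        classInner_irr_of_ne (isIrrCharacter_hom D.lam) ν.2 (Ne.symm hne), mul_zero]
    rw [Data.OverC, ← h2]
    exact hν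

theorem comm_center (x y : D.K) : ⁅x, y⁆ ∈ Subgroup.center D.K := by
  refine Subgroup.mem_center_iff.2 fun w => Subtype.ext ?_
  exact Subgroup.mem_center_iff.1 (D.hZc (D.hKab x x.2 y y.2)) (w : G)

/-- The projection to the centre. -/
theorem exists_proj : ∃ pr : D.K → D.K, (∀ x, (pr x : G) ∈ D.Z) ∧
    (∀ z : D.K, (z : G) ∈ D.Z → pr z = z) ∧
    (∀ a (x : D.K), pr ⟨D.φ a x, D.hKinv a x x.2⟩ = pr x) ∧
    (∀ (c : G), c ∈ fixSub D.φ → ∀ x : D.K,
      pr ⟨c * x * c⁻¹, D.hKn.conj_mem x x.2 c⟩ = pr x) ∧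
    ∃ m : ℕ, (∀ x : D.K, x ^ (2 * m) = x) ∧ ∀ x y : D.K, pr (x * y) = pr x * pr y * ⁅x, y⁆ ^ m := by
  classical
  haveI := Fintype.ofFinite A
  obtain ⟨l, hl⟩ : Odd (Nat.card D.K) := D.odd.of_dvd_nat D.K.card_subgroup_dvd_card
  set m := l + 1 with hm
  have hm2 : ∀ x : D.K, x ^ (2 * m) = x := fun x => by
    rw [show 2 * m = Nat.card D.K + 1 by omega, pow_succ, pow_card_eq_one', one_mul]
  letI : CommGroup (OddChar.Baer D.K) := OddChar.baerGroup D.comm_center m hm2
  let mk : D.K → OddChar.Baer D.K := fun x => ⟨x⟩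
  have hmul : ∀ x y : D.K, (mk x * mk y).val = x * y * ⁅y, x⁆ ^ m := fun x y => rfl
  have hcz : ∀ (x z : D.K), (z : G) ∈ D.Z → (mk x * mk z).val = x * z := fun x z hz => by
    rw [hmul, show ⁅z, x⁆ = 1 from commutatorElement_eq_one_iff_mul_comm.2 (Subtype.ext
      (Subgroup.mem_center_iff.1 (D.hZc hz) (x : G)).symm), one_pow, mul_one]
  have hZ1 : ∀ (x y : D.K), ((⁅x, y⁆ ^ m : D.K) : G) ∈ D.Z := fun x y => by
    rw [Subgroup.coe_pow]
    exact pow_mem (D.hKab x x.2 y y.2) m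
  have hprod : ∀ x y : D.K, mk (x * y) = mk x * mk y * mk (⁅x, y⁆ ^ m) := by
    intro x y
    refine OddChar.Baer.ext ?_
    have h1 := hcz ((mk x * mk y).val) (⁅x, y⁆ ^ m) (hZ1 x y)
    show x * y = _
    rw [show (mk x * mk y * mk (⁅x, y⁆ ^ m)).val =
      (mk (mk x * mk y).val * mk (⁅x, y⁆ ^ m)).val from rfl, h1, hmul, ← commutatorElement_inv x y,
      inv_pow, inv_mul_cancel_right]
  have hpow : ∀ (x : D.K) (n : ℕ), (mk x ^ n).val = x ^ n := by
    intro x n
    induction n with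
    | zero => rw [pow_zero, pow_zero]; rfl
    | succ n ihn =>
      rw [pow_succ, pow_succ, show mk x ^ n = mk (x ^ n) from OddChar.Baer.ext ihn, hmul,
        commutatorElement_eq_one_iff_mul_comm.2 (Commute.self_pow x n).eq, one_pow, mul_one]
  let aK : A → D.K →* D.K := fun a =>
    ((D.φ a).toMonoidHom.comp D.K.subtype).codRestrict D.K fun x => D.hKinv a x x.2
  let aB : A → OddChar.Baer D.K →* OddChar.Baer D.K := fun a =>
    { toFun := fun x => mk (aK a x.val)
      map_one' := OddChar.Baer.ext (map_one (aK a))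
      map_mul' := fun x y => OddChar.Baer.ext (by
        show aK a (x.val * y.val * ⁅y.val, x.val⁆ ^ m) =
          aK a x.val * aK a y.val * ⁅aK a y.val, aK a x.val⁆ ^ m
        rw [map_mul, map_mul, map_pow, map_commutatorElement]) }
  let P : D.K → OddChar.Baer D.K := fun x => ∏ a : A, aB a (mk x)
  obtain ⟨j, hj⟩ : ∃ j, Nat.card A * j ≡ 1 [MOD Nat.card D.K] := by
    have hcop : (Nat.card A).Coprime (Nat.card D.K) :=
      (D.cop.coprime_dvd_left D.K.card_subgroup_dvd_card).symm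
    exact ⟨Nat.card A ^ ((Nat.card D.K).totient - 1), by
      rw [← pow_succ', Nat.sub_add_cancel (Nat.totient_pos.2 Nat.card_pos)]
      exact Nat.ModEq.pow_totient hcop⟩
  let pr : D.K → D.K := fun x => (P x ^ j).val
  have haB : ∀ b (x : D.K), aB b (P x) = P x := fun b x => by
    simp only [P, map_prod]
    refine Fintype.prod_equiv (Equiv.mulLeft b) _ _ fun a => OddChar.Baer.ext (Subtype.ext ?_)
    show D.φ b (D.φ a (x : G)) = D.φ (b * a) (x : G)
    rw [map_mul, MulAut.mul_apply]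
  have hprZ : ∀ x, (pr x : G) ∈ D.Z := fun x => by
    refine D.hfpf _ (pr x).2 fun b => ?_
    have h1 : aB b (P x ^ j) = P x ^ j := by rw [map_pow, haB]
    exact congrArg (fun w : OddChar.Baer D.K => (w.val : G)) h1
  have hPz : ∀ z : D.K, (z : G) ∈ D.Z → P z = mk z ^ Nat.card A := fun z hz => by
    simp only [P]
    rw [Finset.prod_congr rfl (g := fun _ => mk z) fun a _ => OddChar.Baer.ext (Subtype.ext
      (D.hZf hz a)), Finset.prod_const, Finset.card_univ, Nat.card_eq_fintype_card]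
  refine ⟨pr, hprZ, fun z hz => ?_, fun a x => ?_, fun c hc x => ?_, m, hm2, fun x y => ?_⟩
  · show (P z ^ j).val = z
    rw [hPz z hz, ← pow_mul, hpow]
    conv_rhs => rw [← pow_one z]
    exact pow_eq_pow_iff_modEq.2 (hj.of_dvd (orderOf_dvd_natCard z))
  · show ((∏ b : A, aB b (mk (aK a x))) ^ j).val = _
    congr 2
    refine Fintype.prod_equiv (Equiv.mulRight a) _ _ fun b => OddChar.Baer.ext (Subtype.ext ?_)
    show D.φ b (D.φ a (x : G)) = D.φ (b * a) (x : G)
    rw [map_mul, MulAut.mul_apply]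
  · let cK : D.K →* D.K := ((MulAut.conj c).toMonoidHom.comp D.K.subtype).codRestrict D.K
      fun x => D.hKn.conj_mem x x.2 c
    let cB : OddChar.Baer D.K →* OddChar.Baer D.K :=
      { toFun := fun x => mk (cK x.val)
        map_one' := OddChar.Baer.ext (map_one cK)
        map_mul' := fun x y => OddChar.Baer.ext (by
          show cK (x.val * y.val * ⁅y.val, x.val⁆ ^ m) =
            cK x.val * cK y.val * ⁅cK y.val, cK x.val⁆ ^ m
          rw [map_mul, map_mul, map_pow, map_commutatorElement]) }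
    have h1 : P (cK x) = cB (P x) := by
      simp only [P, map_prod]
      refine Finset.prod_congr rfl fun a _ => OddChar.Baer.ext (Subtype.ext ?_)
      show D.φ a (c * (x : G) * c⁻¹) = c * D.φ a (x : G) * c⁻¹
      rw [map_mul, map_mul, map_inv, hc a]
    have h2 : pr (cK x) = cK (pr x) := by
      show (P (cK x) ^ j).val = cK ((P x ^ j).val)
      rw [h1, ← map_pow]; rfl
    refine h2.trans (Subtype.ext ?_)
    show c * (pr x : G) * c⁻¹ = (pr x : G)
    rw [Subgroup.mem_center_iff.1 (D.hZc (hprZ x)) c, mul_inv_cancel_right]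
  · have h1 : P (x * y) = P x * P y * P (⁅x, y⁆ ^ m) := by
      simp only [P, hprod x y, map_mul, Finset.prod_mul_distrib]
    have h2 : P (⁅x, y⁆ ^ m) ^ j = mk (⁅x, y⁆ ^ m) := by
      rw [hPz _ (hZ1 x y), ← pow_mul]
      refine OddChar.Baer.ext ?_
      rw [hpow]
      conv_rhs => rw [← pow_one (⁅x, y⁆ ^ m)]
      exact pow_eq_pow_iff_modEq.2 (hj.of_dvd (orderOf_dvd_natCard _))
    show (P (x * y) ^ j).val = _
    rw [h1, mul_pow, mul_pow, h2]
    have h3 := hcz ((P x ^ j * P y ^ j).val) (⁅x, y⁆ ^ m) (hZ1 x y)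
    rw [show (P x ^ j * P y ^ j * mk (⁅x, y⁆ ^ m)).val =
      (mk (P x ^ j * P y ^ j).val * mk (⁅x, y⁆ ^ m)).val from rfl, h3]
    congr 1
    exact hcz (P x ^ j).val (P y ^ j).val (hprZ y)

/-- The involution fixing exactly the fixed points, inverting `K` over `Z`. -/
theorem exists_involution : ∃ pr : D.K → D.K, ∃ τ : MulAut G,
    (∀ x, (pr x : G) ∈ D.Z) ∧ (∀ z : D.K, (z : G) ∈ D.Z → pr z = z) ∧
    (∀ a (x : D.K), pr ⟨D.φ a x, D.hKinv a x x.2⟩ = pr x) ∧
    (∀ (c : G), c ∈ fixSub D.φ → ∀ x : D.K,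
      pr ⟨c * x * c⁻¹, D.hKn.conj_mem x x.2 c⟩ = pr x) ∧
    (∀ x y : D.K, ⁅x, y⁆ = 1 → pr (x * y) = pr x * pr y) ∧
    τ * τ = 1 ∧ (∀ g, τ g = g ↔ g ∈ fixSub D.φ) ∧
    (∀ a g, τ (D.φ a g) = D.φ a (τ g)) ∧
    ∀ k : D.K, τ (k : G) = ((k : G))⁻¹ * ((pr k : G)) ^ 2 := by
  classical
  obtain ⟨pr, hprZ, hprz, hpra, hprc, m, hm, hpr⟩ := D.exists_proj
  let t : D.K → D.K := fun k => k⁻¹ * pr k ^ 2
  have hcen : ∀ x y : D.K, Commute (pr x) y := fun x y => Subtype.ext
    (Subgroup.mem_center_iff.1 (D.hZc (hprZ x)) (y : G)).symm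
  have hthom : ∀ x y : D.K, t (x * y) = t x * t y := by
    intro x y
    simp only [t]
    have hc2 : Commute (pr x ^ 2) y⁻¹ := (hcen x y⁻¹).pow_left 2
    have hc1 : ∀ w : D.K, Commute (⁅x, y⁆ ^ m) w := fun w =>
      Commute.pow_left ((Subgroup.mem_center_iff.1 (D.comm_center x y) w).symm : Commute ⁅x, y⁆ w) m
    rw [hpr, (hc1 (pr x * pr y)).symm.mul_pow, (hcen x (pr y)).mul_pow, ← pow_mul,
      mul_comm m 2, hm]
    have h1 : (x * y)⁻¹ * (pr x ^ 2 * pr y ^ 2 * ⁅x, y⁆) =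
        (x * y)⁻¹ * ⁅x, y⁆ * (pr x ^ 2 * pr y ^ 2) := by
      rw [Subgroup.mem_center_iff.1 (D.comm_center x y) (pr x ^ 2 * pr y ^ 2), mul_assoc]
    simp only [← mul_assoc] at h1 ⊢
    rw [h1, show (x * y)⁻¹ * ⁅x, y⁆ = x⁻¹ * y⁻¹ by simp only [commutatorElement_def]; group,
      mul_assoc x⁻¹ (pr x ^ 2) y⁻¹, hc2.eq, ← mul_assoc]
  have htz : ∀ z : D.K, (z : G) ∈ D.Z → t z = z := fun z hz => by
    simp only [t, hprz z hz, pow_two, inv_mul_cancel_left]
  have htc : ∀ (c : G), c ∈ fixSub D.φ → ∀ x : D.K,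
      (t ⟨c * x * c⁻¹, D.hKn.conj_mem x x.2 c⟩ : G) = c * (t x : G) * c⁻¹ := by
    intro c hc x
    simp only [t, hprc c hc x, Subgroup.coe_mul, Subgroup.coe_inv, Subgroup.coe_pow]
    have h1 : c * ((pr x : G)) ^ 2 = ((pr x : G)) ^ 2 * c :=
      (Subgroup.mem_center_iff.1 (pow_mem (D.hZc (hprZ x)) 2) c)
    calc (c * (x : G) * c⁻¹)⁻¹ * (pr x : G) ^ 2 = c * (x : G)⁻¹ * c⁻¹ * ((pr x : G) ^ 2 * c * c⁻¹) := by
          rw [mul_inv_cancel_right]; simp only [mul_inv_rev, inv_inv, mul_assoc]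
      _ = c * (x : G)⁻¹ * c⁻¹ * (c * (pr x : G) ^ 2 * c⁻¹) := by rw [h1]
      _ = _ := by group
  choose kf hkK cf hcF hdec using D.hgen
  let F : G → G := fun g => (t ⟨kf g, hkK g⟩ : G) * cf g
  have hF : ∀ (k : D.K) (c : G), c ∈ fixSub D.φ → F ((k : G) * c) = (t k : G) * c := by
    intro k c hc
    set g := (k : G) * c with hg
    have he : (k : G) * c = kf g * cf g := hg.symm.trans (hdec g)
    let z : D.K := k⁻¹ * ⟨kf g, hkK g⟩
    have hz : (z : G) = c * (cf g)⁻¹ := by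
      show ((k : G))⁻¹ * kf g = _
      rw [inv_mul_eq_iff_eq_mul, ← mul_assoc, he, mul_inv_cancel_right]
    have hzZ : (z : G) ∈ D.Z := D.hfpf _ z.2 (hz ▸ mul_mem hc (inv_mem (hcF g)))
    show (t ⟨kf g, hkK g⟩ : G) * cf g = _
    rw [show (⟨kf g, hkK g⟩ : D.K) = k * z from (mul_inv_cancel_left k _).symm, hthom,
      Subgroup.coe_mul, htz z hzZ, hz, mul_assoc, inv_mul_cancel_right]
  have hFmul : ∀ g h, F (g * h) = F g * F h := by
    intro g h
    let k := (⟨kf g, hkK g⟩ : D.K)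
    let k' := (⟨kf h, hkK h⟩ : D.K)
    let k'' : D.K := ⟨cf g * k' * (cf g)⁻¹, D.hKn.conj_mem k' k'.2 _⟩
    have he : g * h = ((k * k'' : D.K) : G) * (cf g * cf h) := by
      show g * h = kf g * (cf g * kf h * (cf g)⁻¹) * (cf g * cf h)
      conv_lhs => rw [hdec g, hdec h]
      group
    rw [he, hF _ _ (mul_mem (hcF g) (hcF h)), hthom, Subgroup.coe_mul, htc _ (hcF g)]
    show _ = (t k : G) * cf g * ((t k' : G) * cf h)
    group
  have hprinv : ∀ k : D.K, pr k⁻¹ = (pr k)⁻¹ := fun k => by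
    refine eq_inv_of_mul_eq_one_left ?_
    have h1 := hpr k⁻¹ k
    rw [inv_mul_cancel, commutatorElement_eq_one_iff_mul_comm.2 (by
      rw [inv_mul_cancel, mul_inv_cancel]), one_pow, mul_one, hprz 1 (one_mem _)] at h1
    exact h1.symm
  have htt : ∀ k : D.K, t (t k) = k := fun k => by
    show t (k⁻¹ * pr k ^ 2) = k
    rw [hthom, htz (pr k ^ 2) (by rw [Subgroup.coe_pow]; exact pow_mem (hprZ k) 2)]
    show k⁻¹⁻¹ * pr k⁻¹ ^ 2 * pr k ^ 2 = k
    rw [hprinv, inv_inv, inv_pow, inv_mul_cancel_right]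
  have hFF : ∀ g, F (F g) = g := fun g => by
    show F ((t ⟨kf g, hkK g⟩ : G) * cf g) = g
    rw [hF _ _ (hcF g), htt]
    exact (hdec g).symm
  let τ : MulAut G :=
    { toFun := F, invFun := F, left_inv := hFF, right_inv := hFF, map_mul' := hFmul }
  refine ⟨pr, τ, hprZ, hprz, hpra, hprc, fun x y hxy => ?_, MulEquiv.ext hFF, fun g => ⟨fun h => ?_,
    fun h => ?_⟩, fun a g => ?_, fun k => ?_⟩
  · rw [hpr, hxy, one_pow, mul_one]
  · let k := (⟨kf g, hkK g⟩ : D.K)
    have h1 : t k = k := Subtype.ext (mul_right_cancel (b := cf g) (h.trans (hdec g)))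
    have h2 : k * k = pr k * pr k := by
      rw [← pow_two (pr k), ← mul_left_cancel_iff (a := k⁻¹), inv_mul_cancel_left]
      exact h1.symm
    obtain ⟨l, hl⟩ : Odd (Nat.card D.K) := D.odd.of_dvd_nat D.K.card_subgroup_dvd_card
    have h3 : k = pr k := by
      have e : ∀ x : D.K, (x * x) ^ (l + 1) = x := fun x => by
        rw [← pow_two, ← pow_mul, show 2 * (l + 1) = Nat.card D.K + 1 by omega, pow_succ,
          pow_card_eq_one', one_mul]
      calc k = (k * k) ^ (l + 1) := (e k).symm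
        _ = (pr k * pr k) ^ (l + 1) := by rw [h2]
        _ = pr k := e _
    have hk : kf g ∈ fixSub D.φ := D.hZf (show (k : G) ∈ D.Z from h3 ▸ hprZ k)
    rw [hdec g]
    exact mul_mem hk (hcF g)
  · show F g = g
    have := hF 1 g h
    rw [Subgroup.coe_one, one_mul] at this
    rw [this, htz 1 (one_mem _), Subgroup.coe_one, one_mul]
  · show F (D.φ a g) = D.φ a (F g)
    have he : D.φ a g = ((⟨D.φ a (kf g), D.hKinv a _ (hkK g)⟩ : D.K) : G) * cf g := by
      conv_lhs => rw [hdec g, map_mul, hcF g a]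
    rw [he, hF _ _ (hcF g)]
    show _ = D.φ a ((t ⟨kf g, hkK g⟩ : G) * cf g)
    rw [map_mul, hcF g a]
    congr 1
    simp only [t, hpra a ⟨kf g, hkK g⟩, Subgroup.coe_mul, Subgroup.coe_inv, Subgroup.coe_pow,
      map_mul, map_inv, map_pow, D.hZf (hprZ ⟨kf g, hkK g⟩) a]
  · show F (k : G) = _
    have := hF k 1 (one_mem _)
    rw [mul_one, mul_one] at this
    exact this

/-- An invariant character over the character of the centre is invariant under the involution. -/
theorem invariant_of_invariant {pr : D.K → D.K} {τ : MulAut G}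
    (hprZ : ∀ x, (pr x : G) ∈ D.Z) (hprz : ∀ z : D.K, (z : G) ∈ D.Z → pr z = z)
    (hpra : ∀ a (x : D.K), pr ⟨D.φ a x, D.hKinv a x x.2⟩ = pr x)
    (hprc : ∀ (c : G), c ∈ fixSub D.φ → ∀ x : D.K,
      pr ⟨c * x * c⁻¹, D.hKn.conj_mem x x.2 c⟩ = pr x)
    (hpr : ∀ x y : D.K, ⁅x, y⁆ = 1 → pr (x * y) = pr x * pr y)
    (hττ : τ * τ = 1) (hfix : ∀ g, τ g = g ↔ g ∈ fixSub D.φ)
    (hτK : ∀ k : D.K, τ (k : G) = ((k : G))⁻¹ * ((pr k : G)) ^ 2)
    {χ : IrrCharacter G} (hχ : D.Over χ) (hinv : InvFun D.φ (χ : G → ℂ)) (g : G) :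
    (χ : G → ℂ) (τ g) = (χ : G → ℂ) g := by
  classical
  -- the radical, and its part killed by the projection
  let R : Subgroup D.K := Subgroup.center D.K
  have hRK : ∀ r ∈ R, ∀ x : D.K, Commute (r : G) (x : G) := fun r hr x =>
    congrArg Subtype.val (Subgroup.mem_center_iff.1 hr x).symm
  have hpr0 : ∀ r ∈ R, ∀ r' : D.K, pr (r * r') = pr r * pr r' := fun r hr r' =>
    hpr r r' (commutatorElement_eq_one_iff_mul_comm.2 (Subgroup.mem_center_iff.1 hr r').symm)
  have hprinv : ∀ r ∈ R, pr r⁻¹ = (pr r)⁻¹ := fun r hr => by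
    refine eq_inv_of_mul_eq_one_left ?_
    rw [← hpr0 _ (inv_mem hr), inv_mul_cancel, hprz 1 (one_mem _)]
  let R0 : Subgroup G :=
    { carrier := {x | ∃ h : x ∈ D.K, (⟨x, h⟩ : D.K) ∈ R ∧ pr ⟨x, h⟩ = 1}
      one_mem' := ⟨one_mem _, one_mem R, hprz 1 (one_mem _)⟩
      mul_mem' := fun {x y} ⟨hx, hxR, hx1⟩ ⟨hy, hyR, hy1⟩ => ⟨mul_mem hx hy, mul_mem hxR hyR, by
        have := hpr0 ⟨x, hx⟩ hxR ⟨y, hy⟩
        rw [hx1, hy1, one_mul] at this
        exact this⟩
      inv_mem' := fun {x} ⟨hx, hxR, hx1⟩ => ⟨inv_mem hx, inv_mem hxR, by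
        have := hprinv ⟨x, hx⟩ hxR
        rw [hx1, inv_one] at this
        exact this⟩ }
  have hR0R : ∀ x ∈ R0, ∀ y : D.K, Commute x (y : G) := fun x ⟨hx, hxR, _⟩ y =>
    hRK ⟨x, hx⟩ hxR y
  haveI : R0.Normal := ⟨fun x ⟨hx, hxR, hx1⟩ g => by
    obtain ⟨k, hk, c, hc, rfl⟩ := D.hgen g
    have hcx : c * x * c⁻¹ ∈ D.K := D.hKn.conj_mem x hx c
    have hcR : (⟨c * x * c⁻¹, hcx⟩ : D.K) ∈ R := Subgroup.mem_center_iff.2 fun w => by
      have h1 := congrArg Subtype.val (Subgroup.mem_center_iff.1 hxR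
        ⟨c⁻¹ * w * c⁻¹⁻¹, D.hKn.conj_mem w w.2 c⁻¹⟩)
      change c⁻¹ * (w : G) * c⁻¹⁻¹ * x = x * (c⁻¹ * (w : G) * c⁻¹⁻¹) at h1
      refine Subtype.ext ?_
      show (w : G) * (c * x * c⁻¹) = c * x * c⁻¹ * (w : G)
      calc (w : G) * (c * x * c⁻¹) = c * (c⁻¹ * (w : G) * c⁻¹⁻¹ * x) * c⁻¹ := by group
        _ = c * (x * (c⁻¹ * (w : G) * c⁻¹⁻¹)) * c⁻¹ := by rw [h1]
        _ = _ := by group
    have h2 : k * c * x * (k * c)⁻¹ = c * x * c⁻¹ := by
      have h3 : Commute (c * x * c⁻¹) k := hRK ⟨_, hcx⟩ hcR ⟨k, hk⟩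
      calc k * c * x * (k * c)⁻¹ = k * (c * x * c⁻¹) * k⁻¹ := by group
        _ = c * x * c⁻¹ := by rw [← h3.eq, mul_inv_cancel_right]
    rw [h2]
    exact ⟨hcx, hcR, (hprc c hc ⟨x, hx⟩).trans hx1⟩⟩
  have hR0inv : ∀ a, ∀ x ∈ R0, D.φ a x ∈ R0 := fun a x ⟨hx, hxR, hx1⟩ => by
    refine ⟨D.hKinv a x hx, Subgroup.mem_center_iff.2 fun w => Subtype.ext ?_,
      (hpra a ⟨x, hx⟩).trans hx1⟩
    have h1 := congrArg Subtype.val (Subgroup.mem_center_iff.1 hxR
      ⟨D.φ a⁻¹ w, D.hKinv a⁻¹ w w.2⟩)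
    change D.φ a⁻¹ (w : G) * x = x * D.φ a⁻¹ (w : G) at h1
    have h2 := congrArg (D.φ a) h1
    rw [map_mul, map_mul, ← MulAut.mul_apply, ← map_mul, mul_inv_cancel, map_one,
      MulAut.one_apply] at h2
    exact h2
  -- an invariant linear character of an abelian group without fixed points is trivial
  have htriv : ∀ (X : Subgroup G) (μ : G → ℂ), (∀ x ∈ X, ∀ y ∈ X, μ (x * y) = μ x * μ y) →
      (∀ x ∈ X, μ x ≠ 0) → X ≤ D.K → (∀ a, ∀ x ∈ X, D.φ a x ∈ X) →
      (∀ a, ∀ x ∈ X, μ (D.φ a x) = μ x) → (∀ z ∈ D.Z, z ∈ X → μ z = 1) → ∀ x ∈ X, μ x = 1 := by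
    intro X μ hμ hμ0 hXK hXinv hμinv hμZ x hx
    haveI := Fintype.ofFinite A
    haveI : D.Z.Normal := ⟨fun w hw g => by
      rwa [Subgroup.mem_center_iff.1 (D.hZc hw) g, mul_inv_cancel_right]⟩
    have hμ1 : μ 1 = 1 := by
      have := hμ 1 (one_mem _) 1 (one_mem _)
      rw [mul_one] at this
      exact (mul_eq_left₀ (hμ0 1 (one_mem _))).1 this.symm
    let w := ((Finset.univ : Finset A).toList.map fun a => D.φ a x).prod
    have hw : ∀ l : List A, (l.map fun a => D.φ a x).prod ∈ X ∧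
        μ (l.map fun a => D.φ a x).prod = μ x ^ l.length := by
      intro l
      induction l with
      | nil => exact ⟨one_mem _, by simpa using hμ1⟩
      | cons a l ih =>
        rw [List.map_cons, List.prod_cons]
        exact ⟨mul_mem (hXinv a x hx) ih.1, by
          rw [hμ _ (hXinv a x hx) _ ih.1, hμinv a x hx, ih.2, List.length_cons, pow_succ']⟩
    obtain ⟨hwX, hwμ⟩ := hw Finset.univ.toList
    rw [Finset.length_toList, Finset.card_univ] at hwμ
    -- the product is fixed modulo the centre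
    have hwfix : ∀ b, w⁻¹ * D.φ b w ∈ D.Z := fun b => by
      rw [← QuotientGroup.eq]
      show ((w : G) : G ⧸ D.Z) = ((D.φ b w : G) : G ⧸ D.Z)
      let Kq : Subgroup (G ⧸ D.Z) := D.K.map (QuotientGroup.mk' D.Z)
      letI : CommGroup Kq :=
        { (inferInstance : Group Kq) with
          mul_comm := fun u v => Subtype.ext (by
            obtain ⟨_, ⟨u', hu', rfl⟩⟩ := u
            obtain ⟨_, ⟨v', hv', rfl⟩⟩ := v
            show ((u' : G) : G ⧸ D.Z) * (v' : G) = (v' : G) * (u' : G)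
            rw [← QuotientGroup.mk_mul, ← QuotientGroup.mk_mul, QuotientGroup.eq]
            have h1 := D.hKab v'⁻¹ (inv_mem hv') u'⁻¹ (inv_mem hu')
            rw [commutatorElement_def] at h1
            simpa [mul_assoc] using h1) }
      let f : A → Kq := fun a => ⟨_, ⟨D.φ a x, D.hKinv a x (hXK hx), rfl⟩⟩
      have hprod : ∀ l : List A, (((l.map fun a => D.φ a x).prod : G) : G ⧸ D.Z) =
          ((l.map f).prod : Kq) := by
        intro l
        induction l with
        | nil => rfl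
        | cons a l ih =>
          rw [List.map_cons, List.prod_cons, List.map_cons, List.prod_cons, QuotientGroup.mk_mul,
            Subgroup.coe_mul, ih]
          rfl
      have hprod' : ∀ l : List A, (((l.map fun a => D.φ (b * a) x).prod : G) : G ⧸ D.Z) =
          ((l.map fun a => f (b * a)).prod : Kq) := by
        intro l
        induction l with
        | nil => rfl
        | cons a l ih =>
          rw [List.map_cons, List.prod_cons, List.map_cons, List.prod_cons, QuotientGroup.mk_mul,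
            Subgroup.coe_mul, ih]
          rfl
      have h1 : D.φ b w = ((Finset.univ : Finset A).toList.map fun a => D.φ (b * a) x).prod := by
        rw [map_list_prod, List.map_map]
        congr 1
        refine List.map_congr_left fun a _ => ?_
        show D.φ b (D.φ a x) = _
        rw [map_mul, MulAut.mul_apply]
      rw [h1, hprod, hprod', Finset.prod_map_toList, Finset.prod_map_toList]
      exact congrArg Subtype.val (Fintype.prod_equiv (Equiv.mulLeft b) _ _ fun a => rfl).symm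
    obtain ⟨z, hz, hwz⟩ := CoprimeFixed.exists_fixed_in_coset D.φ D.Z
      (fun a z hz => by rw [D.hZf hz a]; exact hz)
      (Group.isSolvable_of_comm fun z z' => Subtype.ext
        (Subgroup.mem_center_iff.1 (D.hZc z'.2) (z : G)))
      (D.cop.coprime_dvd_left D.Z.card_subgroup_dvd_card) hwfix
    have hwZ : w ∈ D.Z := by
      have h1 := D.hfpf _ (mul_mem (hXK hwX) (D.hZK hz)) hwz
      simpa using mul_mem h1 (inv_mem hz)
    have hAx : μ x ^ Nat.card A = 1 := by
      rw [Nat.card_eq_fintype_card, ← hwμ]; exact hμZ w hwZ hwX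
    have hGx : μ x ^ Nat.card G = 1 := by
      have hpow : ∀ n : ℕ, μ (x ^ n) = μ x ^ n := fun n => by
        induction n with
        | zero => rw [pow_zero, pow_zero, hμ1]
        | succ n ih => rw [pow_succ, pow_succ, hμ _ (pow_mem hx n) _ hx, ih]
      rw [← hpow, pow_card_eq_one', hμ1]
    have := Nat.Coprime.gcd_eq_one D.cop
    rw [← pow_one (μ x), ← this]
    exact pow_gcd_eq_one.2 ⟨hGx, hAx⟩
  have hab0 : ∀ x y : R0, x * y = y * x := fun x y => Subtype.ext
    ((hR0R x x.2 ⟨y, y.2.1⟩).eq)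
  have hker : ∀ r ∈ R0, ∀ y, (χ : G → ℂ) (r * y) = (χ : G → ℂ) y := by
    obtain ⟨μ, hμ, hμinv⟩ := CoprimeFixed.exists_invariant_constituent D.φ D.solv D.cop R0
      hR0inv hinv
    have hμ1 : (μ : R0 → ℂ) = fun _ => 1 := by
      letI : CommGroup R0 := { (inferInstance : Group R0) with mul_comm := hab0 }
      have hdeg : (μ : R0 → ℂ) 1 = 1 := irr_apply_one_of_comm hab0 μ.2
      obtain ⟨f, hf⟩ := exists_hom_of_degree_one (isCharacter_of_isIrr μ.2) hdeg
      have hf' : ∀ x : R0, (μ : R0 → ℂ) x = (f x : ℂ) := fun x => congrFun hf x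
      funext x
      let μ' : G → ℂ := fun y => if h : y ∈ R0 then (f ⟨y, h⟩ : ℂ) else 1
      have hμ' : ∀ y : R0, μ' (y : G) = (f y : ℂ) := fun y => by simp [μ', y.2]
      have h1 := htriv R0 μ' (fun a ha b hb => by
          rw [hμ' ⟨a, ha⟩, hμ' ⟨b, hb⟩, show a * b = ((⟨a, ha⟩ * ⟨b, hb⟩ : R0) : G) from rfl, hμ',
            map_mul, Units.val_mul])
        (fun a ha => by rw [hμ' ⟨a, ha⟩]; exact (f _).ne_zero) (fun y hy => hy.1) hR0inv
        (fun a y hy => by
          rw [hμ' ⟨y, hy⟩, show D.φ a y = ((⟨_, hR0inv a y hy⟩ : R0) : G) from rfl, hμ',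
            ← hf', ← hf']
          exact hμinv a ⟨y, hy⟩)
        (fun z hz ⟨hzK, _, hz1⟩ => by
          rw [hprz ⟨z, hzK⟩ hz, Subtype.ext_iff] at hz1
          change z = 1 at hz1
          subst hz1
          rw [show (1 : G) = ((1 : R0) : G) from rfl, hμ', map_one, Units.val_one])
        x x.2
      rw [hμ' x] at h1
      rw [hf', h1]
    have hone : IsIrrCharacter R0 (fun _ : R0 => (1 : ℂ)) := hμ1 ▸ μ.2
    have hinv1 : Chars2.inertiaSub (fun _ : R0 => (1 : ℂ)) = ⊤ :=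
      Chars2.inertiaSub_eq_top fun _ _ => rfl
    rw [hμ1] at hμ
    intro r hr y
    obtain ⟨n, ρ, hρi, hρ⟩ := id χ.2
    have h1 := Chars2.clifford_invariant χ.2 hone hinv1 hμ ⟨r, hr⟩
    have h2 := Chars2.clifford_invariant χ.2 hone hinv1 hμ 1
    change (χ : G → ℂ) r = _ at h1
    change (χ : G → ℂ) 1 = _ at h2
    have hr1 : ρ r = 1 := (rep_char_eq_finrank_iff ρ r).1 (by
      rw [← Representation.char_one ρ, hρ, h1, h2])
    rw [← hρ]
    show LinearMap.trace ℂ _ (ρ (r * y)) = LinearMap.trace ℂ _ (ρ y)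
    rw [map_mul, hr1, one_mul]
  -- multiplication by the radical
  have hrad : ∀ r ∈ R, ∀ y, (χ : G → ℂ) ((r : G) * y) =
      (D.lam ⟨_, hprZ r⟩ : ℂ) * (χ : G → ℂ) y := by
    intro r hr y
    have hzR : pr r ∈ R := Subgroup.mem_center_iff.2 fun w => Subtype.ext
      (Subgroup.mem_center_iff.1 (D.hZc (hprZ r)) (w : G))
    have hr0 : (((pr r)⁻¹ * r : D.K) : G) ∈ R0 := by
      refine ⟨((pr r)⁻¹ * r : D.K).2, mul_mem (inv_mem hzR) hr, ?_⟩
      show pr ((pr r)⁻¹ * r) = 1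
      rw [hpr0 _ (inv_mem hzR), hprinv _ hzR, hprz (pr r) (hprZ r), inv_mul_cancel]
    rw [show (r : G) * y = ((⟨_, hprZ r⟩ : D.Z) : G) * ((((pr r)⁻¹ * r : D.K) : G) * y) by
      simp [mul_assoc], D.apply_Z_mul hχ, hker _ hr0]
  -- the pairing
  let b : D.K → (D.K →* ℂˣ) := fun u =>
    { toFun := fun v => D.lam ⟨_, D.hKab u u.2 v v.2⟩
      map_one' := by
        rw [← map_one D.lam]; congr 1; exact Subtype.ext (by simp)
      map_mul' := fun v v' => by
        rw [← map_mul]; congr 1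
        refine Subtype.ext ?_
        show ⁅(u : G), (v : G) * (v' : G)⁆ = ⁅(u : G), (v : G)⁆ * ⁅(u : G), (v' : G)⁆
        have hc := Subgroup.mem_center_iff.1 (D.hZc (D.hKab u u.2 v' v'.2)) (v : G)
        calc ⁅(u : G), (v : G) * (v' : G)⁆ =
              ⁅(u : G), (v : G)⁆ * ((v : G) * ⁅(u : G), (v' : G)⁆ * (v : G)⁻¹) := by
              simp only [commutatorElement_def]; group
          _ = _ := by rw [hc, mul_inv_cancel_right] }
  have hbapp : ∀ u v, b u v = D.lam ⟨_, D.hKab u u.2 v v.2⟩ := fun u v => rfl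
  have hb : ∀ u u' v, b (u * u') v = b u v * b u' v := fun u u' v => by
    rw [hbapp, hbapp, hbapp, ← map_mul]; congr 1
    refine Subtype.ext ?_
    show ⁅(u : G) * (u' : G), (v : G)⁆ = ⁅(u : G), (v : G)⁆ * ⁅(u' : G), (v : G)⁆
    have hc := Subgroup.mem_center_iff.1 (D.hZc (D.hKab u' u'.2 v v.2)) (u : G)
    calc ⁅(u : G) * (u' : G), (v : G)⁆ =
          ((u : G) * ⁅(u' : G), (v : G)⁆ * (u : G)⁻¹) * ⁅(u : G), (v : G)⁆ := by
          simp only [commutatorElement_def]; group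
      _ = ⁅(u' : G), (v : G)⁆ * ⁅(u : G), (v : G)⁆ := by rw [hc, mul_inv_cancel_right]
      _ = _ := (Subgroup.mem_center_iff.1 (D.hZc (D.hKab u' u'.2 v v.2)) _).symm
  have hsymm : ∀ u v, b v u = (b u v)⁻¹ := fun u v => by
    rw [hbapp, hbapp, ← map_inv]; congr 1
    exact Subtype.ext (commutatorElement_inv (u : G) (v : G)).symm
  have hbR : ∀ r, (∀ u, b u r = 1) → r ∈ R := fun r hr => Subgroup.mem_center_iff.2 fun w => by
    have h1 := D.hlam ((hr w).trans (map_one D.lam).symm)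
    exact Subtype.ext (commutatorElement_eq_one_iff_mul_comm.1 (congrArg Subtype.val h1))
  have hRb : ∀ r ∈ R, ∀ u, b u r = 1 := fun r hr u => by
    rw [hbapp, ← map_one D.lam]; congr 1
    exact Subtype.ext (commutatorElement_eq_one_iff_mul_comm.2 ((hRK r hr u).eq.symm))
  -- the key: where the character does not vanish
  have key : ∀ x : G, (χ : G → ℂ) x ≠ 0 → (χ : G → ℂ) (τ x) = (χ : G → ℂ) x := by
    intro x hx
    obtain ⟨k, hk, c, hc, rfl⟩ := D.hgen x
    let cj : D.K →* D.K := ((MulAut.conj c).toMonoidHom.comp D.K.subtype).codRestrict D.K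
      fun w => D.hKn.conj_mem w w.2 c
    have hbc : ∀ u v, b (cj u) (cj v) = b u v := fun u v => by
      rw [hbapp, hbapp]; congr 1
      refine Subtype.ext ?_
      show ⁅c * (u : G) * c⁻¹, c * (v : G) * c⁻¹⁆ = ⁅(u : G), (v : G)⁆
      have hcc := Subgroup.mem_center_iff.1 (D.hZc (D.hKab u u.2 v v.2)) c
      calc ⁅c * (u : G) * c⁻¹, c * (v : G) * c⁻¹⁆ = c * ⁅(u : G), (v : G)⁆ * c⁻¹ := by
            simp only [commutatorElement_def]; group
        _ = _ := by rw [hcc, mul_inv_cancel_right]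
    have hcR : ∀ r ∈ R, cj r ∈ R := fun r hr => hbR _ fun u => by
      have hu : u = cj ⟨c⁻¹ * u * c⁻¹⁻¹, D.hKn.conj_mem u u.2 c⁻¹⟩ := Subtype.ext (by
        show (u : G) = c * (c⁻¹ * (u : G) * c⁻¹⁻¹) * c⁻¹
        group)
      rw [hu, hbc, hRb r hr]
    -- the elements whose commutator with `c` is radical
    have hUmul : ∀ {u v : D.K}, u * (cj u)⁻¹ ∈ R → v * (cj v)⁻¹ ∈ R →
        u * v * (cj (u * v))⁻¹ = (v * (cj v)⁻¹) * (u * (cj u)⁻¹) := fun {u v} hu hv => by
      rw [map_mul, mul_inv_rev, mul_assoc u, ← mul_assoc v, ← mul_assoc,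
        Subgroup.mem_center_iff.1 hv u, mul_assoc]
    let U : Subgroup D.K :=
      { carrier := {u | u * (cj u)⁻¹ ∈ R}
        one_mem' := by simp
        mul_mem' := fun {u v} hu hv => by
          show u * v * (cj (u * v))⁻¹ ∈ R
          rw [hUmul hu hv]
          exact mul_mem hv hu
        inv_mem' := fun {u} hu => by
          show u⁻¹ * (cj u⁻¹)⁻¹ ∈ R
          rw [map_inv, inv_inv]
          have h1 : u⁻¹ * cj u = u⁻¹ * (u * (cj u)⁻¹)⁻¹ * u := by group
          rw [h1, Subgroup.mem_center_iff.1 (inv_mem hu) u⁻¹, inv_mul_cancel_right]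
          exact inv_mem hu }
    -- the linear character of `U`
    have hμ : ∀ u ∈ U, (D.lam ⟨_, hprZ (u * (cj u)⁻¹)⟩ : ℂ) = 1 := by
      let μ : G → ℂ := fun y => if h : y ∈ D.K then
        (D.lam ⟨_, hprZ (⟨y, h⟩ * (cj ⟨y, h⟩)⁻¹)⟩ : ℂ) else 1
      have hμ : ∀ u : D.K, μ (u : G) = (D.lam ⟨_, hprZ (u * (cj u)⁻¹)⟩ : ℂ) := fun u => by
        simp [μ, u.2]
      intro u hu
      rw [← hμ]
      refine htriv (U.map D.K.subtype) μ ?_ ?_ (Subgroup.map_subtype_le _) ?_ ?_ ?_ _ ⟨u, hu, rfl⟩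
      · rintro _ ⟨v, hv, rfl⟩ _ ⟨w, hw, rfl⟩
        show μ ((v : G) * (w : G)) = μ (v : G) * μ (w : G)
        rw [show (v : G) * (w : G) = ((v * w : D.K) : G) from rfl, hμ, hμ, hμ, ← Units.val_mul,
          ← map_mul]
        congr 2
        refine Subtype.ext ?_
        show (pr (v * w * (cj (v * w))⁻¹) : G) = (pr (v * (cj v)⁻¹) : G) * (pr (w * (cj w)⁻¹) : G)
        rw [hUmul hv hw, hpr0 _ hw, Subgroup.coe_mul]
        exact Subgroup.mem_center_iff.1 (D.hZc (hprZ _)) _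
      · rintro _ ⟨v, -, rfl⟩
        show μ (v : G) ≠ 0
        rw [hμ]; exact (D.lam _).ne_zero
      · rintro a _ ⟨v, hv, rfl⟩
        refine ⟨⟨D.φ a v, D.hKinv a v v.2⟩, ?_, rfl⟩
        show (⟨D.φ a v, D.hKinv a v v.2⟩ : D.K) * (cj ⟨D.φ a v, D.hKinv a v v.2⟩)⁻¹ ∈ R
        refine Subgroup.mem_center_iff.2 fun w => Subtype.ext ?_
        have h1 := congrArg Subtype.val (Subgroup.mem_center_iff.1 hv
          ⟨D.φ a⁻¹ w, D.hKinv a⁻¹ w w.2⟩)
        change D.φ a⁻¹ (w : G) * ((v : G) * (c * (v : G) * c⁻¹)⁻¹) =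
          (v : G) * (c * (v : G) * c⁻¹)⁻¹ * D.φ a⁻¹ (w : G) at h1
        have h2 := congrArg (D.φ a) h1
        simp only [map_mul, map_inv, hc a, ← MulAut.mul_apply, mul_inv_cancel, MulAut.one_apply] at h2
        exact h2
      · rintro a _ ⟨v, hv, rfl⟩
        show μ (D.φ a (v : G)) = μ (v : G)
        rw [show D.φ a (v : G) = ((⟨D.φ a v, D.hKinv a v v.2⟩ : D.K) : G) from rfl, hμ, hμ]
        refine congrArg (fun z : D.Z => ((D.lam z : ℂˣ) : ℂ)) (Subtype.ext ?_)
        refine (congrArg (fun w : D.K => (pr w : G)) ?_).trans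
          (congrArg Subtype.val (hpra a (v * (cj v)⁻¹)))
        refine Subtype.ext ?_
        show D.φ a (v : G) * (c * D.φ a (v : G) * c⁻¹)⁻¹ =
          D.φ a ((v : G) * (c * (v : G) * c⁻¹)⁻¹)
        simp only [map_mul, map_inv, hc a]
      · rintro z hz ⟨v, -, rfl⟩
        show μ (v : G) = 1
        rw [hμ]
        have h1 : v * (cj v)⁻¹ = 1 := Subtype.ext (by
          show (v : G) * (c * (v : G) * c⁻¹)⁻¹ = 1
          have hcc : c * (v : G) = (v : G) * c := Subgroup.mem_center_iff.1 (D.hZc hz) c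
          rw [hcc, mul_inv_cancel_right, mul_inv_cancel])
        have h2 : (⟨_, hprZ (v * (cj v)⁻¹)⟩ : D.Z) = 1 := Subtype.ext (by
          show (pr (v * (cj v)⁻¹) : G) = 1
          rw [h1, hprz 1 (one_mem _)]; rfl)
        rw [h2, map_one, Units.val_one]
    have hperp : ∀ u ∈ U, b u ⟨k, hk⟩ = 1 := by
      intro u hu
      refine Units.ext ?_
      rw [Units.val_one]
      have h1 : (χ : G → ℂ) ((u : G) * (k * c) * (u : G)⁻¹) = (χ : G → ℂ) (k * c) :=
        isCharacter_conj_apply (irr_isCharacter χ) (k * c) u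
      have h2 : (u : G) * (k * c) * (u : G)⁻¹ = ⁅(u : G), k⁆ * (((u * (cj u)⁻¹ : D.K) : G) * (k * c)) := by
        have h3 : Commute (((u * (cj u)⁻¹ : D.K) : G)) k := hRK _ hu ⟨k, hk⟩
        rw [← mul_assoc (((u * (cj u)⁻¹ : D.K) : G)), h3.eq]
        show _ = ⁅(u : G), k⁆ * (k * ((u : G) * (c * (u : G) * c⁻¹)⁻¹) * c)
        simp only [commutatorElement_def]; group
      rw [h2, show ⁅(u : G), k⁆ = ((⟨_, D.hKab u u.2 k hk⟩ : D.Z) : G) from rfl,
        D.apply_Z_mul hχ, hrad _ hu, hμ u hu, one_mul] at h1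
      exact (mul_eq_right₀ hx).1 h1
    -- the double orthogonal
    let comm : D.K → D.K := fun v => v * (cj v)⁻¹
    let Y : Subgroup D.K := Subgroup.closure (Set.range comm ∪ (R : Set D.K))
    have hkY : (⟨k, hk⟩ : D.K) ∈ Y := by
      refine mem_of_perp_perp b hb hsymm Y
        (fun r hr => Subgroup.subset_closure (Or.inr (hbR r hr))) fun u hu => hperp u ?_
      have h1 : ∀ v, b u v = b u (cj v) := fun v => by
        have := hu _ (Subgroup.subset_closure (Or.inl ⟨v, rfl⟩))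
        rwa [map_mul, map_inv, mul_inv_eq_one] at this
      refine hbR _ fun w => ?_
      obtain ⟨v, rfl⟩ : ∃ v, cj v = w := ⟨⟨c⁻¹ * w * c⁻¹⁻¹, D.hKn.conj_mem w w.2 c⁻¹⟩,
        Subtype.ext (by show c * (c⁻¹ * (w : G) * c⁻¹⁻¹) * c⁻¹ = w; group)⟩
      rw [map_mul, map_inv, mul_inv_eq_one, hbc, hsymm u, hsymm u, inv_inj]
      exact (h1 v).symm
    -- an element of `Y` is a commutator with `c` up to the radical
    have hY : ∀ y ∈ Y, ∃ v, ∃ r ∈ R, y = comm v * r := by
      intro y hy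
      induction hy using Subgroup.closure_induction with
      | mem y hy =>
        rcases hy with ⟨v, rfl⟩ | hy
        · exact ⟨v, 1, one_mem _, (mul_one _).symm⟩
        · exact ⟨1, y, hy, by simp [comm]⟩
      | one => exact ⟨1, 1, one_mem _, by simp [comm]⟩
      | mul x y _ _ hx hy =>
        obtain ⟨v, r, hr, rfl⟩ := hx
        obtain ⟨w, s, hs, rfl⟩ := hy
        refine ⟨v * w, (comm (v * w))⁻¹ * (comm v * r * (comm w * s)), ?_,
          (mul_inv_cancel_left _ _).symm⟩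
        refine hbR _ fun u => ?_
        simp only [map_mul, map_inv, comm, hRb r hr, hRb s hs, mul_one, mul_inv_rev, inv_inv]
        apply Units.ext
        simp only [Units.val_mul, Units.val_inv_eq_inv_val, Units.val_one]
        field_simp
      | inv x _ hx =>
        obtain ⟨v, r, hr, rfl⟩ := hx
        refine ⟨v⁻¹, (comm v⁻¹)⁻¹ * (comm v * r)⁻¹, ?_, (mul_inv_cancel_left _ _).symm⟩
        refine hbR _ fun u => ?_
        simp only [map_mul, map_inv, comm, hRb r hr, mul_one, mul_inv_rev, inv_inv, inv_one,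
          one_mul]
        apply Units.ext
        simp only [Units.val_mul, Units.val_inv_eq_inv_val, Units.val_one]
        field_simp
    obtain ⟨v, r, hr, hkv⟩ := hY _ hkY
    have hxe : k * c = (r : G) * ((v : G) * c * (v : G)⁻¹) := by
      have h1 : k = (v : G) * (c * (v : G) * c⁻¹)⁻¹ * (r : G) := congrArg Subtype.val hkv
      have h2 : Commute ((v : G) * (c * (v : G) * c⁻¹)⁻¹) (r : G) :=
        (hRK r hr (v * (cj v)⁻¹)).symm
      rw [h1, h2.eq]; group
    have hprcj : pr r⁻¹ = (pr r)⁻¹ := hprinv r hr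
    have hzR : pr r ^ 2 ∈ R := pow_mem (Subgroup.mem_center_iff.2 fun w => Subtype.ext
      (Subgroup.mem_center_iff.1 (D.hZc (hprZ r)) (w : G))) 2
    have hτr : τ (r : G) = ((r⁻¹ * pr r ^ 2 : D.K) : G) := by
      rw [hτK, Subgroup.coe_mul, Subgroup.coe_inv, Subgroup.coe_pow]
    have hpr2 : pr (r⁻¹ * pr r ^ 2) = pr r := by
      rw [hpr0 _ (inv_mem hr), hprcj, hprz (pr r ^ 2) (by
        rw [Subgroup.coe_pow]; exact pow_mem (hprZ r) 2), pow_two, inv_mul_cancel_left]
    rw [hxe, map_mul, map_mul, map_mul, (hfix c).2 hc, map_inv, hτr,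
      hrad _ (mul_mem (inv_mem hr) hzR), hrad r hr,
      isCharacter_conj_apply (irr_isCharacter χ), isCharacter_conj_apply (irr_isCharacter χ)]
    congr 1
    exact congrArg (fun z : D.Z => ((D.lam z : ℂˣ) : ℂ)) (Subtype.ext (congrArg (fun w : D.K => (w : G)) hpr2))
  by_cases hg : (χ : G → ℂ) g = 0
  · by_cases hg' : (χ : G → ℂ) (τ g) = 0
    · rw [hg, hg']
    · have := key _ hg'
      rw [← MulAut.mul_apply, hττ, MulAut.one_apply] at this
      exact this.symm
  · exact key g hg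

/-- The correspondence. -/
theorem correspondence : ∃ Φ : {χ : IrrCharacter G // D.Over χ ∧ InvFun D.φ (χ : G → ℂ)} ≃
      {β : IrrCharacter (fixSub D.φ) // D.OverC β},
    ∀ χ, (∃ k : ℕ, restrMult (fixSub D.φ) (χ.1 : G → ℂ) ((Φ χ).1 : fixSub D.φ → ℂ) = k ∧ Odd k) ∧
      ∀ (β : IrrCharacter (fixSub D.φ)) (k : ℕ),
        restrMult (fixSub D.φ) (χ.1 : G → ℂ) (β : fixSub D.φ → ℂ) = k → Odd k → β = (Φ χ).1 := by
  classical
  obtain ⟨pr, τ, hprZ, hprz, hpra, hprc, hpr, hττ, hfix, hτφ, hτK⟩ := D.exists_involution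
  let φ2 : Subgroup.zpowers τ →* MulAut G := (Subgroup.zpowers τ).subtype
  have hinv2 : ∀ χ : G → ℂ, InvFun φ2 χ ↔ ∀ g, χ (τ g) = χ g := by
    refine fun χ => ⟨fun h g => h ⟨τ, Subgroup.mem_zpowers τ⟩ g, fun h a g => ?_⟩
    obtain ⟨a, i, rfl⟩ := a
    show χ ((τ ^ i : MulAut G) g) = χ g
    rcases Int.even_or_odd' i with ⟨j, rfl | rfl⟩
    · rw [zpow_mul, zpow_two, hττ, one_zpow, MulAut.one_apply]
    · rw [zpow_add, zpow_mul, zpow_two, hττ, one_zpow, one_mul, zpow_one]; exact h g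
  have hp2 : IsPGroup 2 (Subgroup.zpowers τ) := by
    have h1 : orderOf τ ∣ 2 ^ 1 := orderOf_dvd_of_pow_eq_one (by rw [pow_one, pow_two, hττ])
    obtain ⟨j, -, hj⟩ := (Nat.dvd_prime_pow Nat.prime_two).1 h1
    exact IsPGroup.of_card (n := j) (by rw [Nat.card_zpowers, hj])
  haveI : Finite (Subgroup.zpowers τ) := Nat.finite_of_card_ne_zero (by
    rw [Nat.card_zpowers]
    intro h
    have := orderOf_dvd_of_pow_eq_one (show τ ^ 2 = 1 by rw [pow_two, hττ])
    rw [h] at this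
    exact two_ne_zero (zero_dvd_iff.1 this))
  haveI := Fact.mk Nat.prime_two
  have h2G : ¬ 2 ∣ Nat.card G := fun h =>
    Nat.not_even_iff_odd.2 D.odd (even_iff_two_dvd.2 h)
  have hfixeq : fixSub φ2 = fixSub D.φ := by
    ext g
    rw [← hfix, mem_fixSub]
    refine ⟨fun h => h ⟨τ, Subgroup.mem_zpowers τ⟩, fun h a => ?_⟩
    obtain ⟨a, i, rfl⟩ := a
    show (τ ^ i : MulAut G) g = g
    rcases Int.even_or_odd' i with ⟨j, rfl | rfl⟩
    · rw [zpow_mul, zpow_two, hττ, one_zpow, MulAut.one_apply]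
    · rw [zpow_add, zpow_mul, zpow_two, hττ, one_zpow, one_mul, zpow_one]; exact h
  have hG := glauberman_pgroup Nat.prime_two hp2 φ2 h2G
  revert hG
  rw [hfixeq]
  intro hG
  obtain ⟨Φ0, mult, hΦ⟩ := hG
  have hodd : ∀ χ, Odd (mult χ) := fun χ => by
    rw [← Nat.not_even_iff_odd, even_iff_two_dvd]
    exact not_dvd_of_pm_one Nat.prime_two (hΦ χ).2.1
  have hnd : ∀ k : ℕ, Odd k → ¬ 2 ∣ k := fun k hk h =>
    Nat.not_even_iff_odd.2 hk (even_iff_two_dvd.2 h)
  have hne : ∀ χ, classInner (fun c : fixSub D.φ => (χ.1 : G → ℂ) c)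
      (Φ0 χ : fixSub D.φ → ℂ) ≠ 0 := fun χ h => by
    have h1 := (hΦ χ).1
    rw [show restrMult (fixSub D.φ) (χ.1 : G → ℂ) (Φ0 χ : fixSub D.φ → ℂ) = 0 by
      unfold restrMult; convert h] at h1
    exact (Nat.cast_ne_zero.2 (hodd χ).pos.ne') h1.symm
  -- the two notions of invariance agree
  have hiff : ∀ χ : IrrCharacter G, D.Over χ →
      (InvFun φ2 (χ : G → ℂ) ↔ InvFun D.φ (χ : G → ℂ)) := by
    intro χ hχ
    refine ⟨fun h a g => ?_, fun h => (hinv2 _).2
      (D.invariant_of_invariant hprZ hprz hpra hprc hpr hττ hfix hτK hχ h)⟩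
    have ha : InvFun φ2 ((irrEquiv (D.φ a) χ : IrrCharacter G) : G → ℂ) := (hinv2 _).2 fun y => by
      rw [irrEquiv_apply, irrEquiv_apply, ← hτφ]
      exact (hinv2 _).1 h (D.φ a y)
    have h1 : Φ0 ⟨χ, h⟩ = Φ0 ⟨irrEquiv (D.φ a) χ, ha⟩ := by
      refine (hΦ ⟨irrEquiv (D.φ a) χ, ha⟩).2.2 _ (mult ⟨χ, h⟩) ?_ (hnd _ (hodd _))
      rw [← (hΦ ⟨χ, h⟩).1]
      unfold restrMult
      congr 1
      funext c
      rw [irrEquiv_apply, c.2 a]
    have h2 := congrArg Subtype.val (Φ0.injective h1)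
    have h3 := congrFun (congrArg Subtype.val h2) g
    show (χ : G → ℂ) (D.φ a g) = (χ : G → ℂ) g
    rw [← irrEquiv_apply (D.φ a) χ g]
    exact h3.symm
  let e1 : {χ : IrrCharacter G // D.Over χ ∧ InvFun D.φ (χ : G → ℂ)} ≃
      {χ : {χ : IrrCharacter G // InvFun φ2 (χ : G → ℂ)} // D.Over χ.1} :=
    { toFun := fun χ => ⟨⟨χ.1, (hiff χ.1 χ.2.1).2 χ.2.2⟩, χ.2.1⟩
      invFun := fun χ => ⟨χ.1.1, χ.2, (hiff χ.1.1 χ.2).1 χ.1.2⟩
      left_inv := fun _ => rfl
      right_inv := fun _ => rfl }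
  refine ⟨e1.trans (Φ0.subtypeEquiv fun χ => (D.over_iff (hne χ)).symm), fun χ => ⟨?_, ?_⟩⟩
  · refine ⟨mult (e1 χ).1, ?_, hodd _⟩
    exact (hΦ (e1 χ).1).1
  · intro β k hk hko
    exact (hΦ (e1 χ).1).2.2 β k hk (hnd k hko)

end Data

end Cfsg.Agent.Chars.OddCore
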