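import Cfsg.Agent.Chars.OddStep

/-!
The odd-multiplicity correspondence for a coprime action on a solvable group of odd order with an
abelian section `K ⧸ L` and `G = K C`, `H = L C`.
-/

set_option autoImplicit false
set_option linter.style.haveILetI false
set_option linter.unusedSectionVars false

open Cfsg Cfsg.Agent Cfsg.Agent.Chars2
open scoped ComplexConjugate commutatorElement

namespace Cfsg.Agent.Chars.OddReduction

universe u v

noncomputable local instance (priority := high) fintypeSub {A : Type*} [Group A] [Finite A]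
    (K : Subgroup A) : Fintype K :=
  Fintype.ofFinite _

variable {G : Type u} [Group G] [Fintype G] {A : Type v} [Group A] [Finite A]

/-- Inner products along an isomorphism. -/
theorem classInner_congr {X Y : Type*} [Group X] [Group Y] [Fintype X] [Fintype Y] (e : X ≃* Y)
    {f g : X → ℂ} {f' g' : Y → ℂ} (hf : ∀ x, f x = f' (e x)) (hg : ∀ x, g x = g' (e x)) :
    classInner f g = classInner f' g' := by
  rw [show f = fun x => f' (e x) from funext hf, show g = fun x => g' (e x) from funext hg,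
    classInner_comp_equiv]

/-- Induction preserves invariance. -/
theorem indFun_invariant (φ : A →* MulAut G) (T : Subgroup G)
    (hT : ∀ a, ∀ t ∈ T, φ a t ∈ T) {ψ : T → ℂ}
    (hψ : ∀ a (t : T), ψ ⟨φ a t, hT a t t.2⟩ = ψ t) : InvFun φ (indFun T ψ) := by
  intro a g
  rw [indFun_apply, indFun_apply]
  congr 1
  refine (Fintype.sum_equiv (φ a).toEquiv _ _ fun x => ?_).symm
  show _ = extendByZero _ _ ((φ a x)⁻¹ * φ a g * φ a x)
  rw [← map_inv, ← map_mul, ← map_mul]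
  by_cases hy : x⁻¹ * g * x ∈ T
  · rw [extendByZero_of_mem _ _ hy, extendByZero_of_mem _ _ (hT a _ hy)]
    exact (hψ a ⟨_, hy⟩).symm
  · rw [extendByZero_of_not_mem _ _ hy, extendByZero_of_not_mem]
    intro h
    have h2 := hT a⁻¹ _ h
    rw [← MulAut.mul_apply, ← map_mul, inv_mul_cancel, map_one, MulAut.one_apply] at h2
    exact hy h2

/-- Two invariant conjugate characters are conjugate by a fixed point. -/
theorem exists_fixed_conj (φ : A →* MulAut G) (hcop : (Nat.card G).Coprime (Nat.card A))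
    (hsolv : Group.IsSolvable G) (L : Subgroup G) [hLn : L.Normal]
    (hLinv : ∀ a, ∀ l ∈ L, φ a l ∈ L) {θ θ' : L → ℂ}
    (hθi : ∀ (a : A) (n : L), θ ⟨φ a n, hLinv a n n.2⟩ = θ n)
    (hθ'i : ∀ (a : A) (n : L), θ' ⟨φ a n, hLinv a n n.2⟩ = θ' n) {g : G}
    (hg : θ' = conjFun θ g) : ∃ c ∈ fixSub φ, θ' = conjFun θ c := by
  have hmul : ∀ x y : G, conjFun θ (x * y) = conjFun (conjFun θ y) x := fun x y => funext fun n => by
    simp only [conjFun, mul_inv_rev, map_mul, MulAut.mul_apply]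
  have hstep : ∀ a, g⁻¹ * φ a g ∈ inertiaSub θ := fun a => by
    have h1 : conjFun θ (φ a g) = conjFun θ g := by
      funext n
      obtain ⟨n', rfl⟩ : ∃ n' : L, (⟨φ a n', hLinv a n' n'.2⟩ : L) = n :=
        ⟨⟨φ a⁻¹ n, hLinv a⁻¹ n n.2⟩, Subtype.ext (by
          show φ a (φ a⁻¹ (n : G)) = n
          rw [← MulAut.mul_apply, ← map_mul, mul_inv_cancel, map_one, MulAut.one_apply])⟩
      rw [← hg, hθ'i, hg, conjFun_apply, conjFun_apply,
        ← hθi a ⟨g⁻¹ * n' * g⁻¹⁻¹, hLn.conj_mem (n' : G) n'.2 g⁻¹⟩]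
      congr 1
      ext
      simp
    rw [mem_inertiaSub]
    funext n
    have h2 : conjFun θ (g⁻¹ * φ a g) = conjFun θ (g⁻¹ * g) := by rw [hmul, h1, ← hmul]
    rw [h2, inv_mul_cancel, conjFun_one]
  haveI := hsolv
  obtain ⟨t, ht, hc⟩ := CoprimeFixed.exists_fixed_in_coset φ (inertiaSub θ)
    (inertiaSub_invariant φ L hLinv hθi) inferInstance
    (hcop.coprime_dvd_left (Subgroup.card_subgroup_dvd_card _)) hstep
  exact ⟨g * t, hc, by rw [hg, hmul g t, mem_inertiaSub.1 ht]⟩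

/-- Odd multiplicity in the restriction. -/
def OddMult (H : Subgroup G) (χ : G → ℂ) (ψ : H → ℂ) : Prop :=
  ∃ m : ℕ, classInner (fun h : H => χ h) ψ = m ∧ Odd m

section free

variable (φ : A →* MulAut G) (hodd : Odd (Nat.card G))
  (hcop : (Nat.card G).Coprime (Nat.card A)) (hsolv : Group.IsSolvable G)
  (K L H : Subgroup G) [hKn : K.Normal] [hLn : L.Normal] (hLK : L ≤ K)
  (hKinv : ∀ a, ∀ k ∈ K, φ a k ∈ K) (hLinv : ∀ a, ∀ l ∈ L, φ a l ∈ L)
  (hab : ∀ x ∈ K, ∀ y ∈ K, ⁅x, y⁆ ∈ L)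
  (hfpf : ∀ k ∈ K, (∀ a, k⁻¹ * φ a k ∈ L) → k ∈ L)
  (hgen : ∀ g : G, ∃ k ∈ K, ∃ c ∈ fixSub φ, g = k * c)
  (hH : H = L ⊔ fixSub φ) (hLH : L ≤ H) (hHinv : ∀ a, ∀ h ∈ H, φ a h ∈ H)
include hodd hcop hsolv hKn hLn hLK hKinv hLinv hab hfpf hgen hH hLH hHinv

/-- The correspondence over one invariant character of `L`. -/
theorem theta_step {θ : L → ℂ} (hθ : IsIrrCharacter L θ)
    (hθi : ∀ (a : A) (n : L), θ ⟨φ a n, hLinv a n n.2⟩ = θ n) :
    (∀ χ : IrrCharacter G, InvFun φ (χ : G → ℂ) → classInner (fun n : L => (χ : G → ℂ) n) θ ≠ 0 →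
      ∃ ψ : IrrCharacter H, InvFun (subAct φ H hHinv) (ψ : H → ℂ) ∧
        OddMult H (χ : G → ℂ) (ψ : H → ℂ) ∧ ∀ ψ' : IrrCharacter H,
          classInner (fun n : L => (ψ' : H → ℂ) ⟨n, hLH n.2⟩) θ ≠ 0 →
          OddMult H (χ : G → ℂ) (ψ' : H → ℂ) → ψ' = ψ) ∧
    (∀ χ χ' : IrrCharacter G, InvFun φ (χ : G → ℂ) → InvFun φ (χ' : G → ℂ) →
      classInner (fun n : L => (χ : G → ℂ) n) θ ≠ 0 →
      classInner (fun n : L => (χ' : G → ℂ) n) θ ≠ 0 → ∀ ψ : IrrCharacter H,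
      classInner (fun n : L => (ψ : H → ℂ) ⟨n, hLH n.2⟩) θ ≠ 0 →
      OddMult H (χ : G → ℂ) (ψ : H → ℂ) → OddMult H (χ' : G → ℂ) (ψ : H → ℂ) → χ = χ') ∧
    ∀ ψ : IrrCharacter H, classInner (fun n : L => (ψ : H → ℂ) ⟨n, hLH n.2⟩) θ ≠ 0 →
      ∃ χ : IrrCharacter G, InvFun φ (χ : G → ℂ) ∧ OddMult H (χ : G → ℂ) (ψ : H → ℂ) := by
  classical
  let T := inertiaSub θ
  have hLT : L ≤ T :=
    le_inertiaSub (isClassFunction_of_isCharacter (isCharacter_of_isIrr hθ))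
  have hTinv : ∀ a, ∀ t ∈ T, φ a t ∈ T := inertiaSub_invariant φ L hLinv hθi
  let φT := subAct φ T hTinv
  haveI := hsolv
  -- `T = (T ∩ K) (T ∩ C)`
  have hgenT : ∀ t : T, ∃ k ∈ K.subgroupOf T, ∃ c ∈ fixSub φT, t = k * c := by
    intro t
    obtain ⟨k, hk, c, hc, hkc⟩ := hgen t
    have hstep : ∀ a, k⁻¹ * φ a k ∈ K ⊓ T := fun a => by
      have h1 : φ a k * k⁻¹ ∈ T := by
        have h2 : φ a (t : G) * (t : G)⁻¹ ∈ T := mul_mem (hTinv a _ t.2) (inv_mem t.2)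
        rwa [hkc, map_mul, hc a, mul_inv_rev, mul_assoc, ← mul_assoc c, mul_inv_cancel,
          one_mul] at h2
      refine Subgroup.mem_inf.2 ⟨mul_mem (inv_mem hk) (hKinv a k hk), ?_⟩
      rw [show k⁻¹ * φ a k = ⁅k⁻¹, φ a k⁆ * (φ a k * k⁻¹) by rw [commutatorElement_def]; group]
      exact mul_mem (hLT (hab _ (inv_mem hk) _ (hKinv a k hk))) h1
    obtain ⟨s, hs, hsf⟩ := CoprimeFixed.exists_fixed_in_coset φ (K ⊓ T)
      (fun a x hx => ⟨hKinv a x hx.1, hTinv a x hx.2⟩) inferInstance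
      (hcop.coprime_dvd_left (Subgroup.card_subgroup_dvd_card _)) hstep
    have hks : k * s ∈ L := hfpf _ (mul_mem hk hs.1) fun a => by
      rw [hsf a, inv_mul_cancel]; exact one_mem _
    have hkT : k ∈ T := by
      rw [show k = k * s * s⁻¹ by group]
      exact mul_mem (hLT hks) (inv_mem hs.2)
    have hcT : c ∈ T := by
      rw [show c = k⁻¹ * (t : G) by rw [hkc, inv_mul_cancel_left]]
      exact mul_mem (inv_mem hkT) t.2
    exact ⟨⟨k, hkT⟩, hk, ⟨c, hcT⟩, fun a => Subtype.ext (hc a), Subtype.ext hkc⟩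
  have hLH' : L.subgroupOf T ≤ H.subgroupOf T := fun x hx => hLH hx
  have hHT : H.subgroupOf T = L.subgroupOf T ⊔ fixSub φT := by
    refine le_antisymm ?_ (sup_le hLH' fun c hc => ?_)
    · intro t ht
      have ht' : (t : G) ∈ L ⊔ fixSub φ := hH ▸ ht
      obtain ⟨l, hl, c, hc, hlc⟩ := Subgroup.mem_sup_of_normal_left.1 ht'
      have hcT : c ∈ T := by
        rw [show c = l⁻¹ * (t : G) by rw [← hlc, inv_mul_cancel_left]]
        exact mul_mem (inv_mem (hLT hl)) t.2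
      rw [show t = ⟨l, hLT hl⟩ * ⟨c, hcT⟩ from Subtype.ext hlc.symm]
      exact mul_mem (Subgroup.mem_sup_left hl)
        (Subgroup.mem_sup_right fun a => Subtype.ext (hc a))
    · show (c : G) ∈ H
      rw [hH]
      exact Subgroup.mem_sup_right fun a => congrArg Subtype.val (hc a)
  let θT : L.subgroupOf T → ℂ := fun n => θ ⟨((n : T) : G), n.2⟩
  have hθT : IsIrrCharacter (L.subgroupOf T) θT :=
    isIrrCharacter_comp_equiv hθ (Subgroup.subgroupOfEquivOfLe hLT)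
  have hinvT : inertiaSub θT = ⊤ := inertiaSub_eq_top fun g n => by
    have h1 := congrFun (mem_inertiaSub.1 (T.inv_mem g.2)) ⟨((n : T) : G), n.2⟩
    rw [conjFun_apply] at h1
    refine Eq.trans (congrArg θ (Subtype.ext ?_)) h1
    simp
  haveI : (K.subgroupOf T).Normal := hKn.subgroupOf T
  haveI : (L.subgroupOf T).Normal := hLn.subgroupOf T
  obtain ⟨hψ0inv, Φ0, hΦ0⟩ := OddStep.invariant_step φT
    (hodd.of_dvd_nat T.card_subgroup_dvd_card) (hcop.coprime_dvd_left T.card_subgroup_dvd_card)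
    inferInstance (K.subgroupOf T) (L.subgroupOf T) (H.subgroupOf T) (fun x hx => hLK hx)
    (fun a k hk => hKinv a _ hk) (fun a l hl => hLinv a _ hl) (fun x hx y hy => hab _ hx _ hy)
    (fun k hk h => hfpf _ hk fun a => h a) hgenT hHT hLH' (fun a h hh => hHinv a _ hh) hθT
    (fun a n => hθi a ⟨((n : T) : G), n.2⟩) hinvT
  -- lying over `θ`
  have hoverT : ∀ η : T → ℂ, classInner (fun n : L.subgroupOf T => η n) θT =
      classInner (resSub L T hLT η) θ := fun η =>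
    classInner_congr (Subgroup.subgroupOfEquivOfLe hLT) (fun x => rfl) fun x => rfl
  -- the inertia group in `H`
  let TH := T.subgroupOf H
  let θH : L.subgroupOf H → ℂ := fun n => θ ⟨((n : H) : G), n.2⟩
  have hθH : IsIrrCharacter (L.subgroupOf H) θH :=
    isIrrCharacter_comp_equiv hθ (Subgroup.subgroupOfEquivOfLe hLH)
  haveI : (L.subgroupOf H).Normal := hLn.subgroupOf H
  have hLTH : L.subgroupOf H ≤ TH := fun x hx => hLT hx
  have hTH : TH = inertiaSub θH := by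
    ext h
    show (h : G) ∈ inertiaSub θ ↔ _
    rw [mem_inertiaSub, mem_inertiaSub]
    constructor
    · intro e
      funext n
      have h1 := congrFun e ⟨((n : H) : G), n.2⟩
      rw [conjFun_apply] at h1 ⊢
      exact h1
    · intro e
      funext n
      have h1 := congrFun e ⟨⟨(n : G), hLH n.2⟩, n.2⟩
      rw [conjFun_apply] at h1 ⊢
      exact h1
  let e12 : TH ≃* H.subgroupOf T :=
    { toFun := fun x => ⟨⟨((x : H) : G), x.2⟩, (x : H).2⟩
      invFun := fun y => ⟨⟨((y : T) : G), y.2⟩, (y : T).2⟩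
      left_inv := fun _ => rfl
      right_inv := fun _ => rfl
      map_mul' := fun _ _ => rfl }
  have hoverH : ∀ ψ : IrrCharacter (H.subgroupOf T),
      classInner (fun n : L.subgroupOf T => (ψ : H.subgroupOf T → ℂ) ⟨n, hLH' n.2⟩) θT =
      classInner (resSub (L.subgroupOf H) TH hLTH (irrEquiv e12 ψ : TH → ℂ)) θH := fun ψ => by
    refine classInner_congr ((Subgroup.subgroupOfEquivOfLe hLT).trans
      (Subgroup.subgroupOfEquivOfLe hLH).symm) (fun x => ?_) fun x => ?_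
    · rfl
    · rfl
  -- correspondents
  have hind : ∀ η : IrrCharacter T, classInner (resSub L T hLT (η : T → ℂ)) θ ≠ 0 →
      ∃ χ : IrrCharacter G, indFun T (η : T → ℂ) = (χ : G → ℂ) ∧
        classInner (fun t : T => (χ : G → ℂ) t) (η : T → ℂ) = 1 := fun η hη => by
    have hirr := isIrr_indFun_of_inertia hLT hθ rfl η.2 hη
    refine ⟨⟨_, hirr⟩, rfl, ?_⟩
    have h1 := classInner_indFun_right T (η : T → ℂ) (isClassFunction_indFun T (η : T → ℂ))
    rw [classInner_self_irr hirr] at h1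
    exact h1.symm
  have hcorr : ∀ χ : IrrCharacter G, classInner (fun n : L => (χ : G → ℂ) n) θ ≠ 0 →
      ∃ η : IrrCharacter T, indFun T (η : T → ℂ) = (χ : G → ℂ) ∧
        classInner (fun t : T => (χ : G → ℂ) t) (η : T → ℂ) = 1 ∧
        classInner (resSub L T hLT (η : T → ℂ)) θ ≠ 0 ∧
        ∀ η' : IrrCharacter T, classInner (fun t : T => (χ : G → ℂ) t) (η' : T → ℂ) ≠ 0 →
          classInner (resSub L T hLT (η' : T → ℂ)) θ ≠ 0 → η' = η := fun χ hχ => by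
    obtain ⟨f, hf, hfχ, hfov⟩ := exists_correspondent hLT hθ rfl χ.2 hχ
    have h2 : classInner (resSub L T hLT f) θ ≠ 0 := by rw [hfov]; exact hχ
    obtain ⟨χ', hχ', h1⟩ := hind ⟨f, hf⟩ h2
    have he : χ' = χ := Subtype.ext (hχ'.symm.trans hfχ)
    subst he
    exact ⟨⟨f, hf⟩, hfχ, h1, h2, fun η' h1' h2' => Subtype.ext
      ((clifford_correspondence hLT hθ rfl χ'.2 hf (by rw [h1]; exact one_ne_zero) h2).2.2.2
        η' η'.2 h1' h2')⟩
  have hηinv : ∀ χ : IrrCharacter G, InvFun φ (χ : G → ℂ) → ∀ η : IrrCharacter T,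
      classInner (fun t : T => (χ : G → ℂ) t) (η : T → ℂ) = 1 →
      classInner (resSub L T hLT (η : T → ℂ)) θ ≠ 0 →
      (∀ η' : IrrCharacter T, classInner (fun t : T => (χ : G → ℂ) t) (η' : T → ℂ) ≠ 0 →
          classInner (resSub L T hLT (η' : T → ℂ)) θ ≠ 0 → η' = η) →
      InvFun φT (η : T → ℂ) := by
    intro χ hχ η h1 h2 huniq a t
    have e : irrEquiv (φT a) η = η := huniq _
      (ne_of_eq_of_ne ((classInner_congr (φT a) (f' := fun t : T => (χ : G → ℂ) t)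
        (g' := (η : T → ℂ)) (fun x => (hχ a x).symm) fun x => rfl).trans h1) one_ne_zero)
      (ne_of_eq_of_ne (classInner_congr (subAct φ L hLinv a) (f' := resSub L T hLT (η : T → ℂ))
        (g' := θ) (fun x => rfl) fun x => (hθi a x).symm) h2)
    exact congrFun (congrArg Subtype.val e) t
  -- multiplicities
  have hmult : ∀ (χ : IrrCharacter G) (η : IrrCharacter T),
      classInner (fun t : T => (χ : G → ℂ) t) (η : T → ℂ) = 1 →
      (∀ η' : IrrCharacter T, classInner (fun t : T => (χ : G → ℂ) t) (η' : T → ℂ) ≠ 0 →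
          classInner (resSub L T hLT (η' : T → ℂ)) θ ≠ 0 → η' = η) →
      ∀ ψ : IrrCharacter (H.subgroupOf T),
        classInner (fun n : L.subgroupOf T => (ψ : H.subgroupOf T → ℂ) ⟨n, hLH' n.2⟩) θT ≠ 0 →
        classInner (fun h : H => (χ : G → ℂ) h) (indFun TH (irrEquiv e12 ψ : TH → ℂ)) =
          classInner (fun x : H.subgroupOf T => (η : T → ℂ) x) (ψ : H.subgroupOf T → ℂ) := by
    intro χ η h1 huniq ψ hψ
    let eM : H.subgroupOf T ≃* (H ⊓ T : Subgroup G) :=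
      { toFun := fun x => ⟨((x : T) : G), x.2, (x : T).2⟩
        invFun := fun y => ⟨⟨(y : G), y.2.2⟩, y.2.1⟩
        left_inv := fun _ => rfl
        right_inv := fun _ => rfl
        map_mul' := fun _ _ => rfl }
    refine (classInner_indFun_right TH _ (isClassFunction_of_isCharacter
        (isCharacter_restrict (irr_isCharacter χ) H))).trans ?_
    refine (classInner_congr (e12.trans eM) (f' := fun y : (H ⊓ T : Subgroup G) => (χ : G → ℂ) y)
        (g' := fun y => (ψ : H.subgroupOf T → ℂ) (eM.symm y)) (fun x => rfl) (fun x => rfl)).trans ?_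
    rw [classInner_restrict_expand (H ⊓ T) T inf_le_right (irr_isCharacter χ)]
    have he : ∀ η' : IrrCharacter T,
        classInner (resSub (H ⊓ T) T inf_le_right (η' : T → ℂ))
          (fun y => (ψ : H.subgroupOf T → ℂ) (eM.symm y)) =
        classInner (fun x : H.subgroupOf T => (η' : T → ℂ) x) (ψ : H.subgroupOf T → ℂ) :=
      fun η' => classInner_congr eM.symm (fun x => rfl) fun x => rfl
    rw [Finset.sum_eq_single η]
    · rw [he, h1, one_mul]
    · intro η' _ hne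
      by_contra h0
      obtain ⟨ha, hb⟩ := mul_ne_zero_iff.1 h0
      rw [he] at hb
      refine hne (huniq η' ha ?_)
      rw [← hoverT]
      exact classInner_restrict_trans (L.subgroupOf T) (H.subgroupOf T) hLH'
        (irr_isCharacter η') ψ (isCharacter_of_isIrr hθT) hb hψ
    · intro h; exact absurd (Finset.mem_univ η) h
  have hcorrH : ∀ ψ : IrrCharacter H, classInner (fun n : L => (ψ : H → ℂ) ⟨n, hLH n.2⟩) θ ≠ 0 →
      ∃ ψ0 : IrrCharacter (H.subgroupOf T),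
        classInner (fun n : L.subgroupOf T => (ψ0 : H.subgroupOf T → ℂ) ⟨n, hLH' n.2⟩) θT ≠ 0 ∧
        indFun TH (irrEquiv e12 ψ0 : TH → ℂ) = (ψ : H → ℂ) := by
    intro ψ hψ
    have hψ' : classInner (fun n : L.subgroupOf H => (ψ : H → ℂ) n) θH ≠ 0 :=
      ne_of_eq_of_ne (classInner_congr (Subgroup.subgroupOfEquivOfLe hLH)
        (f' := fun n : L => (ψ : H → ℂ) ⟨n, hLH n.2⟩) (g' := θ) (fun x => rfl) fun x => rfl) hψ
    obtain ⟨f, hf, hfψ, hfov⟩ := exists_correspondent hLTH hθH hTH ψ.2 hψ'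
    have he : irrEquiv e12 (irrEquiv e12.symm ⟨f, hf⟩) = ⟨f, hf⟩ :=
      Subtype.ext (funext fun x => by simp)
    refine ⟨irrEquiv e12.symm ⟨f, hf⟩, ?_, by rw [he]; exact hfψ⟩
    rw [hoverH, he]
    show classInner (resSub _ _ hLTH f) θH ≠ 0
    rw [hfov]; exact hψ'
  refine ⟨fun χ hχ hχθ => ?_, fun χ χ' hχ hχ' hχθ hχ'θ ψ hψθ hm hm' => ?_, fun ψ hψθ => ?_⟩
  · obtain ⟨η, -, h1, h2, huniq⟩ := hcorr χ hχθ
    let η' : {η : IrrCharacter T // classInner (fun n : L.subgroupOf T => (η : T → ℂ) n) θT ≠ 0 ∧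
        InvFun φT (η : T → ℂ)} :=
      ⟨η, by rw [hoverT]; exact h2, hηinv χ hχ η h1 h2 huniq⟩
    obtain ⟨ψ0, hψ0⟩ : ∃ ψ0, Φ0 η' = ψ0 := ⟨_, rfl⟩
    have hirr : IsIrrCharacter H (indFun TH (irrEquiv e12 ψ0.1 : TH → ℂ)) :=
      isIrr_indFun_of_inertia hLTH hθH hTH (irrEquiv e12 ψ0.1).2 (by rw [← hoverH]; exact ψ0.2)
    subst hψ0
    refine ⟨⟨_, hirr⟩, ?_, ?_, fun ψ' hψ'θ hm => ?_⟩
    · exact indFun_invariant (subAct φ H hHinv) TH (fun a t ht => hTinv a _ ht)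
        fun a t => hψ0inv (Φ0 η').1 (Φ0 η').2 a (e12 t)
    · obtain ⟨m, hm, hm'⟩ := (hΦ0 η').1
      refine ⟨m, ?_, hm'⟩
      rw [← hm]
      exact hmult χ η h1 huniq _ (Φ0 η').2
    · obtain ⟨ψ1, hψ1, hψ1'⟩ := hcorrH ψ' hψ'θ
      obtain ⟨m, hm, hm'⟩ := hm
      rw [← hψ1', hmult χ η h1 huniq ψ1 hψ1] at hm
      refine Subtype.ext ?_
      rw [← hψ1', (hΦ0 η').2 ψ1 m hψ1 hm hm']
  · obtain ⟨η, hη, h1, h2, huniq⟩ := hcorr χ hχθ
    obtain ⟨η', hη', h1', h2', huniq'⟩ := hcorr χ' hχ'θ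
    obtain ⟨ψ1, hψ1, hψ1'⟩ := hcorrH ψ hψθ
    obtain ⟨m, hm, hmo⟩ := hm
    obtain ⟨m', hm', hmo'⟩ := hm'
    rw [← hψ1', hmult χ η h1 huniq ψ1 hψ1] at hm
    rw [← hψ1', hmult χ' η' h1' huniq' ψ1 hψ1] at hm'
    have a1 := (hΦ0 ⟨η, by rw [hoverT]; exact h2, hηinv χ hχ η h1 h2 huniq⟩).2 ψ1 m hψ1 hm hmo
    have a2 := (hΦ0 ⟨η', by rw [hoverT]; exact h2', hηinv χ' hχ' η' h1' h2' huniq'⟩).2
      ψ1 m' hψ1 hm' hmo'
    have a3 := congrArg Subtype.val (Φ0.injective (Subtype.ext (a1.symm.trans a2)))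
    refine Subtype.ext ?_
    rw [← hη, ← hη']
    exact congrArg (fun e : IrrCharacter T => indFun T (e : T → ℂ)) a3
  · obtain ⟨ψ1, hψ1, hψ1'⟩ := hcorrH ψ hψθ
    obtain ⟨η, hη⟩ : ∃ η, Φ0.symm ⟨ψ1, hψ1⟩ = η := ⟨_, rfl⟩
    have h2 : classInner (resSub L T hLT (η.1 : T → ℂ)) θ ≠ 0 := by rw [← hoverT]; exact η.2.1
    obtain ⟨χ, hχ, h1⟩ := hind η.1 h2
    refine ⟨χ, hχ ▸ indFun_invariant φ T hTinv η.2.2, ?_⟩
    obtain ⟨m, hm, hm'⟩ := (hΦ0 η).1
    rw [show Φ0 η = ⟨ψ1, hψ1⟩ by rw [← hη, Equiv.apply_symm_apply]] at hm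
    refine ⟨m, ?_, hm'⟩
    rw [← hψ1', ← hm]
    refine hmult χ η.1 h1 (fun η' h1' h2' => Subtype.ext ?_) ψ1 hψ1
    exact (clifford_correspondence hLT hθ rfl χ.2 η.1.2 (by rw [h1]; exact one_ne_zero) h2).2.2.2
      η' η'.2 h1' h2'

/-- The correspondence, the section having no fixed points. -/
theorem correspondence_free :
    (∀ χ : IrrCharacter G, InvFun φ (χ : G → ℂ) → ∃! ψ : IrrCharacter H,
      InvFun (subAct φ H hHinv) (ψ : H → ℂ) ∧ OddMult H (χ : G → ℂ) (ψ : H → ℂ)) ∧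
    (∀ χ χ' : IrrCharacter G, InvFun φ (χ : G → ℂ) → InvFun φ (χ' : G → ℂ) →
      ∀ ψ : IrrCharacter H, InvFun (subAct φ H hHinv) (ψ : H → ℂ) →
      OddMult H (χ : G → ℂ) (ψ : H → ℂ) → OddMult H (χ' : G → ℂ) (ψ : H → ℂ) → χ = χ') ∧
    ∀ ψ : IrrCharacter H, InvFun (subAct φ H hHinv) (ψ : H → ℂ) →
      ∃ χ : IrrCharacter G, InvFun φ (χ : G → ℂ) ∧ OddMult H (χ : G → ℂ) (ψ : H → ℂ) := by
  classical
  haveI := hsolv
  haveI : (L.subgroupOf H).Normal := hLn.subgroupOf H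
  -- invariant constituents of characters of `H`
  have hconH : ∀ ψ : IrrCharacter H, InvFun (subAct φ H hHinv) (ψ : H → ℂ) →
      ∃ θ : IrrCharacter L, classInner (fun n : L => (ψ : H → ℂ) ⟨n, hLH n.2⟩) (θ : L → ℂ) ≠ 0 ∧
        ∀ (a : A) (n : L), (θ : L → ℂ) ⟨φ a n, hLinv a n n.2⟩ = (θ : L → ℂ) n := by
    intro ψ hψ
    obtain ⟨θ', h1, h2⟩ := CoprimeFixed.exists_invariant_constituent (subAct φ H hHinv)
      inferInstance (hcop.coprime_dvd_left H.card_subgroup_dvd_card) (L.subgroupOf H)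
      (fun a n hn => hLinv a _ hn) hψ
    refine ⟨irrEquiv (Subgroup.subgroupOfEquivOfLe hLH).symm θ', ?_, fun a n => ?_⟩
    · exact ne_of_eq_of_ne (classInner_congr (Subgroup.subgroupOfEquivOfLe hLH).symm
        (f' := fun x : L.subgroupOf H => (ψ : H → ℂ) x) (g' := (θ' : L.subgroupOf H → ℂ))
        (fun x => rfl) fun x => rfl) h1
    · exact h2 a ((Subgroup.subgroupOfEquivOfLe hLH).symm n)
  have hover : ∀ (χ : IrrCharacter G) (ψ : IrrCharacter H) (θ : IrrCharacter L),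
      OddMult H (χ : G → ℂ) (ψ : H → ℂ) →
      classInner (fun n : L => (ψ : H → ℂ) ⟨n, hLH n.2⟩) (θ : L → ℂ) ≠ 0 →
      classInner (fun n : L => (χ : G → ℂ) n) (θ : L → ℂ) ≠ 0 := by
    rintro χ ψ θ ⟨m, hm, hmo⟩ h
    refine classInner_restrict_trans L H hLH (irr_isCharacter χ) ψ (irr_isCharacter θ) ?_ h
    rw [hm]
    exact_mod_cast hmo.pos.ne'
  refine ⟨fun χ hχ => ?_, fun χ χ' hχ hχ' ψ hψ hm hm' => ?_, fun ψ hψ => ?_⟩
  · obtain ⟨θ, hθ, hθi⟩ :=
      CoprimeFixed.exists_invariant_constituent φ hsolv hcop L hLinv hχ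
    obtain ⟨ψ, hψi, hψm, hψu⟩ := (theta_step φ hodd hcop hsolv K L H hLK hKinv hLinv hab hfpf
      hgen hH hLH hHinv θ.2 hθi).1 χ hχ hθ
    refine ⟨ψ, ⟨hψi, hψm⟩, fun ψ' ⟨hψ'i, hψ'm⟩ => hψu ψ' ?_ hψ'm⟩
    obtain ⟨θ', hθ', hθ'i⟩ := hconH ψ' hψ'i
    obtain ⟨g, hg⟩ := clifford_constituent χ.2 θ.2 hθ θ'.2 (hover χ ψ' θ' hψ'm hθ')
    obtain ⟨c, hc, hc'⟩ := exists_fixed_conj φ hcop hsolv L hLinv hθi hθ'i hg
    have hcH : c ∈ H := by rw [hH]; exact Subgroup.mem_sup_right hc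
    intro h0
    apply hθ'
    have e1 : ∀ f : L → ℂ, classInner (fun n : L => (ψ' : H → ℂ) ⟨n, hLH n.2⟩) f =
        classInner (fun x : L.subgroupOf H => (ψ' : H → ℂ) x)
          (fun x => f ⟨((x : H) : G), x.2⟩) := fun f =>
      (classInner_congr (Subgroup.subgroupOfEquivOfLe hLH) (fun x => rfl) fun x => rfl).symm
    rw [e1, hc', show (fun x : L.subgroupOf H => conjFun (θ : L → ℂ) c ⟨((x : H) : G), x.2⟩) =
      conjFun (fun x : L.subgroupOf H => (θ : L → ℂ) ⟨((x : H) : G), x.2⟩) (⟨c, hcH⟩ : H) from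
        funext fun x => by rw [conjFun_apply, conjFun_apply]; rfl,
      classInner_restrict_conjFun (isClassFunction_irr ψ'), ← e1]
    exact h0
  · obtain ⟨θ, hθ, hθi⟩ := hconH ψ hψ
    exact (theta_step φ hodd hcop hsolv K L H hLK hKinv hLinv hab hfpf hgen hH hLH hHinv θ.2
      hθi).2.1 χ χ' hχ hχ' (hover χ ψ θ hm hθ) (hover χ' ψ θ hm' hθ) ψ hθ hm hm'
  · obtain ⟨θ, hθ, hθi⟩ := hconH ψ hψ
    exact (theta_step φ hodd hcop hsolv K L H hLK hKinv hLinv hab hfpf hgen hH hLH hHinv θ.2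
      hθi).2.2 ψ hθ

end free

/-- The correspondence. -/
theorem correspondence (φ : A →* MulAut G) (hodd : Odd (Nat.card G))
    (hcop : (Nat.card G).Coprime (Nat.card A)) (hsolv : Group.IsSolvable G)
    (K L H : Subgroup G) [hKn : K.Normal] [hLn : L.Normal] (hLK : L ≤ K)
    (hKinv : ∀ a, ∀ k ∈ K, φ a k ∈ K) (hLinv : ∀ a, ∀ l ∈ L, φ a l ∈ L)
    (hab : ∀ x ∈ K, ∀ y ∈ K, ⁅x, y⁆ ∈ L) (hKC : K ⊔ fixSub φ = ⊤)
    (hH : H = L ⊔ fixSub φ) (hHinv : ∀ a, ∀ h ∈ H, φ a h ∈ H) :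
    (∀ χ : IrrCharacter G, InvFun φ (χ : G → ℂ) → ∃! ψ : IrrCharacter H,
      InvFun (subAct φ H hHinv) (ψ : H → ℂ) ∧ OddMult H (χ : G → ℂ) (ψ : H → ℂ)) ∧
    (∀ χ χ' : IrrCharacter G, InvFun φ (χ : G → ℂ) → InvFun φ (χ' : G → ℂ) →
      ∀ ψ : IrrCharacter H, InvFun (subAct φ H hHinv) (ψ : H → ℂ) →
      OddMult H (χ : G → ℂ) (ψ : H → ℂ) → OddMult H (χ' : G → ℂ) (ψ : H → ℂ) → χ = χ') ∧
    ∀ ψ : IrrCharacter H, InvFun (subAct φ H hHinv) (ψ : H → ℂ) →
      ∃ χ : IrrCharacter G, InvFun φ (χ : G → ℂ) ∧ OddMult H (χ : G → ℂ) (ψ : H → ℂ) := by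
  classical
  haveI := hsolv
  let W : Set G := {x | ∃ a, ∃ k ∈ K, k⁻¹ * φ a k = x}
  let K0 : Subgroup G := L ⊔ Subgroup.closure W
  have hWK : Subgroup.closure W ≤ K := (Subgroup.closure_le K).2 fun x ⟨a, k, hk, e⟩ =>
    e ▸ mul_mem (inv_mem hk) (hKinv a k hk)
  have hK0K : K0 ≤ K := sup_le hLK hWK
  have hK0inv : ∀ a, ∀ k ∈ K0, φ a k ∈ K0 := fun b => by
    have h1 : K0 ≤ K0.comap (φ b).toMonoidHom := by
      refine sup_le (fun l hl => Subgroup.mem_sup_left (hLinv b l hl)) ((Subgroup.closure_le _).2 ?_)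
      rintro _ ⟨a, k, hk, rfl⟩
      refine Subgroup.mem_sup_right (Subgroup.subset_closure ⟨b * a * b⁻¹, φ b k, hKinv b k hk, ?_⟩)
      show (φ b k)⁻¹ * φ (b * a * b⁻¹) (φ b k) = φ b (k⁻¹ * φ a k)
      rw [map_mul (φ b), map_inv (φ b)]
      congr 1
      rw [← MulAut.mul_apply, ← MulAut.mul_apply, ← map_mul, ← map_mul, inv_mul_cancel_right]
    exact fun k hk => h1 hk
  have hfix : ∀ k ∈ K, k ∈ K0 ⊔ fixSub φ := by
    intro k hk
    obtain ⟨t, ht, hkt⟩ := CoprimeFixed.exists_fixed_in_coset φ K0 hK0inv inferInstance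
      (hcop.coprime_dvd_left K0.card_subgroup_dvd_card)
      (g := k) fun a => Subgroup.mem_sup_right (Subgroup.subset_closure ⟨a, k, hk, rfl⟩)
    rw [show k = k * t * t⁻¹ by group]
    exact mul_mem (Subgroup.mem_sup_right hkt) (Subgroup.mem_sup_left (inv_mem ht))
  haveI hK0n : K0.Normal := by
    refine Subgroup.normalizer_eq_top_iff.1 (top_unique (hKC ▸ sup_le ?_ ?_))
    · intro x hx
      have hc : ∀ x ∈ K, ∀ y ∈ K0, x * y * x⁻¹ ∈ K0 := fun x hx y hy => by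
        rw [show x * y * x⁻¹ = ⁅x, y⁆ * y by rw [commutatorElement_def]; group]
        exact mul_mem (Subgroup.mem_sup_left (hab x hx y (hK0K hy))) hy
      rw [Subgroup.mem_normalizer_iff]
      refine fun y => ⟨hc x hx y, fun hy => ?_⟩
      simpa [mul_assoc] using hc x⁻¹ (inv_mem hx) _ hy
    · intro c hc
      have hc' : ∀ c ∈ fixSub φ, ∀ y ∈ K0, c * y * c⁻¹ ∈ K0 := fun c hc => by
        have h1 : K0 ≤ K0.comap (MulAut.conj c).toMonoidHom := by
          refine sup_le (fun l hl => Subgroup.mem_sup_left (hLn.conj_mem l hl c))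
            ((Subgroup.closure_le _).2 ?_)
          rintro _ ⟨a, k, hk, rfl⟩
          refine Subgroup.mem_sup_right
            (Subgroup.subset_closure ⟨a, c * k * c⁻¹, hKn.conj_mem k hk c, ?_⟩)
          show (c * k * c⁻¹)⁻¹ * φ a (c * k * c⁻¹) = c * (k⁻¹ * φ a k) * c⁻¹
          rw [map_mul, map_mul, map_inv, hc a]
          group
        exact fun y hy => h1 hy
      rw [Subgroup.mem_normalizer_iff]
      refine fun y => ⟨hc' c hc y, fun hy => ?_⟩
      simpa [mul_assoc] using hc' c⁻¹ (inv_mem hc) _ hy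
  have hgen : ∀ g : G, ∃ k ∈ K0, ∃ c ∈ fixSub φ, g = k * c := by
    intro g
    have hg : g ∈ K0 ⊔ fixSub φ :=
      (hKC ▸ sup_le hfix le_sup_right : (⊤ : Subgroup G) ≤ K0 ⊔ fixSub φ) (Subgroup.mem_top g)
    obtain ⟨k, hk, c, hc, e⟩ := Subgroup.mem_sup_of_normal_left.1 hg
    exact ⟨k, hk, c, hc, e.symm⟩
  have hfpf : ∀ k ∈ K0, (∀ a, k⁻¹ * φ a k ∈ L) → k ∈ L := by
    haveI : Fintype A := Fintype.ofFinite A
    let π := QuotientGroup.mk' L
    let Q := K.map π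
    letI : CommGroup Q :=
      { (inferInstance : Group Q) with
        mul_comm := by
          rintro ⟨_, x, hx, rfl⟩ ⟨_, y, hy, rfl⟩
          refine Subtype.ext ?_
          show π x * π y = π y * π x
          rw [← commutatorElement_eq_one_iff_mul_comm, ← map_commutatorElement]
          exact (QuotientGroup.eq_one_iff _).2 (hab x hx y hy) }
    let f : A → (K →* Q) := fun a => (π.subgroupMap K).comp (subAct φ K hKinv a).toMonoidHom
    let N : K →* Q := ∏ a, f a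
    have hN : ∀ k : K, N k = ∏ a, f a k := fun k => MonoidHom.finsetProd_apply f Finset.univ k
    have hNK0 : K0 ≤ N.ker.map K.subtype := by
      refine sup_le (fun l hl => ⟨⟨l, hLK hl⟩, ?_, rfl⟩) ((Subgroup.closure_le _).2 ?_)
      · refine MonoidHom.mem_ker.2 ((hN _).trans (Finset.prod_eq_one fun a _ => Subtype.ext ?_))
        exact (QuotientGroup.eq_one_iff _).2 (hLinv a l hl)
      · rintro _ ⟨b, k, hk, rfl⟩
        refine ⟨(⟨k, hk⟩ : K)⁻¹ * subAct φ K hKinv b ⟨k, hk⟩, ?_, rfl⟩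
        refine MonoidHom.mem_ker.2 ?_
        rw [map_mul, map_inv, inv_mul_eq_one, hN, hN]
        refine (Fintype.prod_equiv (Equiv.mulRight b) _ _ fun a => Subtype.ext ?_).symm
        show π (φ a (φ b k)) = π (φ (a * b) k)
        rw [map_mul, MulAut.mul_apply]
    intro k hk hkf
    obtain ⟨k', hk', rfl⟩ := hNK0 hk
    let q : Q := π.subgroupMap K k'
    have h1 : q ^ Nat.card A = 1 := by
      rw [← MonoidHom.mem_ker.1 hk', hN, Nat.card_eq_fintype_card, ← Finset.card_univ,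
        ← Finset.prod_const]
      refine Finset.prod_congr rfl fun a _ => Subtype.ext ?_
      show π (k' : G) = π (φ a (k' : G))
      exact QuotientGroup.eq.2 (hkf a)
    have h2 : orderOf q ∣ Nat.card G :=
      (orderOf_dvd_natCard q).trans ((Subgroup.card_subgroup_dvd_card Q).trans
        (L.index_eq_card ▸ L.index_dvd_card))
    have h3 : orderOf q = 1 :=
      Nat.eq_one_of_dvd_one (hcop ▸ Nat.dvd_gcd h2 (orderOf_dvd_of_pow_eq_one h1))
    exact (QuotientGroup.eq_one_iff _).1 (congrArg Subtype.val (orderOf_eq_one_iff.1 h3))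
  exact correspondence_free φ hodd hcop hsolv K0 L H le_sup_left hK0inv hLinv
    (fun x hx y hy => hab x (hK0K hx) y (hK0K hy)) hfpf hgen hH (hH ▸ le_sup_left) hHinv

end Cfsg.Agent.Chars.OddReduction
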