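import Cfsg.Agent.Chars.PSolvableBlocks
import Cfsg.Agent.BlockChar.CharCount
import Cfsg.Agent.Blocks.Covering

/-!
In a `p`-solvable group, a set of irreducible characters whose degree-weighted sum vanishes on the
`p`-singular elements is closed for the inner product over the `p`-regular elements.
-/

set_option autoImplicit false
set_option linter.style.haveILetI false
set_option linter.unusedSectionVars false

open Cfsg Cfsg.Agent
open scoped ComplexConjugate

namespace Cfsg.Agent.Chars.PSolvableClosed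

open PSolvableBlocks

universe u

variable {G : Type u} [Group G] [Fintype G] {p : ℕ} [hp : Fact p.Prime]

noncomputable local instance (priority := high) fintypeSub {A : Type*} [Group A] [Finite A]
    (K : Subgroup A) : Fintype K :=
  Fintype.ofFinite _

noncomputable local instance (priority := high) fintypeQuot {A : Type*} [Group A] [Finite A]
    (K : Subgroup A) : Fintype (A ⧸ K) :=
  Fintype.ofFinite _

/-- The degree-weighted sum over a set of irreducible characters. -/
noncomputable def setSum (U : Set (IrrCharacter G)) (g : G) : ℂ :=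
  ∑ χ : IrrCharacter G, U.indicator (fun χ => (χ : G → ℂ) 1 * (χ : G → ℂ) g) χ

/-- The restriction of a function to the regular elements, extended by zero. -/
noncomputable def regFun (p : ℕ) (φ : G → ℂ) (g : G) : ℂ :=
  if p ∣ orderOf g then 0 else φ g

theorem isClassFunction_regFun {φ : G → ℂ} (hφ : IsClassFunction G φ) :
    IsClassFunction G (regFun p φ) := fun x c => by
  have ho : orderOf (c * x * c⁻¹) = orderOf x :=
    ((SemiconjBy.conj_mk c x).orderOf_eq _).symm
  simp only [regFun, ho, hφ x c]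

theorem regInner_eq_classInner (φ ψ : G → ℂ) :
    Blocks.regInner p φ ψ = classInner φ (regFun p ψ) := by
  classical
  rw [classInner_def, Blocks.regInner]
  congr 1
  rw [← Finset.sum_subset (Finset.subset_univ (Blocks.regs p G)) fun x _ hx => ?_]
  · refine Finset.sum_congr rfl fun x hx => ?_
    rw [regFun, if_neg (Blocks.mem_regs.1 hx)]
  · rw [regFun, if_pos (not_not.1 fun h => hx (Blocks.mem_regs.2 h)), map_zero, mul_zero]

theorem classInner_regFun_left (φ ψ : G → ℂ) :
    classInner (regFun p φ) ψ = Blocks.regInner p φ ψ := by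
  rw [← classInner_conj_symm, ← regInner_eq_classInner, Blocks.regInner_conj]

theorem regInner_sum_left {ι : Type*} (s : Finset ι) (a : ι → ℂ) (f : ι → G → ℂ) (ψ : G → ℂ) :
    Blocks.regInner p (∑ i ∈ s, a i • f i) ψ = ∑ i ∈ s, a i * Blocks.regInner p (f i) ψ := by
  simp only [regInner_eq_classInner, classInner_sum_left, classInner_smul_left]

theorem regInner_sum_right {ι : Type*} (s : Finset ι) (a : ι → ℂ) (f : ι → G → ℂ) (φ : G → ℂ) :
    Blocks.regInner p φ (∑ i ∈ s, a i • f i) =
      ∑ i ∈ s, conj (a i) * Blocks.regInner p φ (f i) := by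
  rw [← Blocks.regInner_conj, regInner_sum_left, map_sum]
  exact Finset.sum_congr rfl fun i _ => by rw [map_mul, Blocks.regInner_conj]

theorem regInner_congr {φ φ' ψ ψ' : G → ℂ} (hφ : ∀ g, ¬ p ∣ orderOf g → φ g = φ' g)
    (hψ : ∀ g, ¬ p ∣ orderOf g → ψ g = ψ' g) :
    Blocks.regInner p φ ψ = Blocks.regInner p φ' ψ' := by
  simp only [Blocks.regInner]
  congr 1
  exact Finset.sum_congr rfl fun g hg => by
    rw [hφ g (Blocks.mem_regs.1 hg), hψ g (Blocks.mem_regs.1 hg)]

/-- A normal `p'`-subgroup does not see singularity. -/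
theorem dvd_orderOf_mul_left {N : Subgroup G} [N.Normal] (hN : ¬ p ∣ Nat.card N) (n : N) (g : G) :
    p ∣ orderOf ((n : G) * g) ↔ p ∣ orderOf g := by
  have key : ∀ x : G, p ∣ orderOf x ↔ p ∣ orderOf (x : G ⧸ N) := fun x => by
    refine ⟨fun h => ?_, fun h => h.trans (orderOf_map_dvd (QuotientGroup.mk' N) x)⟩
    have hmem : x ^ orderOf (x : G ⧸ N) ∈ N := by
      rw [← QuotientGroup.eq_one_iff, QuotientGroup.mk_pow, pow_orderOf_eq_one]
    have h3 : orderOf x ∣ orderOf (x : G ⧸ N) * Nat.card N := by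
      refine orderOf_dvd_of_pow_eq_one ?_
      rw [pow_mul]
      exact congrArg Subtype.val (pow_card_eq_one' (x := (⟨_, hmem⟩ : N)))
    exact (hp.out.dvd_mul.1 (h.trans h3)).resolve_right hN
  rw [key, key g, QuotientGroup.mk_mul, (QuotientGroup.eq_one_iff (n : G)).2 n.2, one_mul]

section Projection

variable (N : Subgroup G) [N.Normal] (θ : N → ℂ)

/-- Averaging against an invariant character of a normal subgroup. -/
theorem sum_conj_theta_mul (hinv : Chars2.inertiaSub θ = ⊤) {η : G → ℂ}
    (hη : IsIrrCharacter G η) (t : G) :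
    ∑ n : N, conj (θ n) * η ((n : G) * t) =
      (Nat.card N : ℂ) * classInner (fun n : N => η n) θ * η t / η 1 := by
  have hθ : ∀ (a : G) (n : N), θ (MulAut.conjNormal a n) = θ n := fun a n => by
    have ha : a⁻¹ ∈ Chars2.inertiaSub θ := hinv ▸ Subgroup.mem_top _
    have := congrFun ((Chars2.mem_inertiaSub (g := a⁻¹)).1 ha) n
    rw [Chars2.conjFun_apply] at this
    refine Eq.trans (congrArg θ ?_) this
    exact Subtype.ext (by simp)
  have h1 : ∀ a : G, ∑ n : N, conj (θ n) * η (a * (n : G) * a⁻¹ * t) =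
      ∑ n : N, conj (θ n) * η ((n : G) * t) := fun a => by
    refine Fintype.sum_equiv (MulAut.conjNormal a).toEquiv _ _ fun n => ?_
    show _ = conj (θ (MulAut.conjNormal a n)) * η ((MulAut.conjNormal a n : G) * t)
    rw [hθ, MulAut.conjNormal_apply]
  have h2 : (Nat.card G : ℂ) * ∑ n : N, conj (θ n) * η ((n : G) * t) =
      (Nat.card G : ℂ) * ((Nat.card N : ℂ) * classInner (fun n : N => η n) θ * η t / η 1) := by
    calc (Nat.card G : ℂ) * ∑ n : N, conj (θ n) * η ((n : G) * t)
        = ∑ a : G, ∑ n : N, conj (θ n) * η (a * (n : G) * a⁻¹ * t) := by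
          rw [Finset.sum_congr rfl fun a _ => h1 a, Finset.sum_const, Finset.card_univ,
            nsmul_eq_mul, Nat.card_eq_fintype_card]
      _ = ∑ n : N, conj (θ n) * ((Nat.card G : ℂ) * η n * η t / η 1) := by
          rw [Finset.sum_comm]
          exact Finset.sum_congr rfl fun n _ => by rw [← Finset.mul_sum, BlockChar.sum_conj_mul hη]
      _ = _ := by
          rw [classInner_def, ← mul_assoc (Nat.card N : ℂ), mul_inv_cancel₀
            (subgroup_card_ne_zero N), one_mul, mul_div_assoc, Finset.sum_mul, Finset.mul_sum]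
          exact Finset.sum_congr rfl fun n _ => by ring
  exact mul_left_cancel₀ (Nat.cast_ne_zero.2 Nat.card_pos.ne') h2

/-- The projection to the characters over an invariant character. -/
theorem sum_conj_theta_eq (hθ : IsIrrCharacter N θ) (hinv : Chars2.inertiaSub θ = ⊤)
    {η : G → ℂ} (hη : IsIrrCharacter G η) (h : classInner (fun n : N => η n) θ ≠ 0) (t : G) :
    ∑ n : N, conj (θ n) * η ((n : G) * t) = (Nat.card N : ℂ) / θ 1 * η t := by
  have h1 : η 1 = classInner (fun n : N => η n) θ * θ 1 :=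
    Chars2.clifford_invariant hη hθ hinv h 1
  have h2 := irr_apply_one_ne_zero hθ
  rw [sum_conj_theta_mul N θ hinv hη, h1]
  field_simp

/-- Orthogonality over the regular elements of characters over an invariant character and
characters not over it. -/
theorem regInner_eq_zero_of_not_over (hN : ¬ p ∣ Nat.card N) (hθ : IsIrrCharacter N θ)
    (hinv : Chars2.inertiaSub θ = ⊤) {φ η : G → ℂ} (hφ : IsIrrCharacter G φ)
    (hη : IsIrrCharacter G η) (hφθ : classInner (fun n : N => φ n) θ ≠ 0)
    (hηθ : classInner (fun n : N => η n) θ = 0) :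
    Blocks.regInner p φ η = 0 := by
  classical
  have hc : (Nat.card N : ℂ) / θ 1 ≠ 0 :=
    div_ne_zero (subgroup_card_ne_zero N) (irr_apply_one_ne_zero hθ)
  rw [regInner_eq_classInner, classInner_def]
  refine mul_eq_zero_of_right _ (mul_left_cancel₀ hc ?_)
  rw [mul_zero, Finset.mul_sum]
  calc ∑ t : G, (Nat.card N : ℂ) / θ 1 * (φ t * conj (regFun p η t))
      = ∑ t : G, ∑ n : N, conj (θ n) * φ ((n : G) * t) * conj (regFun p η t) := by
        refine Finset.sum_congr rfl fun t _ => ?_
        rw [← Finset.sum_mul, sum_conj_theta_eq N θ hθ hinv hφ hφθ, mul_assoc]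
    _ = ∑ t : G, φ t * conj (∑ n : N, θ n * regFun p η (((n : G))⁻¹ * t)) := by
        rw [Finset.sum_comm]
        simp only [map_sum, map_mul, Finset.mul_sum]
        rw [Finset.sum_comm (t := Finset.univ (α := N))]
        refine Finset.sum_congr rfl fun n _ => ?_
        refine Fintype.sum_equiv (Equiv.mulLeft (n : G)) _ _ fun t => ?_
        show _ = φ ((n : G) * t) * _
        rw [Equiv.coe_mulLeft, inv_mul_cancel_left]
        ring
    _ = 0 := by
        refine Finset.sum_eq_zero fun t _ => ?_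
        have h0 : ∑ n : N, θ n * regFun p η (((n : G))⁻¹ * t) = 0 := by
          by_cases ht : p ∣ orderOf t
          · refine Finset.sum_eq_zero fun n _ => ?_
            rw [regFun, if_pos, mul_zero]
            exact (dvd_orderOf_mul_left hN n⁻¹ t).2 ht
          · have he : ∀ n : N, regFun p η (((n : G))⁻¹ * t) = η (((n : G))⁻¹ * t) := fun n => by
              rw [regFun, if_neg]
              exact fun h => ht ((dvd_orderOf_mul_left hN n⁻¹ t).1 h)
            simp only [he]
            have h3 : ∀ n : N, θ n = conj (θ n⁻¹) := fun n => by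
              rw [← char_inv_eq_conj (isCharacter_of_isIrr hθ), inv_inv]
            calc ∑ n : N, θ n * η (((n : G))⁻¹ * t)
                = ∑ n : N, conj (θ n) * η ((n : G) * t) := by
                  refine Fintype.sum_equiv (Equiv.inv N) _ _ fun n => ?_
                  show _ = conj (θ n⁻¹) * η (((n⁻¹ : N) : G) * t)
                  rw [← h3, Subgroup.coe_inv]
              _ = 0 := by rw [sum_conj_theta_mul N θ hinv hη, hηθ, mul_zero, zero_mul, zero_div]
        rw [h0, map_zero, mul_zero]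

/-- The part over an invariant character of a vanishing sum vanishes. -/
theorem setSum_over_eq_zero (hN : ¬ p ∣ Nat.card N) (hθ : IsIrrCharacter N θ)
    (hinv : Chars2.inertiaSub θ = ⊤) (a : IrrCharacter G → ℂ) {t : G}
    (hv : ∀ n : N, ∑ η : IrrCharacter G, a η * (η : G → ℂ) ((n : G) * t) = 0) :
    ∑ η : IrrCharacter G, {η : IrrCharacter G |
        classInner (fun n : N => (η : G → ℂ) n) θ ≠ 0}.indicator
      (fun η => a η * (η : G → ℂ) t) η = 0 := by
  classical
  have hc : (Nat.card N : ℂ) / θ 1 ≠ 0 :=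
    div_ne_zero (subgroup_card_ne_zero N) (irr_apply_one_ne_zero hθ)
  refine mul_left_cancel₀ hc ?_
  rw [mul_zero, Finset.mul_sum]
  calc _ = ∑ η : IrrCharacter G, a η * ∑ n : N, conj (θ n) * (η : G → ℂ) ((n : G) * t) := by
        refine Finset.sum_congr rfl fun η _ => ?_
        rw [Set.indicator_apply]
        split_ifs with h
        · rw [sum_conj_theta_eq N θ hθ hinv η.2 h]; ring
        · rw [Set.mem_setOf_eq, not_not] at h
          rw [mul_zero, sum_conj_theta_mul N θ hinv η.2, h, mul_zero, zero_mul, zero_div,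
            mul_zero]
    _ = ∑ n : N, conj (θ n) * ∑ η : IrrCharacter G, a η * (η : G → ℂ) ((n : G) * t) := by
        simp only [Finset.mul_sum]
        rw [Finset.sum_comm]
        exact Finset.sum_congr rfl fun n _ => Finset.sum_congr rfl fun η _ => by ring
    _ = 0 := Finset.sum_eq_zero fun n _ => by rw [hv, mul_zero]

end Projection

/-- Summing over the source of a surjective homomorphism. -/
theorem card_mul_sum_comp {H : Type*} [Group H] [Fintype H] (q : H →* G)
    (hq : Function.Surjective q) (φ : G → ℂ) :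
    (Nat.card G : ℂ) * ∑ x : H, φ (q x) = (Nat.card H : ℂ) * ∑ g : G, φ g := by
  have h1 : ∑ g : G, ∑ x : H, φ (q x * g) = (Nat.card G : ℂ) * ∑ x : H, φ (q x) := by
    rw [Finset.sum_congr rfl (g := fun _ : G => ∑ x : H, φ (q x)) fun g _ => ?_, Finset.sum_const,
      Finset.card_univ, nsmul_eq_mul, Nat.card_eq_fintype_card]
    obtain ⟨a, rfl⟩ := hq g
    refine Fintype.sum_equiv (Equiv.mulRight a) _ _ fun x => ?_
    rw [← map_mul]; rfl
  have h2 : ∀ x : H, ∑ g : G, φ (q x * g) = ∑ g : G, φ g := fun x =>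
    Fintype.sum_equiv (Equiv.mulLeft (q x)) _ _ fun g => rfl
  rw [← h1, Finset.sum_comm, Finset.sum_congr rfl fun x _ => h2 x, Finset.sum_const,
    Finset.card_univ, nsmul_eq_mul, ← Nat.card_eq_fintype_card]

/-- The step to the quotient by a normal `p`-subgroup. -/
theorem regInner_eq_zero_of_quotient {R : Subgroup G} [R.Normal]
    (hdefl : ∀ φ : IrrCharacter G, ∃ β : G ⧸ R → ℂ, IsCharacter (G ⧸ R) β ∧
      ∀ g : G, ¬ p ∣ orderOf g → (φ : G → ℂ) g = β g)
    (hquot : ∀ U' : Set (IrrCharacter (G ⧸ R)), (∀ g, p ∣ orderOf g → setSum U' g = 0) →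
      ∀ χ ∈ U', ∀ ψ ∉ U', Blocks.regInner p (χ : G ⧸ R → ℂ) (ψ : G ⧸ R → ℂ) = 0)
    (U : Set (IrrCharacter G)) (hU : ∀ g, p ∣ orderOf g → setSum U g = 0)
    (χ : IrrCharacter G) (hχ : χ ∈ U) (ψ : IrrCharacter G) (hψ : ψ ∉ U) :
    Blocks.regInner p (χ : G → ℂ) (ψ : G → ℂ) = 0 := by
  classical
  let infl : IrrCharacter (G ⧸ R) → IrrCharacter G := fun ζ =>
    ⟨(ζ : G ⧸ R → ℂ) ∘ QuotientGroup.mk' R,
      isIrrCharacter_comp_surjective ζ.2 _ (QuotientGroup.mk'_surjective R)⟩
  have hinfl : Function.Injective infl := fun a b h => by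
    refine Subtype.ext (funext fun y => ?_)
    obtain ⟨g, rfl⟩ := QuotientGroup.mk_surjective y
    exact congrFun (congrArg Subtype.val h) g
  set U' : Set (IrrCharacter (G ⧸ R)) := {ζ | infl ζ ∈ U} with hU'
  -- the vanishing descends
  have hv' : ∀ y : G ⧸ R, p ∣ orderOf y → setSum U' y = 0 := by
    intro y hy
    obtain ⟨g, rfl⟩ := QuotientGroup.mk_surjective y
    have hR0 : (Nat.card R : ℂ) ≠ 0 := subgroup_card_ne_zero R
    refine mul_left_cancel₀ hR0 ?_
    rw [mul_zero]
    have h0 : ∑ x : R, setSum U ((x : G) * g) = 0 := Finset.sum_eq_zero fun x _ => hU _ (by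
      refine hy.trans ?_
      have := orderOf_map_dvd (QuotientGroup.mk' R) ((x : G) * g)
      rwa [map_mul, QuotientGroup.mk'_apply, (QuotientGroup.eq_one_iff (x : G)).2 x.2, one_mul]
        at this)
    rw [← h0]
    unfold setSum
    rw [Finset.sum_comm, Finset.mul_sum]
    refine Finset.sum_bij_ne_zero (fun ζ _ _ => infl ζ) (fun _ _ _ => Finset.mem_univ _)
      (fun a _ _ b _ _ h => hinfl h) (fun φ _ hφ => ?_) fun ζ _ _ => ?_
    · rcases Chars2.sum_mul_normal R φ with htriv | hzero
      · have hR : ∀ x ∈ R, ∀ y : G, (φ : G → ℂ) (x * y) = (φ : G → ℂ) y := fun x hx y => by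
          refine mul_left_cancel₀ hR0 ?_
          rw [← htriv, ← htriv y]
          refine Fintype.sum_equiv (Equiv.mulRight ⟨x, hx⟩) _ _ fun z => ?_
          show _ = (φ : G → ℂ) (((z * ⟨x, hx⟩ : R) : G) * y)
          rw [Subgroup.coe_mul, mul_assoc]
        obtain ⟨β, hβ, hβe⟩ := exists_descend_char (irr_isCharacter φ) (R := R) fun x hx => by
          have := hR x hx 1
          rwa [mul_one] at this
        have hβirr : IsIrrCharacter (G ⧸ R) β := by
          refine isIrrCharacter_of_norm_one hβ ?_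
          rw [classInner_def]
          have h2 := card_mul_sum_comp (QuotientGroup.mk' R) (QuotientGroup.mk'_surjective R)
            fun y => β y * conj (β y)
          have h3 : classInner (φ : G → ℂ) (φ : G → ℂ) = 1 := classInner_self_irr φ.2
          rw [classInner_def] at h3
          have h4 : ∑ x : G, β (QuotientGroup.mk' R x) * conj (β (QuotientGroup.mk' R x)) =
              (Nat.card G : ℂ) := by
            have hG : (Nat.card G : ℂ) ≠ 0 := Nat.cast_ne_zero.2 Nat.card_pos.ne'
            rw [inv_mul_eq_iff_eq_mul₀ hG, mul_one] at h3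
            rw [← h3]
            exact Finset.sum_congr rfl fun x _ => by rw [QuotientGroup.mk'_apply, hβe]
          rw [h4] at h2
          rw [inv_mul_eq_iff_eq_mul₀ (Nat.cast_ne_zero.2 Nat.card_pos.ne'), mul_one]
          exact mul_left_cancel₀ (Nat.cast_ne_zero.2 Nat.card_pos.ne') (by rw [← h2]; ring)
        have hφe : infl ⟨β, hβirr⟩ = φ := Subtype.ext (funext hβe)
        have hφU : φ ∈ U := by
          by_contra h
          refine hφ (Finset.sum_eq_zero fun x _ => ?_)
          rw [Set.indicator_of_notMem h]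
        refine ⟨⟨β, hβirr⟩, Finset.mem_univ _, ?_, hφe⟩
        intro h
        apply hφ
        rw [← hφe] at hφU
        have hmem : (⟨β, hβirr⟩ : IrrCharacter (G ⧸ R)) ∈ U' := hφU
        rw [Set.indicator_of_mem hmem] at h
        rw [hφe] at hφU
        simp only [Set.indicator_of_mem hφU]
        rw [← Finset.mul_sum, htriv, ← hβe, ← hβe]
        have h' : (Nat.card R : ℂ) * (β 1 * β (g : G ⧸ R)) = 0 := h
        rw [show ((1 : G) : G ⧸ R) = 1 from rfl]
        linear_combination h'
      · refine absurd (Finset.sum_eq_zero fun x _ => ?_) hφ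
        by_cases h : φ ∈ U
        · exfalso
          refine hφ ?_
          simp only [Set.indicator_of_mem h]
          rw [← Finset.mul_sum, hzero, mul_zero]
        · rw [Set.indicator_of_notMem h]
    · by_cases h : infl ζ ∈ U
      · have h' : ζ ∈ U' := h
        simp only [Set.indicator_of_mem h, Set.indicator_of_mem h']
        rw [Finset.sum_congr rfl (g := fun _ : R => (ζ : G ⧸ R → ℂ) 1 * (ζ : G ⧸ R → ℂ) g)
          fun x _ => ?_, Finset.sum_const, Finset.card_univ, nsmul_eq_mul,
          Nat.card_eq_fintype_card]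
        show (ζ : G ⧸ R → ℂ) _ * (ζ : G ⧸ R → ℂ) (((x : G) * g : G) : G ⧸ R) = _
        rw [QuotientGroup.mk_mul, (QuotientGroup.eq_one_iff (x : G)).2 x.2, one_mul]
        rfl
      · have h' : ζ ∉ U' := h
        rw [Set.indicator_of_notMem h', mul_zero]
        exact (Finset.sum_eq_zero fun x _ => Set.indicator_of_notMem h _).symm
  have hIH := hquot U' hv'
  -- deflations
  choose β hβ hβe using hdefl
  choose m hm hmsum using fun φ => exists_eq_sum_nsmul (hβ φ)
  have hmU : ∀ φ ζ, m φ ζ ≠ 0 → (ζ ∈ U' ↔ φ ∈ U) := by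
    intro φ
    have hf : ∀ ψ' : G → ℂ, classInner (setSum U) ψ' =
        ∑ χ : IrrCharacter G, U.indicator (fun χ => (χ : G → ℂ) 1 * classInner (χ : G → ℂ) ψ') χ :=
      fun ψ' => by
        have : setSum U = ∑ χ : IrrCharacter G,
            U.indicator (fun χ => (χ : G → ℂ) 1) χ • (χ : G → ℂ) := by
          funext g
          rw [Finset.sum_apply, setSum]
          refine Finset.sum_congr rfl fun χ _ => ?_
          rw [Pi.smul_apply, smul_eq_mul]
          by_cases h : χ ∈ U <;> simp [h]
        rw [this, classInner_sum_left]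
        refine Finset.sum_congr rfl fun χ _ => ?_
        rw [classInner_smul_left]
        by_cases h : χ ∈ U <;> simp [h]
    have hfφ : ∀ φ' : IrrCharacter G, classInner (setSum U) (φ' : G → ℂ) =
        U.indicator (fun χ => (χ : G → ℂ) 1) φ' := fun φ' => by
      rw [hf, Finset.sum_eq_single φ' (fun b _ hb => ?_) (by simp)]
      · by_cases h : φ' ∈ U <;> simp [h, classInner_self_irr φ'.2]
      · by_cases h : b ∈ U <;>
          simp [h, classInner_irr_of_ne b.2 φ'.2 fun e => hb (Subtype.ext e)]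
    have h2 : classInner (setSum U) (fun g : G => β φ g) = classInner (setSum U) (φ : G → ℂ) := by
      simp only [classInner_def]
      congr 1
      refine Finset.sum_congr rfl fun g _ => ?_
      by_cases hg : p ∣ orderOf g
      · rw [hU g hg, zero_mul, zero_mul]
      · rw [hβe φ g hg]
    have h3 : (fun g : G => β φ g) = ∑ ζ : IrrCharacter (G ⧸ R), (m φ ζ : ℂ) • (infl ζ : G → ℂ) := by
      funext g
      rw [congrFun (hmsum φ) (g : G ⧸ R), Finset.sum_apply, Finset.sum_apply]
      exact Finset.sum_congr rfl fun ζ _ => by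
        rw [Pi.smul_apply, Pi.smul_apply, nsmul_eq_mul]; rfl
    choose d hd0 hd using fun ζ : IrrCharacter (G ⧸ R) => exists_irr_apply_one_eq ζ.2
    have hφ1 : (φ : G → ℂ) 1 = ((∑ ζ, m φ ζ * d ζ : ℕ) : ℂ) := by
      rw [hβe φ 1 (by rw [orderOf_one]; exact hp.out.not_dvd_one)]
      show β φ (((1 : G) : G ⧸ R)) = _
      rw [QuotientGroup.mk_one, congrFun (hmsum φ) 1, Finset.sum_apply, Nat.cast_sum]
      exact Finset.sum_congr rfl fun ζ _ => by
        rw [Pi.smul_apply, nsmul_eq_mul, hd, Nat.cast_mul]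
    have h4 : classInner (setSum U) (fun g : G => β φ g) =
        ((∑ ζ ∈ Finset.univ.filter (· ∈ U'), m φ ζ * d ζ : ℕ) : ℂ) := by
      rw [h3, ← classInner_conj_symm, classInner_sum_left, map_sum, Nat.cast_sum,
        Finset.sum_filter]
      refine Finset.sum_congr rfl fun ζ _ => ?_
      rw [classInner_smul_left, map_mul, classInner_conj_symm, hfφ, map_natCast]
      by_cases h : ζ ∈ U'
      · rw [if_pos h, Set.indicator_of_mem (show infl ζ ∈ U from h), Nat.cast_mul, ← hd]
        rfl
      · rw [if_neg h, Set.indicator_of_notMem (show infl ζ ∉ U from h), mul_zero]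
    intro ζ hζ
    rw [h2, hfφ] at h4
    by_cases hφ : φ ∈ U
    · refine ⟨fun _ => hφ, fun _ => by_contra fun hζU => ?_⟩
      rw [Set.indicator_of_mem hφ, hφ1, Nat.cast_inj,
        ← Finset.sum_filter_add_sum_filter_not Finset.univ (· ∈ U')] at h4
      have h5 : ∑ ζ ∈ Finset.univ.filter (fun ζ => ¬ ζ ∈ U'), m φ ζ * d ζ = 0 := by omega
      exact hζ ((Nat.mul_eq_zero.1 (Finset.sum_eq_zero_iff.1 h5 ζ
        (Finset.mem_filter.2 ⟨Finset.mem_univ _, hζU⟩))).resolve_right (hd0 ζ).ne')
    · refine ⟨fun hζU => ?_, fun h => absurd h hφ⟩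
      rw [Set.indicator_of_notMem hφ, ← Nat.cast_zero, Nat.cast_inj] at h4
      exact absurd ((Nat.mul_eq_zero.1 (Finset.sum_eq_zero_iff.1 h4.symm ζ
        (Finset.mem_filter.2 ⟨Finset.mem_univ _, hζU⟩))).resolve_right (hd0 ζ).ne') hζ
  have hββ : ∀ φ ∈ U, ∀ φ' ∉ U, Blocks.regInner p (β φ) (β φ') = 0 := by
    intro φ hφ φ' hφ'
    have hβsum : ∀ φ, β φ = ∑ ζ : IrrCharacter (G ⧸ R), (m φ ζ : ℂ) • (ζ : G ⧸ R → ℂ) := fun φ => by
      rw [hmsum φ]
      exact Finset.sum_congr rfl fun ζ _ => by funext y; simp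
    rw [hβsum φ, hβsum φ', regInner_sum_left]
    refine Finset.sum_eq_zero fun ζ _ => ?_
    by_cases hζ : m φ ζ = 0
    · rw [hζ, Nat.cast_zero, zero_mul]
    rw [regInner_sum_right]
    refine mul_eq_zero_of_right _ (Finset.sum_eq_zero fun ζ' _ => ?_)
    by_cases hζ' : m φ' ζ' = 0
    · rw [hζ', Nat.cast_zero, map_zero, zero_mul]
    rw [hIH ζ ((hmU φ ζ hζ).2 hφ) ζ' fun h => hφ' ((hmU φ' ζ' hζ').1 h), mul_zero]
  -- coefficients
  set c : IrrCharacter G → ℂ := fun φ => Blocks.regInner p (χ : G → ℂ) (φ : G → ℂ) with hc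
  have hexp : regFun p (χ : G → ℂ) = ∑ φ : IrrCharacter G, c φ • (φ : G → ℂ) := by
    rw [eq_sum_classInner (isClassFunction_regFun (isClassFunction_irr χ))]
    simp only [classInner_regFun_left, hc]
  let a : IrrCharacter G → ℂ := fun φ => if φ ∈ U then (if φ = χ then 1 else 0) - c φ else 0
  let b : IrrCharacter G → ℂ := fun φ => if φ ∈ U then 0 else c φ
  have hz : ∀ g : G, ¬ p ∣ orderOf g →
      (∑ φ, a φ • β φ) (g : G ⧸ R) = (∑ φ, b φ • β φ) (g : G ⧸ R) := by
    intro g hg
    have h1 : (χ : G → ℂ) g = ∑ φ : IrrCharacter G, c φ * (φ : G → ℂ) g := by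
      have := congrFun hexp g
      rw [regFun, if_neg hg, Finset.sum_apply] at this
      simpa only [Pi.smul_apply, smul_eq_mul] using this
    have h2 : ∑ φ : IrrCharacter G, (a φ - b φ) * (φ : G → ℂ) g = 0 := by
      have hab : ∀ φ, a φ - b φ = (if φ = χ then 1 else 0) - c φ := fun φ => by
        by_cases h : φ ∈ U
        · simp [a, b, h]
        · simp [a, b, h, show φ ≠ χ from fun e => h (e ▸ hχ)]
      simp only [hab, sub_mul, Finset.sum_sub_distrib, ite_mul, one_mul, zero_mul,
        Finset.sum_ite_eq', Finset.mem_univ, if_true]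
      rw [← h1, sub_self]
    simp only [sub_mul, Finset.sum_sub_distrib, hβe _ g hg] at h2
    simpa only [Finset.sum_apply, Pi.smul_apply, smul_eq_mul] using sub_eq_zero.1 h2
  have hreg : ∀ y : G ⧸ R, ¬ p ∣ orderOf y → ∃ g : G, ¬ p ∣ orderOf g ∧ (g : G ⧸ R) = y := by
    intro y hy
    obtain ⟨g, rfl⟩ := QuotientGroup.mk_surjective y
    obtain ⟨g', hg', h⟩ := exists_regular_part (p := p) g
    exact ⟨g', hg', h (QuotientGroup.mk' R) hy⟩
  have hz0 : ∀ y : G ⧸ R, ¬ p ∣ orderOf y → (∑ φ, b φ • β φ) y = 0 := by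
    have h0 : Blocks.regInner p (∑ φ, b φ • β φ) (∑ φ, b φ • β φ) = 0 := by
      rw [regInner_congr (p := p) (φ' := ∑ φ, a φ • β φ) (ψ' := ∑ φ, b φ • β φ)
        (fun y hy => by obtain ⟨g, hg, rfl⟩ := hreg y hy; exact (hz g hg).symm) fun _ _ => rfl,
        regInner_sum_left]
      refine Finset.sum_eq_zero fun φ _ => ?_
      rw [regInner_sum_right]
      by_cases hφ : φ ∈ U
      · refine mul_eq_zero_of_right _ (Finset.sum_eq_zero fun φ' _ => ?_)
        by_cases hφ' : φ' ∈ U
        · simp [b, hφ']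
        · rw [hββ φ hφ φ' hφ', mul_zero]
      · simp [a, hφ]
    intro y hy
    rw [Blocks.regInner, mul_eq_zero] at h0
    have h1 : ∑ z ∈ Blocks.regs p (G ⧸ R), Complex.normSq ((∑ φ, b φ • β φ) z) = 0 := by
      have := h0.resolve_left (inv_ne_zero (Nat.cast_ne_zero.2 Nat.card_pos.ne'))
      simp only [Complex.mul_conj, ← Complex.ofReal_sum] at this
      exact_mod_cast this
    exact Complex.normSq_eq_zero.1 ((Finset.sum_eq_zero_iff_of_nonneg
      fun _ _ => Complex.normSq_nonneg _).1 h1 y (Blocks.mem_regs.2 hy))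
  have hfin : ∑ φ : IrrCharacter G, Complex.normSq (b φ) = 0 := by
    have h1 : Blocks.regInner p (χ : G → ℂ) (∑ φ : IrrCharacter G, b φ • (φ : G → ℂ)) = 0 := by
      rw [regInner_congr (p := p) (φ' := (χ : G → ℂ)) (ψ' := (0 : G → ℂ)) (fun _ _ => rfl)
        fun g hg => ?_]
      · simp [Blocks.regInner]
      · rw [Pi.zero_apply, ← hz0 (g : G ⧸ R)
          (fun h => hg (h.trans (orderOf_map_dvd (QuotientGroup.mk' R) g)))]
        simp only [Finset.sum_apply, Pi.smul_apply, smul_eq_mul, hβe _ g hg]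
    rw [regInner_sum_right] at h1
    have h2 : ((∑ φ : IrrCharacter G, Complex.normSq (b φ) : ℝ) : ℂ) = 0 := by
      rw [Complex.ofReal_sum, ← h1]
      refine Finset.sum_congr rfl fun φ _ => ?_
      rw [← Complex.mul_conj, mul_comm]
      by_cases h : φ ∈ U <;> simp [b, h, hc]
    exact_mod_cast h2
  have := (Finset.sum_eq_zero_iff_of_nonneg fun _ _ => Complex.normSq_nonneg _).1 hfin ψ
    (Finset.mem_univ _)
  simpa [b, hψ, hc] using Complex.normSq_eq_zero.1 this

/-- A set of irreducible characters of a `p`-solvable group whose degree-weighted sum vanishes on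
the singular elements is closed for the inner product over the regular elements. -/
theorem regInner_eq_zero_of_vanishing {M : Ideal AlgInt} [M.IsMaximal] (hpM : (p : AlgInt) ∈ M) :
    ∀ (m : ℕ) (G : Type u) [Group G] [Fintype G], mu p G = m → IsPSolvable p G →
      ∀ U : Set (IrrCharacter G), (∀ g, p ∣ orderOf g → setSum U g = 0) →
        ∀ χ ∈ U, ∀ ψ ∉ U, Blocks.regInner p (χ : G → ℂ) (ψ : G → ℂ) = 0 := by
  intro m
  induction m using Nat.strong_induction_on with
  | _ m ih =>
  intro G _ _ hm hsolv U hU χ hχ ψ hψ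
  classical
  set R := pCore p G with hR
  set N := pPrimeCore p G with hN
  have hpN : ¬ p ∣ Nat.card N := Core.not_dvd_card_pPrimeCore p G
  by_cases hcen : N ≤ Subgroup.center G
  · by_cases hR1 : R = ⊥
    · -- all elements are regular
      have hall : ∀ g : G, g ∈ N := fun g => by
        rw [hN, Core.pPrimeCore_eq_piCore] at hcen ⊢
        refine Core.centralizer_piCore_le
          (Core.isPiSeparable_compl (Core.isPiSeparable_of_isPSolvable hsolv)) ?_ ?_
        · rw [compl_compl, ← Core.pCore_eq_piCore]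
          exact hR1
        · rw [Subgroup.mem_centralizer_iff]
          exact fun z hz => (Subgroup.mem_center_iff.1 (hcen hz) g).symm
      rw [regInner_congr (p := p) (φ' := (χ : G → ℂ)) (ψ' := (ψ : G → ℂ)) (fun _ _ => rfl)
        fun _ _ => rfl, regInner_eq_classInner,
        show regFun p (ψ : G → ℂ) = ψ from funext fun g => if_neg fun h =>
          hpN (h.trans (Subgroup.orderOf_dvd_natCard N (hall g))),
        classInner_irr_of_ne χ.2 ψ.2 fun h => hψ (Subtype.ext h ▸ hχ)]
    · exact regInner_eq_zero_of_quotient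
        (fun φ => exists_deflation _ G rfl hsolv φ)
        (fun U' hU' => ih _ (hm ▸ mu_lt_of_quotient (Core.isPGroup_pCore p G) hR1) (G ⧸ R) rfl
          (Core.isPSolvable_quotient hsolv R) U' hU')
        U hU χ hχ ψ hψ
  obtain ⟨θ, hθ⟩ := PrimePower.exists_constituent (irr_isCharacter χ) (irr_apply_one_ne_zero χ.2) N
  by_cases hψθ : classInner (fun n : N => (ψ : G → ℂ) n) (θ : N → ℂ) = 0
  · exact Blocks.regInner_eq_zero hpM fun h =>
      Blocks.constituent_of_sameBlock hpM hpN h hθ hψθ
  set T := Chars2.inertiaSub (θ : N → ℂ) with hT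
  have hNT : N ≤ T := Chars2.le_inertiaSub (isClassFunction_irr θ)
  by_cases hTtop : T = ⊤
  swap
  · obtain ⟨χ0, hχ0, hindχ, hcχ⟩ := Chars2.exists_correspondent hNT θ.2 hT χ.2 hθ
    obtain ⟨ψ0, hψ0, hindψ, hcψ⟩ := Chars2.exists_correspondent hNT θ.2 hT ψ.2 hψθ
    -- `θ` as a character of `N` inside `T`
    let e : N.subgroupOf T ≃* N := Subgroup.subgroupOfEquivOfLe hNT
    let θ' : N.subgroupOf T → ℂ := (θ : N → ℂ) ∘ e
    have hθ' : IsIrrCharacter (N.subgroupOf T) θ' := isIrrCharacter_comp_equiv θ.2 e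
    have hinv' : Chars2.inertiaSub θ' = ⊤ := Chars2.inertiaSub_eq_top fun g n => by
      have hg : ((g : G))⁻¹ ∈ Chars2.inertiaSub (θ : N → ℂ) := hT ▸ T.inv_mem g.2
      have := congrFun (Chars2.mem_inertiaSub.1 hg) (e n)
      rw [Chars2.conjFun_apply] at this
      refine Eq.trans (congrArg (θ : N → ℂ) (Subtype.ext ?_)) this
      simp [e]
    have hpN' : ¬ p ∣ Nat.card (N.subgroupOf T) := by rwa [Core.card_subgroupOf hNT]
    have hover : ∀ φ : T → ℂ, classInner (fun n : N.subgroupOf T => φ n) θ' =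
        classInner (Chars2.resSub N T hNT φ) (θ : N → ℂ) := fun φ => by
      rw [classInner_def, classInner_def, Core.card_subgroupOf hNT]
      congr 1
      exact Fintype.sum_equiv e.toEquiv _ _ fun n => rfl
    let UT : Set (IrrCharacter T) := {η | classInner (fun n : N.subgroupOf T => (η : T → ℂ) n) θ' ≠ 0
      ∧ ∃ φ ∈ U, indFun T (η : T → ℂ) = (φ : G → ℂ)}
    have hres : ∀ (φ : IrrCharacter G) (t : T), (φ : G → ℂ) t = ∑ η : IrrCharacter T,
        classInner (fun s : T => (φ : G → ℂ) s) (η : T → ℂ) * (η : T → ℂ) t := fun φ t => by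
      have := congrFun (eq_sum_classInner
        (isClassFunction_of_isCharacter (isCharacter_restrict (irr_isCharacter φ) T))) t
      simpa only [Finset.sum_apply, Pi.smul_apply, smul_eq_mul] using this
    have hvT : ∀ t : T, p ∣ orderOf t → setSum UT t = 0 := by
      intro t ht
      let a : IrrCharacter T → ℂ := fun η => ∑ φ : IrrCharacter G,
        U.indicator (fun φ => (φ : G → ℂ) 1 * classInner (fun s : T => (φ : G → ℂ) s) (η : T → ℂ)) φ
      have hv : ∀ n : N.subgroupOf T,
          ∑ η : IrrCharacter T, a η * (η : T → ℂ) ((n : T) * t) = 0 := fun n => by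
        have hs := (dvd_orderOf_mul_left hpN' n t).2 ht
        rw [← Subgroup.orderOf_coe] at hs
        rw [← hU _ hs]
        simp only [a, setSum, Finset.sum_mul]
        rw [Finset.sum_comm]
        refine Finset.sum_congr rfl fun φ _ => ?_
        by_cases h : φ ∈ U
        · simp only [Set.indicator_of_mem h]
          rw [hres φ, Finset.mul_sum]
          exact Finset.sum_congr rfl fun η _ => by ring
        · simp [h]
      have h0 := setSum_over_eq_zero (N.subgroupOf T) θ' hpN' hθ' hinv' a hv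
      have hidx : (T.index : ℂ) ≠ 0 := Nat.cast_ne_zero.2 Subgroup.index_ne_zero_of_finite
      refine mul_left_cancel₀ hidx ?_
      rw [mul_zero, setSum, Finset.mul_sum, ← h0]
      refine Finset.sum_congr rfl fun η _ => ?_
      by_cases hη : classInner (fun n : N.subgroupOf T => (η : T → ℂ) n) θ' ≠ 0
      swap
      · rw [Set.indicator_of_notMem (fun h => hη h.1),
          Set.indicator_of_notMem (show η ∉ {η : IrrCharacter T |
            classInner (fun n : N.subgroupOf T => (η : T → ℂ) n) θ' ≠ 0} from hη), mul_zero]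
      rw [Set.indicator_of_mem (show η ∈ {η : IrrCharacter T |
            classInner (fun n : N.subgroupOf T => (η : T → ℂ) n) θ' ≠ 0} from hη)]
      have hirr := Chars2.isIrr_indFun_of_inertia hNT θ.2 hT η.2 (by rw [← hover]; exact hη)
      let φη : IrrCharacter G := ⟨_, hirr⟩
      have ha : a η = U.indicator (fun _ => (T.index : ℂ) * (η : T → ℂ) 1) φη := by
        simp only [a]
        rw [Finset.sum_eq_single φη (fun φ _ hne => ?_) (by simp)]
        · by_cases h : φη ∈ U
          · simp only [Set.indicator_of_mem h]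
            rw [← classInner_indFun_right T _ (isClassFunction_irr φη)]
            show indFun T (η : T → ℂ) 1 * classInner (φη : G → ℂ) (φη : G → ℂ) = _
            rw [classInner_self_irr φη.2, mul_one, indFun_apply_one]
          · simp [h]
        · by_cases h : φ ∈ U
          · simp only [Set.indicator_of_mem h]
            rw [← classInner_indFun_right T _ (isClassFunction_irr φ),
              classInner_irr_of_ne φ.2 hirr fun e => hne (Subtype.ext e), mul_zero]
          · simp [h]
      rw [ha]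
      by_cases h : φη ∈ U
      · rw [Set.indicator_of_mem h, Set.indicator_of_mem (show η ∈ UT from ⟨hη, φη, h, rfl⟩)]
        ring
      · rw [Set.indicator_of_notMem h, zero_mul, Set.indicator_of_notMem, mul_zero]
        rintro ⟨-, φ, hφ, he⟩
        exact h ((Subtype.ext he : φη = φ) ▸ hφ)
    have hIH := ih _ (hm ▸ mu_lt_of_subgroup ((inf_le_left : Z0 p G ≤ N).trans hNT) hTtop) T rfl
      (Core.isPSolvable_subgroup hsolv T) UT hvT
    have hψU : (⟨ψ0, hψ0⟩ : IrrCharacter T) ∉ UT := by
      rintro ⟨-, φ, hφ, he⟩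
      exact hψ ((Subtype.ext (he.symm.trans hindψ) : φ = ψ) ▸ hφ)
    rw [← Blocks.regInner_conj, map_eq_zero, regInner_eq_classInner, ← hindψ,
      classInner_indFun T ψ0 (isClassFunction_regFun (isClassFunction_irr χ))]
    have hrf : (fun t : T => regFun p (χ : G → ℂ) t) = regFun p fun t : T => (χ : G → ℂ) t := by
      funext t; simp [regFun, Subgroup.orderOf_coe]
    have hexp : (fun t : T => (χ : G → ℂ) t) = ∑ η : IrrCharacter T,
        classInner (fun s : T => (χ : G → ℂ) s) (η : T → ℂ) • (η : T → ℂ) := by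
      funext t
      rw [hres χ, Finset.sum_apply]
      rfl
    rw [hrf, ← regInner_eq_classInner, hexp, regInner_sum_right]
    refine Finset.sum_eq_zero fun η _ => ?_
    by_cases hc : classInner (fun s : T => (χ : G → ℂ) s) (η : T → ℂ) = 0
    · rw [hc, map_zero, zero_mul]
    refine mul_eq_zero_of_right _ ?_
    by_cases hη : classInner (fun n : N.subgroupOf T => (η : T → ℂ) n) θ' = 0
    · exact regInner_eq_zero_of_not_over (N.subgroupOf T) θ' hpN' hθ' hinv' hψ0 η.2
        (by rw [hover, hcψ]; exact hψθ) hη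
    obtain ⟨he, -⟩ := Chars2.clifford_correspondence hNT θ.2 hT χ.2 η.2 hc
      (by rw [← hover]; exact hη)
    rw [← Blocks.regInner_conj, hIH η ⟨hη, χ, hχ, he⟩ ⟨ψ0, hψ0⟩ hψU, map_zero]
  -- the invariant case
  obtain ⟨H, iHg, iHf, K, iKg, iKf, q, π, C, lam, rH, jD, hq, hπ, hCc, hpC, hCidx, hKs, hr1, hsing,
    hFwd, hBwd, hne, hF, hcard, -, -⟩ := PPrimeExt.exists_extension p N hpN θ hTtop ⊥
      fun x hx n _ => by rw [Subgroup.mem_bot.1 hx, one_mul, mul_one]
  haveI : C.Normal := ⟨fun z hz g => by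
    rwa [Subgroup.mem_center_iff.1 (hCc hz) g, mul_inv_cancel_right]⟩
  have hlt : mu p K < m := by
    refine lt_of_le_of_lt (mu_le hpC hCc) ?_
    rw [hCidx, ← hm]
    show N.index < (Z0 p G).index
    have hlt' : Z0 p G < N := lt_of_le_of_ne inf_le_left fun h => hcen (h ▸ inf_le_right)
    exact Subgroup.index_strictAnti hlt'
  haveI : Nonempty (IrrCharacter G) := ⟨χ⟩
  choose! F hFθ hFe using hFwd
  let ovr : Set (IrrCharacter K) :=
    {η | classInner (fun z : C => (η : K → ℂ) z) (fun z => (lam z : ℂ)) ≠ 0}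
  have hFinj : Set.InjOn F ovr := by
    intro η₁ h₁ η₂ h₂ he
    refine Subtype.ext (funext fun y => ?_)
    obtain ⟨x, rfl⟩ := hπ y
    obtain ⟨x', hx', hr'⟩ := hne x
    refine mul_left_cancel₀ hr' ?_
    rw [← hx', ← hFe η₁ h₁, ← hFe η₂ h₂, he]
  have hFsurj : ∀ φ : IrrCharacter G, classInner (fun n : N => (φ : G → ℂ) n) (θ : N → ℂ) ≠ 0 →
      ∃ η ∈ ovr, F η = φ := by
    intro φ hφ
    obtain ⟨η, hη, he⟩ := hBwd φ hφ
    refine ⟨η, hη, Subtype.ext (funext fun g => ?_)⟩
    obtain ⟨x, rfl⟩ := hq g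
    rw [hFe η hη, he]
  let UK : Set (IrrCharacter K) := {η | η ∈ ovr ∧ F η ∈ U}
  have hvK : ∀ y : K, p ∣ orderOf y → setSum UK y = 0 := by
    intro y hy
    obtain ⟨x, rfl⟩ := hπ y
    obtain ⟨x', hx', hr'⟩ := hne x
    rw [← hx'] at hy ⊢
    have hv := setSum_over_eq_zero N (θ : N → ℂ) hpN θ.2 hTtop
      (U.indicator fun φ => (φ : G → ℂ) 1) (t := q x') fun n => by
        rw [← hU _ ((dvd_orderOf_mul_left hpN n (q x')).2 ((hsing x').2 hy)), setSum]
        refine Finset.sum_congr rfl fun φ _ => ?_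
        by_cases h : φ ∈ U <;> simp [h]
    have hne' : rH x' * (θ : N → ℂ) 1 ≠ 0 := mul_ne_zero hr' (irr_apply_one_ne_zero θ.2)
    refine mul_left_cancel₀ hne' ?_
    rw [mul_zero, setSum, Finset.mul_sum, ← hv]
    refine Finset.sum_bij_ne_zero (fun η _ _ => F η) (fun _ _ _ => Finset.mem_univ _) ?_ ?_ ?_
    · intro a _ ha b _ hb he
      refine hFinj ?_ ?_ he
      · exact (Set.mem_of_indicator_ne_zero (right_ne_zero_of_mul ha)).1
      · exact (Set.mem_of_indicator_ne_zero (right_ne_zero_of_mul hb)).1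
    · intro φ _ hφ
      have hφ1 := Set.mem_of_indicator_ne_zero hφ
      obtain ⟨η, hη, rfl⟩ := hFsurj φ hφ1
      refine ⟨η, Finset.mem_univ _, ?_, rfl⟩
      intro h
      apply hφ
      rw [Set.indicator_of_mem hφ1]
      by_cases hU1 : F η ∈ U
      swap
      · rw [Set.indicator_of_notMem hU1, zero_mul]
      rw [Set.indicator_of_mem (show η ∈ UK from ⟨hη, hU1⟩)] at h
      rw [Set.indicator_of_mem hU1, hFe η hη, ← map_one q, hFe η hη, map_one, hr1]
      linear_combination h
    · intro η _ hη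
      have h1 := Set.mem_of_indicator_ne_zero (right_ne_zero_of_mul hη)
      rw [Set.indicator_of_mem h1, Set.indicator_of_mem (show F η ∈ _ from hFθ η h1.1),
        Set.indicator_of_mem h1.2, hFe η h1.1, ← map_one q, hFe η h1.1, map_one, hr1]
      ring
  have hIH := ih _ hlt K rfl (hKs hsolv) UK hvK
  obtain ⟨ηχ, hηχ, rfl⟩ := hFsurj χ hθ
  obtain ⟨ηψ, hηψ, rfl⟩ := hFsurj ψ hψθ
  have h0 := hIH ηχ ⟨hηχ, hχ⟩ ηψ fun h => hψ h.2
  rw [regInner_eq_classInner, classInner_def] at h0 ⊢
  have hK0 : ∑ y : K, (ηχ : K → ℂ) y * conj (regFun p (ηψ : K → ℂ) y) = 0 :=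
    (mul_eq_zero.1 h0).resolve_left (inv_ne_zero (Nat.cast_ne_zero.2 Nat.card_pos.ne'))
  have h1 := hF fun y => (ηχ : K → ℂ) y * conj (regFun p (ηψ : K → ℂ) y)
  rw [hK0, mul_zero] at h1
  have h2 := card_mul_sum_comp q hq fun g => (F ηχ : G → ℂ) g * conj (regFun p (F ηψ : G → ℂ) g)
  have h3 : ∑ x : H, (F ηχ : G → ℂ) (q x) * conj (regFun p (F ηψ : G → ℂ) (q x)) = 0 := by
    rw [← h1]
    refine Finset.sum_congr rfl fun x _ => ?_
    unfold regFun
    by_cases hx : p ∣ orderOf (q x)
    · simp [hx, (hsing x).1 hx]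
    · rw [if_neg hx, if_neg fun h => hx ((hsing x).2 h), hFe ηχ hηχ, hFe ηψ hηψ, map_mul]
      ring
  rw [h3, mul_zero] at h2
  rw [(mul_eq_zero.1 h2.symm).resolve_left (Nat.cast_ne_zero.2 Nat.card_pos.ne'), mul_zero]

end Cfsg.Agent.Chars.PSolvableClosed
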