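import Cfsg.Agent.Chars.InvariantCover
import Cfsg.Agent.Chars.OddCore
import Cfsg.Agent.Chars.PSolvableClosed

/-!
The odd-multiplicity correspondence over an invariant character of `L`, for a coprime action on a
group of odd order `K C` with `K ⧸ L` abelian without fixed points and `H = L C`.
-/

set_option autoImplicit false
set_option linter.style.haveILetI false
set_option linter.unusedSectionVars false

open Cfsg Cfsg.Agent Cfsg.Agent.Chars2
open scoped ComplexConjugate commutatorElement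

namespace Cfsg.Agent.Chars.OddStep

open InvariantCover

universe u v

noncomputable local instance (priority := high) fintypeSub {A : Type*} [Group A] [Finite A]
    (K : Subgroup A) : Fintype K :=
  Fintype.ofFinite _

/-- Inner products along a cover. -/
theorem inner_transfer {G : Type u} [Group G] [Fintype G] {N : Subgroup G} [N.Normal] {θ : N → ℂ}
    (X : Cover N θ) (hθ : IsIrrCharacter N θ) (hinv : inertiaSub θ = ⊤) {f f' : G → ℂ}
    {g g' : X.K → ℂ} (h : ∀ x, f (X.q x) = X.R.character x * g (X.π x))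
    (h' : ∀ x, f' (X.q x) = X.R.character x * g' (X.π x)) :
    classInner f f' = classInner g g' := by
  classical
  have hbinj : Function.Injective X.b := fun n n' e => Subtype.ext (by
    rw [← X.hqb n, e, X.hqb])
  have hH : Nat.card X.H = Nat.card N * Nat.card X.K := by
    rw [← Subgroup.index_mul_card X.π.ker, Subgroup.index_ker, MonoidHom.range_eq_top.2 X.hπ,
      Subgroup.card_top, X.fibre_card hbinj, mul_comm]
  have h1 := PSolvableClosed.card_mul_sum_comp X.q X.hq fun y => f y * conj (f' y)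
  have h2 : ∑ x : X.H, f (X.q x) * conj (f' (X.q x)) =
      (Nat.card N : ℂ) * ∑ y : X.K, g y * conj (g' y) := by
    rw [← X.fsum hθ hinv fun y => g y * conj (g' y)]
    exact Finset.sum_congr rfl fun x _ => by rw [h, h', map_mul]; ring
  rw [h2, hH, Nat.cast_mul] at h1
  rw [classInner_def, classInner_def]
  have e1 : (Nat.card G : ℂ) ≠ 0 := Nat.cast_ne_zero.2 Nat.card_pos.ne'
  have e2 : (Nat.card X.K : ℂ) ≠ 0 := Nat.cast_ne_zero.2 Nat.card_pos.ne'
  have e3 : (Nat.card N : ℂ) ≠ 0 := Nat.cast_ne_zero.2 Nat.card_pos.ne'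
  field_simp
  refine mul_left_cancel₀ e3 ?_
  linear_combination (-1 : ℂ) * h1

variable {G : Type u} [Group G] [Fintype G] {A : Type v} [Group A] [Finite A]

/-- The correspondence over an invariant character. -/
theorem invariant_step (φ : A →* MulAut G) (hodd : Odd (Nat.card G))
    (hcop : (Nat.card G).Coprime (Nat.card A)) (hsolv : Group.IsSolvable G)
    (K L H : Subgroup G) [hKn : K.Normal] [hLn : L.Normal] (hLK : L ≤ K)
    (hKinv : ∀ a, ∀ k ∈ K, φ a k ∈ K) (hLinv : ∀ a, ∀ l ∈ L, φ a l ∈ L)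
    (hab : ∀ x ∈ K, ∀ y ∈ K, ⁅x, y⁆ ∈ L)
    (hfpf : ∀ k ∈ K, (∀ a, k⁻¹ * φ a k ∈ L) → k ∈ L)
    (hgen : ∀ g : G, ∃ k ∈ K, ∃ c ∈ fixSub φ, g = k * c)
    (hH : H = L ⊔ fixSub φ) (hLH : L ≤ H) (hHinv : ∀ a, ∀ h ∈ H, φ a h ∈ H)
    {θ : L → ℂ} (hθ : IsIrrCharacter L θ)
    (hθi : ∀ (a : A) (n : L), θ ⟨φ a n, hLinv a n n.2⟩ = θ n) (hinv : inertiaSub θ = ⊤) :
    (∀ ψ : IrrCharacter H, classInner (fun n : L => (ψ : H → ℂ) ⟨n, hLH n.2⟩) θ ≠ 0 →
      ∀ (a : A) (h : H), (ψ : H → ℂ) ⟨φ a h, hHinv a h h.2⟩ = (ψ : H → ℂ) h) ∧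
    ∃ Φ : {χ : IrrCharacter G // classInner (fun n : L => (χ : G → ℂ) n) θ ≠ 0 ∧
        InvFun φ (χ : G → ℂ)} ≃
      {ψ : IrrCharacter H // classInner (fun n : L => (ψ : H → ℂ) ⟨n, hLH n.2⟩) θ ≠ 0},
      ∀ χ, (∃ k : ℕ, classInner (fun h : H => (χ.1 : G → ℂ) h) ((Φ χ).1 : H → ℂ) = k ∧ Odd k) ∧
        ∀ (ψ : IrrCharacter H) (k : ℕ),
          classInner (fun n : L => (ψ : H → ℂ) ⟨n, hLH n.2⟩) θ ≠ 0 →
          classInner (fun h : H => (χ.1 : G → ℂ) h) (ψ : H → ℂ) = k → Odd k → ψ = (Φ χ).1 := by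
  classical
  obtain ⟨X, φK, fH, hqf, hπf, hRf, hfixZ, hcinj, hexp⟩ :=
    exists_cover_action φ hLinv hθ hθi hinv
  -- elementary facts on the cover
  have hπb : ∀ n : L, X.π (X.b n) = 1 := fun n =>
    MonoidHom.mem_ker.1 (X.hker.symm ▸ ⟨n, rfl⟩)
  have hmemZ : ∀ x : X.H, X.q x ∈ L → X.π x ∈ X.Z := fun x hx => by
    refine ⟨x * (X.b ⟨_, hx⟩)⁻¹, ?_, ?_⟩
    · show x * (X.b ⟨_, hx⟩)⁻¹ ∈ X.q.ker
      rw [MonoidHom.mem_ker, map_mul, map_inv, X.hqb, mul_inv_cancel]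
    · rw [map_mul, map_inv, hπb, inv_one, mul_one]
  have hZfix : X.Z ≤ fixSub φK := by
    rintro _ ⟨z, hz, rfl⟩ a
    exact hfixZ a z hz
  have hprime : ∀ p : ℕ, p.Prime → p ∣ Nat.card X.K → p ∣ Nat.card G := fun p hp hd => by
    haveI := Fact.mk hp
    obtain ⟨y, hy⟩ := exists_prime_orderOf_dvd_card' p hd
    have h3 : p ∣ L.index * (L.index * L.index) := hy ▸ orderOf_dvd_of_pow_eq_one (hexp y)
    have h4 : p ∣ L.index := by
      rcases hp.dvd_mul.1 h3 with h | h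
      · exact h
      · exact (hp.dvd_mul.1 h).elim id id
    exact h4.trans L.index_dvd_card
  have hcopK : (Nat.card X.K).Coprime (Nat.card A) := Nat.coprime_of_dvd fun p hp h1 h2 =>
    hp.not_dvd_one (hcop ▸ Nat.dvd_gcd (hprime p hp h1) h2)
  have hoddK : Odd (Nat.card X.K) := by
    rw [← Nat.not_even_iff_odd, even_iff_two_dvd]
    exact fun h => Nat.not_even_iff_odd.2 hodd (even_iff_two_dvd.2 (hprime 2 Nat.prime_two h))
  have hsolvK : Group.IsSolvable X.K := by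
    have hle : X.π.ker ≤ ((QuotientGroup.mk' L).comp X.q).ker := by
      rw [X.hker]
      rintro _ ⟨n, rfl⟩
      exact MonoidHom.mem_ker.2 ((QuotientGroup.eq_one_iff _).2 (X.hqb n ▸ n.2))
    let P : X.K →* G ⧸ L := X.π.liftOfSurjective X.hπ ⟨_, hle⟩
    have hP : ∀ x, P (X.π x) = (QuotientGroup.mk' L) (X.q x) := fun x =>
      MonoidHom.liftOfRightInverse_comp_apply _ _ _ ⟨_, hle⟩ x
    haveI : Group.IsSolvable X.Z := Group.isSolvable_of_comm fun z z' => Subtype.ext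
      (Subgroup.mem_center_iff.1 (X.Z_le_center z'.2) (z : X.K))
    haveI := hsolv
    haveI : Group.IsSolvable (G ⧸ L) :=
      Group.isSolvable_of_surjective (QuotientGroup.mk'_surjective L)
    refine Group.isSolvable_of_ker_le_range X.Z.subtype P fun y hy => ?_
    obtain ⟨x, rfl⟩ := X.hπ y
    rw [MonoidHom.mem_ker, hP] at hy
    exact ⟨⟨_, hmemZ x ((QuotientGroup.eq_one_iff _).1 hy)⟩, rfl⟩
  -- the fixed points
  have hfix : fixSub φK = (H.comap X.q).map X.π := by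
    have hup : ∀ y ∈ fixSub φK, y ∈ (H.comap X.q).map X.π := by
      intro y hy
      obtain ⟨x, rfl⟩ := X.hπ y
      have hstep : ∀ a, (X.q x)⁻¹ * φ a (X.q x) ∈ L := fun a => by
        have h1 : X.π (x⁻¹ * fH a x) = 1 := by
          rw [map_mul, map_inv, hπf, hy a, inv_mul_cancel]
        obtain ⟨n, hn⟩ : x⁻¹ * fH a x ∈ X.b.range := X.hker ▸ MonoidHom.mem_ker.2 h1
        rw [← hqf, ← map_inv, ← map_mul, ← hn, X.hqb]
        exact n.2
      haveI := hsolv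
      obtain ⟨l, hl, hc⟩ := CoprimeFixed.exists_fixed_in_coset φ L hLinv inferInstance
        (hcop.coprime_dvd_left L.card_subgroup_dvd_card) hstep
      refine ⟨x, ?_, rfl⟩
      show X.q x ∈ H
      rw [hH, show X.q x = X.q x * l * l⁻¹ by group]
      exact mul_mem (Subgroup.mem_sup_right hc) (Subgroup.mem_sup_left (L.inv_mem hl))
    refine le_antisymm hup ?_
    rintro _ ⟨x, hx, rfl⟩
    change X.q x ∈ H at hx
    rw [hH] at hx
    obtain ⟨l, hl, c, hc, hlc⟩ := Subgroup.mem_sup_of_normal_left.1 hx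
    obtain ⟨y, hy⟩ := X.hq c
    have hyfix : X.π y ∈ fixSub φK := by
      have hstep : ∀ a, (X.π y)⁻¹ * φK a (X.π y) ∈ X.Z := fun a => by
        rw [← hπf, ← map_inv, ← map_mul]
        refine ⟨y⁻¹ * fH a y, ?_, rfl⟩
        show y⁻¹ * fH a y ∈ X.q.ker
        rw [MonoidHom.mem_ker, map_mul, map_inv, hqf, hy, hc a, inv_mul_cancel]
      obtain ⟨z, hz, hyz⟩ := CoprimeFixed.exists_fixed_in_coset φK X.Z
        (fun a z hz => by rw [hZfix hz a]; exact hz)
        (Group.isSolvable_of_comm fun z z' => Subtype.ext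
          (Subgroup.mem_center_iff.1 (X.Z_le_center z'.2) (z : X.K)))
        (hcopK.coprime_dvd_left X.Z.card_subgroup_dvd_card) hstep
      simpa using mul_mem hyz (inv_mem (hZfix hz))
    have h1 : X.π (x * y⁻¹) ∈ X.Z := hmemZ _ (by
      rw [map_mul, map_inv, hy, ← hlc, mul_inv_cancel_right]; exact hl)
    rw [show x = x * y⁻¹ * y by group, map_mul]
    exact mul_mem (hZfix h1) hyfix
  -- the data
  let Kh := (K.comap X.q).map X.π
  let D : OddCore.Data X.K A :=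
    { φ := φK
      Z := X.Z
      K := Kh
      lam := X.lam
      odd := hoddK
      cop := hcopK
      solv := hsolvK
      hlam := fun z z' h => X.zEquiv.symm.injective (hcinj (by
        obtain ⟨w, rfl⟩ := X.zEquiv.surjective z
        obtain ⟨w', rfl⟩ := X.zEquiv.surjective z'
        rw [X.lam_apply, X.lam_apply, inv_inj] at h
        rw [MulEquiv.symm_apply_apply, MulEquiv.symm_apply_apply]
        exact h))
      hZc := X.Z_le_center
      hZf := hZfix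
      hZK := Subgroup.map_mono fun z hz => by
        show X.q z ∈ K
        rw [MonoidHom.mem_ker.1 hz]; exact one_mem _
      hKn := (hKn.comap X.q).map X.π X.hπ
      hKinv := fun a k hk => by
        obtain ⟨x, hx, rfl⟩ := hk
        refine ⟨fH a x, ?_, hπf a x⟩
        show X.q (fH a x) ∈ K
        rw [hqf]; exact hKinv a _ hx
      hKab := fun x hx y hy => by
        obtain ⟨x, hx', rfl⟩ := hx
        obtain ⟨y, hy', rfl⟩ := hy
        rw [← map_commutatorElement]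
        exact hmemZ _ (by rw [map_commutatorElement]; exact hab _ hx' _ hy')
      hfpf := fun k hk hkf => by
        obtain ⟨x, hx, rfl⟩ := hk
        refine hmemZ x (hfpf _ hx fun a => ?_)
        have h1 : X.π (x⁻¹ * fH a x) = 1 := by
          rw [map_mul, map_inv, hπf, hkf a, inv_mul_cancel]
        obtain ⟨n, hn⟩ : x⁻¹ * fH a x ∈ X.b.range := X.hker ▸ MonoidHom.mem_ker.2 h1
        rw [← hqf, ← map_inv, ← map_mul, ← hn, X.hqb]
        exact n.2
      hgen := fun y => by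
        obtain ⟨x, rfl⟩ := X.hπ y
        obtain ⟨k, hk, c, hc, hkc⟩ := hgen (X.q x)
        obtain ⟨w, hw⟩ := X.hq c
        refine ⟨X.π (x * w⁻¹), ⟨_, ?_, rfl⟩, X.π w, ?_, by rw [← map_mul, inv_mul_cancel_right]⟩
        · show X.q (x * w⁻¹) ∈ K
          rw [map_mul, map_inv, hw, hkc, mul_inv_cancel_right]; exact hk
        · rw [hfix]
          refine ⟨w, ?_, rfl⟩
          show X.q w ∈ H
          rw [hw, hH]; exact Subgroup.mem_sup_right hc }
  -- the cover of `H`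
  let X' := X.restrict H hLH
  let eL : L.subgroupOf H ≃* L := Subgroup.subgroupOfEquivOfLe hLH
  let θ' : L.subgroupOf H → ℂ := fun n => θ ⟨(n : H), n.2⟩
  have hθ' : IsIrrCharacter (L.subgroupOf H) θ' := isIrrCharacter_comp_equiv hθ eL
  have hinv' : inertiaSub θ' = ⊤ := inertiaSub_eq_top fun g n => by
    have h1 := congrFun (mem_inertiaSub.1 (hinv.symm ▸ Subgroup.mem_top ((g : G))⁻¹)) (eL n)
    rw [conjFun_apply] at h1
    refine Eq.trans (congrArg θ (Subtype.ext ?_)) h1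
    simp [eL]
  have hover : ∀ ψ : IrrCharacter H, classInner (fun n : L.subgroupOf H => (ψ : H → ℂ) n) θ' =
      classInner (fun n : L => (ψ : H → ℂ) ⟨n, hLH n.2⟩) θ := fun ψ => by
    rw [classInner_def, classInner_def, Core.card_subgroupOf hLH]
    congr 1
    exact Fintype.sum_equiv eL.toEquiv _ _ fun n => rfl
  let eC : fixSub φK ≃* X'.K := MulEquiv.subgroupCongr hfix
  let ι : X'.H → ↥(H.comap X.q) := fun x => x
  let ι' : ↥(H.comap X.q) → X'.H := fun x => x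
  let κ : X'.K → X.K := fun y => (show ↥((H.comap X.q).map X.π) from y).1
  -- characters of `H` over `θ`
  choose ζ hζo hζ using fun ψ : {ψ : IrrCharacter H //
      classInner (fun n : L => (ψ : H → ℂ) ⟨n, hLH n.2⟩) θ ≠ 0} =>
    X'.bwd hθ' hinv' ψ.1 (by rw [hover]; exact ψ.2)
  have hovC : ∀ β : IrrCharacter (fixSub φK),
      D.OverC β ↔ X'.Over (irrEquiv eC.symm β) := by
    intro β
    have hval : ∀ z : X'.q.ker,
        κ ((X'.zEquiv z : X'.Z) : X'.K) = X.π (ι z.1).1 := fun z => rfl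
    let ek : X'.q.ker ≃ X.q.ker :=
      { toFun := fun z => ⟨(ι z.1).1,
          congrArg Subtype.val (MonoidHom.mem_ker.1 z.2)⟩
        invFun := fun z => ⟨ι' ⟨(z : X.H), Subgroup.mem_comap.2 (by
            rw [MonoidHom.mem_ker.1 z.2]; exact one_mem _)⟩,
          MonoidHom.mem_ker.2 (Subtype.ext (MonoidHom.mem_ker.1 z.2))⟩
        left_inv := fun _ => rfl
        right_inv := fun _ => rfl }
    let ez : X'.Z ≃ X.Z := (X'.zEquiv.symm.toEquiv.trans ek).trans X.zEquiv.toEquiv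
    have key : classInner (fun z : X'.Z => (irrEquiv eC.symm β : X'.K → ℂ) z)
          (fun z => (X'.lam z : ℂ)) =
        classInner (fun z : D.Z => (β : fixSub φK → ℂ) ⟨z, D.hZf z.2⟩) (fun z => (X.lam z : ℂ)) := by
      rw [classInner_def, classInner_def, Nat.card_congr ez]
      congr 1
      refine Fintype.sum_equiv ez _ _ fun w => ?_
      obtain ⟨z, rfl⟩ := X'.zEquiv.surjective w
      have e1 : ez (X'.zEquiv z) = X.zEquiv (ek z) := by
        show X.zEquiv (ek (X'.zEquiv.symm (X'.zEquiv z))) = _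
        rw [MulEquiv.symm_apply_apply]
      rw [e1, X.lam_apply, X'.lam_apply]
      rfl
    show classInner (fun z : D.Z => (β : fixSub φK → ℂ) ⟨z, D.hZf z.2⟩)
      (fun z => (X.lam z : ℂ)) ≠ 0 ↔ _
    rw [← key]
    exact Iff.rfl
  -- invariance
  have hψinv : ∀ ψ : IrrCharacter H, classInner (fun n : L => (ψ : H → ℂ) ⟨n, hLH n.2⟩) θ ≠ 0 →
      ∀ (a : A) (h : H), (ψ : H → ℂ) ⟨φ a h, hHinv a h h.2⟩ = (ψ : H → ℂ) h := by
    intro ψ hψ a h
    obtain ⟨x, rfl⟩ := X'.hq h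
    let x' : X'.H := ι' ⟨fH a (ι x).1, Subgroup.mem_comap.2 (by
      rw [hqf]; exact hHinv a _ (Subgroup.mem_comap.1 (ι x).2))⟩
    have e1 : (⟨φ a (X'.q x : H), hHinv a _ (X'.q x).2⟩ : H) = X'.q x' :=
      Subtype.ext (hqf a _).symm
    have e2 : X'.π x' = X'.π x := by
      refine Subtype.ext ?_
      show X.π (fH a (ι x).1) = X.π (ι x).1
      rw [hπf]
      have hm : X.π (ι x).1 ∈ fixSub φK :=
        hfix ▸ Subgroup.mem_map_of_mem _ (ι x).2
      exact hm a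
    have e3 : X'.R.character x' = X'.R.character x := hRf a _
    rw [e1, hζ ⟨ψ, hψ⟩, hζ ⟨ψ, hψ⟩, e2, e3]
  refine ⟨hψinv, ?_⟩
  -- characters of `G` over `θ`
  choose η hηo hη using fun χ : {χ : IrrCharacter G //
      classInner (fun n : L => (χ : G → ℂ) n) θ ≠ 0} => X.bwd hθ hinv χ.1 χ.2
  have hinvη : ∀ χ, InvFun φ (χ.1 : G → ℂ) ↔ InvFun φK (η χ : X.K → ℂ) := by
    intro χ
    constructor
    · intro h a
      have h1 : irrEquiv (φK a) (η χ) = η χ := X.eq_of_values hθ hinv fun x => by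
        rw [irrEquiv_apply, ← hπf]
        conv_lhs => rw [← hRf a x]
        rw [← hη, ← hη, hqf, h a]
      intro y
      conv_rhs => rw [← h1]
      rfl
    · intro h a g
      obtain ⟨x, rfl⟩ := X.hq g
      rw [← hqf, hη, hη, hRf, hπf, h a]
  obtain ⟨Φ₀, hΦ₀⟩ := D.correspondence
  -- transfer of multiplicities
  have htr : ∀ χ ψ, classInner (fun h : H => (χ : {χ : IrrCharacter G //
      classInner (fun n : L => (χ : G → ℂ) n) θ ≠ 0}).1.1 h) (ψ.1 : H → ℂ) =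
      restrMult (fixSub φK) (η χ : X.K → ℂ) (irrEquiv eC (ζ ψ) : fixSub φK → ℂ) := by
    intro χ ψ
    rw [inner_transfer X' hθ' hinv' (g := fun y : X'.K => (η χ : X.K → ℂ) (κ y))
      (g' := (ζ ψ : X'.K → ℂ)) (fun x => hη χ _) (fun x => hζ ψ x)]
    unfold restrMult
    rw [show (irrEquiv eC (ζ ψ) : fixSub φK → ℂ) = fun c => (ζ ψ : X'.K → ℂ) (eC c) from rfl,
      ← classInner_comp_equiv eC (fun y : X'.K => (η χ : X.K → ℂ) (κ y)) (ζ ψ : X'.K → ℂ)]
    rfl
  have hζinj : ∀ ψ ψ', ζ ψ = ζ ψ' → ψ = ψ' := fun ψ ψ' h => by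
    refine Subtype.ext (Subtype.ext (funext fun y => ?_))
    obtain ⟨x, rfl⟩ := X'.hq y
    rw [hζ, hζ, h]
  have hζsurj : ∀ β : IrrCharacter (fixSub φK), D.OverC β → ∃ ψ, irrEquiv eC (ζ ψ) = β := by
    intro β hβ
    obtain ⟨ψ, hψ, hv⟩ := X'.fwd hθ' hinv' (irrEquiv eC.symm β) ((hovC β).1 hβ)
    refine ⟨⟨ψ, by rw [← hover]; exact hψ⟩, ?_⟩
    have h1 : ζ ⟨ψ, by rw [← hover]; exact hψ⟩ = irrEquiv eC.symm β :=
      X'.eq_of_values hθ' hinv' fun x => by rw [← hζ, ← hv]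
    rw [h1]
    exact Subtype.ext (funext fun c => by simp)
  have hζC : ∀ ψ, D.OverC (irrEquiv eC (ζ ψ)) := fun ψ => (hovC _).2 (by
    convert hζo ψ
    exact Subtype.ext (funext fun c => by simp))
  have hηsurj : ∀ e : IrrCharacter X.K, D.Over e → ∃ χ, η χ = e := by
    intro e he
    obtain ⟨χ, hχ, hv⟩ := X.fwd hθ hinv e he
    exact ⟨⟨χ, hχ⟩, X.eq_of_values hθ hinv fun x => by rw [← hη, ← hv]⟩
  let E1 : {χ : IrrCharacter G // classInner (fun n : L => (χ : G → ℂ) n) θ ≠ 0 ∧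
      InvFun φ (χ : G → ℂ)} ≃ {e : IrrCharacter X.K // D.Over e ∧ InvFun φK (e : X.K → ℂ)} :=
    Equiv.ofBijective (fun χ => ⟨η ⟨χ.1, χ.2.1⟩, hηo _, (hinvη _).1 χ.2.2⟩) ⟨fun χ χ' h => by
      have h1 : η ⟨χ.1, χ.2.1⟩ = η ⟨χ'.1, χ'.2.1⟩ := congrArg Subtype.val h
      refine Subtype.ext (Subtype.ext (funext fun g => ?_))
      obtain ⟨x, rfl⟩ := X.hq g
      rw [hη ⟨χ.1, χ.2.1⟩, hη ⟨χ'.1, χ'.2.1⟩, h1], fun e => by
      obtain ⟨χ, hχ⟩ := hηsurj e.1 e.2.1
      exact ⟨⟨χ.1, χ.2, (hinvη χ).2 (hχ ▸ e.2.2)⟩, Subtype.ext hχ⟩⟩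
  let E2 : {ψ : IrrCharacter H // classInner (fun n : L => (ψ : H → ℂ) ⟨n, hLH n.2⟩) θ ≠ 0} ≃
      {β : IrrCharacter (fixSub φK) // D.OverC β} :=
    Equiv.ofBijective (fun ψ => ⟨irrEquiv eC (ζ ψ), hζC ψ⟩) ⟨fun ψ ψ' h => hζinj _ _
      ((irrEquiv eC).injective (congrArg Subtype.val h)), fun β => by
      obtain ⟨ψ, hψ⟩ := hζsurj β.1 β.2
      exact ⟨ψ, Subtype.ext hψ⟩⟩
  refine ⟨(E1.trans Φ₀).trans E2.symm, fun χ => ⟨?_, fun ψ k hψ hk hodd' => ?_⟩⟩
  · obtain ⟨k, hk, hk'⟩ := (hΦ₀ (E1 χ)).1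
    refine ⟨k, ?_, hk'⟩
    rw [htr ⟨χ.1, χ.2.1⟩]
    have h1 : E2 (E2.symm (Φ₀ (E1 χ))) = Φ₀ (E1 χ) := E2.apply_symm_apply _
    have h2 : irrEquiv eC (ζ (E2.symm (Φ₀ (E1 χ)))) = (Φ₀ (E1 χ)).1 := congrArg Subtype.val h1
    show restrMult (fixSub φK) _ (irrEquiv eC (ζ (E2.symm (Φ₀ (E1 χ)))) : fixSub φK → ℂ) = _
    rw [h2]
    exact hk
  · have h1 := (hΦ₀ (E1 χ)).2 (irrEquiv eC (ζ ⟨ψ, hψ⟩)) k
      ((htr ⟨χ.1, χ.2.1⟩ ⟨ψ, hψ⟩).symm.trans hk) hodd'
    have h2 : E2 ⟨ψ, hψ⟩ = Φ₀ (E1 χ) := Subtype.ext h1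
    show ψ = (E2.symm (Φ₀ (E1 χ))).1
    rw [← h2, Equiv.symm_apply_apply]

end Cfsg.Agent.Chars.OddStep
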