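import Cfsg.Agent.Chars.PPrimeExtension
import Cfsg.Agent.Chars.PrimePowerDivisor
import Cfsg.Agent.Chars2.SmallDegree
import Cfsg.Agent.Blocks.Graph
import Cfsg.Agent.Core.SchurZassenhaus

/-!
In a `p`-solvable group, a set of irreducible characters whose regular part vanishes on the
`p`-singular elements is a union of blocks.
-/

set_option autoImplicit false
set_option linter.style.haveILetI false
set_option linter.unusedSectionVars false

open Cfsg Cfsg.Agent
open scoped ComplexConjugate Pointwise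

namespace Cfsg.Agent.Chars.PSolvableBlocks

universe u

variable {G : Type u} [Group G] [Fintype G] {p : ℕ} [hp : Fact p.Prime]

noncomputable local instance (priority := high) fintypeSub {A : Type*} [Group A] [Finite A]
    (K : Subgroup A) : Fintype K :=
  Fintype.ofFinite _

noncomputable local instance (priority := high) fintypeQuot {A : Type*} [Group A] [Finite A]
    (K : Subgroup A) : Fintype (A ⧸ K) :=
  Fintype.ofFinite _

/-- The central part of the `p'`-core. -/
def Z0 (p : ℕ) (G : Type u) [Group G] : Subgroup G := pPrimeCore p G ⊓ Subgroup.center G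

/-- The measure of the induction. -/
noncomputable def mu (p : ℕ) (G : Type u) [Group G] : ℕ := (Z0 p G).index

theorem not_dvd_card_Z0 : ¬ p ∣ Nat.card (Z0 p G) := fun h =>
  Core.not_dvd_card_pPrimeCore p G (h.trans (Subgroup.card_dvd_of_le inf_le_left))

theorem mu_le {A : Subgroup G} [A.Normal] (hA : ¬ p ∣ Nat.card A) (hc : A ≤ Subgroup.center G) :
    mu p G ≤ A.index :=
  Nat.le_of_dvd (Nat.pos_of_ne_zero Subgroup.index_ne_zero_of_finite)
    (Subgroup.index_dvd_of_le (le_inf (Core.le_pPrimeCore inferInstance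
      ((hp.out.coprime_iff_not_dvd.2 hA).symm)) hc))

theorem mu_lt_of_subgroup {T : Subgroup G} (hZ : Z0 p G ≤ T) (hT : T ≠ ⊤) :
    mu p T < mu p G := by
  haveI : ((Z0 p G).subgroupOf T).Normal := by
    haveI : (Z0 p G).Normal := by unfold Z0; infer_instance
    infer_instance
  have hA : ¬ p ∣ Nat.card ((Z0 p G).subgroupOf T) := by
    rw [Core.card_subgroupOf hZ]
    exact not_dvd_card_Z0
  have hc : (Z0 p G).subgroupOf T ≤ Subgroup.center T := fun x hx =>
    Subgroup.mem_center_iff.2 fun y => Subtype.ext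
      (Subgroup.mem_center_iff.1 (Subgroup.mem_subgroupOf.1 hx).2 (y : G))
  have h1 : mu p T ≤ ((Z0 p G).subgroupOf T).index :=
    mu_le (G := T) (A := (Z0 p G).subgroupOf T) hA hc
  refine lt_of_le_of_lt h1 ?_
  show (Z0 p G).relIndex T < (Z0 p G).index
  rw [← Subgroup.relIndex_mul_index hZ]
  refine lt_mul_of_one_lt_right (Nat.pos_of_ne_zero fun h => ?_) ?_
  · exact Subgroup.index_ne_zero_of_finite (show ((Z0 p G).subgroupOf T).index = 0 from h)
  · have h0 : T.index ≠ 0 := Subgroup.index_ne_zero_of_finite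
    have : T.index ≠ 1 := fun h => hT (Subgroup.index_eq_one.1 h)
    omega

theorem mu_lt_of_quotient {R : Subgroup G} [R.Normal] (hR : IsPGroup p R) (hne : R ≠ ⊥) :
    mu p (G ⧸ R) < mu p G := by
  haveI : (Z0 p G).Normal := by unfold Z0; infer_instance
  haveI : ((Z0 p G).map (QuotientGroup.mk' R)).Normal :=
    Subgroup.Normal.map inferInstance _ (QuotientGroup.mk'_surjective R)
  have hA : ¬ p ∣ Nat.card ((Z0 p G).map (QuotientGroup.mk' R)) := fun h =>
    not_dvd_card_Z0 (G := G) (p := p)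
      (h.trans (Subgroup.card_map_dvd (Z0 p G) (QuotientGroup.mk' R)))
  have hc : (Z0 p G).map (QuotientGroup.mk' R) ≤ Subgroup.center (G ⧸ R) := by
    rintro x ⟨z, hz, rfl⟩
    refine Subgroup.mem_center_iff.2 fun y => ?_
    obtain ⟨g, rfl⟩ := QuotientGroup.mk_surjective y
    show (g : G ⧸ R) * (z : G ⧸ R) = (z : G ⧸ R) * g
    rw [← QuotientGroup.mk_mul, ← QuotientGroup.mk_mul, Subgroup.mem_center_iff.1 hz.2 g]
  have h1 : mu p (G ⧸ R) ≤ ((Z0 p G).map (QuotientGroup.mk' R)).index :=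
    mu_le (G := G ⧸ R) (A := (Z0 p G).map (QuotientGroup.mk' R)) hA hc
  refine lt_of_le_of_lt h1 ?_
  rw [Subgroup.index_map, QuotientGroup.ker_mk', MonoidHom.range_eq_top.2
    (QuotientGroup.mk'_surjective R), Subgroup.index_top, mul_one]
  show (Z0 p G ⊔ R).index < (Z0 p G).index
  rw [← Subgroup.relIndex_mul_index (le_sup_left : Z0 p G ≤ Z0 p G ⊔ R)]
  refine lt_mul_of_one_lt_left (Nat.pos_of_ne_zero Subgroup.index_ne_zero_of_finite) ?_
  have h0 : (Z0 p G).relIndex (Z0 p G ⊔ R) ≠ 0 :=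
    Subgroup.index_ne_zero_of_finite (H := (Z0 p G).subgroupOf (Z0 p G ⊔ R))
  have h2 : (Z0 p G).relIndex (Z0 p G ⊔ R) ≠ 1 := fun h => by
    have hle : R ≤ Z0 p G := le_sup_right.trans (Subgroup.relIndex_eq_one.1 h)
    obtain ⟨k, hk⟩ := IsPGroup.iff_card.1 hR
    rcases Nat.eq_zero_or_pos k with rfl | hk0
    · exact hne (Subgroup.eq_bot_of_card_eq R (by rw [hk, pow_zero]))
    · exact not_dvd_card_Z0 (G := G) (p := p)
        ((hk ▸ dvd_pow_self p hk0.ne').trans (Subgroup.card_dvd_of_le hle))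
  omega

/-- A character trivial on a normal subgroup comes from the quotient. -/
theorem exists_descend_char {R : Subgroup G} [R.Normal] {ψ : G → ℂ} (hψ : IsCharacter G ψ)
    (hR : ∀ x ∈ R, ψ x = ψ 1) :
    ∃ β : G ⧸ R → ℂ, IsCharacter (G ⧸ R) β ∧ ∀ g : G, β g = ψ g := by
  obtain ⟨n, ρ, rfl⟩ := hψ
  have hker : ∀ a ∈ R, ρ a = 1 := fun a ha => by
    have := hR a ha
    rwa [Representation.char_one, rep_char_eq_finrank_iff] at this
  exact ⟨_, ⟨n, QuotientGroup.lift R ρ hker, rfl⟩, fun g => rfl⟩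

/-- The `p'`-part of an element, with the same image in every quotient where it is regular. -/
theorem exists_regular_part (x : G) :
    ∃ y : G, ¬ p ∣ orderOf y ∧ ∀ {A : Type u} [Group A] (f : G →* A),
      ¬ p ∣ orderOf (f x) → f y = f x := by
  obtain ⟨a, m, hm, hxo⟩ := Nat.exists_eq_pow_mul_and_not_dvd (orderOf_pos x).ne' p hp.out.ne_one
  obtain ⟨u, hu⟩ := Nat.chineseRemainder
    (((hp.out.coprime_iff_not_dvd.2 hm).pow_left a)) 0 1
  refine ⟨x ^ u, ?_, ?_⟩
  · intro h
    refine hm (h.trans (orderOf_dvd_of_pow_eq_one ?_))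
    rw [← pow_mul, ← orderOf_dvd_iff_pow_eq_one, hxo]
    exact Nat.mul_dvd_mul_right (Nat.modEq_zero_iff_dvd.1 hu.1) m
  · intro A _ f hf
    have h1 : orderOf (f x) ∣ m := by
      have h2 : orderOf (f x) ∣ p ^ a * m := hxo ▸ orderOf_map_dvd f x
      exact (((hp.out.coprime_iff_not_dvd.2 hf).pow_left a).symm).dvd_of_dvd_mul_left h2
    rw [map_pow]
    conv_rhs => rw [← pow_one (f x)]
    exact pow_eq_pow_iff_modEq.2 (hu.2.of_dvd h1)

/-- Regular elements in a common coset of a normal `p`-subgroup are conjugate. -/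
theorem isConj_of_coset {R : Subgroup G} [R.Normal] (hR : IsPGroup p R) {g h : G}
    (hg : ¬ p ∣ orderOf g) (hh : ¬ p ∣ orderOf h) (he : (g : G ⧸ R) = h) : IsConj g h := by
  set T := R ⊔ Subgroup.zpowers g with hT
  have hhT : h ∈ T := by
    have h1 : g⁻¹ * h ∈ R := QuotientGroup.eq.1 he
    have := T.mul_mem (Subgroup.mem_sup_right (Subgroup.mem_zpowers g)) (Subgroup.mem_sup_left h1)
    simpa using this
  have hgT : g ∈ T := Subgroup.mem_sup_right (Subgroup.mem_zpowers g)
  let R' := R.subgroupOf T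
  obtain ⟨k, hk⟩ := IsPGroup.iff_card.1 hR
  have hcR : Nat.card R' = p ^ k := by
    rw [Nat.card_congr (Subgroup.subgroupOfEquivOfLe (le_sup_left : R ≤ T)).toEquiv, hk]
  have key : ∀ x : G, (hx : x ∈ T) → ¬ p ∣ orderOf x → (x : G ⧸ R) = g →
      Nat.card (Subgroup.zpowers (⟨x, hx⟩ : T)) = R'.index ∧ R'.index = orderOf x := by
    intro x hx hxr hxe
    have h1 : R'.index = orderOf (g : G ⧸ R) := by
      rw [Subgroup.index_eq_card, ← Nat.card_zpowers]
      let f : T →* G ⧸ R := (QuotientGroup.mk' R).comp T.subtype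
      have hker : f.ker = R' := by
        rw [← MonoidHom.comap_ker, QuotientGroup.ker_mk']; rfl
      have hrange : f.range = Subgroup.zpowers (g : G ⧸ R) := by
        rw [MonoidHom.range_comp, Subgroup.range_subtype, hT, Subgroup.map_sup,
          QuotientGroup.map_mk'_self, bot_sup_eq, MonoidHom.map_zpowers]
        rfl
      rw [← hrange, ← hker]
      exact Nat.card_congr (QuotientGroup.quotientKerEquivRange f).toEquiv
    have h2 : orderOf (x : G ⧸ R) = orderOf x := by
      refine Nat.dvd_antisymm (orderOf_map_dvd (QuotientGroup.mk' R) x) ?_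
      have hmem : x ^ orderOf (x : G ⧸ R) ∈ R := by
        rw [← QuotientGroup.eq_one_iff, QuotientGroup.mk_pow, pow_orderOf_eq_one]
      have h3 : orderOf x ∣ orderOf (x : G ⧸ R) * p ^ k := by
        refine orderOf_dvd_of_pow_eq_one ?_
        rw [pow_mul, ← hk]
        exact congrArg Subtype.val (pow_card_eq_one' (x := (⟨_, hmem⟩ : R)))
      exact (((hp.out.coprime_iff_not_dvd.2 hxr).pow_left k).symm).dvd_of_dvd_mul_right h3
    refine ⟨?_, by rw [h1, ← hxe, h2]⟩
    rw [Nat.card_zpowers, Subgroup.orderOf_mk, h1, ← hxe, h2]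
  obtain ⟨hcg, hig⟩ := key g hgT hg rfl
  obtain ⟨hch, -⟩ := key h hhT hh he.symm
  have hcop : (Nat.card R').Coprime R'.index := by
    rw [hcR, hig]
    exact (hp.out.coprime_iff_not_dvd.2 hg).pow_left k
  obtain ⟨r, -, hr⟩ := Core.exists_conj_eq_of_coprime hcop
    (Or.inl (by
      haveI : Group.IsNilpotent R' := (IsPGroup.of_card hcR).isNilpotent
      infer_instance)) hcg hch
  have hmem : r * ⟨g, hgT⟩ * r⁻¹ ∈ Subgroup.zpowers (⟨h, hhT⟩ : T) := by
    rw [← hr, Core.conj_smul_eq_map]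
    exact ⟨_, Subgroup.mem_zpowers _, rfl⟩
  have hgh : r * ⟨g, hgT⟩ * r⁻¹ = (⟨h, hhT⟩ : T) := by
    obtain ⟨i, hi⟩ := hmem
    have hi' : (⟨h, hhT⟩ : T) ^ i = r * ⟨g, hgT⟩ * r⁻¹ := hi
    -- modulo `R` the conjugation is trivial
    let f : T →* G ⧸ R := (QuotientGroup.mk' R).comp T.subtype
    have hf : f (⟨h, hhT⟩ : T) ^ i = f ⟨h, hhT⟩ := by
      rw [← map_zpow, hi', map_mul, map_mul, map_inv]
      have hcomm : Commute (f r) (f ⟨g, hgT⟩) := by
        obtain ⟨a, ha, z, hz, hrz⟩ : ∃ a ∈ R, ∃ z ∈ Subgroup.zpowers g, a * z = (r : G) :=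
          Subgroup.mem_sup_of_normal_left.1 r.2
        obtain ⟨j, rfl⟩ := hz
        show Commute ((r : G) : G ⧸ R) (g : G ⧸ R)
        rw [← hrz, QuotientGroup.mk_mul, (QuotientGroup.eq_one_iff a).2 ha, one_mul,
          QuotientGroup.mk_zpow]
        exact (Commute.refl _).zpow_left j
      rw [hcomm.eq, mul_inv_cancel_right]
      exact he
    have h4 : f ⟨h, hhT⟩ ^ (i - 1) = 1 := by
      rw [zpow_sub, hf, zpow_one, mul_inv_cancel]
    have h5 : (orderOf h : ℤ) ∣ i - 1 := by
      have h6 : orderOf (f ⟨h, hhT⟩) = orderOf h := by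
        obtain ⟨k', hk'⟩ := key h hhT hh he.symm
        obtain ⟨-, hg'⟩ := key g hgT hg rfl
        refine Nat.dvd_antisymm ?_ ?_
        · exact (orderOf_map_dvd f _).trans (by rw [Subgroup.orderOf_mk])
        · have hmem : h ^ orderOf (f ⟨h, hhT⟩) ∈ R := by
            rw [← QuotientGroup.eq_one_iff, QuotientGroup.mk_pow]
            exact pow_orderOf_eq_one _
          have h3 : orderOf h ∣ orderOf (f ⟨h, hhT⟩) * p ^ k := by
            refine orderOf_dvd_of_pow_eq_one ?_
            rw [pow_mul, ← hk]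
            exact congrArg Subtype.val (pow_card_eq_one' (x := (⟨_, hmem⟩ : R)))
          exact (((hp.out.coprime_iff_not_dvd.2 hh).pow_left k).symm).dvd_of_dvd_mul_right h3
      rw [← h6]
      exact orderOf_dvd_iff_zpow_eq_one.2 h4
    rw [← hi']
    apply Subtype.ext
    show h ^ i = h
    have h6 : h ^ (i - 1) = 1 := orderOf_dvd_iff_zpow_eq_one.1 h5
    rw [show i = i - 1 + 1 by ring, zpow_add, h6, one_mul, zpow_one]
  exact isConj_iff.2 ⟨(r : G), congrArg Subtype.val hgh⟩

/-- Either the `p'`-core is not central, or the group is a product of `O_p` and a suitable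
subgroup containing the central part of the `p'`-core. -/
theorem exists_supplement (hsolv : IsPSolvable p G)
    (hN : pPrimeCore p G ≤ Subgroup.center G) :
    ∃ L : Subgroup G, Z0 p G ≤ L ∧ (∀ g : G, ∃ r ∈ pCore p G, r * g ∈ L) ∧
      (L ≠ ⊤ ∨ L ⊓ pCore p G = ⊥) := by
  classical
  set R := pCore p G with hR
  have hRp : IsPGroup p R := Core.isPGroup_pCore p G
  set M := (pPrimeCore p (G ⧸ R)).comap (QuotientGroup.mk' R) with hM
  haveI : M.Normal := Subgroup.Normal.comap inferInstance _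
  have hRM : R ≤ M := fun x hx => Subgroup.mem_comap.2 (by
    rw [QuotientGroup.mk'_apply, (QuotientGroup.eq_one_iff x).2 hx]; exact one_mem _)
  haveI : (R.subgroupOf M).Normal := inferInstance
  have hidx : (R.subgroupOf M).index = Nat.card (pPrimeCore p (G ⧸ R)) := by
    show R.relIndex M = _
    have h1 : Nat.card M = Nat.card (pPrimeCore p (G ⧸ R)) * Nat.card R := by
      rw [hM, Core.card_comap_mk]
    have h2 := Core.card_mul_relIndex hRM
    rw [h1, mul_comm (Nat.card _) (Nat.card R)] at h2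
    exact Nat.eq_of_mul_eq_mul_left Nat.card_pos h2
  obtain ⟨k, hk⟩ := IsPGroup.iff_card.1 hRp
  have hpM : ¬ p ∣ (R.subgroupOf M).index := hidx ▸ Core.not_dvd_card_pPrimeCore p (G ⧸ R)
  have hcR : Nat.card (R.subgroupOf M) = p ^ k := by
    rw [Core.card_subgroupOf hRM, hk]
  have hcop : (Nat.card (R.subgroupOf M)).Coprime (R.subgroupOf M).index := by
    rw [hcR]; exact (hp.out.coprime_iff_not_dvd.2 hpM).pow_left k
  obtain ⟨N', hN'⟩ := Subgroup.exists_right_complement'_of_coprime hcop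
  set K := N'.map M.subtype with hK
  have hcardK : Nat.card K = (R.subgroupOf M).index := by
    rw [hK, Core.card_map_subtype, Core.card_eq_index_of_isComplement' hN']
  have hfrat : ∀ g : G, ∃ r ∈ R, r * g ∈ Subgroup.normalizer (K : Set G) := by
    intro g
    let cM : M ≃* M := MulAut.conjNormal g
    have hKcard : Nat.card (N'.map cM.toMonoidHom) = (R.subgroupOf M).index := by
      rw [Subgroup.card_map_of_injective (f := cM.toMonoidHom) cM.injective,
        Core.card_eq_index_of_isComplement' hN']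
    obtain ⟨m, hmR, hm⟩ := Core.exists_conj_eq_of_coprime hcop
      (Or.inl (by
        haveI : Group.IsNilpotent (R.subgroupOf M) := (IsPGroup.of_card hcR).isNilpotent
        infer_instance))
      hKcard (Core.card_eq_index_of_isComplement' hN')
    refine ⟨(m : G), Subgroup.mem_subgroupOf.1 hmR, ?_⟩
    rw [Subgroup.mem_normalizer_iff_map_conj_eq, hK, Subgroup.map_map]
    conv_rhs => rw [← hm, Core.conj_smul_eq_map, Subgroup.map_map, Subgroup.map_map]
    congr 1
    ext y
    show (m : G) * g * (y : G) * ((m : G) * g)⁻¹ = (m : G) * ((cM y : M) : G) * ((m : G))⁻¹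
    rw [MulAut.conjNormal_apply]
    group
  by_cases htop : Subgroup.normalizer (K : Set G) = ⊤
  swap
  · refine ⟨_, fun z hz => ?_, hfrat, Or.inl htop⟩
    exact Subgroup.center_le_normalizer _ hz.2
  -- `K` is normal, hence central
  haveI hKn : K.Normal := Subgroup.normalizer_eq_top_iff.1 htop
  have hKZ : K ≤ pPrimeCore p G := Core.le_pPrimeCore hKn
    ((hp.out.coprime_iff_not_dvd.2 (hcardK ▸ hpM)).symm)
  refine ⟨pPrimeCore p G, inf_le_left, fun g => ?_, Or.inr (by
    rw [inf_comm]; exact Core.pCore_inf_pPrimeCore p G)⟩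
  have hcen : pPrimeCore p (G ⧸ R) ≤ Subgroup.center (G ⧸ R) := by
    intro y hy
    obtain ⟨g, rfl⟩ := QuotientGroup.mk_surjective y
    obtain ⟨⟨⟨r, hr⟩, ⟨n, hn⟩⟩, hrn⟩ := hN'.surjective ⟨g, Subgroup.mem_comap.2 hy⟩
    have hrn' : (r : G) * (n : G) = g := congrArg Subtype.val hrn
    have hnc := hN (hKZ ⟨n, hn, rfl⟩)
    refine Subgroup.mem_center_iff.2 fun z => ?_
    obtain ⟨h, rfl⟩ := QuotientGroup.mk_surjective z
    rw [← hrn', QuotientGroup.mk_mul,
      (QuotientGroup.eq_one_iff (r : G)).2 (Subgroup.mem_subgroupOf.1 hr), one_mul,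
      ← QuotientGroup.mk_mul, ← QuotientGroup.mk_mul]
    exact congrArg _ (Subgroup.mem_center_iff.1 hnc h)
  have htop' : (g : G ⧸ R) ∈ pPrimeCore p (G ⧸ R) := by
    rw [Core.pPrimeCore_eq_piCore] at hcen ⊢
    refine Core.centralizer_piCore_le
      ((Core.isPiSeparable_compl (Core.isPiSeparable_of_isPSolvable hsolv)).quotient R) ?_ ?_
    · rw [compl_compl]
      show piCore {p} (G ⧸ pCore p G) = ⊥
      rw [← Core.pCore_eq_piCore]
      exact Core.pCore_quotient_pCore p G
    · rw [Subgroup.mem_centralizer_iff]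
      exact fun z hz => (Subgroup.mem_center_iff.1 (hcen hz) _).symm
  obtain ⟨⟨⟨r, hr⟩, ⟨n, hn⟩⟩, hrn⟩ := hN'.surjective ⟨g, Subgroup.mem_comap.2 htop'⟩
  have hrn' : (r : G) * (n : G) = g := congrArg Subtype.val hrn
  refine ⟨(r : G)⁻¹, R.inv_mem (Subgroup.mem_subgroupOf.1 hr), ?_⟩
  rw [← hrn', inv_mul_cancel_left]
  exact hKZ ⟨n, hn, rfl⟩

/-- The irreducible characters may be replaced on the regular elements by characters of the
quotient by `O_p`. -/
theorem exists_deflation : ∀ (m : ℕ) (G : Type u) [Group G] [Fintype G], mu p G = m →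
    IsPSolvable p G → ∀ χ : IrrCharacter G,
    ∃ β : G ⧸ pCore p G → ℂ, IsCharacter (G ⧸ pCore p G) β ∧
      ∀ g : G, ¬ p ∣ orderOf g → (χ : G → ℂ) g = β g := by
  intro m
  induction m using Nat.strong_induction_on with
  | _ m ih =>
  intro G _ _ hm hsolv χ
  classical
  -- reduce to a character trivial on the core
  suffices h : ∃ χ' : G → ℂ, IsCharacter G χ' ∧ (∀ x ∈ pCore p G, χ' x = χ' 1) ∧
      ∀ g : G, ¬ p ∣ orderOf g → (χ : G → ℂ) g = χ' g by
    obtain ⟨χ', hχ', htriv, heq⟩ := h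
    obtain ⟨β, hβ, hβe⟩ := exists_descend_char hχ' htriv
    exact ⟨β, hβ, fun g hg => (heq g hg).trans (hβe g).symm⟩
  have ihchar : ∀ (A : Type u) [Group A] [Fintype A], mu p A < m → IsPSolvable p A →
      ∀ ψ : A → ℂ, IsCharacter A ψ → ∃ ψ' : A → ℂ, IsCharacter A ψ' ∧
        (∀ x ∈ pCore p A, ∀ g, ψ' (g * x) = ψ' g) ∧
        ∀ g : A, ¬ p ∣ orderOf g → ψ g = ψ' g := by
    intro A _ _ hlt hA ψ hψ
    obtain ⟨c, hc, hsum⟩ := exists_eq_sum_nsmul hψ
    choose β hβ hβe using fun φ : IrrCharacter A => ih _ hlt A rfl hA φ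
    refine ⟨fun g => ∑ φ : IrrCharacter A, (c φ : ℂ) * β φ g, ?_, fun x hx g => ?_, fun g hg => ?_⟩
    · have := isCharacter_sum Finset.univ (fun φ : IrrCharacter A => c φ • fun g : A => β φ g)
        fun φ _ => isCharacter_nsmul (isCharacter_comp (hβ φ) (QuotientGroup.mk' (pCore p A))) _
      convert this using 1
      funext g
      rw [Finset.sum_apply]
      exact Finset.sum_congr rfl fun φ _ => by rw [Pi.smul_apply, nsmul_eq_mul]
    · refine Finset.sum_congr rfl fun φ _ => ?_
      rw [show ((g * x : A) : A ⧸ pCore p A) = (g : A ⧸ pCore p A) by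
        rw [QuotientGroup.mk_mul, (QuotientGroup.eq_one_iff x).2 hx, mul_one]]
    · rw [congrFun hsum g, Finset.sum_apply]
      exact Finset.sum_congr rfl fun φ _ => by rw [Pi.smul_apply, nsmul_eq_mul, hβe φ g hg]
  set R := pCore p G with hR
  set N := pPrimeCore p G with hN
  have hRp : IsPGroup p R := Core.isPGroup_pCore p G
  by_cases hcen : N ≤ Subgroup.center G
  · -- a supplement of the core
    obtain ⟨L, hZL, hcov, hL⟩ := exists_supplement hsolv hcen
    have hψ : ∃ ψ : L → ℂ, IsCharacter L ψ ∧ (∀ x ∈ R.subgroupOf L, ∀ g, ψ (g * x) = ψ g) ∧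
        ∀ l : L, ¬ p ∣ orderOf l → (χ : G → ℂ) l = ψ l := by
      rcases hL with hL | hL
      · obtain ⟨ψ, hψ, ht, he⟩ := ihchar L (hm ▸ mu_lt_of_subgroup hZL hL)
          (Core.isPSolvable_subgroup hsolv L) _ (isCharacter_restrict (irr_isCharacter χ) L)
        exact ⟨ψ, hψ, fun x hx => ht x (Core.le_pCore inferInstance hRp.comap_subtype hx), he⟩
      · refine ⟨_, isCharacter_restrict (irr_isCharacter χ) L, fun x hx g => ?_, fun _ _ => rfl⟩
        have : x = 1 := Subtype.ext (Subgroup.mem_bot.1 (hL ▸ Subgroup.mem_inf.2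
          ⟨x.2, Subgroup.mem_subgroupOf.1 hx⟩))
        rw [this, mul_one]
    obtain ⟨ψ, hψ, htriv, he⟩ := hψ
    let f : L →* G ⧸ R := (QuotientGroup.mk' R).comp L.subtype
    have hfs : Function.Surjective f := by
      intro y
      obtain ⟨g, rfl⟩ := QuotientGroup.mk_surjective y
      obtain ⟨r, hr, hrg⟩ := hcov g
      refine ⟨⟨r * g, hrg⟩, ?_⟩
      show ((r * g : G) : G ⧸ R) = g
      rw [QuotientGroup.mk_mul, (QuotientGroup.eq_one_iff r).2 hr, one_mul]
    obtain ⟨d, ρ, hρ⟩ := id hψ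
    have hker : f.ker ≤ (Representation.asGroupHom ρ).ker := by
      intro x hx
      rw [MonoidHom.mem_ker] at hx ⊢
      refine Units.ext ?_
      rw [Representation.asGroupHom_apply, Units.val_one]
      refine (rep_char_eq_finrank_iff ρ x).1 ?_
      rw [← Representation.char_one ρ, hρ]
      have := htriv x (Subgroup.mem_subgroupOf.2 ((QuotientGroup.eq_one_iff (x : G)).1 hx)) 1
      rwa [one_mul] at this
    choose s hs using hfs
    let σ : Representation ℂ (G ⧸ R) (Fin d → ℂ) := (Units.coeHom _).comp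
      (f.liftOfRightInverse s hs ⟨Representation.asGroupHom ρ, hker⟩)
    have hσ : ∀ l : L, σ.character (f l) = ψ l := fun l => by
      rw [← hρ]
      show LinearMap.trace ℂ _ (σ (f l)) = LinearMap.trace ℂ _ (ρ l)
      congr 1
      show ((f.liftOfRightInverse s hs ⟨Representation.asGroupHom ρ, hker⟩) (f l)).1 = _
      rw [MonoidHom.liftOfRightInverse_comp_apply]
      exact Representation.asGroupHom_apply ρ _
    refine ⟨fun g => σ.character (g : G ⧸ R),
      isCharacter_comp (isCharacter_of_rep σ) (QuotientGroup.mk' R), fun x hx => ?_, fun g hg => ?_⟩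
    · show σ.character (x : G ⧸ R) = σ.character ((1 : G) : G ⧸ R)
      rw [(QuotientGroup.eq_one_iff x).2 hx, QuotientGroup.mk_one]
    · obtain ⟨r, hr, hrg⟩ := hcov g
      have hfl : f ⟨r * g, hrg⟩ = (g : G ⧸ R) := by
        show ((r * g : G) : G ⧸ R) = g
        rw [QuotientGroup.mk_mul, (QuotientGroup.eq_one_iff r).2 hr, one_mul]
      obtain ⟨l, hl, hlmap⟩ := exists_regular_part (p := p) (⟨r * g, hrg⟩ : L)
      have hfl' : f l = (g : G ⧸ R) := by
        rw [hlmap f (by
          rw [hfl]; exact fun h => hg (h.trans (orderOf_map_dvd (QuotientGroup.mk' R) g))), hfl]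
      have hlG : ¬ p ∣ orderOf (l : G) := by rwa [Subgroup.orderOf_coe]
      obtain ⟨c, hc⟩ := isConj_iff.1 (isConj_of_coset hRp hlG hg hfl')
      show (χ : G → ℂ) g = σ.character (g : G ⧸ R)
      rw [← hfl', hσ, ← he l hl, ← hc, isCharacter_conj_apply (irr_isCharacter χ)]
  -- a non-central `p'`-core
  obtain ⟨θ, hθ⟩ := PrimePower.exists_constituent (irr_isCharacter χ) (irr_apply_one_ne_zero χ.2) N
  set T := Chars2.inertiaSub (θ : N → ℂ) with hT
  have hNT : N ≤ T := Chars2.le_inertiaSub (isClassFunction_irr θ)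
  have hRN : ∀ x ∈ R, ∀ n ∈ N, x * n = n * x := fun x hx n hn =>
    (Subgroup.mem_centralizer_iff.1 (Core.pCore_le_centralizer_pPrimeCore p G hx) n hn).symm
  have hRT : R ≤ T := fun x hx => by
    rw [hT, Chars2.mem_inertiaSub]
    funext n
    rw [Chars2.conjFun_apply]
    refine congrArg (θ : N → ℂ) (Subtype.ext ?_)
    show x⁻¹ * (n : G) * (x⁻¹)⁻¹ = n
    rw [hRN x⁻¹ (R.inv_mem hx) n n.2, mul_inv_cancel_right]
  by_cases hTtop : T = ⊤
  swap
  · obtain ⟨ψ, hψ, hind, -⟩ := Chars2.exists_correspondent hNT θ.2 hT χ.2 hθ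
    obtain ⟨ψ', hψ', ht, he⟩ := ihchar T
      (hm ▸ mu_lt_of_subgroup ((inf_le_left : Z0 p G ≤ N).trans hNT) hTtop)
      (Core.isPSolvable_subgroup hsolv T) ψ (isCharacter_of_isIrr hψ)
    refine ⟨indFun T ψ', isCharacter_indFun T hψ', fun x hx => ?_, fun g hg => ?_⟩
    · rw [indFun_apply, indFun_apply]
      congr 1
      refine Finset.sum_congr rfl fun y _ => ?_
      have hxy : y⁻¹ * x * y ∈ R := by
        have := (inferInstance : R.Normal).conj_mem x hx y⁻¹
        simpa using this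
      rw [mul_one, inv_mul_cancel, extendByZero_of_mem T _ (hRT hxy),
        extendByZero_of_mem T _ T.one_mem]
      have := ht ⟨_, hRT hxy⟩ (Core.le_pCore inferInstance hRp.comap_subtype
        (Subgroup.mem_subgroupOf.2 hxy) : _ ∈ pCore p T) 1
      rwa [one_mul] at this
    · rw [← hind, indFun_apply, indFun_apply]
      congr 1
      refine Finset.sum_congr rfl fun y _ => ?_
      by_cases hy : y⁻¹ * g * y ∈ T
      · rw [extendByZero_of_mem T _ hy, extendByZero_of_mem T _ hy]
        refine he _ ?_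
        rw [Subgroup.orderOf_mk]
        have h := ((SemiconjBy.conj_mk y⁻¹ g).orderOf_eq _).symm
        rw [inv_inv] at h
        rwa [h]
      · rw [extendByZero_eq_ite, extendByZero_eq_ite, dif_neg hy, dif_neg hy]
  obtain ⟨H, iHg, iHf, K, iKg, iKf, q, π, C, lam, rH, jD, hq, hπ, hCc, hpC, hCidx, hKs, hr1, hsing,
    hFwd, hBwd, -, -, -, hjn, hlift, -⟩ := PPrimeExt.exists_extension p N
      (Core.not_dvd_card_pPrimeCore p G) θ hTtop R hRN
  haveI : C.Normal := ⟨fun z hz g => by
    rwa [Subgroup.mem_center_iff.1 (hCc hz) g, mul_inv_cancel_right]⟩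
  obtain ⟨η, hη, hχη⟩ := hBwd χ hθ
  have hlt : mu p K < m := by
    refine lt_of_le_of_lt (mu_le hpC hCc) ?_
    rw [hCidx, ← hm]
    show N.index < (Z0 p G).index
    have hne : Z0 p G < N := lt_of_le_of_ne inf_le_left fun h => hcen (h ▸ inf_le_right)
    exact Subgroup.index_strictAnti hne
  obtain ⟨η', hη', ht, he⟩ := ihchar K hlt (hKs hsolv) η (irr_isCharacter η)
  obtain ⟨c, hc, hsum⟩ := exists_eq_sum_nsmul hη'
  have hover : ∀ φ : IrrCharacter K, c φ ≠ 0 →
      classInner (fun z : C => (φ : K → ℂ) z) (fun z => (lam z : ℂ)) ≠ 0 := by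
    intro φ hφ
    have hinv : Chars2.inertiaSub (fun z : C => (lam z : ℂ)) = ⊤ :=
      Chars2.inertiaSub_eq_top fun g z => by
        congr 2
        exact Subtype.ext (by
          show g * (z : K) * g⁻¹ = z
          rw [Subgroup.mem_center_iff.1 (hCc z.2) g, mul_inv_cancel_right])
    have hres : (fun z : C => η' z) = (η : K → ℂ) 1 • fun z : C => (lam z : ℂ) := by
      funext z
      rw [← he z (fun h => hpC (h.trans (Subgroup.orderOf_dvd_natCard _ z.2)))]
      have h1 := Chars2.clifford_invariant η.2 (isIrrCharacter_hom lam) hinv hη z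
      have h2 := Chars2.clifford_invariant η.2 (isIrrCharacter_hom lam) hinv hη 1
      change (η : K → ℂ) z = _ at h1
      change (η : K → ℂ) 1 = _ at h2
      rw [map_one, Units.val_one, mul_one] at h2
      rw [h1, ← h2]; rfl
    intro h0
    obtain ⟨ν, hν⟩ := PrimePower.exists_constituent (irr_isCharacter φ) (irr_apply_one_ne_zero φ.2) C
    have hνne : (ν : C → ℂ) ≠ fun z => (lam z : ℂ) := fun h => hν (h ▸ h0)
    have h1 : classInner (fun z : C => η' z) (ν : C → ℂ) = 0 := by
      rw [hres, classInner_smul_left,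
        classInner_irr_of_ne (isIrrCharacter_hom lam) ν.2 hνne.symm, mul_zero]
    rw [show (fun z : C => η' z) = ∑ φ : IrrCharacter K, (c φ : ℂ) • fun z : C => (φ : K → ℂ) z by
      funext z
      rw [congrFun hsum (z : K), Finset.sum_apply, Finset.sum_apply]
      exact Finset.sum_congr rfl fun φ _ => by rw [Pi.smul_apply, Pi.smul_apply, nsmul_eq_mul]; rfl,
      classInner_sum_left] at h1
    simp only [classInner_smul_left] at h1
    choose mm hmm using fun φ : IrrCharacter K =>
      exists_classInner_eq_nat (isCharacter_restrict (irr_isCharacter φ) C) (irr_isCharacter ν)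
    simp only [hmm] at h1
    have h2 : ∑ φ : IrrCharacter K, c φ * mm φ = 0 := by exact_mod_cast h1
    have h3 := Finset.sum_eq_zero_iff.1 h2 φ (Finset.mem_univ φ)
    exact hν (by rw [hmm, (Nat.mul_eq_zero.1 h3).resolve_left hφ, Nat.cast_zero])
  haveI : Nonempty (IrrCharacter G) := ⟨χ⟩
  choose! F hFθ hF using hFwd
  let S := Finset.univ.filter fun φ : IrrCharacter K => c φ ≠ 0
  let χ' : G → ℂ := ∑ φ ∈ S, c φ • (F φ : G → ℂ)
  have hχ'q : ∀ x : H, χ' (q x) = rH x * η' (π x) := by
    intro x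
    show (∑ φ ∈ S, c φ • (F φ : G → ℂ)) (q x) = _
    rw [Finset.sum_apply, congrFun hsum (π x), Finset.sum_apply, Finset.mul_sum,
      Finset.sum_filter]
    refine Finset.sum_congr rfl fun φ _ => ?_
    rw [Pi.smul_apply, nsmul_eq_mul]
    split_ifs with h0
    · rw [Pi.smul_apply, nsmul_eq_mul, hF φ (hover φ h0) x]; ring
    · push Not at h0; simp [h0]
  refine ⟨χ', isCharacter_sum _ _ fun φ _ => isCharacter_nsmul (irr_isCharacter _) _,
    fun x hx => ?_, fun g hg => ?_⟩
  · obtain ⟨x', hqx, hπx, hr⟩ := hlift ⟨x, hx⟩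
    have hjR : jD ⟨x, hx⟩ ∈ pCore p K :=
      Core.le_pCore hjn (hRp.of_surjective jD.rangeRestrict jD.rangeRestrict_surjective)
        ⟨_, rfl⟩
    rw [← show q x' = x from hqx, ← map_one q, hχ'q, hχ'q, hπx, map_one]
    have h1 := hr 1
    rw [one_mul] at h1
    have h2 := ht _ hjR 1
    rw [one_mul] at h2
    rw [h1, h2]
  · obtain ⟨x, rfl⟩ := hq g
    rw [hχη, hχ'q, he _ (fun h => hg ((hsing x).2 h))]

end Cfsg.Agent.Chars.PSolvableBlocks
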