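import Cfsg.Agent.Chars.Monomial
import Cfsg.Agent.Chars.GaloisValues
import Cfsg.Agent.Chars.PSolvableBlocks
import Cfsg.Agent.Chars2.InduceTower
import Cfsg.Agent.DegreeGraph.LinearTwist
import Cfsg.Agent.DegreeGraph.Values
import Cfsg.Agent.BlockChar.CharCount
import Cfsg.Agent.Coprime.Action

/-!
The order of a `p`-group with a faithful irreducible character is bounded in terms of the degree of
the character and the number of its algebraic conjugates.
-/

set_option autoImplicit false
set_option linter.style.haveILetI false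
set_option linter.unusedSectionVars false

open Cfsg Cfsg.Agent

namespace Cfsg.Agent.Chars.PGroupFieldBound

universe u

/-- The algebraic conjugates of a complex function. -/
def conjugates {X : Type u} (θ : X → ℂ) : Set (X → ℂ) :=
  Set.range fun σ : ℂ ≃+* ℂ => fun x => σ (θ x)

theorem finite_conjugates {G : Type u} [Group G] [Finite G] {χ : G → ℂ} (hχ : IsCharacter G χ) :
    (conjugates χ).Finite := by
  refine Set.Finite.subset (Set.finite_range fun k : Fin (Nat.card G) => fun g : G => χ (g ^ (k : ℕ))) ?_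
  rintro _ ⟨σ, rfl⟩
  obtain ⟨k, -, hk⟩ := exists_aut_apply (G := G) σ
  refine ⟨⟨k % Nat.card G, Nat.mod_lt _ Nat.card_pos⟩, funext fun g => ?_⟩
  simp only [hk χ hχ g, pow_mod_natCard]

theorem map_extendByZero {G : Type u} [Group G] (σ : ℂ ≃+* ℂ) (H : Subgroup G) (θ : H → ℂ) (x : G) :
    σ (extendByZero H θ x) = extendByZero H (fun h => σ (θ h)) x := by
  by_cases hx : x ∈ H
  · rw [extendByZero_of_mem _ _ hx, extendByZero_of_mem _ _ hx]
  · rw [extendByZero_of_not_mem _ _ hx, extendByZero_of_not_mem _ _ hx, map_zero]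

theorem map_indFun {G : Type u} [Group G] [Fintype G] (σ : ℂ ≃+* ℂ) (H : Subgroup G) (θ : H → ℂ) :
    (fun g => σ (indFun H θ g)) = indFun H (fun h => σ (θ h)) := by
  funext g
  simp only [indFun_apply, map_mul, map_inv₀, map_natCast, map_sum, map_extendByZero]

variable {G : Type u} [Group G] [Fintype G] {H : Subgroup G} [hH : H.Normal]

/-- At most `index` many conjugates of `θ` induce to one character. -/
theorem card_conjugates_le_mul {θ : H → ℂ} (hθ : IsIrrCharacter H θ)
    (hχ : IsIrrCharacter G (indFun H θ)) :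
    Nat.card (conjugates θ) ≤ H.index * Nat.card (conjugates (indFun H θ)) := by
  classical
  haveI : Fintype H := Fintype.ofFinite H
  have fB := finite_conjugates (isCharacter_of_isIrr hθ)
  have fA := finite_conjugates (isCharacter_of_isIrr hχ)
  rw [Nat.card_coe_set_eq, Nat.card_coe_set_eq, Set.ncard_eq_toFinset_card _ fB,
    Set.ncard_eq_toFinset_card _ fA]
  refine le_trans (Finset.card_le_mul_card_image (f := fun β : H → ℂ => indFun H β) fB.toFinset H.index
    fun a _ => ?_) (Nat.mul_le_mul_left _ (Finset.card_le_card ?_))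
  · rcases Finset.eq_empty_or_nonempty (fB.toFinset.filter fun β => indFun H β = a) with he | ⟨β0, hβ0⟩
    · simp [he]
    obtain ⟨hb0, he0⟩ := Finset.mem_filter.mp hβ0
    obtain ⟨σ0, rfl⟩ := fB.mem_toFinset.mp hb0
    have hi0 := OddChar.isIrrCharacter_map σ0 hθ
    have ha : IsIrrCharacter G a := by
      rw [← he0, ← map_indFun]
      exact OddChar.isIrrCharacter_map σ0 hχ
    have hcon : ∀ β : H → ℂ, indFun H β = a → classInner (fun n : H => a n) β ≠ 0 := by
      intro β hβ
      rw [← classInner_indFun_right H β (isClassFunction_of_isCharacter (isCharacter_of_isIrr ha)), hβ,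
        classInner_self_irr ha]
      exact one_ne_zero
    refine le_trans (Finset.card_le_card (t := (Chars2.orbitFinset hi0).image Subtype.val) ?_) ?_
    · intro β hβ
      obtain ⟨hb, he⟩ := Finset.mem_filter.mp hβ
      obtain ⟨σ, rfl⟩ := fB.mem_toFinset.mp hb
      have hi := OddChar.isIrrCharacter_map σ hθ
      obtain ⟨g, hg⟩ := Chars2.clifford_constituent ha hi0 (hcon _ he0) hi (hcon _ he)
      exact Finset.mem_image.mpr ⟨⟨_, hi⟩, (Chars2.mem_orbitFinset hi0).mpr ⟨g, hg.symm⟩, rfl⟩
    · refine Finset.card_image_le.trans ?_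
      rw [Chars2.card_orbitFinset]
      exact Nat.le_of_dvd (Nat.pos_of_ne_zero Subgroup.index_ne_zero_of_finite)
        (Subgroup.index_dvd_of_le (Chars2.le_inertiaSub (isClassFunction_irr ⟨_, hi0⟩)))
  · intro a ha
    obtain ⟨β, hβ, rfl⟩ := Finset.mem_image.mp ha
    obtain ⟨σ, rfl⟩ := fB.mem_toFinset.mp hβ
    exact fA.mem_toFinset.mpr ⟨σ, map_indFun σ H θ⟩

omit hH in
theorem card_conjugates_le_of_fixed {θ : H → ℂ} (hχ : IsCharacter G (indFun H θ))
    (hfix : ∀ σ : ℂ ≃+* ℂ, (fun g => σ (indFun H θ g)) = indFun H θ → (fun h => σ (θ h)) = θ) :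
    Nat.card (conjugates θ) ≤ Nat.card (conjugates (indFun H θ)) := by
  haveI := (finite_conjugates hχ).to_subtype
  refine Nat.card_le_card_of_injective (fun β => (⟨indFun H β.1, by
    obtain ⟨σ, hσ⟩ := β.2
    exact ⟨σ, by rw [← hσ]; exact map_indFun σ H θ⟩⟩ : conjugates (indFun H θ))) ?_
  rintro ⟨_, σ, rfl⟩ ⟨_, τ, rfl⟩ h
  have h1 : indFun H (fun x => σ (θ x)) = indFun H (fun x => τ (θ x)) := congrArg Subtype.val h
  rw [← map_indFun, ← map_indFun] at h1
  have h2 := hfix (σ.trans τ.symm) (funext fun g => by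
    change τ.symm (σ (indFun H θ g)) = indFun H θ g
    rw [congrFun h1 g, RingEquiv.symm_apply_apply])
  refine Subtype.ext (funext fun x => ?_)
  have h3 : τ.symm (σ (θ x)) = θ x := congrFun h2 x
  change σ (θ x) = τ (θ x)
  conv_rhs => rw [← h3]
  rw [RingEquiv.apply_symm_apply]

omit [Fintype G] hH in
theorem card_conjugates_comp {X : Type u} {Y : Type u} (f : X → Y) (hf : Function.Surjective f)
    (β : Y → ℂ) [Finite (conjugates (β ∘ f))] :
    Nat.card (conjugates β) ≤ Nat.card (conjugates (β ∘ f)) := by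
  refine Nat.card_le_card_of_injective (fun b => (⟨b.1 ∘ f, by
    obtain ⟨σ, hσ⟩ := b.2
    exact ⟨σ, by rw [← hσ]; rfl⟩⟩ : conjugates (β ∘ f))) ?_
  intro a b h
  exact Subtype.ext (hf.injective_comp_right (congrArg Subtype.val h))

theorem arith_step {p a' f' t : ℕ} (hp : 2 ≤ p) (hf : 0 < f')
    (h : (p - 1) * a' ≤ (f' - 1) + (p - 1) * (t + 1) * f') :
    (p - 1) * (1 + p * a') ≤ (p * f' - 1) + (p - 1) * (t + 1) * (p * f') := by
  obtain ⟨q, rfl⟩ : ∃ q, p = q + 1 := ⟨p - 1, by omega⟩
  obtain ⟨e, rfl⟩ : ∃ e, f' = e + 1 := ⟨f' - 1, by omega⟩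
  simp only [Nat.add_sub_cancel] at h ⊢
  have h2 : (q + 1) * (e + 1) - 1 = q + (q + 1) * e := by rw [Nat.mul_succ]; omega
  rw [h2]
  nlinarith [Nat.mul_le_mul_left (q + 1) h]

theorem arith_move {p a f' t : ℕ} (hp : 2 ≤ p) (hf : 0 < f')
    (h : (p - 1) * a ≤ (f' - 1) + (p - 1) * ((t + 1) + 1) * f') :
    (p - 1) * (a + 1) ≤ (p * f' - 1) + (p - 1) * (t + 1) * (p * f') := by
  obtain ⟨q, rfl⟩ : ∃ q, p = q + 1 := ⟨p - 1, by omega⟩
  obtain ⟨e, rfl⟩ : ∃ e, f' = e + 1 := ⟨f' - 1, by omega⟩
  simp only [Nat.add_sub_cancel] at h ⊢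
  have h2 : (q + 1) * (e + 1) - 1 = q + (q + 1) * e := by rw [Nat.mul_succ]; omega
  rw [h2]
  have hq : 1 ≤ q := by omega
  nlinarith [Nat.mul_le_mul_right ((q * (t + 1)) * (e + 1)) hq, Nat.zero_le (q * e),
    Nat.zero_le (q * t * (q - 1) * (e + 1))]

theorem le_normalizer_map {P : Type u} [Group P] [Finite P] {H : Subgroup P} (L : Subgroup H) [hL : L.Normal] :
    H ≤ Subgroup.normalizer (L.map H.subtype : Set P) := by
  intro x hx
  refine Cfsg.Agent.Coprime.mem_normalizer_of_conj_mem ?_
  intro y hy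
  obtain ⟨m, hm, rfl⟩ := Subgroup.mem_map.mp hy
  exact Subgroup.mem_map.mpr ⟨⟨x, hx⟩ * m * ⟨x, hx⟩⁻¹, hL.conj_mem m hm _, rfl⟩

/-- The kernel of an inducing character contains no nontrivial normal subgroup. -/
theorem eq_one_of_forall_conj {P : Type u} [Group P] [Fintype P] {H : Subgroup P} [hH : H.Normal]
    {θ : H → ℂ} (hfaith : ∀ g, indFun H θ g = indFun H θ 1 → g = 1) {n : H}
    (h : ∀ x : P, θ ⟨x⁻¹ * n * x, hH.conj_mem' n n.2 x⟩ = θ 1) : n = 1 := by
  refine Subtype.ext (hfaith n ?_)
  have h1 := indFun_coe_normal H θ n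
  simp only [h, Finset.sum_const, Finset.card_univ, nsmul_eq_mul] at h1
  rw [h1, indFun_apply_one, ← Nat.card_eq_fintype_card, ← H.card_mul_index, Nat.cast_mul,
    ← mul_assoc, ← mul_assoc, inv_mul_cancel₀ (subgroup_card_ne_zero H), one_mul]

theorem linear_case {P : Type u} [Group P] [Finite P] {p : ℕ} [hp : Fact p.Prime] {a : ℕ}
    (hP : Nat.card P = p ^ a) (ha : 0 < a) (φ : P →* ℂˣ) (hφ : Function.Injective φ) {t : ℕ}
    (hB : Nat.card (conjugates fun g => (φ g : ℂ)) ≤ (p - 1) * p ^ t) : a ≤ t + 1 := by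
  haveI : Fintype P := Fintype.ofFinite P
  let ψ : P →* ℂ := (Units.coeHom ℂ).comp φ
  have hψ : Function.Injective ψ := fun x y h => hφ (Units.ext h)
  haveI : IsCyclic P := isCyclic_of_subgroup_isDomain ψ hψ
  obtain ⟨g, hg⟩ := IsCyclic.exists_generator (α := P)
  have hog : orderOf g = Nat.card P := orderOf_eq_card_of_forall_mem_zpowers hg
  have hirr := isIrrCharacter_hom φ
  have hch := isCharacter_of_isIrr hirr
  haveI := (finite_conjugates hch).to_subtype
  let K := {k : Fin (Nat.card P) // (k : ℕ).Coprime (Nat.card P)}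
  have hK : Nat.card K = (Nat.card P).totient := by
    rw [Nat.card_eq_fintype_card, Fintype.card_subtype, Nat.totient]
    refine Finset.card_bij (fun k _ => (k : ℕ)) (fun k hk => ?_) (fun a _ b _ h => Fin.ext h) ?_
    · simp only [Finset.mem_filter, Finset.mem_range, Finset.mem_univ, true_and] at hk ⊢
      exact ⟨k.2, hk.symm⟩
    · intro b hb
      simp only [Finset.mem_filter, Finset.mem_range] at hb
      exact ⟨⟨b, hb.1⟩, Finset.mem_filter.mpr ⟨Finset.mem_univ _, hb.2.symm⟩, rfl⟩
  choose σ hσ using fun k : K => exists_aut_of_coprime (G := P) k.2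
  have hle : Nat.card K ≤ Nat.card (conjugates fun g => (φ g : ℂ)) := by
    refine Nat.card_le_card_of_injective
      (fun k => ⟨fun x => σ k (φ x : ℂ), ⟨σ k, rfl⟩⟩) fun k l h => ?_
    have h1 : σ k (φ g : ℂ) = σ l (φ g : ℂ) := congrFun (congrArg Subtype.val h) g
    rw [hσ k _ hch g, hσ l _ hch g] at h1
    have h2 : g ^ (k.1 : ℕ) = g ^ (l.1 : ℕ) := hφ (Units.ext h1)
    have hk := k.1.2
    have hl := l.1.2
    exact Subtype.ext (Fin.ext (pow_injOn_Iio_orderOf (by rw [Set.mem_Iio, hog]; exact hk)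
      (by rw [Set.mem_Iio, hog]; exact hl) h2))
  rw [hK, hP, Nat.totient_prime_pow hp.out ha, mul_comm] at hle
  have h3 := Nat.le_of_mul_le_mul_left (hle.trans hB) (by have := hp.out.two_le; omega)
  have := (Nat.pow_le_pow_iff_right hp.out.one_lt).mp h3
  omega

/-- The bound, by induction on the order. -/
theorem bound {p : ℕ} [hp : Fact p.Prime] : ∀ (a : ℕ) (P : Type u) [Group P] [Finite P]
    (χ : P → ℂ), Nat.card P = p ^ a → 0 < a → IsIrrCharacter P χ → (∀ g, χ g = χ 1 → g = 1) →
    ∀ f t : ℕ, χ 1 = f → Nat.card (conjugates χ) ≤ (p - 1) * p ^ t →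
      (p - 1) * a ≤ (f - 1) + (p - 1) * (t + 1) * f := by
  intro a
  induction a using Nat.strong_induction_on with
  | _ a ih =>
  intro P _ _ χ hP ha hirr hfaith f t hf hB
  classical
  haveI : Fintype P := Fintype.ofFinite P
  have hpg : IsPGroup p P := IsPGroup.of_card hP
  haveI := hpg.isNilpotent
  have hch := isCharacter_of_isIrr hirr
  obtain ⟨K, lam, hχ⟩ := monomial_of_nilpotent hirr
  haveI : Fintype K := Fintype.ofFinite K
  by_cases hK : K = ⊤
  · have hf1 : f = 1 := by
      have h1 : χ 1 = 1 := by rw [hχ, indFun_apply_one, Subgroup.index_eq_one.mpr hK]; simp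
      rw [hf] at h1
      exact_mod_cast h1
    subst hf1
    obtain ⟨φ, hφ⟩ := exists_hom_of_degree_one hch (by rw [hf]; simp)
    have hinj : Function.Injective φ := (injective_iff_map_eq_one φ).mpr fun g hg =>
      hfaith g (by rw [hφ]; simp [hg])
    rw [hφ] at hB
    have := linear_case hP ha φ hinj hB
    rw [Nat.sub_self, zero_add, mul_one]
    exact Nat.mul_le_mul_left _ this
  obtain ⟨H, hHc, hKH⟩ : ∃ H : Subgroup P, IsCoatom H ∧ K ≤ H :=
    (eq_top_or_exists_le_coatom K).resolve_left hK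
  haveI hHn : H.Normal := Subgroup.NormalizerCondition.normal_of_coatom H
    Group.normalizerCondition_of_isNilpotent hHc
  have hidx : H.index = p := by
    obtain ⟨n, hn⟩ := (hpg.to_subgroup H).exists_card_eq
    have hna : n < a := by
      have h1 : Nat.card H < Nat.card P := lt_of_le_of_ne (Subgroup.card_le_card_group H)
        fun h => hHc.1 (Subgroup.eq_top_of_card_eq H h)
      rw [hn, hP] at h1
      exact (Nat.pow_lt_pow_iff_right hp.out.one_lt).mp h1
    obtain ⟨M, hM, hHM⟩ := Sylow.exists_subgroup_card_pow_succ (G := P) (p := p) (n := n)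
      (hP ▸ pow_dvd_pow p hna) hn
    have hMtop : M = ⊤ := hHc.2 M (lt_of_le_of_ne hHM fun h => by
      rw [← h, hn] at hM
      exact (Nat.pow_lt_pow_right hp.out.one_lt (Nat.lt_succ_self n)).ne hM)
    rw [hMtop, Subgroup.card_top] at hM
    have h := H.card_mul_index
    rw [hn, hM, pow_succ] at h
    exact Nat.eq_of_mul_eq_mul_left (pow_pos hp.out.pos n) h
  haveI : Fintype H := Fintype.ofFinite H
  set θ : H → ℂ := indFun (K.subgroupOf H)
    (fun x => (lam ⟨(x : H), Subgroup.mem_subgroupOf.mp x.2⟩ : ℂ)) with hθdef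
  have hθχ : indFun H θ = χ := by rw [hθdef, indFun_trans K H hKH (fun k => (lam k : ℂ)), hχ]
  have hθc : IsCharacter H θ := by
    refine isCharacter_indFun _ (isCharacter_of_isIrr ?_)
    exact isIrrCharacter_hom (lam.comp
      ({ toFun := fun x => ⟨((x : H) : P), Subgroup.mem_subgroupOf.mp x.2⟩, map_one' := rfl,
         map_mul' := fun _ _ => rfl } : ↥(K.subgroupOf H) →* K))
  have hθi : IsIrrCharacter H θ := Chars2.irr_of_indFun_irr H hθc (hθχ.symm ▸ hirr)
  obtain ⟨f', hf'0, hf'⟩ := exists_irr_apply_one_eq hθi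
  have hff : f = p * f' := by
    have h1 : (f : ℂ) = (p : ℂ) * f' := by rw [← hf, ← hθχ, indFun_apply_one, hidx, hf']
    exact_mod_cast h1
  have hcardH : Nat.card H = p ^ (a - 1) := by
    have h := H.card_mul_index
    rw [hidx, hP] at h
    apply Nat.eq_of_mul_eq_mul_right hp.out.pos
    rw [h, ← pow_succ]
    congr 1
    omega
  have hfaith' : ∀ g, indFun H θ g = indFun H θ 1 → g = 1 := by rw [hθχ]; exact hfaith
  haveI := (finite_conjugates hθc).to_subtype
  obtain ⟨L, hLn, hL⟩ : ∃ L : Subgroup H, L.Normal ∧ ∀ x, x ∈ L ↔ θ x = θ 1 :=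
    ⟨charKer hθc, charKer_normal hθc, fun x => Iff.rfl⟩
  haveI := hLn
  by_cases hmove : ∃ σ : ℂ ≃+* ℂ, (fun g => σ (χ g)) = χ ∧ (fun h => σ (θ h)) ≠ θ
  · obtain ⟨σ, hσχ, hσθ⟩ := hmove
    have hσi := OddChar.isIrrCharacter_map σ hθi
    have hcon : ∀ β : H → ℂ, indFun H β = χ → classInner (fun n : H => χ n) β ≠ 0 := by
      intro β hβ
      rw [← classInner_indFun_right H β (isClassFunction_of_isCharacter hch), hβ,
        classInner_self_irr hirr]
      exact one_ne_zero
    obtain ⟨g, hg⟩ := Chars2.clifford_constituent hirr hθi (hcon θ hθχ) hσi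
      (hcon _ (by rw [← map_indFun, hθχ]; exact hσχ))
    have hgH : g ∉ H := fun h => hσθ (hg.trans
      (Chars2.mem_inertiaSub.mp (Chars2.le_inertiaSub (isClassFunction_of_isCharacter hθc) h)))
    set N := L.map H.subtype with hNdef
    have hgN : ∀ n ∈ N, g⁻¹ * n * g ∈ N := by
      intro _ hy
      obtain ⟨n, hn, rfl⟩ := Subgroup.mem_map.mp hy
      refine Subgroup.mem_map.mpr ⟨⟨g⁻¹ * n * g, hHn.conj_mem' _ n.2 g⟩, ?_, rfl⟩
      rw [hL]
      have hn' : θ n = θ 1 := (hL n).mp hn
      have h1 := congrFun hg n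
      have h2 := congrFun hg 1
      rw [Chars2.conjFun_apply] at h1 h2
      simp only [hn'] at h1
      simp only [inv_inv] at h1 h2
      have e1 : (⟨g⁻¹ * ((1 : H) : P) * g, hHn.conj_mem' _ (1 : H).2 g⟩ : H) = 1 := Subtype.ext (by simp)
      calc θ ⟨g⁻¹ * n * g, hHn.conj_mem' _ n.2 g⟩ = σ (θ 1) := h1.symm
        _ = θ ⟨g⁻¹ * ((1 : H) : P) * g, hHn.conj_mem' _ (1 : H).2 g⟩ := h2
        _ = θ 1 := by rw [e1]
    have hgn : g⁻¹ ∈ Subgroup.normalizer (N : Set P) := Cfsg.Agent.Coprime.mem_normalizer_of_conj_mem fun y hy => by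
      rw [inv_inv]; exact hgN y hy
    have hHN : H ≤ Subgroup.normalizer (N : Set P) := le_normalizer_map L
    have htop : Subgroup.normalizer (N : Set P) = ⊤ :=
      hHc.2 _ (lt_of_le_of_ne hHN fun h => hgH (by rw [h]; simpa using inv_mem hgn))
    have hθf : ∀ n : H, θ n = θ 1 → n = 1 := fun n hn => by
      refine eq_one_of_forall_conj hfaith' fun x => ?_
      have hnN : (n : P) ∈ N := Subgroup.mem_map.mpr ⟨n, (hL n).mpr hn, rfl⟩
      have hx : x⁻¹ ∈ Subgroup.normalizer (N : Set P) := htop ▸ Subgroup.mem_top _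
      obtain ⟨m, hm, he⟩ := Subgroup.mem_map.mp ((Subgroup.mem_normalizer_iff.mp hx n).mp hnN)
      rw [show (⟨x⁻¹ * n * x, hHn.conj_mem' _ n.2 x⟩ : H) = m from Subtype.ext (by
        change x⁻¹ * (n : P) * x = (m : P)
        rw [show (m : P) = x⁻¹ * n * x⁻¹⁻¹ from he, inv_inv])]
      exact (hL m).mp hm
    have ha1 : 0 < a - 1 := by
      by_contra h0
      push Not at h0
      have h1 : Nat.card H = 1 := by rw [hcardH, Nat.le_zero.mp h0, pow_zero]
      haveI := (Nat.card_eq_one_iff_unique.mp h1).1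
      refine hσθ (funext fun n => ?_)
      rw [Subsingleton.elim n 1, hf', map_natCast]
    have hB' : Nat.card (conjugates θ) ≤ (p - 1) * p ^ (t + 1) := by
      refine (card_conjugates_le_mul hθi (hθχ.symm ▸ hirr)).trans ?_
      rw [hθχ, hidx, pow_succ, ← mul_assoc, mul_comm ((p - 1) * p ^ t) p]
      exact Nat.mul_le_mul_left _ hB
    have h := ih (a - 1) (by omega) H θ hcardH ha1 hθi hθf f' (t + 1) hf' hB'
    have h2 := arith_move hp.out.two_le hf'0 h
    rw [hff]
    rwa [Nat.sub_add_cancel ha] at h2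
  · push Not at hmove
    have hB' : Nat.card (conjugates θ) ≤ (p - 1) * p ^ t := by
      refine (card_conjugates_le_of_fixed (hθχ.symm ▸ hch) fun σ hσ => ?_).trans (hθχ.symm ▸ hB)
      exact hmove σ (by rw [← hθχ]; exact hσ)
    obtain ⟨β, hβc, hβ⟩ := PSolvableBlocks.exists_descend_char hθc (R := L) (fun x hx => (hL x).mp hx)
    have hβi : IsIrrCharacter (H ⧸ L) β := by
      refine DegreeGraph.isIrrCharacter_of_comp (QuotientGroup.mk' L) hβc ?_
      have e : (fun n : H => β (QuotientGroup.mk' L n)) = θ := funext hβ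
      rw [e]; exact hθi
    have hβf : ∀ q : H ⧸ L, β q = β 1 → q = 1 := by
      intro q hq
      obtain ⟨n, rfl⟩ := QuotientGroup.mk'_surjective L q
      refine (QuotientGroup.eq_one_iff n).mpr ((hL n).mpr ?_)
      rw [← hβ n, ← hβ 1]
      exact hq
    obtain ⟨a', ha'⟩ := ((hpg.to_subgroup H).to_quotient L).exists_card_eq
    obtain ⟨g, hg⟩ : ∃ g : P, g ∉ H := by
      by_contra h
      push Not at h
      exact hHc.1 (eq_top_iff.mpr fun x _ => h x)
    have hcard : a - 1 ≤ p * a' := by
      let Φ : H →* (Fin p → H ⧸ L) := MonoidHom.pi fun i =>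
        (QuotientGroup.mk' L).comp (MulAut.conjNormal (g ^ (i : ℕ))).toMonoidHom
      have hΦ : Function.Injective Φ := by
        rw [injective_iff_map_eq_one]
        intro n hn
        have hq : Nat.card (P ⧸ H) = p := by rw [← Subgroup.index_eq_card, hidx]
        haveI : Fact (Nat.card (P ⧸ H)).Prime := ⟨hq.symm ▸ hp.out⟩
        have hterm : ∀ x : P, θ ⟨x * n * x⁻¹, hHn.conj_mem _ n.2 x⟩ = θ 1 := by
          intro x
          have hx : QuotientGroup.mk' H x ∈ Subgroup.zpowers (QuotientGroup.mk' H g) := by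
            have hz : Subgroup.zpowers (QuotientGroup.mk' H g) = ⊤ :=
              zpowers_eq_top_of_prime_card (p := p) hq (fun h => hg ((QuotientGroup.eq_one_iff g).mp h))
            rw [hz]
            exact Subgroup.mem_top _
          obtain ⟨k, hk⟩ := mem_powers_iff_mem_zpowers.mpr hx
          have hk' : QuotientGroup.mk' H x = QuotientGroup.mk' H (g ^ (k % p)) := by
            rw [map_pow, ← hk]
            refine (pow_eq_pow_iff_modEq.mpr ?_)
            have : orderOf (QuotientGroup.mk' H g) ∣ p := hq ▸ orderOf_dvd_natCard _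
            exact ((Nat.mod_modEq k p).symm.of_dvd this)
          have hxk : x * (g ^ (k % p))⁻¹ ∈ H := by
            rw [← QuotientGroup.eq_one_iff]
            change QuotientGroup.mk' H _ = 1
            rw [map_mul, map_inv, hk', mul_inv_cancel]
          set h : H := ⟨x * (g ^ (k % p))⁻¹, hxk⟩
          have hm := congrFun hn ⟨k % p, Nat.mod_lt _ hp.out.pos⟩
          have hm' : (MulAut.conjNormal (g ^ (k % p)) n : H) ∈ L := (QuotientGroup.eq_one_iff _).mp hm
          have hm2 := hLn.conj_mem _ hm' h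
          have e : h * (MulAut.conjNormal (g ^ (k % p)) n : H) * h⁻¹ =
              ⟨x * n * x⁻¹, hHn.conj_mem _ n.2 x⟩ := Subtype.ext (by
            simp only [Subgroup.coe_mul, Subgroup.coe_inv, MulAut.conjNormal_apply, h]
            group)
          rw [e] at hm2
          exact (hL _).mp hm2
        exact eq_one_of_forall_conj hfaith' fun x => by simpa using hterm x⁻¹
      have h := Nat.card_le_card_of_injective Φ hΦ
      rw [hcardH, Nat.card_fun, Nat.card_fin, ha', ← pow_mul, mul_comm a'] at h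
      exact (Nat.pow_le_pow_iff_right hp.out.one_lt).mp h
    have key : (p - 1) * a ≤ (p - 1) * (1 + p * a') := Nat.mul_le_mul_left _ (by omega)
    rcases Nat.eq_zero_or_pos a' with h0 | hpos
    · have h1 : (p - 1) * a ≤ p - 1 := by
        subst h0
        simpa using key
      have h2 : p ≤ f := hff ▸ Nat.le_mul_of_pos_right p hf'0
      exact h1.trans (le_trans (by omega) (Nat.le_add_right _ _))
    · have hlt : a' < a := by
        have h1 : p ^ a' ∣ p ^ (a - 1) := by rw [← ha', ← hcardH]; exact L.card_quotient_dvd_card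
        have := (Nat.pow_dvd_pow_iff_le_right hp.out.one_lt).mp h1
        omega
      haveI : Finite (conjugates (β ∘ QuotientGroup.mk' L)) := by
        rw [show β ∘ QuotientGroup.mk' L = θ from funext hβ]; infer_instance
      have hB'' : Nat.card (conjugates β) ≤ (p - 1) * p ^ t := by
        refine (card_conjugates_comp _ (QuotientGroup.mk'_surjective L) β).trans ?_
        rw [show β ∘ QuotientGroup.mk' L = θ from funext hβ]; exact hB'
      have h := ih a' hlt (H ⧸ L) β ha' hpos hβi hβf f' t (by rw [← hf', ← hβ 1]; rfl) hB''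
      rw [hff]
      exact key.trans (arith_step hp.out.two_le hf'0 h)

/-- The number of conjugates is at most the degree of the field of values. -/
theorem card_conjugates_le_finrank {P : Type u} [Group P] [Finite P] {χ : P → ℂ} (hχ : IsCharacter P χ) :
    Nat.card (conjugates χ) ≤ Module.finrank ℚ (IntermediateField.adjoin ℚ (Set.range χ)) := by
  set L := IntermediateField.adjoin ℚ (Set.range χ)
  have hle : L ≤ DegreeGraph.fieldG P := by
    rw [IntermediateField.adjoin_le_iff]
    rintro _ ⟨g, rfl⟩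
    exact DegreeGraph.value_mem hχ g
  haveI : FiniteDimensional ℚ (DegreeGraph.fieldG P) := DegreeGraph.finiteDimensional_fieldG
  haveI : FiniteDimensional ℚ L :=
    FiniteDimensional.of_injective (IntermediateField.inclusion hle).toLinearMap
      (IntermediateField.inclusion hle).injective
  haveI := (finite_conjugates hχ).to_subtype
  rw [← AlgHom.card ℚ L ℂ, ← Nat.card_eq_fintype_card]
  have hmem : ∀ c : conjugates χ, ∃ σ : ℂ ≃+* ℂ, (fun x => σ (χ x)) = (c : P → ℂ) := fun c => c.2
  choose σ hσ using hmem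
  refine Nat.card_le_card_of_injective (fun c => ((σ c).toRingHom.toRatAlgHom).comp L.val) ?_
  intro c d h
  refine Subtype.ext ?_
  rw [← hσ c, ← hσ d]
  funext x
  exact congrFun (congrArg DFunLike.coe h) ⟨χ x, IntermediateField.subset_adjoin ℚ _ ⟨x, rfl⟩⟩

end Cfsg.Agent.Chars.PGroupFieldBound
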