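import Cfsg.Agent.Chars.CentralLift
import Cfsg.Agent.Chars2.Intertwiner
import Cfsg.Agent.Chars2.Linear
import Cfsg.Agent.Chars2.FongVanish
import Cfsg.Agent.Core.PiSeparable

/-!
The central extension of `G ⧸ N`, with a central kernel of order prime to `p`, attached to an
invariant irreducible character of a normal subgroup `N` of order prime to `p`.
-/

set_option autoImplicit false
set_option linter.style.haveILetI false
set_option linter.unusedSectionVars false

open Cfsg Cfsg.Agent Cfsg.Agent.Chars2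
open scoped ComplexConjugate

namespace Cfsg.Agent.Chars.PPrimeExt

universe u

variable {G : Type u} [Group G] [Fintype G]

noncomputable local instance (priority := high) fintypeSub {A : Type*} [Group A] [Finite A]
    (K : Subgroup A) : Fintype K :=
  Fintype.ofFinite _

theorem dvd_orderOf_iff_of_ker {A B : Type*} [Group A] [Finite A] [Group B] (f : A →* B) {p : ℕ}
    [hp : Fact p.Prime] (h : ¬ p ∣ Nat.card f.ker) (x : A) :
    p ∣ orderOf x ↔ p ∣ orderOf (f x) := by
  constructor
  · intro hx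
    have h1 : orderOf x ∣ orderOf (f x) * Nat.card f.ker := by
      refine orderOf_dvd_of_pow_eq_one ?_
      have hmem : x ^ orderOf (f x) ∈ f.ker := by
        rw [MonoidHom.mem_ker, map_pow, pow_orderOf_eq_one]
      have := congrArg Subtype.val (pow_card_eq_one' (x := (⟨_, hmem⟩ : f.ker)))
      rw [pow_mul]
      simpa using this
    exact ((hp.out.dvd_mul).1 (hx.trans h1)).resolve_right h
  · exact fun hx => hx.trans (orderOf_map_dvd f x)

open Classical in
/-- The squares of the degrees over an invariant irreducible character. -/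
theorem sum_sq_over {A : Type*} [Group A] [Fintype A] (N : Subgroup A) [N.Normal] {θ : N → ℂ}
    (hθ : IsIrrCharacter N θ) (hinv : inertiaSub θ = ⊤) :
    ∑ φ ∈ Finset.univ.filter (fun φ : IrrCharacter A =>
      classInner (fun n : N => (φ : A → ℂ) n) θ ≠ 0), (φ : A → ℂ) 1 ^ 2 =
      (N.index : ℂ) * θ 1 ^ 2 := by
  have h := congrFun (eq_sum_classInner (isClassFunction_indFun N θ)) 1
  rw [indFun_apply_one, Finset.sum_apply] at h
  rw [sq (θ 1), ← mul_assoc, h, Finset.sum_mul, Finset.sum_filter]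
  refine Finset.sum_congr rfl fun φ _ => ?_
  rw [Pi.smul_apply, smul_eq_mul, classInner_indFun N _ (isClassFunction_irr φ),
    ← classInner_conj_symm (fun n : N => (φ : A → ℂ) n) θ]
  obtain ⟨e, he⟩ := exists_classInner_eq_nat
    (isCharacter_restrict (irr_isCharacter φ) N) (isCharacter_of_isIrr hθ)
  rw [he]
  split_ifs with h0
  · have h1 := Chars2.clifford_invariant φ.2 hθ hinv (by rw [he]; exact h0) 1
    change (φ : A → ℂ) 1 = _ at h1
    rw [he] at h1
    rw [Complex.conj_natCast, h1]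
    ring
  · push Not at h0
    rw [h0, map_zero, zero_mul, zero_mul]

set_option maxHeartbeats 1600000 in
/-- The extension. -/
theorem exists_extension (p : ℕ) [hp : Fact p.Prime] (N : Subgroup G) [N.Normal]
    (hN : ¬ p ∣ Nat.card N) (θ : IrrCharacter N) (hinv : inertiaSub (θ : N → ℂ) = ⊤)
    (D : Subgroup G) [D.Normal] (hDN : ∀ x ∈ D, ∀ n ∈ N, x * n = n * x) :
    ∃ (H : Type u) (_ : Group H) (_ : Fintype H) (K : Type u) (_ : Group K) (_ : Fintype K)
      (q : H →* G) (π : H →* K) (C : Subgroup K) (lam : C →* ℂˣ) (rH : H → ℂ) (jD : D →* K),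
      Function.Surjective q ∧ Function.Surjective π ∧ C ≤ Subgroup.center K ∧
      ¬ p ∣ Nat.card C ∧ C.index = N.index ∧ (IsPSolvable p G → IsPSolvable p K) ∧
      rH 1 = (θ : N → ℂ) 1 ∧
      (∀ x : H, p ∣ orderOf (q x) ↔ p ∣ orderOf (π x)) ∧
      (∀ η : IrrCharacter K,
        classInner (fun z : C => (η : K → ℂ) z) (fun z => (lam z : ℂ)) ≠ 0 →
        ∃ χ : IrrCharacter G, classInner (fun n : N => (χ : G → ℂ) n) (θ : N → ℂ) ≠ 0 ∧
          ∀ x : H, (χ : G → ℂ) (q x) = rH x * (η : K → ℂ) (π x)) ∧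
      (∀ χ : IrrCharacter G, classInner (fun n : N => (χ : G → ℂ) n) (θ : N → ℂ) ≠ 0 →
        ∃ η : IrrCharacter K, classInner (fun z : C => (η : K → ℂ) z) (fun z => (lam z : ℂ)) ≠ 0 ∧
          ∀ x : H, (χ : G → ℂ) (q x) = rH x * (η : K → ℂ) (π x)) ∧
      (∀ x : H, ∃ x' : H, π x' = π x ∧ rH x' ≠ 0) ∧
      (∀ F : K → ℂ, ∑ x : H, rH x * conj (rH x) * F (π x) = (Nat.card N : ℂ) * ∑ y : K, F y) ∧
      (Nat.card H = Nat.card N * Nat.card K) ∧
      jD.range.Normal ∧
      (∀ x : D, ∃ x' : H, q x' = (x : G) ∧ π x' = jD x ∧ ∀ y : H, rH (y * x') = rH y) ∧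
      IsCharacter H rH := by
  classical
  obtain ⟨d, ρ, hirr, hρc⟩ := id θ.2
  haveI := hirr
  haveI := Chars2.nontrivial_of_irreducible ρ
  have hd : d ≠ 0 := fun h => irr_apply_one_ne_zero θ.2 (by
    rw [← hρc, Representation.char_one, Module.finrank_fin_fun, h, Nat.cast_zero])
  have hsurj : Function.Surjective (interFst ρ) := by
    refine interFst_surjective ρ fun g n => ?_
    have := congrFun (mem_inertiaSub.1 (hinv ▸ Subgroup.mem_top g⁻¹)) n
    rw [← hρc] at this
    simpa [Chars2.conjFun] using this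
  let δ : (Module.End ℂ (Fin d → ℂ))ˣ →* ℂˣ := Units.map (LinearMap.det : _ →* ℂ)
  let τ : interSub ρ →* ℂˣ := (δ.comp (interSnd ρ)) ^ Nat.card N
  have hτa : ∀ a : ℂˣ, τ (scalarHom ρ a) = a ^ (d * Nat.card N) := fun a => by
    have h : δ ((scalarHom ρ a).1.2) = a ^ d := by
      refine Units.ext ?_
      show LinearMap.det (algebraMap ℂ (Module.End ℂ (Fin d → ℂ)) (a : ℂ)) = _
      rw [Algebra.algebraMap_eq_smul_one, LinearMap.det_smul, map_one, mul_one,
        Module.finrank_fin_fun, Units.val_pow_eq_pow_val]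
    show δ ((scalarHom ρ a).1.2) ^ Nat.card N = _
    rw [h, ← pow_mul]
  have hτn : ∀ n : N, τ (baseHom ρ n) = 1 := fun n => by
    show ((δ.comp (interSnd ρ)).comp (baseHom ρ)) n ^ Nat.card N = 1
    rw [← map_pow, pow_card_eq_one', map_one]
  let H : Subgroup (interSub ρ) := τ.ker
  have hH : ∀ x, x ∈ H ↔ τ x = 1 := fun x => Iff.rfl
  let q : H →* G := (interFst ρ).comp H.subtype
  let R : Representation ℂ H (Fin d → ℂ) := (Units.coeHom _).comp ((interSnd ρ).comp H.subtype)
  let b : N →* H := (baseHom ρ).codRestrict H fun n => (hH _).2 (hτn n)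
  have hqb : ∀ n : N, q (b n) = (n : G) := fun n => rfl
  haveI : b.range.Normal := ⟨by
    rintro _ ⟨n, rfl⟩ x
    exact ⟨MulAut.conjNormal (x : interSub ρ).1.1 n,
      Subtype.ext (baseHom_conj ρ (x : interSub ρ) n).symm⟩⟩
  have hscal : Function.Injective (scalarHom ρ) := fun a a' h =>
    scalarUnit_injective (V := Fin d → ℂ) (congrArg (fun z : interSub ρ => z.1.2) h)
  have hm0 : d * Nat.card N ≠ 0 := mul_ne_zero hd Nat.card_pos.ne'
  haveI : NeZero (d * Nat.card N) := ⟨hm0⟩
  have hq : Function.Surjective q := by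
    intro g
    obtain ⟨x, hx⟩ := hsurj g
    obtain ⟨c, hc⟩ := IsAlgClosed.exists_pow_nat_eq ((τ x⁻¹ : ℂˣ) : ℂ) (Nat.pos_of_ne_zero hm0)
    have hc0 : c ≠ 0 := by
      rintro rfl
      rw [zero_pow hm0] at hc
      exact (τ x⁻¹).ne_zero hc.symm
    refine ⟨⟨x * scalarHom ρ (Units.mk0 c hc0), (hH _).2 ?_⟩, ?_⟩
    · rw [map_mul, hτa]
      have : (Units.mk0 c hc0) ^ (d * Nat.card N) = τ x⁻¹ := Units.ext (by
        rw [Units.val_pow_eq_pow_val, Units.val_mk0, hc])
      rw [this, map_inv, mul_inv_cancel]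
    · show interFst ρ (x * scalarHom ρ (Units.mk0 c hc0)) = g
      rw [map_mul, hx]
      simp
  have hkerq : ∀ z : q.ker, ∃ a : ℂˣ,
      ((z : H) : interSub ρ) = scalarHom ρ a ∧ a ^ (d * Nat.card N) = 1 := by
    intro z
    obtain ⟨a, ha⟩ := interFst_ker ρ ((z : H) : interSub ρ) (MonoidHom.mem_ker.1 z.2)
    exact ⟨a, ha, by rw [← hτa, ← ha]; exact (hH _).1 (z : H).2⟩
  choose ca hca hca1 using hkerq
  let c : q.ker →* ℂˣ := MonoidHom.mk' ca fun z z' => hscal (by
    rw [map_mul, ← hca, ← hca, ← hca]; rfl)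
  have hc : ∀ z : q.ker, R (z : H) = (c z : ℂ) • (1 : Module.End ℂ (Fin d → ℂ)) := fun z => by
    show (((z : H) : interSub ρ).1.2).1 = (ca z : ℂ) • 1
    rw [hca]
    show algebraMap ℂ (Module.End ℂ (Fin d → ℂ)) (ca z : ℂ) = _
    rw [Algebra.algebraMap_eq_smul_one]
  have hcent : ∀ z ∈ q.ker, ∀ x : H, z * x = x * z := fun z hz x => Subtype.ext (by
    show (z : interSub ρ) * x = x * z
    rw [show (z : interSub ρ) = scalarHom ρ (ca ⟨z, hz⟩) from hca ⟨z, hz⟩]
    exact scalarHom_commute ρ _ _)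
  choose sec hsec using id hq
  haveI : Finite H := by
    refine Finite.of_surjective (fun p : G × rootsOfUnity (d * Nat.card N) ℂ =>
      (⟨scalarHom ρ p.2.1, (hH _).2 ((hτa _).trans ((mem_rootsOfUnity _ _).1 p.2.2))⟩ : H)
        * sec p.1) fun x => ?_
    have hz : x * (sec (q x))⁻¹ ∈ q.ker := by
      rw [MonoidHom.mem_ker, map_mul, map_inv, hsec, mul_inv_cancel]
    refine ⟨(q x, ⟨ca ⟨_, hz⟩, (mem_rootsOfUnity _ _).2 (hca1 _)⟩), Subtype.ext ?_⟩
    show scalarHom ρ (ca ⟨_, hz⟩) * (sec (q x) : interSub ρ) = x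
    rw [← hca ⟨_, hz⟩]
    simp
  haveI : Fintype H := Fintype.ofFinite H
  haveI : Fintype (H ⧸ b.range) := Fintype.ofFinite _
  set C := (coverProj q b hqb).ker with hC
  let π : H →* H ⧸ b.range := QuotientGroup.mk' b.range
  have hπ : Function.Surjective π := QuotientGroup.mk'_surjective _
  have hbinj : Function.Injective b := fun n n' h => Subtype.ext (by rw [← hqb n, h, hqb])
  have hRb : (fun n => R.character (b n)) = (θ : N → ℂ) := hρc ▸ rfl
  -- the orders of the kernels
  have hkq : ¬ p ∣ Nat.card q.ker := by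
    intro hdvd
    obtain ⟨z, hz⟩ := exists_prime_orderOf_dvd_card' p hdvd
    have h1 : p ∣ d * Nat.card N := by
      rw [← hz]
      refine orderOf_dvd_of_pow_eq_one (Subtype.ext (Subtype.ext ?_))
      show ((z : H) : interSub ρ) ^ (d * Nat.card N) = 1
      rw [hca, ← map_pow, hca1, map_one]
    have hdN : d ∣ Nat.card N := by
      obtain ⟨d', -, hd', hdvd'⟩ := irr_degree_dvd_card θ.2
      rw [← hρc, Representation.char_one, Module.finrank_fin_fun] at hd'
      rwa [← Nat.cast_inj.1 hd'] at hdvd'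
    exact ((hp.out.dvd_mul).1 h1).elim (fun h => hN (h.trans hdN)) hN
  have hπk : ¬ p ∣ Nat.card π.ker := by
    rw [QuotientGroup.ker_mk', ← Nat.card_congr (MonoidHom.ofInjective hbinj).toEquiv]
    exact hN
  have hcardC : Nat.card C = Nat.card q.ker :=
    (Nat.card_congr (Equiv.ofBijective _ (kerImage_bijective q b hqb))).symm
  have hCidx : C.index = N.index := by
    have hs : Function.Surjective (coverProj q b hqb) := fun y => by
      obtain ⟨g, rfl⟩ := QuotientGroup.mk'_surjective N y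
      exact ⟨QuotientGroup.mk' b.range (sec g), by rw [coverProj_mk, hsec]⟩
    rw [hC, Subgroup.index_ker, MonoidHom.range_eq_top.2 hs, Subgroup.card_top,
      ← Subgroup.index_eq_card]
  -- values
  have hval : ∀ η : IrrCharacter (H ⧸ b.range),
      classInner (fun z : C => (η : H ⧸ b.range → ℂ) z) (fun z => (coverChar q b hqb c z : ℂ)) ≠ 0 →
      ∃ χ : IrrCharacter G, classInner (fun n : N => (χ : G → ℂ) n) (θ : N → ℂ) ≠ 0 ∧
        ∀ x : H, (χ : G → ℂ) (q x) = R.character x * (η : H ⧸ b.range → ℂ) (π x) := by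
    intro η hη
    obtain ⟨χ, hχ⟩ := exists_irr_of_cover q R b hq hqb c hc hcent (hRb ▸ θ.2) (hRb ▸ hinv) η hη
    refine ⟨χ, ?_, hχ⟩
    have h1 : (fun n : N => (χ : G → ℂ) n) = (η : H ⧸ b.range → ℂ) 1 • (θ : N → ℂ) := by
      funext n
      rw [← hqb n, hχ, show QuotientGroup.mk' b.range (b n) = 1 from
        (QuotientGroup.eq_one_iff _).2 ⟨n, rfl⟩, Pi.smul_apply, smul_eq_mul, mul_comm,
        ← congrFun hRb n]
    rw [h1, classInner_smul_left, classInner_self_irr θ.2, mul_one]
    exact irr_apply_one_ne_zero η.2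
  -- the matrix sum
  let A : Module.End ℂ (Fin d → ℂ) →* Matrix (Fin d) (Fin d) ℂ :=
    { toFun := fun f => LinearMap.toMatrix' f
      map_one' := LinearMap.toMatrix'_one
      map_mul' := fun f g => LinearMap.toMatrix'_mul f g }
  have hfib : ∀ x : H, ∑ n : N, R.character (x * b n) * conj (R.character (x * b n)) =
      (Nat.card N : ℂ) := by
    intro x
    let ρθ : N →* Matrix (Fin d) (Fin d) ℂ := A.comp ρ
    have hscalar : ∀ T : Matrix (Fin d) (Fin d) ℂ, (∀ n, T * ρθ n = ρθ n * T) →
        ∃ s : ℂ, T = s • 1 := by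
      intro T hT
      obtain ⟨s, hs⟩ := Chars2.scalar_of_commute ρ (Matrix.toLin' T) fun n => by
        have hT' : T * LinearMap.toMatrix' (ρ n) = LinearMap.toMatrix' (ρ n) * T := hT n
        apply LinearMap.toMatrix'.injective
        rw [LinearMap.toMatrix'_mul, LinearMap.toMatrix'_mul, LinearMap.toMatrix'_toLin']
        exact hT'
      refine ⟨s, ?_⟩
      rw [← LinearMap.toMatrix'_toLin' T, hs, Algebra.algebraMap_eq_smul_one, map_smul,
        LinearMap.toMatrix'_one]
    set U := A (R x) with hU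
    set V := A (R x⁻¹) with hV
    have hUV : U * V = 1 := by rw [hU, hV, ← map_mul, ← map_mul, mul_inv_cancel, map_one, map_one]
    have hterm : ∀ n : N, R.character (x * b n) * conj (R.character (x * b n)) =
        (U * ρθ n).trace * (ρθ n⁻¹ * V).trace := by
      intro n
      rw [← char_inv_eq_conj (isCharacter_of_rep R)]
      congr 1
      · show LinearMap.trace ℂ _ (R (x * b n)) = _
        rw [LinearMap.trace_eq_matrix_trace ℂ (Pi.basisFun ℂ (Fin d)), hU]
        show _ = (A (R x) * A (R (b n))).trace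
        rw [← map_mul, ← map_mul]
        rfl
      · show LinearMap.trace ℂ _ (R (x * b n)⁻¹) = _
        rw [LinearMap.trace_eq_matrix_trace ℂ (Pi.basisFun ℂ (Fin d)), hV, mul_inv_rev, ← map_inv]
        show _ = (A (R (b n⁻¹)) * A (R x⁻¹)).trace
        rw [← map_mul, ← map_mul]
        rfl
    rw [Finset.sum_congr rfl fun n _ => hterm n]
    simp only [Matrix.trace, Matrix.diag, Matrix.mul_apply, Finset.sum_mul, Finset.mul_sum]
    have hs := schur_entries ρθ hscalar
    have hd' : (d : ℂ) ≠ 0 := Nat.cast_ne_zero.2 hd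
    have hN' : (Nat.card N : ℂ) ≠ 0 := Nat.cast_ne_zero.2 Nat.card_pos.ne'
    have hs' : ∀ i j l m', ∑ n : N, ρθ n⁻¹ m' l * ρθ n i j =
        (Nat.card N : ℂ) / d * if i = l ∧ j = m' then 1 else 0 := fun i j l m' => by
      rw [← hs i j l m', ← mul_assoc, div_mul_div_cancel₀ hd', div_self hN', one_mul]
    rw [Finset.sum_comm]
    simp only [Finset.sum_comm (s := (Finset.univ : Finset N))]
    have e : ∀ i j l m', ∑ n : N, U i j * ρθ n j i * (ρθ n⁻¹ l m' * V m' l) =
        (Nat.card N : ℂ) / d * if j = m' ∧ i = l then U i j * V m' l else 0 := fun i j l m' => by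
      rw [Finset.sum_congr rfl fun n _ => show U i j * ρθ n j i * (ρθ n⁻¹ l m' * V m' l) =
          U i j * V m' l * (ρθ n⁻¹ l m' * ρθ n j i) by ring, ← Finset.mul_sum, hs']
      split_ifs <;> ring
    simp only [e, ← Finset.mul_sum, ite_and, Finset.sum_ite_eq, Finset.sum_ite_eq', Finset.mem_univ,
      if_true, Finset.sum_ite_irrel, Finset.sum_const_zero]
    have h2 : ∑ i, ∑ j, U i j * V j i = (d : ℂ) := by
      have := congrArg Matrix.trace hUV
      rw [Matrix.trace_one, Fintype.card_fin] at this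
      rw [← this]
      simp [Matrix.trace, Matrix.diag, Matrix.mul_apply]
    rw [h2, div_mul_cancel₀ _ hd']
  let eB : N ≃ b.range := (MonoidHom.ofInjective hbinj).toEquiv
  let split : H ≃ (H ⧸ b.range) × b.range := Subgroup.groupEquivQuotientProdSubgroup
  have hcardH : Nat.card H = Nat.card N * Nat.card (H ⧸ b.range) := by
    rw [Nat.card_congr split, Nat.card_prod, ← Nat.card_congr eB, mul_comm]
  have hFsum : ∀ F : H ⧸ b.range → ℂ, ∑ x : H, R.character x * conj (R.character x) * F (π x) =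
      (Nat.card N : ℂ) * ∑ y, F y := by
    intro F
    rw [← Equiv.sum_comp split.symm, Fintype.sum_prod_type, Finset.mul_sum]
    refine Finset.sum_congr rfl fun y _ => ?_
    obtain ⟨x, rfl⟩ := hπ y
    have hπy : ∀ k : b.range, π (split.symm (π x, k)) = π x := fun k =>
      congrArg Prod.fst (split.apply_symm_apply (π x, k))
    simp only [hπy, ← Finset.sum_mul]
    congr 1
    let f : N → b.range := fun n => (split (x * b n)).2
    have hfin : ∀ n, split.symm (π x, f n) = x * b n := fun n => by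
      rw [Equiv.symm_apply_eq]
      refine Prod.ext ?_ rfl
      show π x = π (x * b n)
      rw [map_mul, show π (b n) = 1 from (QuotientGroup.eq_one_iff _).2 ⟨n, rfl⟩, mul_one]
    have hf : Function.Bijective f := by
      rw [Fintype.bijective_iff_injective_and_card]
      refine ⟨fun n n' h => hbinj (mul_left_cancel (a := x) ?_), Fintype.card_congr eB⟩
      rw [← hfin n, h, hfin n']
    rw [← hfib x]
    exact (Fintype.sum_bijective f hf _ _ fun n => by rw [hfin n]).symm
  -- lifts of `D`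
  have hmem : ∀ x : D, ((x : G), (1 : (Module.End ℂ (Fin d → ℂ))ˣ)) ∈ interSub ρ := by
    intro x n
    have : MulAut.conjNormal (x : G) n = n := Subtype.ext (by
      rw [MulAut.conjNormal_apply, hDN x x.2 n n.2, mul_inv_cancel_right])
    simp [this]
  let jH : D →* H :=
    { toFun := fun x => ⟨⟨((x : G), 1), hmem x⟩, (hH _).2 (by
        show δ 1 ^ Nat.card N = 1
        rw [map_one, one_pow])⟩
      map_one' := rfl
      map_mul' := fun x y => Subtype.ext (Subtype.ext (Prod.ext rfl (one_mul _).symm)) }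
  haveI hjn : jH.range.Normal := ⟨by
    rintro _ ⟨x, rfl⟩ y
    refine ⟨⟨(y : interSub ρ).1.1 * x * ((y : interSub ρ).1.1)⁻¹,
      (inferInstance : D.Normal).conj_mem x x.2 _⟩, Subtype.ext (Subtype.ext (Prod.ext rfl ?_))⟩
    show (1 : (Module.End ℂ (Fin d → ℂ))ˣ) = (y : interSub ρ).1.2 * 1 * ((y : interSub ρ).1.2)⁻¹
    rw [mul_one, mul_inv_cancel]⟩
  refine ⟨H, inferInstance, inferInstance, H ⧸ b.range, inferInstance, inferInstance, q, π, C,
    coverChar q b hqb c, R.character, π.comp jH, hq, hπ, ?_, by rw [hcardC]; exact hkq, hCidx, ?_,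
    ?_, fun x => ?_, hval, ?_, ?_, hFsum, hcardH, ?_, ?_, isCharacter_of_rep R⟩
  · intro z hz
    exact Subgroup.mem_center_iff.2 fun y => (coverKer_central q b hqb hcent ⟨z, hz⟩ y).symm
  · intro hG
    have hC1 : IsPSolvable p C := Core.isPSolvable_iff.2
      (Core.isPiSeparable_compl (π := ({p}ᶜ : Set ℕ)) (Core.isPiSeparable_of_isPiNat
        ((Core.isPiNat_compl_singleton_iff hp.out).2 (hcardC ▸ hkq))) |> fun h => by
        rwa [compl_compl] at h)
    refine Core.isPSolvable_of_normal C hC1 ?_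
    have hs : Function.Surjective (coverProj q b hqb) := fun y => by
      obtain ⟨g, rfl⟩ := QuotientGroup.mk'_surjective N y
      exact ⟨QuotientGroup.mk' b.range (sec g), by rw [coverProj_mk, hsec]⟩
    exact Core.isPSolvable_congr (QuotientGroup.quotientKerEquivOfSurjective _ hs).symm
      (Core.isPSolvable_quotient hG N)
  · rw [Representation.char_one, ← hρc, Representation.char_one]
  · rw [← dvd_orderOf_iff_of_ker q hkq x, dvd_orderOf_iff_of_ker π hπk x]
  · -- every character over `θ` comes from the extension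
    intro χ hχ
    let S : Finset (IrrCharacter (H ⧸ b.range)) := Finset.univ.filter fun η =>
      classInner (fun z : C => (η : H ⧸ b.range → ℂ) z) (fun z => (coverChar q b hqb c z : ℂ)) ≠ 0
    haveI : Nonempty (IrrCharacter G) := ⟨χ⟩
    choose! F hFθ hF using hval
    have hnonzero : ∀ y, ∃ x : H, π x = y ∧ R.character x ≠ 0 := by
      intro y
      obtain ⟨x, rfl⟩ := hπ y
      by_contra hall
      push Not at hall
      have h1 := hfib x
      rw [Finset.sum_eq_zero fun n _ => by
        rw [hall (x * b n) (by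
          rw [map_mul, show π (b n) = 1 from (QuotientGroup.eq_one_iff _).2 ⟨n, rfl⟩, mul_one]),
          zero_mul]] at h1
      exact Nat.cast_ne_zero.2 Nat.card_pos.ne' h1.symm
    have hinj : ∀ η ∈ S, ∀ η' ∈ S, F η = F η' → η = η' := by
      intro η hη η' hη' h
      apply Subtype.ext
      funext y
      obtain ⟨x, rfl, hx⟩ := hnonzero y
      have e1 := hF η (Finset.mem_filter.1 hη).2 x
      rw [h, hF η' (Finset.mem_filter.1 hη').2 x] at e1
      exact (mul_left_cancel₀ hx e1).symm
    by_contra hno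
    push Not at hno
    -- count the squares of the degrees
    have hnotin : χ ∉ S.image F := by
      intro h
      obtain ⟨η, hη, rfl⟩ := Finset.mem_image.1 h
      obtain ⟨x, hx⟩ := hno η (Finset.mem_filter.1 hη).2
      exact hx (hF η (Finset.mem_filter.1 hη).2 x)
    let T : Finset (IrrCharacter G) := Finset.univ.filter fun φ =>
      classInner (fun n : N => (φ : G → ℂ) n) (θ : N → ℂ) ≠ 0
    have hsumG : ∑ φ ∈ T, (φ : G → ℂ) 1 ^ 2 = (N.index : ℂ) * (θ : N → ℂ) 1 ^ 2 :=
      sum_sq_over N θ.2 hinv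
    have hsumK : ∑ η ∈ S, (η : H ⧸ b.range → ℂ) 1 ^ 2 = (C.index : ℂ) := by
      have hinvl : inertiaSub (fun z : C => (coverChar q b hqb c z : ℂ)) = ⊤ :=
        inertiaSub_eq_top fun g z => by
          congr 2
          exact Subtype.ext (by
            show g * (z : H ⧸ b.range) * g⁻¹ = z
            rw [← coverKer_central q b hqb hcent z, mul_inv_cancel_right])
      refine (sum_sq_over C (isIrrCharacter_hom (coverChar q b hqb c)) hinvl).trans ?_
      rw [map_one, Units.val_one, one_pow, mul_one]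
    have hTF : S.image F ⊆ T := fun φ hφ => by
      obtain ⟨η, hη, rfl⟩ := Finset.mem_image.1 hφ
      exact Finset.mem_filter.2 ⟨Finset.mem_univ _, hFθ η (Finset.mem_filter.1 hη).2⟩
    have himg : ∑ φ ∈ S.image F, (φ : G → ℂ) 1 ^ 2 = (N.index : ℂ) * (θ : N → ℂ) 1 ^ 2 := by
      rw [Finset.sum_image hinj, ← hCidx, ← hsumK, Finset.sum_mul]
      refine Finset.sum_congr rfl fun η hη => ?_
      have h := hF η (Finset.mem_filter.1 hη).2 1
      rw [map_one, map_one, Representation.char_one] at h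
      rw [h, ← hρc, Representation.char_one]
      ring
    have h0 : ∑ φ ∈ T \ S.image F, (φ : G → ℂ) 1 ^ 2 = 0 := by
      have := Finset.sum_sdiff hTF (f := fun φ : IrrCharacter G => (φ : G → ℂ) 1 ^ 2)
      rw [himg, hsumG] at this
      exact add_eq_right.1 this
    choose dd hdd0 hdd using fun φ : IrrCharacter G => exists_irr_apply_one_eq φ.2
    simp only [hdd] at h0
    have h0' : ∑ φ ∈ T \ S.image F, dd φ ^ 2 = 0 := by exact_mod_cast h0
    exact pow_ne_zero 2 (hdd0 χ).ne' (Finset.sum_eq_zero_iff.1 h0' χ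
      (Finset.mem_sdiff.2 ⟨Finset.mem_filter.2 ⟨Finset.mem_univ _, hχ⟩, hnotin⟩))
  · intro x
    by_contra hall
    push Not at hall
    have h1 := hfib x
    rw [Finset.sum_eq_zero fun n _ => by
      rw [hall (x * b n) (by
        rw [map_mul, show π (b n) = 1 from (QuotientGroup.eq_one_iff _).2 ⟨n, rfl⟩, mul_one]),
        zero_mul]] at h1
    exact Nat.cast_ne_zero.2 Nat.card_pos.ne' h1.symm
  · rw [MonoidHom.range_comp]
    exact Subgroup.Normal.map hjn π hπ
  · intro x
    refine ⟨jH x, rfl, rfl, fun y => ?_⟩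
    show LinearMap.trace ℂ _ (R (y * jH x)) = LinearMap.trace ℂ _ (R y)
    rw [map_mul]
    show LinearMap.trace ℂ _ (R y * 1) = _
    rw [mul_one]

end Cfsg.Agent.Chars.PPrimeExt
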