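import Cfsg.Agent.Chars.PSolvableClosed
import Cfsg.Agent.Blocks.Defect
import Cfsg.Agent.Blocks.Induce
import Cfsg.Agent.DegreeGraph.AbelianNormal

/-!
In a `p`-solvable group the height of a character is bounded by the exponent of `p` in the index of
the centre of a defect group.
-/

set_option autoImplicit false
set_option linter.style.haveILetI false
set_option linter.unusedSectionVars false

open Cfsg Cfsg.Agent
open scoped ComplexConjugate

namespace Cfsg.Agent.Chars.PSolvableHeight

open PSolvableBlocks PSolvableClosed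

universe u

variable {G : Type u} [Group G] [Fintype G] {p : ℕ} [hp : Fact p.Prime] {M : Ideal AlgInt}
  [M.IsMaximal]

noncomputable local instance (priority := high) fintypeSub {A : Type*} [Group A] [Finite A]
    (K : Subgroup A) : Fintype K :=
  Fintype.ofFinite _

noncomputable local instance (priority := high) fintypeQuot {A : Type*} [Group A] [Finite A]
    (K : Subgroup A) : Fintype (A ⧸ K) :=
  Fintype.ofFinite _

/-- A homomorphism with kernel of order prime to `p` is faithful on `p`-subgroups. -/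
theorem card_map_of_not_dvd {H : Type*} [Group H] (f : G →* H) (hf : ¬ p ∣ Nat.card f.ker)
    {A : Subgroup G} (hA : IsPGroup p A) :
    Nat.card (A.map f) = Nat.card A ∧
      Nat.card (Subgroup.center (A.map f)) = Nat.card (Subgroup.center A) := by
  have hinj : Function.Injective (f.subgroupMap A) := by
    rw [injective_iff_map_eq_one]
    intro a ha
    have h1 : orderOf (a : G) ∣ Nat.card f.ker :=
      Subgroup.orderOf_dvd_natCard _ (MonoidHom.mem_ker.2 (congrArg Subtype.val ha))
    obtain ⟨k, hk⟩ := IsPGroup.iff_orderOf.1 hA a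
    rw [Subgroup.orderOf_coe, hk] at h1
    rcases Nat.eq_zero_or_pos k with rfl | hk0
    · rw [pow_zero] at hk; exact orderOf_eq_one_iff.1 hk
    · exact absurd ((dvd_pow_self p hk0.ne').trans h1) hf
  let e := MulEquiv.ofBijective (f.subgroupMap A) ⟨hinj, f.subgroupMap_surjective A⟩
  exact ⟨(Nat.card_congr e.toEquiv).symm, (Nat.card_congr (Subgroup.centerCongr e).toEquiv).symm⟩

/-- Sylow subgroups have centres of the same order. -/
theorem card_center_eq {K A B : Subgroup G} (hA : Blocks.IsSylowIn p K A)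
    (hB : Blocks.IsSylowIn p K B) :
    Nat.card (Subgroup.center A) = Nat.card (Subgroup.center B) := by
  obtain ⟨x, -, rfl⟩ := Blocks.isSylowIn_conjugate hA hB
  exact Nat.card_congr (Subgroup.centerCongr
    (A.equivMapOfInjective (MulAut.conj x).toMonoidHom (MulAut.conj x).injective)).toEquiv

/-- The defect is at most that of any class on which the central character is a unit. -/
theorem blockDefect_le_centralizer (hpM : (p : AlgInt) ∈ M) (χ : IrrCharacter G) {y : G}
    (hy : ¬ MemLocalIdeal M (centralChar (χ : G → ℂ) y)) :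
    blockDefect p (blockOf M (χ : G → ℂ)) ≤
      (Nat.card (Subgroup.centralizer ({y} : Set G))).factorization p := by
  have hB := Blocks.isPBlock_blockOf (M := M) χ
  obtain ⟨D, hD⟩ := Blocks.exists_isDefectGroup hpM hB
  obtain ⟨y', hconj, hy'⟩ := Blocks.defect_centralizes hpM hB hD (Blocks.mem_blockOf_self χ) hy
  have h1 := Subgroup.card_dvd_of_le (Blocks.le_centralizer_singleton_iff.2 hy')
  obtain ⟨c, rfl⟩ := isConj_iff.1 hconj
  rw [← Blocks.centralizer_singleton_conj,
    Subgroup.card_map_of_injective (f := (MulAut.conj c).toMonoidHom) (MulAut.conj c).injective,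
    Blocks.card_defectGroup hpM hB hD] at h1
  exact (hp.out.pow_dvd_iff_le_factorization Nat.card_pos.ne').1 h1

/-- Comparing defects through degrees. -/
theorem blockDefect_le_of_degree (hpM : (p : AlgInt) ∈ M) {H : Type u} [Group H] [Fintype H]
    (χ : IrrCharacter G) (ψ : IrrCharacter H) (i : ℕ)
    (hcard : (Nat.card G).factorization p = (Nat.card H).factorization p + i)
    (h : ∀ φ ∈ blockOf M (χ : G → ℂ), ∃ η ∈ blockOf M (ψ : H → ℂ),
      (charDegree (φ : G → ℂ)).factorization p = (charDegree (η : H → ℂ)).factorization p + i) :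
    blockDefect p (blockOf M (χ : G → ℂ)) ≤ blockDefect p (blockOf M (ψ : H → ℂ)) := by
  obtain ⟨φ, hφ, h0⟩ := Blocks.exists_height_zero (p := p) (Blocks.isPBlock_blockOf (M := M) χ)
  obtain ⟨η, hη, he⟩ := h φ hφ
  have h1 := Blocks.degree_eq_height hpM (Blocks.isPBlock_blockOf (M := M) χ) hφ
  have h2 := Blocks.degree_eq_height hpM (Blocks.isPBlock_blockOf (M := M) ψ) hη
  omega

/-- The degree-weighted sum over a block vanishes on the singular elements. -/
theorem setSum_blockOf (hpM : (p : AlgInt) ∈ M) (χ : IrrCharacter G) {y : G}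
    (hy : p ∣ orderOf y) : setSum (blockOf M (χ : G → ℂ)) y = 0 := by
  classical
  have h := Blocks.block_orth_weak hpM (Blocks.isPBlock_blockOf (M := M) χ) (x := 1)
    (by rw [orderOf_one]; exact hp.out.not_dvd_one) hy
  have h2 := congrArg conj h
  rw [map_sum, map_zero, Finset.sum_filter] at h2
  rw [← h2, setSum]
  refine Finset.sum_congr rfl fun φ _ => ?_
  rw [Set.indicator_apply]
  obtain ⟨n, -, hn⟩ := exists_irr_apply_one_eq φ.2
  split_ifs with hb
  · rw [map_mul, Complex.conj_conj, hn, Complex.conj_natCast]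
  · rfl

/-- The central case. -/
theorem degree_le_of_central (hpM : (p : AlgInt) ∈ M) (hsolv : IsPSolvable p G)
    (hcen : pPrimeCore p G ≤ Subgroup.center G) (χ : IrrCharacter G) {x : G}
    (hx : ¬ p ∣ orderOf x) (hω : ¬ MemLocalIdeal M (centralChar (χ : G → ℂ) x)) {P : Subgroup G}
    (hP : Blocks.IsSylowIn p (Subgroup.centralizer ({x} : Set G)) P) :
    (charDegree (χ : G → ℂ)).factorization p + (Nat.card (Subgroup.center P)).factorization p ≤
      (Nat.card G).factorization p := by
  classical
  set N := pPrimeCore p G with hN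
  set R := pCore p G with hR
  have hpN : ¬ p ∣ Nat.card N := Core.not_dvd_card_pPrimeCore p G
  have hRp : IsPGroup p R := Core.isPGroup_pCore p G
  have hker : ¬ p ∣ Nat.card (QuotientGroup.mk' N).ker := by rwa [QuotientGroup.ker_mk']
  -- the core of the quotient comes from the core
  set Q := pCore p (G ⧸ N) with hQ
  have hQself : Subgroup.centralizer (Q : Set (G ⧸ N)) ≤ Q :=
    Core.centralizer_pCore_le (Core.isPSolvable_quotient hsolv N)
      (Core.pPrimeCore_quotient_pPrimeCore p G)
  set W := Q.comap (QuotientGroup.mk' N) with hW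
  obtain ⟨S, hS⟩ := Blocks.exists_isSylowIn (p := p) W
  obtain ⟨k, hk⟩ := IsPGroup.iff_card.1 (Core.isPGroup_pCore p (G ⧸ N))
  have hWcard : (Nat.card W).factorization p = k := by
    rw [hW, Core.card_comap_mk, hQ, hk, Nat.factorization_mul (pow_ne_zero _ hp.out.ne_zero)
      Nat.card_pos.ne', Finsupp.add_apply, Nat.factorization_eq_zero_of_not_dvd hpN,
      hp.out.factorization_pow, Finsupp.single_eq_same, add_zero]
  have hSmap : S.map (QuotientGroup.mk' N) = Q := by
    refine Subgroup.eq_of_le_of_card_ge ?_ ?_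
    · rintro _ ⟨s, hs, rfl⟩
      exact hS.1 hs
    · rw [(card_map_of_not_dvd _ hker hS.2.1).1, hS.2.2, hWcard, hQ, hk]
  have hsplit : ∀ w ∈ W, ∃ s ∈ S, ∃ n ∈ N, w = s * n := by
    intro w hw
    obtain ⟨s, hs, he⟩ : (w : G ⧸ N) ∈ S.map (QuotientGroup.mk' N) := hSmap ▸ hw
    exact ⟨s, hs, s⁻¹ * w, QuotientGroup.eq.1 he, by group⟩
  have hSn : S.Normal := by
    refine ⟨fun s hs g => ?_⟩
    have hWn : W.Normal := Subgroup.Normal.comap inferInstance _
    have hle : S.map (MulAut.conj g).toMonoidHom ≤ W := by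
      rintro _ ⟨t, ht, rfl⟩
      exact hWn.conj_mem t (hS.1 ht) g
    obtain ⟨w, hw, hle'⟩ := Blocks.pgroup_le_isSylowIn hS hle (hS.2.1.map _)
    obtain ⟨s', hs', n, hn, rfl⟩ := hsplit w hw
    have h1 : (s' * n) * (g * s * g⁻¹) * (s' * n)⁻¹ ∈ S :=
      hle' ⟨g * s * g⁻¹, ⟨s, hs, rfl⟩, rfl⟩
    have hnc := Subgroup.mem_center_iff.1 (hcen hn)
    have h2 : s' * (g * s * g⁻¹) * s'⁻¹ ∈ S := by
      rw [mul_assoc s' n, ← hnc (g * s * g⁻¹)] at h1
      simpa [mul_assoc] using h1
    have h3 := S.mul_mem (S.mul_mem (S.inv_mem hs') h2) hs'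
    simpa [mul_assoc] using h3
  have hSR : S ≤ R := Core.le_pCore hSn hS.2.1
  -- the class lies in the centraliser of the core
  have hxR : x ∈ Subgroup.centralizer (R : Set G) := by
    by_contra hxR
    refine hω ?_
    rw [← Blocks.omega_clsFun (isClassFunction_irr χ)]
    refine Blocks.omega_memI_of_vanish hpM inferInstance hRp χ (Blocks.isClassFunction_clsFun x)
      (Blocks.rFun_clsFun x) fun y hy => ?_
    rw [Blocks.clsFun_of_not]
    · exact Blocks.memI_zero
    · intro hc
      obtain ⟨a, rfl⟩ := isConj_iff.1 hc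
      apply hxR
      rw [Subgroup.mem_centralizer_iff] at hy ⊢
      intro r hr
      have := hy (a * r * a⁻¹) ((inferInstance : R.Normal).conj_mem r hr a)
      calc r * x = a⁻¹ * ((a * r * a⁻¹) * (a * x * a⁻¹)) * a := by group
        _ = a⁻¹ * ((a * x * a⁻¹) * (a * r * a⁻¹)) * a := by rw [this]
        _ = x * r := by group
  have hcent : ∀ z ∈ Subgroup.centralizer (R : Set G), (z : G ⧸ N) ∈ Q := fun z hz => by
    refine hQself ?_
    rw [Subgroup.mem_centralizer_iff]
    rintro y hy
    obtain ⟨s, hs, rfl⟩ : y ∈ S.map (QuotientGroup.mk' N) := hSmap ▸ hy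
    rw [QuotientGroup.mk'_apply, ← QuotientGroup.mk_mul, ← QuotientGroup.mk_mul,
      Subgroup.mem_centralizer_iff.1 hz s (hSR hs)]
  have hxN : x ∈ N := by
    have h1 := hcent x hxR
    obtain ⟨j, hj⟩ := IsPGroup.iff_orderOf.1 (Core.isPGroup_pCore p (G ⧸ N)) ⟨_, h1⟩
    rw [Subgroup.orderOf_mk] at hj
    rcases Nat.eq_zero_or_pos j with rfl | hj0
    · rw [pow_zero, orderOf_eq_one_iff, QuotientGroup.eq_one_iff] at hj
      exact hj
    · exact absurd ((hj ▸ dvd_pow_self p hj0.ne').trans
        (orderOf_map_dvd (QuotientGroup.mk' N) x)) hx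
  have htop : Subgroup.centralizer ({x} : Set G) = ⊤ := by
    rw [eq_top_iff]
    intro g _
    rw [Subgroup.mem_centralizer_singleton_iff]
    exact Subgroup.mem_center_iff.1 (hcen hxN) g
  rw [htop] at hP
  have hRP : R ≤ P := by
    intro r hr
    obtain ⟨a, -, ha⟩ := Blocks.pgroup_le_isSylowIn hP le_top hRp
    have := ha ⟨a⁻¹ * r * a⁻¹⁻¹, (inferInstance : R.Normal).conj_mem r hr a⁻¹, rfl⟩
    simpa [mul_assoc] using this
  -- the centre of `P` lies in an abelian normal subgroup
  set A := R ⊓ Subgroup.centralizer (R : Set G) with hA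
  haveI : A.Normal := by
    rw [hA]
    infer_instance
  have hZA : (Subgroup.center P).map P.subtype ≤ A := by
    rintro _ ⟨z, hz, rfl⟩
    have hzR : (z : G) ∈ Subgroup.centralizer (R : Set G) := by
      rw [Subgroup.mem_centralizer_iff]
      exact fun r hr => congrArg Subtype.val (Subgroup.mem_center_iff.1 hz ⟨r, hRP hr⟩)
    refine Subgroup.mem_inf.2 ⟨?_, hzR⟩
    have hzW : (z : G) ∈ W := hcent z hzR
    obtain ⟨w, -, hle⟩ := Blocks.pgroup_le_isSylowIn hS
      (inf_le_right : P ⊓ W ≤ W) (hP.2.1.to_le inf_le_left)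
    have h1 := hle ⟨(z : G), Subgroup.mem_inf.2 ⟨z.2, hzW⟩, rfl⟩
    have h2 := hSn.conj_mem _ h1 w⁻¹
    refine hSR ?_
    simpa [mul_assoc] using h2
  obtain ⟨d, hd, hdvd⟩ := DegreeGraph.exists_degree_dvd_index A
    (fun a ha b hb => Subgroup.mem_centralizer_iff.1 (Subgroup.mem_inf.1 hb).2 a
      (Subgroup.mem_inf.1 ha).1) χ.2
  obtain ⟨hd', hdpos⟩ := Blocks.charDegree_eq χ.2
  rw [hd, Nat.cast_inj] at hd'
  have h1 : d.factorization p ≤ A.index.factorization p :=
    (Nat.factorization_le_iff_dvd (hd' ▸ hdpos.ne') Subgroup.index_ne_zero_of_finite).2 hdvd p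
  have h2 : (Nat.card (Subgroup.center P)).factorization p ≤ (Nat.card A).factorization p := by
    refine (Nat.factorization_le_iff_dvd Nat.card_pos.ne' Nat.card_pos.ne').2 ?_ p
    rw [← Subgroup.card_map_of_injective (f := P.subtype) P.subtype_injective]
    exact Subgroup.card_dvd_of_le hZA
  have h3 : (Nat.card G).factorization p =
      A.index.factorization p + (Nat.card A).factorization p := by
    rw [← A.index_mul_card,
      Nat.factorization_mul Subgroup.index_ne_zero_of_finite Nat.card_pos.ne', Finsupp.add_apply]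
  rw [← hd']
  omega

/-- The degree bound, by induction along the Fong reduction. -/
theorem degree_add_center_le (hpM : (p : AlgInt) ∈ M) :
    ∀ (m : ℕ) (G : Type u) [Group G] [Fintype G], mu p G = m → IsPSolvable p G →
      ∀ (χ : IrrCharacter G) (x : G), ¬ p ∣ orderOf x →
      ¬ MemLocalIdeal M (centralChar (χ : G → ℂ) x) →
      (Nat.card (Subgroup.centralizer ({x} : Set G))).factorization p ≤
        blockDefect p (blockOf M (χ : G → ℂ)) →
      ∀ P : Subgroup G, Blocks.IsSylowIn p (Subgroup.centralizer ({x} : Set G)) P →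
        (charDegree (χ : G → ℂ)).factorization p +
          (Nat.card (Subgroup.center P)).factorization p ≤ (Nat.card G).factorization p := by
  intro m
  induction m using Nat.strong_induction_on with
  | _ m ih =>
  intro G _ _ hm hsolv χ x hx hω hd P hP
  classical
  set N := pPrimeCore p G with hN
  have hpN : ¬ p ∣ Nat.card N := Core.not_dvd_card_pPrimeCore p G
  by_cases hcen : N ≤ Subgroup.center G
  · exact degree_le_of_central hpM hsolv hcen χ hx hω hP
  obtain ⟨θ, hθ⟩ := PrimePower.exists_constituent (irr_isCharacter χ) (irr_apply_one_ne_zero χ.2) N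
  set T := Chars2.inertiaSub (θ : N → ℂ) with hT
  have hNT : N ≤ T := Chars2.le_inertiaSub (isClassFunction_irr θ)
  by_cases hTtop : T = ⊤
  swap
  · obtain ⟨ψ0, hψ0, hind, hcψ⟩ := Chars2.exists_correspondent hNT θ.2 hT χ.2 hθ
    let ψ : IrrCharacter T := ⟨ψ0, hψ0⟩
    let e : N.subgroupOf T ≃* N := Subgroup.subgroupOfEquivOfLe hNT
    let θ' : IrrCharacter (N.subgroupOf T) :=
      ⟨(θ : N → ℂ) ∘ e, isIrrCharacter_comp_equiv θ.2 e⟩
    have hpN' : ¬ p ∣ Nat.card (N.subgroupOf T) := by rwa [Core.card_subgroupOf hNT]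
    have hover : ∀ φ : T → ℂ, classInner (fun n : N.subgroupOf T => φ n)
        (θ' : N.subgroupOf T → ℂ) = classInner (Chars2.resSub N T hNT φ) (θ : N → ℂ) := fun φ => by
      rw [classInner_def, classInner_def, Core.card_subgroupOf hNT]
      congr 1
      exact Fintype.sum_equiv e.toEquiv _ _ fun n => rfl
    have hmem : ∀ η ∈ blockOf M (ψ : T → ℂ),
        classInner (Chars2.resSub N T hNT (η : T → ℂ)) (θ : N → ℂ) ≠ 0 := fun η hη => by
      rw [← hover]
      exact Blocks.constituent_of_sameBlock hpM hpN' hη (θ := θ')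
        (by rw [hover, show Chars2.resSub N T hNT (ψ : T → ℂ) = Chars2.resSub N T hNT ψ0 from rfl,
          hcψ]; exact hθ)
    have hirr : ∀ η ∈ blockOf M (ψ : T → ℂ), IsIrrCharacter G (indFun T (η : T → ℂ)) :=
      fun η hη => Chars2.isIrr_indFun_of_inertia hNT θ.2 hT η.2 (hmem η hη)
    let U : Set (IrrCharacter G) :=
      {φ | ∃ η ∈ blockOf M (ψ : T → ℂ), indFun T (η : T → ℂ) = (φ : G → ℂ)}
    have hU : ∀ g : G, p ∣ orderOf g → setSum U g = 0 := by
      intro g hg
      have h1 : indFun T (fun t => setSum (blockOf M (ψ : T → ℂ)) t) g = 0 := by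
        rw [indFun_apply, Finset.sum_eq_zero fun y _ => ?_, mul_zero]
        by_cases hy : y⁻¹ * g * y ∈ T
        · rw [extendByZero_of_mem T _ hy]
          refine setSum_blockOf hpM ψ ?_
          rw [Subgroup.orderOf_mk]
          have h := ((SemiconjBy.conj_mk y⁻¹ g).orderOf_eq _).symm
          rw [inv_inv] at h
          rwa [h]
        · rw [extendByZero_of_not_mem T _ hy]
      have h2 : (fun t => setSum (blockOf M (ψ : T → ℂ)) t) = ∑ η : IrrCharacter T,
          (blockOf M (ψ : T → ℂ)).indicator (fun η => (η : T → ℂ) 1) η • (η : T → ℂ) := by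
        funext t
        rw [Finset.sum_apply, setSum]
        refine Finset.sum_congr rfl fun η _ => ?_
        rw [Pi.smul_apply, smul_eq_mul]
        by_cases h : η ∈ blockOf M (ψ : T → ℂ) <;> simp [h]
      rw [h2, indFun_sum, Finset.sum_apply] at h1
      rw [setSum, ← mul_zero (T.index : ℂ), ← h1, Finset.mul_sum]
      symm
      haveI : Nonempty (IrrCharacter G) := ⟨χ⟩
      choose! F hF using fun η (hη : η ∈ blockOf M (ψ : T → ℂ)) =>
        (⟨⟨_, hirr η hη⟩, rfl⟩ : ∃ φ : IrrCharacter G, (φ : G → ℂ) = indFun T (η : T → ℂ))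
      refine Finset.sum_bij_ne_zero (fun η _ _ => F η) (fun _ _ _ => Finset.mem_univ _) ?_ ?_ ?_
      · intro a _ ha b _ hb he
        have hne : ∀ η : IrrCharacter T, (T.index : ℂ) *
            (indFun T ((blockOf M (ψ : T → ℂ)).indicator (fun η => (η : T → ℂ) 1) η • (η : T → ℂ)))
              g ≠ 0 → η ∈ blockOf M (ψ : T → ℂ) := fun η h => by
          by_contra hn
          apply h
          rw [Set.indicator_of_notMem hn, indFun_smul, Pi.smul_apply, zero_smul, mul_zero]
        have ha' := hne a ha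
        have hb' := hne b hb
        have hc : ∀ η ∈ blockOf M (ψ : T → ℂ), F η = F a →
            classInner (fun t : T => (F a : G → ℂ) t) (η : T → ℂ) ≠ 0 := fun η hη he => by
          rw [← he, ← classInner_indFun_right T _ (isClassFunction_irr (F η)), ← hF η hη,
            classInner_self_irr (F η).2]
          exact one_ne_zero
        obtain ⟨-, -, -, huniq⟩ := Chars2.clifford_correspondence hNT θ.2 hT (F a).2 a.2
          (hc a ha' rfl) (hmem a ha')
        exact Subtype.ext (huniq _ b.2 (hc b hb' he.symm) (hmem b hb')).symm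
      · intro φ _ hφ
        obtain ⟨η, hη, he⟩ := Set.mem_of_indicator_ne_zero hφ
        refine ⟨η, Finset.mem_univ _, ?_, Subtype.ext ((hF η hη).trans he)⟩
        intro h
        apply hφ
        rw [Set.indicator_of_mem (show φ ∈ U from ⟨η, hη, he⟩), ← he, indFun_apply_one]
        rw [Set.indicator_of_mem hη, indFun_smul, Pi.smul_apply, smul_eq_mul] at h
        linear_combination h
      · intro η _ hη
        have hη' : η ∈ blockOf M (ψ : T → ℂ) := by
          by_contra hn
          apply hη
          rw [Set.indicator_of_notMem hn, indFun_smul, Pi.smul_apply, zero_smul, mul_zero]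
        rw [Set.indicator_of_mem hη', indFun_smul, Pi.smul_apply, smul_eq_mul,
          Set.indicator_of_mem (show F η ∈ U from ⟨η, hη', (hF η hη').symm⟩), hF η hη',
          indFun_apply_one]
        ring
    have hsub : ∀ φ ∈ blockOf M (χ : G → ℂ), φ ∈ U := fun φ hφ =>
      Blocks.mem_of_blockCoeff_local
        (Blocks.rFun_blockCoeff_of_closed hpM U fun a ha b hb =>
          regInner_eq_zero_of_vanishing hpM _ G rfl hsolv U hU a ha b hb)
        (show χ ∈ U from ⟨ψ, Blocks.mem_blockOf_self ψ, hind⟩) hφ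
    have hidx : (Nat.card G).factorization p =
        (Nat.card T).factorization p + T.index.factorization p := by
      rw [← Subgroup.card_mul_index T,
        Nat.factorization_mul Nat.card_pos.ne' Subgroup.index_ne_zero_of_finite, Finsupp.add_apply]
    have hdeg : ∀ (φ : IrrCharacter G) (η : IrrCharacter T), indFun T (η : T → ℂ) = (φ : G → ℂ) →
        (charDegree (φ : G → ℂ)).factorization p =
          (charDegree (η : T → ℂ)).factorization p + T.index.factorization p := by
      intro φ η he
      have h1 := congrFun he 1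
      rw [indFun_apply_one, (Blocks.charDegree_eq φ.2).1, (Blocks.charDegree_eq η.2).1,
        ← Nat.cast_mul, Nat.cast_inj] at h1
      rw [← h1, Nat.factorization_mul Subgroup.index_ne_zero_of_finite
        (Blocks.charDegree_eq η.2).2.ne', Finsupp.add_apply, add_comm]
    have hdT : blockDefect p (blockOf M (χ : G → ℂ)) ≤ blockDefect p (blockOf M (ψ : T → ℂ)) :=
      blockDefect_le_of_degree hpM χ ψ _ hidx fun φ hφ => by
        obtain ⟨η, hη, he⟩ := hsub φ hφ
        exact ⟨η, hη, hdeg φ η he⟩
    -- a class of `T` inside the class of `x`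
    obtain ⟨h, hhx, hhω⟩ : ∃ h : T, IsConj x (h : G) ∧
        ¬ MemLocalIdeal M (centralChar (ψ : T → ℂ) h) := by
      have hcls : IsClassFunction T (Blocks.resFun T (Blocks.clsFun x)) := fun t c => by
        show Blocks.clsFun x ((c * t * c⁻¹ : T) : G) = Blocks.clsFun x (t : G)
        exact Blocks.isClassFunction_clsFun x (t : G) (c : G)
      by_contra hno
      push Not at hno
      refine hω ?_
      rw [← hind, Blocks.centralChar_indFun,
        show ψ0 = (ψ : T → ℂ) from rfl, Blocks.omega_eq_sum_clsFun (isClassFunction_irr ψ) hcls]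
      refine Blocks.memI_sum _ _ fun Cl _ => ?_
      by_cases hc : IsConj x ((Blocks.clsRep Cl : T) : G)
      · exact Blocks.memI_mul_left (Blocks.rFun_clsFun x _) (hno _ hc)
      · show MemLocalIdeal M (Blocks.clsFun x ((Blocks.clsRep Cl : T) : G) * _)
        rw [Blocks.clsFun_of_not hc, zero_mul]
        exact Blocks.memI_zero
    obtain ⟨c, hc⟩ := isConj_iff.1 hhx
    obtain ⟨Q, hQ⟩ := Blocks.exists_isSylowIn (p := p) (Subgroup.centralizer ({h} : Set T))
    have hQle : Q.map T.subtype ≤ Subgroup.centralizer ({(h : G)} : Set G) := by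
      rintro _ ⟨t, ht, rfl⟩
      rw [Subgroup.mem_centralizer_singleton_iff]
      exact congrArg Subtype.val (Subgroup.mem_centralizer_singleton_iff.1 (hQ.1 ht))
    have hP' : Blocks.IsSylowIn p (Subgroup.centralizer ({(h : G)} : Set G))
        (P.map (MulAut.conj c).toMonoidHom) := by
      rw [← hc, ← Blocks.centralizer_singleton_conj]
      exact Blocks.isSylowIn_conj hP c
    have hcC : (Nat.card (Subgroup.centralizer ({(h : G)} : Set G))).factorization p =
        (Nat.card (Subgroup.centralizer ({x} : Set G))).factorization p := by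
      rw [← hc, ← Blocks.centralizer_singleton_conj,
        Subgroup.card_map_of_injective (f := (MulAut.conj c).toMonoidHom) (MulAut.conj c).injective]
    have hcard : Nat.card (Q.map T.subtype) =
        p ^ (Nat.card (Subgroup.centralizer ({h} : Set T))).factorization p := by
      rw [Subgroup.card_map_of_injective (f := T.subtype) T.subtype_injective, hQ.2.2]
    have h1 := Blocks.isSylowIn_card_le hP' hQle (hQ.2.1.map _)
    rw [hcard, hP'.2.2, Nat.pow_dvd_pow_iff_le_right hp.out.one_lt, hcC] at h1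
    have hor : ¬ p ∣ orderOf h := by
      rwa [← Subgroup.orderOf_coe, ← hc, ← (SemiconjBy.conj_mk c x).orderOf_eq]
    have h2 := blockDefect_le_centralizer hpM ψ hhω
    have hfin := ih _ (hm ▸ mu_lt_of_subgroup ((inf_le_left : Z0 p G ≤ N).trans hNT) hTtop) T rfl
      (Core.isPSolvable_subgroup hsolv T) ψ h hor hhω (h1.trans (hd.trans hdT)) Q hQ
    have hsy : Blocks.IsSylowIn p (Subgroup.centralizer ({(h : G)} : Set G)) (Q.map T.subtype) := by
      refine ⟨hQle, hQ.2.1.map _, ?_⟩
      rw [hcard]
      congr 1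
      omega
    have hz : Nat.card (Subgroup.center P) = Nat.card (Subgroup.center Q) := by
      rw [Nat.card_congr (Subgroup.centerCongr (P.equivMapOfInjective
          (MulAut.conj c).toMonoidHom (MulAut.conj c).injective)).toEquiv,
        card_center_eq hP' hsy, ← Nat.card_congr (Subgroup.centerCongr (Q.equivMapOfInjective
          T.subtype T.subtype_injective)).toEquiv]
    rw [hz, hdeg χ ψ hind, hidx]
    omega
  -- the invariant case
  obtain ⟨H, iHg, iHf, K, iKg, iKf, q, π, C, lam, rH, jD, hq, hπ, hCc, hpC, hCidx, hKs, hr1, hsing,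
    hFwd, hBwd, hne, -, hcard, -, -, hrH⟩ := PPrimeExt.exists_extension p N hpN θ hTtop ⊥
      fun y hy n _ => by rw [Subgroup.mem_bot.1 hy, one_mul, mul_one]
  haveI : C.Normal := ⟨fun z hz g => by
    rwa [Subgroup.mem_center_iff.1 (hCc hz) g, mul_inv_cancel_right]⟩
  have hlt : mu p K < m := by
    refine lt_of_le_of_lt (mu_le hpC hCc) ?_
    rw [hCidx, ← hm]
    show N.index < (Z0 p G).index
    have hlt' : Z0 p G < N := lt_of_le_of_ne inf_le_left fun h => hcen (h ▸ inf_le_right)
    exact Subgroup.index_strictAnti hlt'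
  obtain ⟨η, hη, hχη⟩ := hBwd χ hθ
  haveI : Nonempty (IrrCharacter G) := ⟨χ⟩
  choose! F hFθ hFe using hFwd
  let lamI : IrrCharacter C := ⟨fun z => (lam z : ℂ), isIrrCharacter_hom lam⟩
  have hmem : ∀ η' ∈ blockOf M (η : K → ℂ),
      classInner (fun z : C => (η' : K → ℂ) z) (fun z => (lam z : ℂ)) ≠ 0 := fun η' h =>
    Blocks.constituent_of_sameBlock hpM hpC h (θ := lamI) hη
  have hFinj : ∀ a b : IrrCharacter K,
      classInner (fun z : C => (a : K → ℂ) z) (fun z => (lam z : ℂ)) ≠ 0 →
      classInner (fun z : C => (b : K → ℂ) z) (fun z => (lam z : ℂ)) ≠ 0 → F a = F b → a = b := by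
    intro a b ha hb he
    refine Subtype.ext (funext fun y => ?_)
    obtain ⟨t, rfl⟩ := hπ y
    obtain ⟨t', ht', hr'⟩ := hne t
    refine mul_left_cancel₀ hr' ?_
    rw [← ht', ← hFe a ha, ← hFe b hb, he]
  let U : Set (IrrCharacter G) := {φ | ∃ η' ∈ blockOf M (η : K → ℂ), F η' = φ}
  have hχU : χ ∈ U := by
    refine ⟨η, Blocks.mem_blockOf_self η, Subtype.ext (funext fun g => ?_)⟩
    obtain ⟨t, rfl⟩ := hq g
    rw [hFe η hη, hχη]
  have hθ1 : (θ : N → ℂ) 1 ≠ 0 := irr_apply_one_ne_zero θ.2
  have hF1 : ∀ η' : IrrCharacter K, classInner (fun z : C => (η' : K → ℂ) z) (fun z => (lam z : ℂ)) ≠ 0 →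
      (F η' : G → ℂ) 1 = (θ : N → ℂ) 1 * (η' : K → ℂ) 1 := fun η' h => by
    rw [← map_one q, hFe η' h, map_one, hr1]
  have hU : ∀ g : G, p ∣ orderOf g → setSum U g = 0 := by
    intro g hg
    obtain ⟨t, rfl⟩ := hq g
    have h1 := setSum_blockOf hpM η ((hsing t).1 hg)
    rw [← mul_zero (rH t * (θ : N → ℂ) 1), ← h1, setSum, setSum, Finset.mul_sum]
    symm
    refine Finset.sum_bij_ne_zero (fun η' _ _ => F η') (fun _ _ _ => Finset.mem_univ _) ?_ ?_ ?_
    · intro a _ ha b _ hb he
      exact hFinj a b (hmem a (Set.mem_of_indicator_ne_zero (right_ne_zero_of_mul ha)))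
        (hmem b (Set.mem_of_indicator_ne_zero (right_ne_zero_of_mul hb))) he
    · intro φ _ hφ
      obtain ⟨η', hη', rfl⟩ := Set.mem_of_indicator_ne_zero hφ
      refine ⟨η', Finset.mem_univ _, ?_, rfl⟩
      intro h
      apply hφ
      rw [Set.indicator_of_mem hη'] at h
      rw [Set.indicator_of_mem (show F η' ∈ U from ⟨η', hη', rfl⟩), hFe η' (hmem η' hη'),
        hF1 η' (hmem η' hη')]
      linear_combination h
    · intro η' _ hη'
      have h' := Set.mem_of_indicator_ne_zero (right_ne_zero_of_mul hη')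
      rw [Set.indicator_of_mem h', Set.indicator_of_mem (show F η' ∈ U from ⟨η', h', rfl⟩),
        hFe η' (hmem η' h'), hF1 η' (hmem η' h')]
      ring
  have hsub : ∀ φ ∈ blockOf M (χ : G → ℂ), φ ∈ U := fun φ hφ =>
    Blocks.mem_of_blockCoeff_local
      (Blocks.rFun_blockCoeff_of_closed hpM U fun a ha b hb =>
        regInner_eq_zero_of_vanishing hpM _ G rfl hsolv U hU a ha b hb)
      hχU hφ
  -- orders
  have hKcard : Nat.card K = Nat.card C * N.index := by rw [← hCidx, Subgroup.card_mul_index]
  have hGcard : Nat.card G = Nat.card N * N.index := (Subgroup.card_mul_index N).symm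
  have hvK : (Nat.card K).factorization p = (Nat.card G).factorization p := by
    rw [hKcard, hGcard, Nat.factorization_mul Nat.card_pos.ne' Subgroup.index_ne_zero_of_finite,
      Nat.factorization_mul Nat.card_pos.ne' Subgroup.index_ne_zero_of_finite, Finsupp.add_apply,
      Finsupp.add_apply, Nat.factorization_eq_zero_of_not_dvd hpC,
      Nat.factorization_eq_zero_of_not_dvd hpN]
  have hθp : ¬ p ∣ charDegree (θ : N → ℂ) := fun h => hpN (h.trans (Blocks.charDegree_dvd θ.2))
  have hdeg : ∀ η' : IrrCharacter K, classInner (fun z : C => (η' : K → ℂ) z) (fun z => (lam z : ℂ)) ≠ 0 →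
      (charDegree (F η' : G → ℂ)).factorization p = (charDegree (η' : K → ℂ)).factorization p := by
    intro η' h
    have h1 := hF1 η' h
    rw [(Blocks.charDegree_eq (F η').2).1, (Blocks.charDegree_eq θ.2).1,
      (Blocks.charDegree_eq η'.2).1, ← Nat.cast_mul, Nat.cast_inj] at h1
    rw [h1, Nat.factorization_mul (Blocks.charDegree_eq θ.2).2.ne'
      (Blocks.charDegree_eq η'.2).2.ne', Finsupp.add_apply,
      Nat.factorization_eq_zero_of_not_dvd hθp, zero_add]
  have hdK : blockDefect p (blockOf M (χ : G → ℂ)) ≤ blockDefect p (blockOf M (η : K → ℂ)) :=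
    blockDefect_le_of_degree hpM χ η 0 (by rw [hvK, add_zero]) fun φ hφ => by
      obtain ⟨η', hη', rfl⟩ := hsub φ hφ
      exact ⟨η', hη', by rw [hdeg η' (hmem η' hη'), add_zero]⟩
  -- lifting the Sylow subgroup of the centraliser
  have hkq : Nat.card q.ker = Nat.card C := by
    have h1 : Nat.card H = Nat.card G * Nat.card q.ker := by
      rw [← Subgroup.index_mul_card q.ker, Subgroup.index_ker, MonoidHom.range_eq_top.2 hq,
        Subgroup.card_top]
    rw [hcard, hKcard, hGcard] at h1
    refine (Nat.eq_of_mul_eq_mul_left (n := Nat.card N * N.index)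
      (Nat.pos_of_ne_zero (mul_ne_zero Nat.card_pos.ne' Subgroup.index_ne_zero_of_finite)) ?_).symm
    rw [← h1]; ring
  have hkπ : Nat.card π.ker = Nat.card N := by
    have h1 : Nat.card H = Nat.card K * Nat.card π.ker := by
      rw [← Subgroup.index_mul_card π.ker, Subgroup.index_ker, MonoidHom.range_eq_top.2 hπ,
        Subgroup.card_top]
    rw [hcard] at h1
    exact (Nat.eq_of_mul_eq_mul_left Nat.card_pos (by rw [← h1, mul_comm])).symm
  have hpq : ¬ p ∣ Nat.card q.ker := hkq ▸ hpC
  have hpπ : ¬ p ∣ Nat.card π.ker := hkπ ▸ hpN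
  obtain ⟨P', hP'⟩ := Blocks.exists_isSylowIn (p := p) (P.comap q)
  have hcomap : (Nat.card (P.comap q)).factorization p =
      (Nat.card (Subgroup.centralizer ({x} : Set G))).factorization p := by
    have h1 : Nat.card (P.comap q) = Nat.card P * Nat.card q.ker := by
      have e1 := Subgroup.index_mul_card (P.comap q)
      rw [Subgroup.index_comap_of_surjective P hq, ← Subgroup.index_mul_card q.ker,
        Subgroup.index_ker, MonoidHom.range_eq_top.2 hq, Subgroup.card_top,
        ← Subgroup.index_mul_card P, mul_assoc] at e1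
      exact Nat.eq_of_mul_eq_mul_left (Nat.pos_of_ne_zero Subgroup.index_ne_zero_of_finite) e1
    rw [h1, Nat.factorization_mul Nat.card_pos.ne' Nat.card_pos.ne', Finsupp.add_apply,
      Nat.factorization_eq_zero_of_not_dvd hpq, add_zero, hP.2.2, hp.out.factorization_pow,
      Finsupp.single_eq_same]
  have hPimg : P'.map q = P := by
    refine Subgroup.eq_of_le_of_card_ge (Subgroup.map_le_iff_le_comap.2 hP'.1) ?_
    rw [(card_map_of_not_dvd q hpq hP'.2.1).1, hP'.2.2, hcomap, hP.2.2]
  -- a fixed lift of `x`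
  let S := {t : H // q t = x}
  have hconj : ∀ (u : P') (t : S), q ((u : H) * t.1 * (u : H)⁻¹) = x := fun u t => by
    have hu : q (u : H) ∈ P := hPimg ▸ ⟨_, u.2, rfl⟩
    rw [map_mul, map_mul, map_inv, t.2,
      Subgroup.mem_centralizer_singleton_iff.1 (hP.1 hu), mul_inv_cancel_right]
  letI : MulAction P' S :=
    { smul := fun u t => ⟨(u : H) * t.1 * (u : H)⁻¹, hconj u t⟩
      one_smul := fun t => Subtype.ext (show ((1 : P') : H) * t.1 * ((1 : P') : H)⁻¹ = t.1 by simp)
      mul_smul := fun u v t => Subtype.ext (show ((u * v : P') : H) * t.1 * ((u * v : P') : H)⁻¹ =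
        (u : H) * ((v : H) * t.1 * (v : H)⁻¹) * (u : H)⁻¹ by rw [Subgroup.coe_mul]; group) }
  obtain ⟨t0, ht0⟩ := hq x
  have hScard : Nat.card S = Nat.card q.ker := Nat.card_congr
    { toFun := fun t => ⟨t0⁻¹ * t.1, by
        rw [MonoidHom.mem_ker, map_mul, map_inv, t.2, ht0, inv_mul_cancel]⟩
      invFun := fun z => ⟨t0 * z, by rw [map_mul, MonoidHom.mem_ker.1 z.2, mul_one, ht0]⟩
      left_inv := fun t => Subtype.ext (mul_inv_cancel_left _ _)
      right_inv := fun z => Subtype.ext (inv_mul_cancel_left _ _) }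
  obtain ⟨⟨t, rfl⟩, htfix⟩ := hP'.2.1.nonempty_fixed_point_of_prime_not_dvd_card S (hScard ▸ hpq)
  have htc : ∀ u ∈ P', u * t = t * u := fun u hu => by
    have := congrArg Subtype.val (htfix ⟨u, hu⟩)
    have h1 : u * t * u⁻¹ = t := this
    rwa [mul_inv_eq_iff_eq_mul] at h1
  have hπle : P'.map π ≤ Subgroup.centralizer ({π t} : Set K) := by
    rintro _ ⟨u, hu, rfl⟩
    rw [Subgroup.mem_centralizer_singleton_iff, ← map_mul, htc u hu, map_mul]
  obtain ⟨hπcard, hπcen⟩ := card_map_of_not_dvd π hpπ hP'.2.1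
  obtain ⟨hqcard, hqcen⟩ := card_map_of_not_dvd q hpq hP'.2.1
  have hqcen' : Nat.card (Subgroup.center P) = Nat.card (Subgroup.center P') := by
    rw [← hPimg]; exact hqcen
  -- the central characters
  have hge : (Nat.card (Subgroup.centralizer ({q t} : Set G))).factorization p ≤
      (Nat.card (Subgroup.centralizer ({π t} : Set K))).factorization p := by
    have h1 := Subgroup.card_dvd_of_le hπle
    rw [hπcard, hP'.2.2, hcomap] at h1
    exact (hp.out.pow_dvd_iff_le_factorization Nat.card_pos.ne').1 h1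
  set eG := (Subgroup.centralizer ({q t} : Set G)).index with heG
  set eK := (Subgroup.centralizer ({π t} : Set K)).index with heK
  have heG' := Blocks.index_factorization (p := p) (G := G) (q t)
  have heK' := Blocks.index_factorization (p := p) (G := K) (π t)
  rw [← heG] at heG'
  rw [← heK] at heK'
  set θd := charDegree (θ : N → ℂ) with hθd
  have hid : centralChar (χ : G → ℂ) (q t) =
      (eG : ℂ) / ((eK * θd : ℕ) : ℂ) * (centralChar (η : K → ℂ) (π t) * rH t) := by
    unfold centralChar
    rw [hχη, ← map_one q, hχη, map_one π, hr1, (Blocks.charDegree_eq θ.2).1, ← hθd, ← heG, ← heK,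
      Nat.cast_mul]
    have e1 : (eK : ℂ) ≠ 0 := Nat.cast_ne_zero.2 Subgroup.index_ne_zero_of_finite
    have e2 : (θd : ℂ) ≠ 0 := Nat.cast_ne_zero.2 (Blocks.charDegree_eq θ.2).2.ne'
    have e3 := irr_apply_one_ne_zero η.2
    field_simp
  have hrt : MemLocalRing M (rH t) := Blocks.memR_of_isIntegral (isIntegral_of_isCharacter hrH t)
  have heKθ : (eK * θd).factorization p = eK.factorization p := by
    rw [Nat.factorization_mul Subgroup.index_ne_zero_of_finite (Blocks.charDegree_eq θ.2).2.ne',
      Finsupp.add_apply, Nat.factorization_eq_zero_of_not_dvd hθp, add_zero]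
  have hne' : eK * θd ≠ 0 :=
    mul_ne_zero Subgroup.index_ne_zero_of_finite (Blocks.charDegree_eq θ.2).2.ne'
  have hωK : ¬ MemLocalIdeal M (centralChar (η : K → ℂ) (π t)) := by
    intro hI
    refine hω ?_
    rw [hid]
    exact Blocks.memI_mul_left
      (Blocks.natRatio_memR hpM Subgroup.index_ne_zero_of_finite hne' (by omega))
      (Blocks.memI_mul_right hI hrt)
  have hle : (Nat.card (Subgroup.centralizer ({π t} : Set K))).factorization p ≤
      (Nat.card (Subgroup.centralizer ({q t} : Set G))).factorization p := by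
    by_contra hlt'
    refine hω ?_
    rw [hid]
    exact Blocks.memI_mul_right
      (Blocks.natRatio_memI hpM Subgroup.index_ne_zero_of_finite hne' (by omega))
      (Blocks.memR_mul (Blocks.centralChar_memR hpM η _) hrt)
  have hsy : Blocks.IsSylowIn p (Subgroup.centralizer ({π t} : Set K)) (P'.map π) := by
    refine ⟨hπle, hP'.2.1.map _, ?_⟩
    rw [hπcard, hP'.2.2, hcomap]
    congr 1
    omega
  have hfin := ih _ hlt K rfl (hKs hsolv) η (π t) (fun h => hx ((hsing t).2 h)) hωK
    (hle.trans (hd.trans hdK)) (P'.map π) hsy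
  rw [hπcen, hvK] at hfin
  rw [hqcen', show χ = F η from ?_, hdeg η hη]
  · exact hfin
  · refine Subtype.ext (funext fun g => ?_)
    obtain ⟨s, rfl⟩ := hq g
    rw [hχη, hFe η hη]

/-- The height bound for `p`-solvable groups. -/
theorem blockHeight_le (hpM : (p : AlgInt) ∈ M) (hsolv : IsPSolvable p G)
    {B : Set (IrrCharacter G)} (hB : IsPBlock M B) {P : Subgroup G}
    (hP : IsDefectGroup p M B P) {χ : IrrCharacter G} (hχ : χ ∈ B) :
    blockHeight p B (χ : G → ℂ) ≤ (Subgroup.center P).index.factorization p := by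
  obtain ⟨g, hg, hgP⟩ := Blocks.isDefectGroup_iff.1 hP
  have hBχ : blockOf M (χ : G → ℂ) = B := (Blocks.block_eq_of_mem hB hχ).symm
  have hdef := (Blocks.blockDefect_eq hpM hB hg).1
  have h1 := degree_add_center_le hpM _ G rfl hsolv χ g
    (Blocks.isPRegular_of_isDefectClass hpM hB hg) (hg.2.2 χ hχ) (by rw [hBχ, hdef]) P hgP
  have h2 := Blocks.degree_eq_height hpM hB hχ
  have h3 : (Subgroup.center P).index.factorization p +
      (Nat.card (Subgroup.center P)).factorization p = blockDefect p B := by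
    rw [← Finsupp.add_apply, ← Nat.factorization_mul Subgroup.index_ne_zero_of_finite
      Nat.card_pos.ne', Subgroup.index_mul_card, Blocks.card_defectGroup hpM hB hP,
      hp.out.factorization_pow, Finsupp.single_eq_same]
  omega

end Cfsg.Agent.Chars.PSolvableHeight
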