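import Cfsg.Agent.Chars.RationalPGroup
import Cfsg.Agent.Chars.CanonicalExt
import Cfsg.Agent.Chars2.Correspondence
import Cfsg.Agent.Core.PiSeparable
import Cfsg.Agent.Core.SchurZassenhaus

/-! The exponent of `p` in `|G : O_p(G)|` for a `p`-solvable linear group of degree `n`. -/

set_option autoImplicit false
set_option linter.style.haveILetI false
set_option linter.unusedSectionVars false

open Cfsg Cfsg.Agent
open Cfsg.Agent.Core (IsPiNat)
open scoped ComplexConjugate Pointwise

namespace Cfsg.Agent.Chars.SchurPBound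

universe u

section ext

variable {H : Type u} [Group H] [Fintype H] {p : ℕ} [hp : Fact p.Prime] (N : Subgroup H)
  [hN : N.Normal]

noncomputable local instance (priority := high) fintypeSub (K : Subgroup H) : Fintype K :=
  Fintype.ofFinite _

/-- An irreducible character may be replaced by a character, with no larger degree, which is
rational on the `p`-elements and has no larger kernel on a coprime normal subgroup. -/
theorem exists_rational_replacement (hcop : (Nat.card N).Coprime N.index)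
    (hpN : ¬ p ∣ Nat.card N) {ζ : H → ℂ} (hζ : IsIrrCharacter H ζ) :
    ∃ ζ' : H → ℂ, IsCharacter H ζ' ∧ (∃ a b : ℕ, ζ' 1 = a ∧ ζ 1 = b ∧ a ≤ b) ∧
      (∀ (σ : ℂ ≃+* ℂ) (x : H), (∃ j, x ^ p ^ j = 1) → σ (ζ' x) = ζ' x) ∧
      ∀ n ∈ N, ζ' n = ζ' 1 → ζ n = ζ 1 := by
  classical
  have hres := isCharacter_restrict (isCharacter_of_isIrr hζ) N
  obtain ⟨θ, hθc⟩ : ∃ θ : IrrCharacter N, classInner (fun n : N => ζ n) (θ : N → ℂ) ≠ 0 := by
    by_contra hall
    push Not at hall
    refine irr_apply_one_ne_zero hζ ?_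
    have h0 := Chars2.apply_eq_sum (isClassFunction_of_isCharacter hres) 1
    simp only [hall, zero_mul, Finset.sum_const_zero, Subgroup.coe_one] at h0
    exact h0
  set T := Chars2.inertiaSub (θ : N → ℂ) with hT
  have hNT : N ≤ T := Chars2.le_inertiaSub (isClassFunction_irr θ)
  obtain ⟨ψ, hψ, hind, hres'⟩ := Chars2.exists_correspondent hNT θ.2 hT hζ hθc
  -- the canonical extension
  let e := Subgroup.subgroupOfEquivOfLe hNT
  set θ' : N.subgroupOf T → ℂ := fun x => (θ : N → ℂ) (e x) with hθ'def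
  have hθ' : IsIrrCharacter (N.subgroupOf T) θ' := isIrrCharacter_comp_equiv θ.2 e
  have hinv : Chars2.inertiaSub θ' = ⊤ := by
    refine Chars2.inertiaSub_eq_top fun t x => ?_
    have ht := Chars2.mem_inertiaSub.1 (T.inv_mem t.2)
    have := congrFun ht (e x)
    rw [Chars2.conjFun_apply] at this
    simp only [inv_inv] at this
    exact this
  have hcop' : (Nat.card (N.subgroupOf T)).Coprime (N.subgroupOf T).index := by
    rw [Nat.card_congr e.toEquiv]
    exact hcop.coprime_dvd_right ⟨T.index, (Subgroup.relIndex_mul_index hNT).symm⟩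
  obtain ⟨η, ⟨hη, hηθ, hηd⟩, -⟩ := existsUnique_ext_coprime (N.subgroupOf T) hcop' hθ' hinv
  have hηθ' : ∀ n : N, η ⟨(n : H), hNT n.2⟩ = (θ : N → ℂ) n := fun n =>
    hηθ ⟨⟨(n : H), hNT n.2⟩, n.2⟩
  obtain ⟨a, ha⟩ := exists_apply_one_eq (isCharacter_of_isIrr θ.2)
  obtain ⟨d, -, hd⟩ := exists_irr_apply_one_eq hψ
  have hη1 : η 1 = a := by
    have := hηθ' 1
    rw [ha] at this
    exact this
  refine ⟨indFun T η, isCharacter_indFun T (isCharacter_of_isIrr hη),
    ⟨T.index * a, T.index * d, ?_, ?_, ?_⟩, ?_, ?_⟩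
  · rw [indFun_apply_one, hη1, Nat.cast_mul]
  · rw [← hind, indFun_apply_one, hd, Nat.cast_mul]
  · -- the degree of a constituent is at most the degree
    refine Nat.mul_le_mul_left _ ?_
    have h1 := Chars2.resSub_eq_of_fixing N T hNT θ.2 le_rfl hψ (by rw [hres']; exact hθc) 1
    obtain ⟨c, hc⟩ := exists_classInner_eq_nat
      (Chars2.isCharacter_resSub (N := N) (T := T) hNT (isCharacter_of_isIrr hψ))
      (isCharacter_of_isIrr θ.2)
    rw [hc, ha] at h1
    have h2 : d = c * a := by
      have : (d : ℂ) = ((c * a : ℕ) : ℂ) := by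
        rw [Nat.cast_mul, ← h1, ← hd]
        rfl
      exact_mod_cast this
    rcases Nat.eq_zero_or_pos c with rfl | hc0
    · exact absurd (by rw [hc, Nat.cast_zero]) (hres'.trans_ne hθc)
    · rw [h2]; exact Nat.le_mul_of_pos_left a hc0
  · intro σ x hx
    rw [indFun_apply, map_mul, map_inv₀, map_natCast, map_sum]
    congr 1
    refine Finset.sum_congr rfl fun y _ => ?_
    rw [extendByZero_eq_ite]
    split_ifs with hy
    swap
    · exact map_zero σ
    obtain ⟨k, hk, hσ⟩ := exists_aut_apply (G := T) σ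
    obtain ⟨k', hk'1, hk'2⟩ := Nat.chineseRemainder hcop' 1 k
    obtain ⟨σ', hσ'⟩ := exists_aut_of_coprime (G := T) (k := k') (by
      rw [← (N.subgroupOf T).card_mul_index]
      refine Nat.Coprime.mul_right ?_ ?_
      · exact Nat.Coprime.symm (Nat.coprime_comm.1 ((Nat.ModEq.gcd_eq hk'1).trans (Nat.gcd_one_left _)))
      · have hk2 := hk.coprime_dvd_right
          (Dvd.intro_left _ (N.subgroupOf T).card_mul_index)
        exact (Nat.ModEq.gcd_eq hk'2).trans hk2)
    set t : T := ⟨y⁻¹ * x * y, hy⟩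
    have hord : orderOf t ∣ (N.subgroupOf T).index := by
      obtain ⟨j, hj⟩ := hx
      have h1 : orderOf t ∣ p ^ j := orderOf_dvd_of_pow_eq_one (Subtype.ext (by
        show (y⁻¹ * x * y) ^ p ^ j = 1
        have := conj_pow (a := y⁻¹) (b := x) (i := p ^ j)
        rw [inv_inv] at this
        rw [this, hj, mul_one, inv_mul_cancel]))
      have h2 : orderOf t ∣ Nat.card (N.subgroupOf T) * (N.subgroupOf T).index := by
        rw [Subgroup.card_mul_index]; exact orderOf_dvd_natCard t
      refine (Nat.Coprime.dvd_mul_left ?_).1 h2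
      rw [Nat.card_congr e.toEquiv]
      exact (((hp.out.coprime_iff_not_dvd.2 hpN).pow_left j).coprime_dvd_left h1)
    rw [hσ η (isCharacter_of_isIrr hη) t,
      show t ^ k = t ^ k' from pow_eq_pow_of_modEq (pow_orderOf_eq_one t) (hk'2.of_dvd hord).symm,
      ← hσ' η (isCharacter_of_isIrr hη) t]
    refine map_eq_of_canonical (N.subgroupOf T) hcop' hη ?_ ?_ hηd σ' (fun n => ?_) t
    · simpa only [hηθ] using hθ'
    · simpa only [hηθ] using hinv
    · rw [hσ' η (isCharacter_of_isIrr hη) n]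
      congr 1
      have h1 : orderOf (n : T) ∣ Nat.card (N.subgroupOf T) := by
        rw [Subgroup.orderOf_coe]; exact orderOf_dvd_natCard n
      conv_rhs => rw [← pow_one (n : T)]
      exact pow_eq_pow_of_modEq (pow_orderOf_eq_one _) (hk'1.of_dvd h1)
  · intro n hn hker
    have hall : ∀ g : H, (θ : N → ℂ) ⟨g⁻¹ * n * g, by
        have := hN.conj_mem n hn g⁻¹; simpa using this⟩ = a := by
      have hmem : ∀ g : H, g⁻¹ * n * g ∈ N := fun g => by
        have := hN.conj_mem n hn g⁻¹; simpa using this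
      have hre : ∀ g : H, ((θ : N → ℂ) ⟨g⁻¹ * n * g, hmem g⟩).re ≤ (a : ℝ) := fun g => by
        have := norm_le_of_isCharacter (isCharacter_of_isIrr θ.2) ⟨g⁻¹ * n * g, hmem g⟩
        rw [ha, Complex.natCast_re] at this
        exact (Complex.re_le_norm _).trans this
      have hsum : ∑ g : H, (θ : N → ℂ) ⟨g⁻¹ * n * g, hmem g⟩ = ∑ g : H, (a : ℂ) := by
        have h := hker
        rw [indFun_apply, indFun_apply_one, hη1, inv_mul_eq_iff_eq_mul₀ (subgroup_card_ne_zero T),
          ← mul_assoc, ← Nat.cast_mul, Subgroup.card_mul_index] at h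
        rw [Finset.sum_const, Finset.card_univ, nsmul_eq_mul, ← Nat.card_eq_fintype_card, ← h]
        refine Finset.sum_congr rfl fun g _ => ?_
        rw [extendByZero_of_mem T _ (hNT (hmem g))]
        exact (hηθ' ⟨_, hmem g⟩).symm
      intro g
      have hre' := congrArg Complex.re hsum
      rw [Complex.re_sum, Complex.re_sum] at hre'
      have heq := (Finset.sum_eq_sum_iff_of_le fun g _ => by
        rw [Complex.natCast_re]; exact hre g).1 hre' g (Finset.mem_univ g)
      rw [Complex.natCast_re] at heq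
      have hn' := norm_le_of_isCharacter (isCharacter_of_isIrr θ.2) ⟨g⁻¹ * n * g, hmem g⟩
      rw [ha, Complex.natCast_re] at hn'
      have hnorm : ‖(θ : N → ℂ) ⟨g⁻¹ * n * g, hmem g⟩‖ = (a : ℝ) :=
        le_antisymm hn' (heq ▸ Complex.re_le_norm _)
      have him : ((θ : N → ℂ) ⟨g⁻¹ * n * g, hmem g⟩).im = 0 := by
        apply Complex.abs_re_eq_norm.1
        rw [heq, hnorm, abs_of_nonneg (Nat.cast_nonneg a)]
      exact Complex.ext (by rw [Complex.natCast_re]; exact heq)
        (by rw [Complex.natCast_im]; exact him)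
    have h1 := Chars2.clifford_restrict hζ θ.2 hθc ⟨n, hn⟩
    have h2 := Chars2.clifford_restrict hζ θ.2 hθc 1
    change ζ n = _ at h1
    change ζ 1 = _ at h2
    rw [h1, h2]
    congr 1
    refine Finset.sum_congr rfl fun φ hφ => ?_
    obtain ⟨g, hg⟩ := (Chars2.mem_orbitFinset θ.2).1 hφ
    rw [← hg, Chars2.conjFun_apply, Chars2.conjFun_apply]
    have hg' := hall g
    simp only [Subgroup.coe_one, mul_one, inv_inv, inv_mul_cancel]
    rw [hg']
    exact ha.symm

end ext

variable {G : Type u} [Group G] [Finite G] {p : ℕ} [hp : Fact p.Prime]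

/-- The bound for a `p`-group acting on a normal `p'`-subgroup. -/
theorem factorization_index_le_of_action {χ : G → ℂ} (hχ : IsCharacter G χ)
    (hf : ∀ g : G, χ g = χ 1 → g = 1) {n : ℕ} (hn : χ 1 = n) (N Q : Subgroup G)
    (hQ : IsPGroup p Q) (hpN : ¬ p ∣ Nat.card N) (hQN : Q ≤ Subgroup.normalizer (N : Set G)) :
    ∃ K : Subgroup G, K ≤ Q ∧ (∀ x ∈ K, ∀ y ∈ N, x * y = y * x) ∧
      (K.relIndex Q).factorization p ≤ ∑ i ∈ Finset.range (n + 1), n / ((p - 1) * p ^ i) := by
  classical
  set H := N ⊔ Q with hH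
  haveI : Fintype H := Fintype.ofFinite _
  haveI : Fintype Q := Fintype.ofFinite _
  have hHN : H ≤ Subgroup.normalizer (N : Set G) := sup_le Subgroup.le_normalizer hQN
  haveI hNn : (N.subgroupOf H).Normal := Subgroup.normal_subgroupOf_of_le_normalizer hHN
  have hcardN : Nat.card (N.subgroupOf H) = Nat.card N :=
    Nat.card_congr (Subgroup.subgroupOfEquivOfLe le_sup_left).toEquiv
  have hidx : (N.subgroupOf H).index ∣ Nat.card Q := by
    let f : Q →* H ⧸ N.subgroupOf H :=
      (QuotientGroup.mk' (N.subgroupOf H)).comp (Subgroup.inclusion le_sup_right)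
    have hf : Function.Surjective f := by
      intro y
      obtain ⟨x, rfl⟩ := QuotientGroup.mk_surjective y
      have hx : x ∈ N.subgroupOf H ⊔ Q.subgroupOf H := by
        rw [← Subgroup.subgroupOf_sup le_sup_left le_sup_right, Subgroup.subgroupOf_self]
        exact Subgroup.mem_top x
      obtain ⟨a, ha, b, hb, rfl⟩ := Subgroup.mem_sup_of_normal_left.1 hx
      refine ⟨⟨(b : G), hb⟩, ?_⟩
      show ((b : H) : H ⧸ N.subgroupOf H) = _
      rw [QuotientGroup.mk_mul, (QuotientGroup.eq_one_iff a).2 ha, one_mul]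
    rw [Subgroup.index_eq_card]
    exact Subgroup.card_dvd_of_surjective f hf
  have hcop : (Nat.card (N.subgroupOf H)).Coprime (N.subgroupOf H).index := by
    obtain ⟨r, hr⟩ := IsPGroup.iff_card.1 hQ
    rw [hcardN]
    exact (((hp.out.coprime_iff_not_dvd.2 hpN).symm).pow_right r).coprime_dvd_right (hr ▸ hidx)
  have hχH : IsCharacter H (fun x : H => χ x) := isCharacter_restrict hχ H
  obtain ⟨c, hc⟩ := Chars2.exists_multiplicities hχH
  choose rep hrep hdeg hrat hker using fun ζ : IrrCharacter H =>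
    exists_rational_replacement (p := p) (N.subgroupOf H) hcop (hcardN ▸ hpN) ζ.2
  choose a b ha hb hab using hdeg
  let Φ : H → ℂ := ∑ ζ : IrrCharacter H, c ζ • rep ζ
  have hΦ : IsCharacter H Φ :=
    isCharacter_sum _ _ fun ζ _ => isCharacter_nsmul (hrep ζ) _
  have hval : ∀ x, Φ x = ∑ ζ : IrrCharacter H, (c ζ : ℂ) * rep ζ x := fun x => by
    simp [Φ, Finset.sum_apply, nsmul_eq_mul]
  have hχval : ∀ x : H, χ x = ∑ ζ : IrrCharacter H, (c ζ : ℂ) * (ζ : H → ℂ) x := fun x => by
    refine (Chars2.apply_eq_sum (isClassFunction_of_isCharacter hχH) x).trans ?_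
    simp only [hc]
  set n' := ∑ ζ : IrrCharacter H, c ζ * a ζ with hn'
  have hn'n : n' ≤ n := by
    have h1 := hχval 1
    simp only [hb, Subgroup.coe_one, hn] at h1
    have h2 : n = ∑ ζ : IrrCharacter H, c ζ * b ζ := by exact_mod_cast h1
    rw [h2]
    exact Finset.sum_le_sum fun ζ _ => Nat.mul_le_mul_left _ (hab ζ)
  have hΦ1 : Φ 1 = n' := by
    rw [hval, hn', Nat.cast_sum]
    exact Finset.sum_congr rfl fun ζ _ => by rw [ha, Nat.cast_mul]
  have hfaith : ∀ x : H, (x : G) ∈ N → Φ x = Φ 1 → x = 1 := by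
    intro x hxN hx
    have key : ∀ ζ : IrrCharacter H, (c ζ : ℂ) * (ζ : H → ℂ) x = c ζ * (ζ : H → ℂ) 1 := by
      intro ζ
      by_cases h0 : c ζ = 0
      · simp [h0]
      rw [hker ζ x (Subgroup.mem_subgroupOf.2 hxN) ?_]
      have hle : ∀ ζ : IrrCharacter H, ((c ζ : ℂ) * rep ζ x).re ≤ ((c ζ : ℂ) * rep ζ 1).re := by
        intro ζ
        rw [Complex.mul_re, Complex.mul_re, Complex.natCast_re, Complex.natCast_im]
        simp only [zero_mul, sub_zero]
        exact mul_le_mul_of_nonneg_left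
          ((Complex.re_le_norm _).trans (norm_le_of_isCharacter (hrep ζ) x)) (Nat.cast_nonneg _)
      have h1 := congrArg Complex.re hx
      rw [hval, hval, Complex.re_sum, Complex.re_sum] at h1
      have h2 := (Finset.sum_eq_sum_iff_of_le fun ζ _ => hle ζ).1 h1 ζ (Finset.mem_univ _)
      rw [Complex.mul_re, Complex.mul_re, Complex.natCast_re, Complex.natCast_im] at h2
      simp only [zero_mul, sub_zero] at h2
      have h3 : (rep ζ x).re = (rep ζ 1).re :=
        mul_left_cancel₀ (Nat.cast_ne_zero.2 h0) h2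
      have hnorm := norm_le_of_isCharacter (hrep ζ) x
      rw [← h3] at hnorm
      have him : (rep ζ x).im = 0 := by
        apply Complex.abs_re_eq_norm.1
        exact le_antisymm (Complex.abs_re_le_norm _) (hnorm.trans (le_abs_self _))
      refine Complex.ext h3 ?_
      rw [him, ha, Complex.natCast_im]
    have : χ x = χ 1 := by
      rw [hχval x, Finset.sum_congr rfl fun ζ _ => key ζ, ← hχval 1, Subgroup.coe_one]
    exact Subtype.ext (hf _ this)
  -- restrict to `Q` and factor out the kernel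
  let ι : Q →* H := Subgroup.inclusion le_sup_right
  have hψc : IsCharacter Q (Φ ∘ ι) := isCharacter_comp hΦ ι
  let KQ : Subgroup Q := charKer hψc
  have hKQ : ∀ x, x ∈ KQ ↔ Φ (ι x) = Φ (ι 1) := fun x => Iff.rfl
  haveI : KQ.Normal := ⟨fun k hk g => (hKQ _).2 (by
    rw [map_mul, map_mul, map_inv,
      isClassFunction_of_isCharacter hΦ (ι k) (ι g)]
    exact (hKQ k).1 hk)⟩
  refine ⟨KQ.map Q.subtype, Subgroup.map_subtype_le _, ?_, ?_⟩
  · rintro x ⟨q, hq, rfl⟩ y hy
    let y' : H := ⟨y, (le_sup_left : N ≤ H) hy⟩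
    have hker' : Φ (ι q) = Φ 1 := by rw [(hKQ q).1 hq, map_one]
    have hmemN : ((ι q * y' * (ι q)⁻¹ * y'⁻¹ : H) : G) ∈ N :=
      N.mul_mem ((Subgroup.mem_normalizer_iff.1 (hQN q.2) y).1 hy) (N.inv_mem hy)
    have h1 : ι q ∈ charKer hΦ := hker'
    have h2 : ι q * (y' * (ι q)⁻¹ * y'⁻¹) ∈ charKer hΦ := by
      refine mul_mem h1 ?_
      show Φ _ = Φ 1
      rw [isClassFunction_of_isCharacter hΦ (ι q)⁻¹ y']
      exact inv_mem h1
    have h2' : ι q * y' * (ι q)⁻¹ * y'⁻¹ ∈ charKer hΦ := by simpa only [← mul_assoc] using h2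
    have h3 := hfaith _ hmemN h2'
    have h4 := congrArg Subtype.val h3
    simp only [Subgroup.coe_mul, Subgroup.coe_inv, Subgroup.coe_one] at h4
    show (q : G) * y = y * q
    exact mul_inv_eq_iff_eq_mul.1 (mul_inv_eq_one.1 h4)
  · have hrel : (KQ.map Q.subtype).relIndex Q = KQ.index := by
      rw [Subgroup.relIndex, Subgroup.subgroupOf, Subgroup.comap_map_eq_self_of_injective
        Q.subtype_injective]
    rw [hrel, Subgroup.index_eq_card]
    haveI : Fintype (Q ⧸ KQ) := Fintype.ofFinite _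
    obtain ⟨d, ρ, hρ⟩ := id hψc
    have hKer : ∀ q ∈ KQ, ρ q = 1 := by
      intro q hq
      have h1 := (hKQ q).1 hq
      have h2 : ρ.character q = ρ.character 1 := by
        rw [hρ]; exact h1
      rwa [Representation.char_one, rep_char_eq_finrank_iff] at h2
    let ρ' : Representation ℂ (Q ⧸ KQ) (Fin d → ℂ) :=
      QuotientGroup.lift KQ ρ fun q hq => hKer q hq
    have hρ' : ∀ q : Q, ρ'.character (q : Q ⧸ KQ) = Φ (ι q) := fun q => by
      show _ = (Φ ∘ ι) q
      rw [← hρ]; rfl
    have hdvd := card_dvd (p := p) (ψ := ρ'.character) (n := n') (m := n)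
      (hQ.to_quotient KQ) (isCharacter_of_rep ρ')
      (by rw [← QuotientGroup.mk_one, hρ', map_one, hΦ1]) hn'n
      (fun x hx => by
        obtain ⟨q, rfl⟩ := QuotientGroup.mk_surjective x
        rw [← QuotientGroup.mk_one, hρ', hρ'] at hx
        exact (QuotientGroup.eq_one_iff q).2 ((hKQ q).2 hx))
      (fun σ x => by
        obtain ⟨q, rfl⟩ := QuotientGroup.mk_surjective x
        rw [hρ', hval, map_sum]
        refine Finset.sum_congr rfl fun ζ _ => ?_
        obtain ⟨j, hj⟩ := hQ q
        rw [map_mul, map_natCast, hrat ζ σ (ι q) ⟨j, by rw [← map_pow, hj, map_one]⟩])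
    refine le_trans ?_ (factorization_bound (p := p) n)
    exact (Nat.factorization_le_iff_dvd Nat.card_pos.ne'
      (mul_ne_zero (pow_ne_zero _ hp.out.ne_zero) (Nat.factorial_ne_zero _))).2 hdvd p

/-- A `p'`-subgroup on which a `p`-group acts with small kernel. -/
theorem exists_action (hsolv : IsPSolvable p G) :
    ∃ N Q : Subgroup G, ¬ p ∣ Nat.card N ∧ IsPGroup p Q ∧
      Q ≤ Subgroup.normalizer (N : Set G) ∧
      ∀ K : Subgroup G, K ≤ Q → (∀ x ∈ K, ∀ y ∈ N, x * y = y * x) →
        (pCore p G).index.factorization p ≤ (K.relIndex Q).factorization p := by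
  classical
  rw [Core.pCore_eq_piCore]
  set R := piCore {p} G with hR
  haveI : R.Normal := inferInstance
  set M := (piCore ({p}ᶜ : Set ℕ) (G ⧸ R)).comap (QuotientGroup.mk' R) with hM
  haveI : M.Normal := Subgroup.Normal.comap inferInstance _
  have hRM : R ≤ M := fun x hx => by
    show QuotientGroup.mk' R x ∈ piCore ({p}ᶜ : Set ℕ) (G ⧸ R)
    rw [QuotientGroup.mk'_apply]
    rw [(QuotientGroup.eq_one_iff x).2 hx]
    exact one_mem _
  have hRp : IsPiNat {p} (Nat.card R) := Core.isPiNat_card_piCore _ G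
  have hMR : IsPiNat ({p}ᶜ : Set ℕ) (R.relIndex M) := by
    have h1 : Nat.card M = Nat.card (piCore ({p}ᶜ : Set ℕ) (G ⧸ R)) * Nat.card R := by
      rw [hM, Core.card_comap_mk]
    have h2 := Core.card_mul_relIndex hRM
    rw [h1, mul_comm (Nat.card _) (Nat.card R)] at h2
    rw [Nat.eq_of_mul_eq_mul_left Nat.card_pos h2]
    exact Core.isPiNat_card_piCore _ _
  haveI : (R.subgroupOf M).Normal := inferInstance
  have hcop : (Nat.card (R.subgroupOf M)).Coprime (R.subgroupOf M).index := by
    rw [Core.card_subgroupOf hRM]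
    exact hRp.coprime_compl hMR
  obtain ⟨N', hN'⟩ := Subgroup.exists_right_complement'_of_coprime hcop
  set N := N'.map M.subtype with hN
  have hcardN : Nat.card N = R.relIndex M := by
    rw [hN, Core.card_map_subtype, Core.card_eq_index_of_isComplement' hN']
    rfl
  have hpN : ¬ p ∣ Nat.card N := by
    rw [hcardN]; exact (Core.isPiNat_compl_singleton_iff hp.out).1 hMR
  -- Frattini
  have hfrat : ∀ g : G, ∃ r ∈ R, r * g ∈ Subgroup.normalizer (N : Set G) := by
    intro g
    let cM : M ≃* M := MulAut.conjNormal g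
    have hKcard : Nat.card (N'.map cM.toMonoidHom) = (R.subgroupOf M).index := by
      rw [Subgroup.card_map_of_injective (f := cM.toMonoidHom) cM.injective, Core.card_eq_index_of_isComplement' hN']
    obtain ⟨m, hm⟩ := Core.exists_conj_eq_of_coprime hcop
      (Or.inl (by
        haveI : Group.IsNilpotent (R.subgroupOf M) := (((Core.isPGroup_iff_isPiNat).2 (by
          rw [Core.card_subgroupOf hRM]; exact hRp) : IsPGroup p (R.subgroupOf M))).isNilpotent
        infer_instance))
      hKcard (Core.card_eq_index_of_isComplement' hN')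
    obtain ⟨hmR, hm⟩ := hm
    refine ⟨(m : G), Subgroup.mem_subgroupOf.1 hmR, ?_⟩
    have hmg : (m : G) * g ∈ Subgroup.normalizer (N : Set G) := by
      rw [Subgroup.mem_normalizer_iff_map_conj_eq]
      rw [hN, Subgroup.map_map]
      conv_rhs => rw [← hm, Core.conj_smul_eq_map, Subgroup.map_map, Subgroup.map_map]
      congr 1
      ext y
      show (m : G) * g * (y : G) * ((m : G) * g)⁻¹ =
        (m : G) * ((cM y : M) : G) * ((m : G))⁻¹
      rw [MulAut.conjNormal_apply]
      group
    exact hmg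
  set W := Subgroup.normalizer (N : Set G) with hW
  obtain ⟨Q₀⟩ : Nonempty (Sylow p W) := inferInstance
  set Q := (Q₀ : Subgroup W).map W.subtype with hQdef
  refine ⟨N, Q, hpN, Q₀.isPGroup'.map _, Subgroup.map_subtype_le _, fun K hKQ hKc => ?_⟩
  -- the kernel lies in `R`
  have hQbar : piCore ({p} : Set ℕ) (G ⧸ R) = ⊥ := Core.piCore_quotient_piCore _ G
  have hKR : K ≤ R := by
    intro x hx
    have hc := Core.centralizer_piCore_le (π := ({p}ᶜ : Set ℕ))
      ((Core.isPiSeparable_compl (Core.isPiSeparable_of_isPSolvable hsolv)).quotient R)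
      (by rw [compl_compl]; exact hQbar)
    have hxc : (x : G ⧸ R) ∈
        Subgroup.centralizer (piCore ({p}ᶜ : Set ℕ) (G ⧸ R) : Set (G ⧸ R)) := by
      rw [Subgroup.mem_centralizer_iff]
      intro z hz
      obtain ⟨y, rfl⟩ := QuotientGroup.mk_surjective z
      have hyM : y ∈ M := hz
      obtain ⟨⟨⟨r, hr⟩, ⟨k, hk⟩⟩, hrk⟩ := hN'.surjective ⟨y, hyM⟩
      have e : (y : G ⧸ R) = ((k : G) : G ⧸ R) := by
        have h1 : (r : G) * (k : G) = y := congrArg Subtype.val hrk
        rw [← h1, QuotientGroup.mk_mul,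
          (QuotientGroup.eq_one_iff (r : G)).2 (Subgroup.mem_subgroupOf.1 hr), one_mul]
      rw [e, ← QuotientGroup.mk_mul, ← QuotientGroup.mk_mul, hKc x hx k ⟨k, hk, rfl⟩]
    have hmem := hc hxc
    obtain ⟨j, hj⟩ := (Q₀.isPGroup'.map W.subtype) ⟨x, hKQ hx⟩
    have hj' : x ^ p ^ j = 1 := congrArg Subtype.val hj
    rw [← QuotientGroup.eq_one_iff, ← orderOf_eq_one_iff]
    refine Nat.eq_one_of_dvd_coprimes (a := p ^ j) (b := Nat.card (piCore ({p}ᶜ : Set ℕ) (G ⧸ R)))
      ((Nat.Prime.coprime_iff_not_dvd hp.out).2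
        ((Core.isPiNat_compl_singleton_iff hp.out).1 (Core.isPiNat_card_piCore _ _)) |>.pow_left j)
      (orderOf_dvd_of_pow_eq_one (by rw [← QuotientGroup.mk_pow, hj', QuotientGroup.mk_one]))
      (Subgroup.orderOf_dvd_natCard _ hmem)
  -- counting
  let f : W →* G ⧸ R := (QuotientGroup.mk' R).comp W.subtype
  have hsurj : Function.Surjective f := by
    intro y
    obtain ⟨g, rfl⟩ := QuotientGroup.mk_surjective y
    obtain ⟨r, hr, hrg⟩ := hfrat g
    refine ⟨⟨r * g, hrg⟩, ?_⟩
    show ((r * g : G) : G ⧸ R) = g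
    rw [QuotientGroup.mk_mul, (QuotientGroup.eq_one_iff r).2 hr, one_mul]
  have h1 : Nat.card f.ker * R.index = Nat.card W := by
    rw [Subgroup.index_eq_card, ← Nat.card_congr
      (QuotientGroup.quotientKerEquivOfSurjective f hsurj).toEquiv, ← Subgroup.index_eq_card,
      Subgroup.card_mul_index]
  have hKW : K ≤ W := hKQ.trans (Subgroup.map_subtype_le _)
  have h2 : Nat.card K ∣ Nat.card f.ker := by
    rw [← Core.card_subgroupOf hKW]
    exact Subgroup.card_dvd_of_le fun x hx => by
      show ((x : G) : G ⧸ R) = 1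
      exact (QuotientGroup.eq_one_iff _).2 (hKR hx)
  have h3 := Core.card_mul_relIndex hKQ
  have h4 : Nat.card Q = p ^ (Nat.card W).factorization p := by
    rw [hQdef, Core.card_map_subtype, Q₀.card_eq_multiplicity]
  obtain ⟨c, hc⟩ := h2
  have hK0 : Nat.card K ≠ 0 := Nat.card_pos.ne'
  have hc0 : c ≠ 0 := fun h => by rw [h, mul_zero] at hc; exact Nat.card_pos.ne' hc
  have hr0 : R.index ≠ 0 := Subgroup.index_ne_zero_of_finite
  have hrel0 : K.relIndex Q ≠ 0 := fun h => by
    rw [h, mul_zero] at h3; exact Nat.card_pos.ne' h3.symm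
  have e1 := congrArg (fun z => Nat.factorization z p) h1
  have e3 := congrArg (fun z => Nat.factorization z p) (h3.trans h4)
  simp only [hc, Nat.factorization_mul (mul_ne_zero hK0 hc0) hr0, Nat.factorization_mul hK0 hc0,
    Finsupp.add_apply] at e1
  simp only [Nat.factorization_mul hK0 hrel0, Finsupp.add_apply, hp.out.factorization_pow,
    Finsupp.single_eq_same] at e3
  omega

/-- The bound for `p`-solvable linear groups. -/
theorem factorization_index_pCore_le (hsolv : IsPSolvable p G) {χ : G → ℂ} (hχ : IsCharacter G χ)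
    (hf : ∀ g : G, χ g = χ 1 → g = 1) {n : ℕ} (hn : χ 1 = n) :
    (pCore p G).index.factorization p ≤ ∑ i ∈ Finset.range (n + 1), n / ((p - 1) * p ^ i) := by
  obtain ⟨N, Q, hpN, hQ, hQN, hN⟩ := exists_action hsolv
  obtain ⟨K, hKQ, hKc, hKb⟩ := factorization_index_le_of_action hχ hf hn N Q hQ hpN hQN
  exact (hN K hKQ hKc).trans hKb

end Cfsg.Agent.Chars.SchurPBound
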