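import Cfsg.Agent.Chars.CyclicGlauberman
import Cfsg.Agent.Chars2.ExtendChar

/-! The degree congruence for a fully ramified section under a cyclic Frobenius action. -/

set_option autoImplicit false
set_option linter.style.haveILetI false
set_option linter.unusedSectionVars false

open Cfsg
open scoped ComplexConjugate

namespace Cfsg.Agent.Chars

universe u

/-- An integer vector with the least possible variance. -/
theorem dvd_of_min_variance {ι : Type*} [Fintype ι] (a : ι → ℤ) (hm : 2 ≤ Fintype.card ι)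
    (h : (Fintype.card ι : ℤ) * ∑ i, a i ^ 2 = (∑ i, a i) ^ 2 + ((Fintype.card ι : ℤ) - 1)) :
    (Fintype.card ι : ℤ) ∣ ∑ i, a i - 1 ∨ (Fintype.card ι : ℤ) ∣ ∑ i, a i + 1 := by
  classical
  set m : ℤ := (Fintype.card ι : ℤ) with hmdef
  have hpair : ∑ i, ∑ j, (a i - a j) ^ 2 = 2 * (m - 1) := by
    have e : ∀ i, ∑ j, (a i - a j) ^ 2 = m * a i ^ 2 - 2 * a i * ∑ j, a j + ∑ j, a j ^ 2 := by
      intro i
      simp only [sub_sq, Finset.sum_add_distrib, Finset.sum_sub_distrib, ← Finset.mul_sum,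
        Finset.sum_const, Finset.card_univ, nsmul_eq_mul, ← hmdef]
    simp only [e, Finset.sum_add_distrib, Finset.sum_sub_distrib, ← Finset.mul_sum,
      ← Finset.sum_mul, Finset.sum_const, Finset.card_univ, nsmul_eq_mul, ← hmdef]
    linear_combination 2 * h
  haveI : Nonempty ι := Fintype.card_pos_iff.1 (by omega)
  obtain ⟨i₀, -, hmax⟩ := Finset.exists_max_image (Finset.univ : Finset ι) a Finset.univ_nonempty
  set S := Finset.univ.filter fun i => a i = a i₀
  set d := fun j => a i₀ - a j with hd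
  have hnotall : Sᶜ.Nonempty := by
    by_contra hemp
    rw [Finset.not_nonempty_iff_eq_empty] at hemp
    have hall : ∀ j, a j = a i₀ := fun j => by
      by_contra hne
      exact Finset.notMem_empty j (hemp ▸ (by simp [S, hne] : j ∈ Sᶜ))
    simp only [hall, sub_self] at hpair
    simp at hpair
    omega
  have hd1 : ∀ j ∈ Sᶜ, 1 ≤ d j := by
    intro j hj
    simp only [S, Finset.mem_compl, Finset.mem_filter, Finset.mem_univ, true_and] at hj
    have := hmax j (Finset.mem_univ j)
    simp only [hd]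
    omega
  have hi₀ : i₀ ∈ S := by simp [S]
  have hs : 1 ≤ (S.card : ℤ) := by exact_mod_cast Finset.card_pos.2 ⟨i₀, hi₀⟩
  have ht : 1 ≤ (Sᶜ.card : ℤ) := by exact_mod_cast Finset.card_pos.2 hnotall
  have hst : (S.card : ℤ) + Sᶜ.card = m := by
    rw [hmdef]; exact_mod_cast Finset.card_add_card_compl S
  have hsq : ∀ j ∈ Sᶜ, 1 ≤ d j ^ 2 := fun j hj => one_le_pow₀ (hd1 j hj)
  have hge : 2 * ((S.card : ℤ) * ∑ j ∈ Sᶜ, d j ^ 2) ≤ 2 * (m - 1) := by
    rw [← hpair, ← Finset.sum_add_sum_compl S (fun i => ∑ j, (a i - a j) ^ 2)]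
    have e1 : ∀ i ∈ S, ∑ j ∈ Sᶜ, d j ^ 2 ≤ ∑ j, (a i - a j) ^ 2 := fun i hi => by
      rw [show a i = a i₀ from (Finset.mem_filter.1 hi).2]
      exact Finset.sum_le_univ_sum_of_nonneg fun j => sq_nonneg _
    have e2 : ∀ i ∈ Sᶜ, (S.card : ℤ) * d i ^ 2 ≤ ∑ j, (a i - a j) ^ 2 := fun i _ => by
      refine le_trans (le_of_eq ?_) (Finset.sum_le_univ_sum_of_nonneg (s := S) fun j => sq_nonneg _)
      rw [Finset.sum_congr rfl (g := fun _ => d i ^ 2) fun j hj => by
        rw [show a j = a i₀ from (Finset.mem_filter.1 hj).2]; simp only [hd]; ring]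
      simp
    have h1 := Finset.sum_le_sum e1
    have h2 := Finset.sum_le_sum e2
    rw [Finset.sum_const, nsmul_eq_mul] at h1
    rw [← Finset.mul_sum] at h2
    omega
  have hlow : (Sᶜ.card : ℤ) ≤ ∑ j ∈ Sᶜ, d j ^ 2 := by
    calc (Sᶜ.card : ℤ) = ∑ _j ∈ Sᶜ, 1 := by simp
      _ ≤ _ := Finset.sum_le_sum hsq
  have hprod : (S.card : ℤ) = 1 ∨ (Sᶜ.card : ℤ) = 1 := by
    by_contra hc
    push Not at hc
    have : 0 < ((S.card : ℤ) - 1) * ((Sᶜ.card : ℤ) - 1) :=
      mul_pos (by omega) (by omega)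
    nlinarith
  have heq : ∀ j ∈ Sᶜ, d j = 1 := by
    intro j hj
    have hle : ∑ j ∈ Sᶜ, d j ^ 2 ≤ (Sᶜ.card : ℤ) := by
      rcases hprod with h1 | h1
      · rw [h1, one_mul] at hge
        linarith
      · have h2 : (S.card : ℤ) * ∑ j ∈ Sᶜ, d j ^ 2 ≤ S.card * 1 := by linarith
        have h3 := le_of_mul_le_mul_left h2 (by omega)
        linarith
    have hall : ∑ _j ∈ Sᶜ, (1 : ℤ) = ∑ j ∈ Sᶜ, d j ^ 2 := by
      simp only [Finset.sum_const, nsmul_eq_mul, mul_one]; omega
    have := (Finset.sum_eq_sum_iff_of_le hsq).1 hall j hj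
    nlinarith [hd1 j hj]
  have hsum : ∑ i, a i = m * a i₀ - Sᶜ.card := by
    have e : ∑ i, a i = (∑ _i : ι, a i₀) - ∑ i, d i := by
      simp only [hd, Finset.sum_sub_distrib]; ring
    rw [e, ← Finset.sum_add_sum_compl S d,
      Finset.sum_eq_zero (s := S) (f := d) fun i hi => by
        simp only [hd, (Finset.mem_filter.1 hi).2, sub_self],
      Finset.sum_congr rfl heq]
    simp [hmdef]
  rcases hprod with h1 | h1
  · left
    exact ⟨a i₀ - 1, by rw [hsum]; linear_combination -hst + h1⟩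
  · right
    exact ⟨a i₀, by rw [hsum, h1]; ring⟩

/-- A character which is a multiple of an extendible character on a normal subgroup with cyclic
quotient, and has minimal norm on the other cosets. -/
theorem congr_of_coset_norm {H : Type u} [Group H] [Fintype H] (N : Subgroup H) [N.Normal]
    [Fintype N] [hcyc : IsCyclic (H ⧸ N)] (hidx : 2 ≤ N.index) {θ : N → ℂ}
    (hθ : IsIrrCharacter N θ)
    (hinv : ∀ (g : H) (n : N),
      θ ⟨g * n * g⁻¹, (inferInstance : N.Normal).conj_mem n n.2 g⟩ = θ n)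
    {F : H → ℂ} (hF : IsCharacter H F) {e : ℕ} (hres : ∀ n : N, F n = (e : ℂ) * θ n)
    (hout : ∀ h : H, h ∉ N → ∑ n : N, F (n * h) * conj (F (n * h)) = (Nat.card N : ℂ)) :
    (N.index : ℤ) ∣ (e : ℤ) - 1 ∨ (N.index : ℤ) ∣ (e : ℤ) + 1 := by
  classical
  haveI : Fintype (H ⧸ N) := Fintype.ofFinite _
  obtain ⟨θe, hθe, hθe'⟩ := Chars2.extends_of_cyclic θ hθ hinv
  have hm : Fintype.card (H ⧸ N) = N.index := by
    rw [← Nat.card_eq_fintype_card, ← Subgroup.index_eq_card]
  have hab : ∀ a b : H ⧸ N, a * b = b * a := fun a b => by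
    letI := IsCyclic.commGroup (α := H ⧸ N); exact mul_comm a b
  have hlin := fun η : IrrCharacter (H ⧸ N) => irr_apply_one_of_comm hab η.2
  have hcard : Fintype.card (IrrCharacter (H ⧸ N)) = N.index := by
    have h := sum_sq_apply_one (G := H ⧸ N)
    simp only [hlin, one_pow, Finset.sum_const, Finset.card_univ, nsmul_eq_mul, mul_one,
      Nat.card_eq_fintype_card, hm] at h
    exact_mod_cast h
  let T : IrrCharacter (H ⧸ N) → IrrCharacter H := fun η =>
    ⟨fun h => (η : H ⧸ N → ℂ) (h : H ⧸ N) * θe h, by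
      obtain ⟨l, hl⟩ := exists_hom_of_degree_one (irr_isCharacter η) (hlin η)
      rw [hl]
      exact isIrrCharacter_mul_hom hθe (l.comp (QuotientGroup.mk' N))⟩
  have hind : indFun N θ = ∑ η, (T η : H → ℂ) := by
    funext h
    rw [Finset.sum_apply]
    show _ = ∑ η : IrrCharacter (H ⧸ N), (η : H ⧸ N → ℂ) (h : H ⧸ N) * θe h
    have hs := sum_apply_one_mul (G := H ⧸ N) (h : H ⧸ N)
    simp only [hlin, one_mul] at hs
    rw [← Finset.sum_mul, hs]
    by_cases hh : h ∈ N
    · rw [if_pos ((QuotientGroup.eq_one_iff h).2 hh), indFun_coe_normal N θ ⟨h, hh⟩,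
        show θe h = θ ⟨h, hh⟩ from hθe' ⟨h, hh⟩]
      have e1 : ∀ x : H, θ ⟨x⁻¹ * h * x, (inferInstance : N.Normal).conj_mem' h hh x⟩ =
          θ ⟨h, hh⟩ := fun x => by
        rw [← hinv x⁻¹ ⟨h, hh⟩]; simp
      rw [Finset.sum_congr rfl fun x _ => e1 x, Finset.sum_const, Finset.card_univ, nsmul_eq_mul,
        ← Nat.card_eq_fintype_card, Subgroup.card_eq_card_quotient_mul_card_subgroup N]
      push_cast
      field_simp [subgroup_card_ne_zero N]
    · rw [if_neg (mt (QuotientGroup.eq_one_iff h).1 hh), zero_mul,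
        indFun_of_not_mem_normal N θ hh]
  have hindn : classInner (indFun N θ) (indFun N θ) = (N.index : ℂ) := by
    rw [classInner_indFun N θ (isClassFunction_indFun N θ)]
    have hres2 : (fun n : N => indFun N θ n) = fun n => (N.index : ℂ) * θ n := by
      funext n
      have e1 : ∀ x : H, θ ⟨x⁻¹ * n * x, (inferInstance : N.Normal).conj_mem' n n.2 x⟩ =
          θ n := fun x => by
        conv_rhs => rw [← hinv x⁻¹ n]
        simp
      rw [indFun_coe_normal, Finset.sum_congr rfl fun x _ => e1 x, Finset.sum_const,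
        Finset.card_univ, nsmul_eq_mul, ← Nat.card_eq_fintype_card, ← Subgroup.card_mul_index N]
      push_cast
      field_simp [subgroup_card_ne_zero N]
    rw [hres2, show (fun n => (N.index : ℂ) * θ n) = (N.index : ℂ) • θ from rfl,
      classInner_smul_right, classInner_self_irr hθ, map_natCast, mul_one]
  have hTinj : Function.Injective T := by
    rw [hind, classInner_sum_left] at hindn
    simp only [classInner_sum_right, classInner_irrCharacter] at hindn
    intro η η' he
    by_contra hne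
    have h1 : ((∑ η, ∑ η', if T η = T η' then (1 : ℕ) else 0 : ℕ) : ℂ) = (N.index : ℂ) := by
      rw [← hindn]; push_cast; rfl
    have h2 : (∑ η, ∑ η', if T η = T η' then (1 : ℕ) else 0) = N.index := by exact_mod_cast h1
    have h3 : (∑ _η : IrrCharacter (H ⧸ N), 1) <
        ∑ η, ∑ η', if T η = T η' then (1 : ℕ) else 0 := by
      refine Finset.sum_lt_sum (fun x _ => ?_) ⟨η, Finset.mem_univ _, ?_⟩
      · refine le_trans (le_of_eq ?_) (Finset.single_le_sum (fun _ _ => Nat.zero_le _)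
          (Finset.mem_univ x))
        simp
      · refine lt_of_lt_of_le ?_ (Finset.sum_le_sum_of_subset (Finset.subset_univ {η, η'}))
        rw [Finset.sum_pair hne, if_pos rfl, if_pos he]
        norm_num
    rw [h2, Finset.sum_const, Finset.card_univ, hcard, smul_eq_mul, mul_one] at h3
    exact lt_irrefl _ h3
  obtain ⟨n, hn, hsum⟩ := exists_eq_sum_nsmul hF
  have hresd : ∀ β : IrrCharacter H, n β ≠ 0 → ∃ η, T η = β := by
    intro β hβ
    by_contra hnot
    push Not at hnot
    have h0 : classInner (fun x : N => (β : H → ℂ) x) θ = 0 := by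
      rw [← classInner_indFun_right N θ (isClassFunction_irr β), hind, classInner_sum_right]
      refine Finset.sum_eq_zero fun η _ => ?_
      rw [classInner_irrCharacter, if_neg fun h => hnot η h.symm]
    have h1 : classInner (fun x : N => F x) (fun x : N => (β : H → ℂ) x) = 0 := by
      rw [funext hres, show (fun x : N => (e : ℂ) * θ x) = (e : ℂ) • θ from rfl,
        classInner_smul_left, ← classInner_conj_symm, h0, map_zero, mul_zero]
    have hexp : (fun x : N => F x) =
        ∑ γ : IrrCharacter H, (n γ : ℂ) • fun x : N => (γ : H → ℂ) x := by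
      funext x
      have := congrFun hsum x
      simpa [Finset.sum_apply, nsmul_eq_mul] using this
    rw [hexp, classInner_sum_left] at h1
    choose c hc using fun γ : IrrCharacter H =>
      exists_classInner_eq_nat (isCharacter_restrict (irr_isCharacter γ) N)
        (isCharacter_restrict (irr_isCharacter β) N)
    simp only [classInner_smul_left] at h1
    simp only [hc] at h1
    have h2 : ∑ γ : IrrCharacter H, n γ * c γ = 0 := by exact_mod_cast h1
    have h3 : n β * c β = 0 := Finset.sum_eq_zero_iff.1 h2 β (Finset.mem_univ β)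
    rw [Nat.mul_eq_zero, or_iff_right hβ] at h3
    have h4 := hc β
    rw [h3, Nat.cast_zero, classInner_def, mul_eq_zero, or_iff_right
      (inv_ne_zero (subgroup_card_ne_zero N))] at h4
    have h5 : (0 : ℝ) < ∑ x : N, Complex.normSq ((β : H → ℂ) x) := by
      refine Finset.sum_pos' (fun x _ => Complex.normSq_nonneg _) ⟨1, Finset.mem_univ _, ?_⟩
      exact Complex.normSq_pos.2 (by
        rw [Subgroup.coe_one]; exact irr_apply_one_ne_zero β.2)
    have h6 : ((∑ x : N, Complex.normSq ((β : H → ℂ) x) : ℝ) : ℂ) = 0 := by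
      rw [← h4]; push_cast
      exact Finset.sum_congr rfl fun x _ => (Complex.mul_conj _).symm
    exact h5.ne' (by exact_mod_cast h6)
  have hFn : ∀ β : IrrCharacter H, classInner F (β : H → ℂ) = (n β : ℂ) := by
    intro β
    rw [hsum, classInner_sum_left, Finset.sum_eq_single β]
    · rw [← Nat.cast_smul_eq_nsmul ℂ, classInner_smul_left, classInner_self_irr β.2, mul_one]
    · intro γ _ hγ
      rw [← Nat.cast_smul_eq_nsmul ℂ, classInner_smul_left, classInner_irrCharacter,
        if_neg hγ, mul_zero]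
    · simp
  have hsumn : ∑ η, n (T η) = e := by
    have h1 : classInner F (indFun N θ) = (e : ℂ) := by
      rw [classInner_indFun_right N θ (isClassFunction_of_isCharacter hF), funext hres,
        show (fun x : N => (e : ℂ) * θ x) = (e : ℂ) • θ from rfl, classInner_smul_left,
        classInner_self_irr hθ, mul_one]
    rw [hind, classInner_sum_right] at h1
    simp only [hFn] at h1
    exact_mod_cast h1
  have hnorm : classInner F F = ((∑ η, n (T η) ^ 2 : ℕ) : ℂ) := by
    rw [classInner_eq_sum (isClassFunction_of_isCharacter hF)]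
    simp only [fun β : IrrCharacter H => (classInner_conj_symm F (β : H → ℂ)).symm, hFn,
      map_natCast]
    push_cast
    rw [← Finset.sum_image (f := fun β : IrrCharacter H => (n β : ℂ) ^ 2)
      (g := T) (hTinj.injOn)]
    symm
    rw [Finset.sum_subset (Finset.subset_univ _) fun β _ hβ => ?_]
    · exact Finset.sum_congr rfl fun β _ => sq _
    · have : n β = 0 := by
        by_contra h
        obtain ⟨η, hη⟩ := hresd β h
        exact hβ (Finset.mem_image.2 ⟨η, Finset.mem_univ _, hη⟩)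
      simp [this]
  have hin : ∀ q : H ⧸ N, ∑ h ∈ Finset.univ.filter (fun h : H => (h : H ⧸ N) = q),
      F h * conj (F h) = (Nat.card N : ℂ) * (if q = 1 then (e : ℂ) ^ 2 else 1) := by
    intro q
    obtain ⟨y, rfl⟩ := QuotientGroup.mk_surjective q
    have e1 : ∑ h ∈ Finset.univ.filter (fun h : H => (h : H ⧸ N) = (y : H ⧸ N)),
        F h * conj (F h) = ∑ x : N, F (x * y) * conj (F (x * y)) := by
      symm
      refine Finset.sum_bij (fun (x : N) _ => (x : H) * y) (fun x _ => ?_)
        (fun a _ b _ h => Subtype.ext (mul_right_cancel h)) (fun h hh => ?_) (fun _ _ => rfl)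
      · simp [(QuotientGroup.eq_one_iff (x : H)).2 x.2]
      · refine ⟨⟨h * y⁻¹, ?_⟩, Finset.mem_univ _, inv_mul_cancel_right h y⟩
        rw [← QuotientGroup.eq_one_iff, QuotientGroup.mk_mul, QuotientGroup.mk_inv,
          (Finset.mem_filter.1 hh).2, mul_inv_cancel]
    rw [e1]
    by_cases hy : y ∈ N
    · rw [if_pos ((QuotientGroup.eq_one_iff y).2 hy)]
      have h1 : classInner θ θ = 1 := classInner_self_irr hθ
      rw [classInner_def, inv_mul_eq_iff_eq_mul₀ (subgroup_card_ne_zero N), mul_one] at h1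
      rw [← h1, Finset.sum_mul]
      refine Fintype.sum_equiv (Equiv.mulRight ⟨y, hy⟩) _ _ fun x => ?_
      rw [show (x : H) * y = ((x * ⟨y, hy⟩ : N) : H) from rfl, hres, map_mul, map_natCast]
      show _ = θ (x * ⟨y, hy⟩) * conj (θ (x * ⟨y, hy⟩)) * _
      ring
    · rw [if_neg (mt (QuotientGroup.eq_one_iff y).1 hy), mul_one, hout y hy]
  have hH : classInner F F * (N.index : ℂ) = (e : ℂ) ^ 2 + ((N.index : ℂ) - 1) := by
    have hsum2 : ∑ h : H, F h * conj (F h) =
        (Nat.card N : ℂ) * ((e : ℂ) ^ 2 + ((N.index : ℂ) - 1)) := by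
      rw [← Finset.sum_fiberwise Finset.univ (fun h : H => (h : H ⧸ N))]
      simp only [hin, ← Finset.mul_sum]
      rw [← Finset.add_sum_erase _ _ (Finset.mem_univ (1 : H ⧸ N)), if_pos rfl,
        Finset.sum_congr rfl (g := fun _ => (1 : ℂ)) fun q hq => if_neg (Finset.ne_of_mem_erase hq),
        Finset.sum_const, Finset.card_erase_of_mem (Finset.mem_univ _), Finset.card_univ, hm,
        nsmul_eq_mul, mul_one, Nat.cast_sub (by omega), Nat.cast_one]
    rw [classInner_def, hsum2, ← Subgroup.card_mul_index N]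
    push_cast
    have : (N.index : ℂ) ≠ 0 := Nat.cast_ne_zero.2 (by omega)
    field_simp [subgroup_card_ne_zero N]
  rw [hnorm] at hH
  have hkey : (N.index : ℤ) * ∑ η, (n (T η) : ℤ) ^ 2 =
      (∑ η, (n (T η) : ℤ)) ^ 2 + ((N.index : ℤ) - 1) := by
    have hs : (∑ η, (n (T η) : ℤ)) = (e : ℤ) := by exact_mod_cast hsumn
    rw [hs]
    have h' : (((N.index : ℤ) * ∑ η, (n (T η) : ℤ) ^ 2 : ℤ) : ℂ) =
        (((e : ℤ) ^ 2 + ((N.index : ℤ) - 1) : ℤ) : ℂ) := by
      push_cast at hH ⊢
      rw [mul_comm]; exact hH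
    exact_mod_cast h'
  have := dvd_of_min_variance (fun η => (n (T η) : ℤ)) (by omega) (by rw [hcard]; exact hkey)
  rw [hcard] at this
  rwa [show (∑ η, (n (T η) : ℤ)) = (e : ℤ) by exact_mod_cast hsumn] at this

/-- Elements of an outer coset are conjugate into a coset of the smaller subgroup. -/
theorem sum_coset_frobenius {Γ : Type u} [Group Γ] (G N : Subgroup Γ) [hG : G.Normal]
    [Fintype G] [Fintype N] (hNG : N ≤ G) [hN : N.Normal] {x : Γ}
    (hfix : ∀ g : Γ, g ∈ G → x * g * x⁻¹ * g⁻¹ ∈ N → g ∈ N) {F : Γ → ℂ}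
    (hF : ∀ a y : Γ, F (y * a * y⁻¹) = F a) :
    (Nat.card G : ℂ) * ∑ n : N, F (n * x) = (Nat.card N : ℂ) * ∑ g : G, F (g * x) := by
  classical
  have hmem : ∀ p : G × N, (p.1 : Γ) * (p.2 * x) * (p.1 : Γ)⁻¹ * x⁻¹ ∈ G := fun p => by
    rw [show (p.1 : Γ) * (p.2 * x) * (p.1 : Γ)⁻¹ * x⁻¹ =
      p.1 * p.2 * (x * (p.1 : Γ)⁻¹ * x⁻¹) by group]
    exact G.mul_mem (G.mul_mem p.1.2 (hNG p.2.2)) (hG.conj_mem _ (G.inv_mem p.1.2) x)
  let f : G × N → G := fun p => ⟨_, hmem p⟩
  have hf : ∀ p, (f p : Γ) * x = p.1 * (p.2 * x) * (p.1 : Γ)⁻¹ := fun p => inv_mul_cancel_right _ _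
  have hfib : ∀ p q : G × N, f p = f q → (p.1 : Γ)⁻¹ * q.1 ∈ N := by
    intro p q he
    have e : (p.1 : Γ) * (p.2 * x) * (p.1 : Γ)⁻¹ = q.1 * (q.2 * x) * (q.1 : Γ)⁻¹ := by
      rw [← hf, ← hf, he]
    refine hfix _ (G.mul_mem (G.inv_mem p.1.2) q.1.2) ?_
    have e2 : x * ((p.1 : Γ)⁻¹ * q.1) * x⁻¹ =
        (p.2 : Γ)⁻¹ * ((p.1 : Γ)⁻¹ * q.1) * q.2 := by
      calc x * ((p.1 : Γ)⁻¹ * q.1) * x⁻¹
          = (p.2 : Γ)⁻¹ * (p.1 : Γ)⁻¹ * (p.1 * (p.2 * x) * (p.1 : Γ)⁻¹) * q.1 * x⁻¹ := by group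
        _ = (p.2 : Γ)⁻¹ * (p.1 : Γ)⁻¹ * (q.1 * (q.2 * x) * (q.1 : Γ)⁻¹) * q.1 * x⁻¹ := by rw [e]
        _ = _ := by group
    rw [e2, show (p.2 : Γ)⁻¹ * ((p.1 : Γ)⁻¹ * q.1) * q.2 * ((p.1 : Γ)⁻¹ * q.1)⁻¹ =
      (p.2 : Γ)⁻¹ * (((p.1 : Γ)⁻¹ * q.1) * q.2 * ((p.1 : Γ)⁻¹ * q.1)⁻¹) by group]
    exact N.mul_mem (N.inv_mem p.2.2) (hN.conj_mem _ q.2.2 _)
  have hcard : ∀ y : G, (Finset.univ.filter fun p => f p = y).card ≤ Nat.card N := by
    intro y
    rcases (Finset.univ.filter fun p => f p = y).eq_empty_or_nonempty with h | ⟨p, hp⟩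
    · simp [h]
    rw [Nat.card_eq_fintype_card, ← Finset.card_univ]
    refine Finset.card_le_card_of_injOn
      (fun q => if h : (p.1 : Γ)⁻¹ * q.1 ∈ N then ⟨_, h⟩ else 1) (fun _ _ => Finset.mem_univ _) ?_
    intro q hq r hr hqr
    have hq' := hfib p q ((Finset.mem_filter.1 hp).2.trans (Finset.mem_filter.1 hq).2.symm)
    have hr' := hfib p r ((Finset.mem_filter.1 hp).2.trans (Finset.mem_filter.1 hr).2.symm)
    simp only [dif_pos hq', dif_pos hr', Subtype.mk.injEq, mul_left_cancel_iff] at hqr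
    have h1 : q.1 = r.1 := Subtype.ext hqr
    have e := congrArg (fun z : G => (z : Γ) * x)
      ((Finset.mem_filter.1 hq).2.trans (Finset.mem_filter.1 hr).2.symm)
    simp only [hf] at e
    rw [h1, mul_left_inj, mul_right_inj, mul_left_inj] at e
    exact Prod.ext h1 (Subtype.ext e)
  have hfull : ∀ y : G, (Finset.univ.filter fun p => f p = y).card = Nat.card N := by
    have h : ∑ y : G, (Finset.univ.filter fun p => f p = y).card = ∑ _y : G, Nat.card N := by
      rw [← Finset.card_eq_sum_card_fiberwise (fun _ _ => Finset.mem_univ _), Finset.sum_const,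
        Finset.card_univ, Finset.card_univ, smul_eq_mul, Fintype.card_prod, Nat.card_eq_fintype_card]
    exact fun y => (Finset.sum_eq_sum_iff_of_le fun z _ => hcard z).1 h y (Finset.mem_univ _)
  calc (Nat.card G : ℂ) * ∑ n : N, F (n * x) = ∑ p : G × N, F ((f p : Γ) * x) := by
        simp only [hf, hF]
        rw [Fintype.sum_prod_type]
        show _ = ∑ _g : G, ∑ n : N, F (n * x)
        rw [Finset.sum_const, Finset.card_univ, nsmul_eq_mul, Nat.card_eq_fintype_card]
    _ = (Nat.card N : ℂ) * ∑ g : G, F (g * x) := by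
        rw [Finset.mul_sum, ← Finset.sum_fiberwise Finset.univ f]
        refine Finset.sum_congr rfl fun y _ => ?_
        rw [Finset.sum_congr rfl (g := fun _ => F ((y : Γ) * x))
          (fun p hp => by rw [(Finset.mem_filter.1 hp).2]), Finset.sum_const, hfull, nsmul_eq_mul]

end Cfsg.Agent.Chars
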