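import Cfsg.Agent.Chars2.FSIndicator
import Mathlib.LinearAlgebra.Matrix.PosDef
import Mathlib.Analysis.Real.Sqrt

/-!
# Realisation over the reals from a symmetric invariant form
-/

set_option autoImplicit false
set_option linter.style.haveILetI false

open Cfsg
open scoped ComplexConjugate Matrix ComplexOrder

namespace Cfsg.Agent.Chars

universe u

variable {G : Type u} [Group G] [Fintype G] {n : ℕ}

local notation "Mat" => Matrix (Fin n) (Fin n) ℂ

/-- Entrywise complex conjugation. -/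
noncomputable def cjMat {n : ℕ} (A : Matrix (Fin n) (Fin n) ℂ) : Matrix (Fin n) (Fin n) ℂ :=
  A.map (starRingEnd ℂ)

theorem cjMat_mul (A B : Mat) : cjMat (A * B) = cjMat A * cjMat B := Matrix.map_mul

theorem cjMat_cjMat (A : Mat) : cjMat (cjMat A) = A := by
  ext i j; simp [cjMat]

theorem cjMat_one : cjMat (1 : Mat) = 1 := Matrix.map_one _ (map_zero _) (map_one _)

theorem cjMat_transpose (A : Mat) : cjMat Aᵀ = Aᴴ := by
  ext i j; simp [cjMat, Matrix.conjTranspose]

theorem cjMat_smul (c : ℂ) (A : Mat) : cjMat (c • A) = conj c • cjMat A := by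
  ext i j; simp [cjMat]

/-- An irreducible representation with an invariant symmetric form is conjugate to a real one. -/
theorem exists_real_conjugate (ρ : G →* Matrix (Fin n) (Fin n) ℂ)
    (hirr : IsIrrCharacter G (fun g => (ρ g).trace)) (B : Matrix (Fin n) (Fin n) ℂ) (hB0 : B ≠ 0)
    (hB : ∀ g, (ρ g)ᵀ * B * ρ g = B) (hsym : Bᵀ = B) :
    ∃ R : G →* Matrix (Fin n) (Fin n) ℝ, ∀ g, ((R g).trace : ℂ) = (ρ g).trace := by
  classical
  have hn : 0 < n := by
    by_contra h
    obtain rfl : n = 0 := by omega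
    exact hB0 (Subsingleton.elim _ _)
  obtain ⟨Y, hY⟩ := Chars2.exists_mul_invariant_eq_one hirr hB hB0
  set H : Mat := ∑ g, (ρ g)ᴴ * ρ g with hH
  have hHinv : ∀ h, (ρ h)ᴴ * H * ρ h = H := fun h => by
    rw [hH, Finset.mul_sum, Finset.sum_mul]
    refine Fintype.sum_equiv (Equiv.mulRight h) _ _ fun g => ?_
    simp only [Equiv.coe_mulRight, map_mul, Matrix.conjTranspose_mul, mul_assoc]
  have hHpd : H.PosDef := by
    have hs : H = (ρ 1)ᴴ * ρ 1 + ∑ x ∈ Finset.univ.erase 1, (ρ x)ᴴ * ρ x :=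
      (Finset.add_sum_erase _ _ (Finset.mem_univ _)).symm
    rw [hs, map_one, Matrix.conjTranspose_one, mul_one]
    exact Matrix.PosDef.one.add_posSemidef
      (Matrix.posSemidef_sum _ fun x _ => Matrix.posSemidef_conjTranspose_mul_self _)
  have hdetH : IsUnit H.det := (Matrix.isUnit_iff_isUnit_det H).1 hHpd.isUnit
  set M : Mat := H⁻¹ * cjMat B with hM
  have hHM : H * M = cjMat B := by rw [hM, ← mul_assoc, Matrix.mul_nonsing_inv _ hdetH, one_mul]
  have hAM : ∀ g, ρ g * M = M * cjMat (ρ g) := by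
    intro g
    have h2 : cjMat B = (ρ g)ᴴ * cjMat B * cjMat (ρ g) := by
      conv_lhs => rw [← hB g]
      rw [cjMat_mul, cjMat_mul, cjMat_transpose]
    have h3 : (ρ g)ᴴ * (H * (ρ g * M)) = (ρ g)ᴴ * (H * (M * cjMat (ρ g))) := by
      rw [← mul_assoc H M, hHM, ← mul_assoc _ (cjMat B), ← h2, ← mul_assoc, ← mul_assoc, hHinv, hHM]
    have hu : IsUnit (ρ g)ᴴ.det := (Matrix.isUnit_iff_isUnit_det _).1
      (IsUnit.of_mul_eq_one _ (show (ρ g)ᴴ * (ρ g⁻¹)ᴴ = 1 by
        rw [← Matrix.conjTranspose_mul, ← map_mul, inv_mul_cancel, map_one, Matrix.conjTranspose_one]))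
    have h4 := congrArg (fun X => H⁻¹ * ((ρ g)ᴴ⁻¹ * X)) h3
    simpa [← mul_assoc, Matrix.nonsing_inv_mul _ hu, Matrix.nonsing_inv_mul _ hdetH] using h4
  have hcomm : ∀ g, (M * cjMat M) * ρ g = ρ g * (M * cjMat M) := fun g => by
    have e : cjMat M * ρ g = cjMat (ρ g) * cjMat M := by
      rw [← cjMat_mul (ρ g) M, hAM g, cjMat_mul M, cjMat_cjMat]
    calc M * cjMat M * ρ g = M * (cjMat (ρ g) * cjMat M) := by rw [mul_assoc, e]
      _ = ρ g * (M * cjMat M) := by rw [← mul_assoc, ← hAM g, mul_assoc]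
  obtain ⟨c, hc⟩ := Blocks.matrix_scalar_of_commute ρ hirr _ hcomm
  have hcpos : 0 < c := by
    have hBh : cjMat B = Bᴴ := by rw [← cjMat_transpose, hsym]
    have hK : cjMat H⁻¹ = (H⁻¹)ᵀ := by
      rw [← cjMat_cjMat (H⁻¹)ᵀ]
      congr 1
      rw [cjMat_transpose, hHpd.inv.1.eq]
    have e : c • H = Bᴴ * (H⁻¹)ᵀ * B := by
      calc c • H = H * (M * cjMat M) := by rw [hc, Matrix.mul_smul, mul_one]
        _ = Bᴴ * (H⁻¹)ᵀ * B := by
          rw [← mul_assoc, hHM, hBh, hM, cjMat_mul, cjMat_cjMat, hK, mul_assoc]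
    have hpd : (c • H).PosDef := e ▸ hHpd.inv.transpose.conjTranspose_mul_mul_same fun x y h => by
      have := congrArg (Y *ᵥ ·) h
      simpa [Matrix.mulVec_mulVec, hY] using this
    have h1 := hpd.diag_pos (i := ⟨0, hn⟩)
    have h2 := hHpd.diag_pos (i := ⟨0, hn⟩)
    rw [Matrix.smul_apply, smul_eq_mul] at h1
    rw [Complex.pos_iff] at h1 h2 ⊢
    simp only [Complex.mul_re, Complex.mul_im] at h1
    rw [← h2.2, mul_zero, sub_zero] at h1
    rw [mul_zero, zero_add] at h1
    exact ⟨(pos_iff_pos_of_mul_pos h1.1).2 h2.1,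
      ((mul_eq_zero.1 h1.2.symm).resolve_right h2.1.ne').symm⟩
  obtain ⟨r, hr, rfl⟩ : ∃ r : ℝ, 0 < r ∧ c = (r : ℂ) :=
    ⟨c.re, (Complex.pos_iff.1 hcpos).1, Complex.ext rfl (Complex.pos_iff.1 hcpos).2.symm⟩
  set s : ℂ := (((Real.sqrt r)⁻¹ : ℝ) : ℂ) with hs
  set M' : Mat := s • M with hM'
  have hM'1 : M' * cjMat M' = 1 := by
    rw [hM', cjMat_smul, hs, Complex.conj_ofReal, smul_mul_smul_comm, hc, smul_smul, ← Complex.ofReal_mul,
      ← Complex.ofReal_mul, ← mul_inv, Real.mul_self_sqrt hr.le, inv_mul_cancel₀ hr.ne', Complex.ofReal_one,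
      one_smul]
  have hA' : ∀ g, ρ g * M' = M' * cjMat (ρ g) := fun g => by
    rw [hM', Matrix.mul_smul, Matrix.smul_mul, hAM g]
  obtain ⟨t, ht0, ht⟩ : ∃ t : ℂ, conj t ≠ 0 ∧ ¬ ((-M').charpoly).IsRoot (t / conj t) := by
    by_contra hall
    push Not at hall
    have hne : ∀ k : ℕ, conj ((k : ℂ) + Complex.I) ≠ 0 := fun k h => by
      simpa using congrArg Complex.im h
    have hsub : Set.range (fun k : ℕ => ((k : ℂ) + Complex.I) / conj ((k : ℂ) + Complex.I)) ⊆
        {x | ((-M').charpoly).IsRoot x} := by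
      rintro _ ⟨k, rfl⟩
      exact hall _ (hne k)
    refine Set.infinite_range_of_injective (fun a b h => ?_)
      ((Polynomial.finite_setOfPred_isRoot (Matrix.charpoly_monic _).ne_zero).subset hsub)
    rw [div_eq_div_iff (hne a) (hne b)] at h
    have := congrArg Complex.im h
    simp at this
    have e : (a : ℝ) = b := by linarith
    exact_mod_cast e
  set P : Mat := t • (1 : Mat) + conj t • M' with hP
  have hPfix : M' * cjMat P = P := by
    have : cjMat P = conj t • (1 : Mat) + t • cjMat M' := by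
      rw [hP]
      ext i j
      by_cases h : i = j <;> simp [cjMat, h]
    rw [this, mul_add, Matrix.mul_smul, Matrix.mul_smul, mul_one, hM'1, hP, add_comm]
  have hPdet : IsUnit P.det := by
    rw [isUnit_iff_ne_zero]
    intro h
    apply ht
    rw [Polynomial.IsRoot, Matrix.eval_charpoly, sub_neg_eq_add]
    have e : P = conj t • (Matrix.scalar (Fin n) (t / conj t) + M') := by
      rw [hP, smul_add, Matrix.scalar_apply, ← Matrix.smul_one_eq_diagonal,
        smul_smul (conj t) (t / conj t), mul_div_cancel₀ _ ht0]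
    rw [e, Matrix.det_smul] at h
    exact (mul_eq_zero.1 h).resolve_left (pow_ne_zero _ ht0)
  let R : G → Mat := fun g => P⁻¹ * (ρ g * P)
  have hPR : ∀ g, P * R g = ρ g * P := fun g => by
    show P * (P⁻¹ * (ρ g * P)) = _
    rw [← mul_assoc, Matrix.mul_nonsing_inv _ hPdet, one_mul]
  have hreal : ∀ g, cjMat (R g) = R g := fun g => by
    have e : P * cjMat (R g) = ρ g * P := by
      calc P * cjMat (R g) = M' * (cjMat P * cjMat (R g)) := by rw [← mul_assoc, hPfix]
        _ = M' * (cjMat (ρ g) * cjMat P) := by rw [← cjMat_mul, hPR, cjMat_mul]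
        _ = ρ g * P := by rw [← mul_assoc, ← hA', mul_assoc, hPfix]
    calc cjMat (R g) = P⁻¹ * (P * cjMat (R g)) := by
          rw [← mul_assoc, Matrix.nonsing_inv_mul _ hPdet, one_mul]
      _ = R g := by rw [e]
  have hre : ∀ g, ((R g).map Complex.re).map Complex.ofReal = R g := fun g => by
    ext i j
    exact Complex.conj_eq_iff_re.1 (congrFun (congrFun (hreal g) i) j)
  have hmulR : ∀ a b, R (a * b) = R a * R b := fun a b => by
    show P⁻¹ * (ρ (a * b) * P) = P⁻¹ * (ρ a * P) * R b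
    rw [map_mul, mul_assoc P⁻¹ (ρ a * P) (R b), mul_assoc (ρ a) P, hPR, mul_assoc]
  let Rr : G →* Matrix (Fin n) (Fin n) ℝ :=
    { toFun := fun g => (R g).map Complex.re
      map_one' := by
        have : R 1 = 1 := by
          show P⁻¹ * (ρ 1 * P) = 1
          rw [map_one, one_mul, Matrix.nonsing_inv_mul _ hPdet]
        show (R 1).map Complex.re = 1
        rw [this]
        ext i j
        by_cases h : i = j <;> simp [Matrix.one_apply, h]
      map_mul' := fun a b => by
        show (R (a * b)).map Complex.re = (R a).map Complex.re * (R b).map Complex.re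
        refine Matrix.map_injective (f := Complex.ofReal) Complex.ofReal_injective ?_
        show ((R (a * b)).map Complex.re).map Complex.ofReal =
          ((R a).map Complex.re * (R b).map Complex.re).map Complex.ofRealHom
        rw [Matrix.map_mul]
        show ((R (a * b)).map Complex.re).map Complex.ofReal =
          ((R a).map Complex.re).map Complex.ofReal * ((R b).map Complex.re).map Complex.ofReal
        rw [hre, hre, hre, hmulR] }
  refine ⟨Rr, fun g => ?_⟩
  calc (((Rr g).trace : ℝ) : ℂ) = (R g).trace := by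
        conv_rhs => rw [← hre g]
        simp [Rr, Matrix.trace]
    _ = (ρ g).trace := by
        show (P⁻¹ * (ρ g * P)).trace = _
        rw [Matrix.trace_mul_comm, mul_assoc, Matrix.mul_nonsing_inv _ hPdet, mul_one]

end Cfsg.Agent.Chars
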