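import Mathlib
import Mathlib.GroupTheory.Transfer
import Mathlib.GroupTheory.Subgroup.Simple
import Mathlib.Data.Fintype.CardEmbedding

/-!
Sharply 4-transitive groups of degree eleven.
-/

set_option autoImplicit false
set_option linter.style.haveILetI false

namespace Cfsg.Agent.Chars.SharpFour

universe u

variable {α : Type u} [Fintype α] [DecidableEq α] (hα : Fintype.card α = 11)
variable (G : Subgroup (Equiv.Perm α))
include hα

/-- The order. -/
theorem card_eq [h4 : MulAction.IsMultiplyPretransitive G α 4]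
    (hsharp : ∀ x : Fin 4 ↪ α, MulAction.stabilizer G x = ⊥) : Nat.card G = 7920 := by
  obtain ⟨x⟩ : Nonempty (Fin 4 ↪ α) := Function.Embedding.nonempty_of_card_le (by simp [hα])
  haveI : MulAction.IsPretransitive G (Fin 4 ↪ α) := ‹MulAction.IsMultiplyPretransitive G α 4›
  have h := @MulAction.index_stabilizer_of_transitive G (Fin 4 ↪ α) _ _ x h4
  rw [hsharp x, Subgroup.index_bot, Nat.card_eq_fintype_card (α := Fin 4 ↪ α),
    Fintype.card_embedding_eq, hα, Fintype.card_fin] at h
  rw [h]
  rfl

/-- The centraliser of an element of order eleven. -/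
theorem eq_of_commute_of_fix {x g : G} (hx : orderOf x = 11) (hg : Commute g x) {a : α}
    (ha : g • a = a) : g = 1 := by
  classical
  haveI : Fact (Nat.Prime 11) := ⟨by norm_num⟩
  have hxe : orderOf (x : Equiv.Perm α) = 11 := by rw [Subgroup.orderOf_coe]; exact hx
  have hcyc : (x : Equiv.Perm α).IsCycle :=
    Equiv.Perm.isCycle_of_prime_order'' (by rw [hα]; norm_num) (by rw [hxe, hα])
  have hsupp : (x : Equiv.Perm α).support = Finset.univ :=
    Finset.eq_univ_of_card _ (by rw [← hcyc.orderOf, hxe, hα])
  have hfix : ∀ b : α, g • b = b := by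
    intro b
    have hab : (x : Equiv.Perm α).SameCycle a b :=
      hcyc.sameCycle (Equiv.Perm.mem_support.1 (hsupp ▸ Finset.mem_univ a))
        (Equiv.Perm.mem_support.1 (hsupp ▸ Finset.mem_univ b))
    obtain ⟨i, hi⟩ := hab
    have hb : b = (x ^ i) • a := by
      rw [← hi, Subgroup.smul_def, Subgroup.coe_zpow]; rfl
    rw [hb, ← mul_smul, (hg.zpow_right i).eq, mul_smul, ha]
  exact Subtype.ext (Equiv.ext fun b => hfix b)

/-- Such a group is simple. -/
theorem isSimpleGroup [MulAction.IsMultiplyPretransitive G α 4]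
    (hsharp : ∀ x : Fin 4 ↪ α, MulAction.stabilizer G x = ⊥) : IsSimpleGroup G := by
  classical
  haveI : Fact (Nat.Prime 11) := ⟨by norm_num⟩
  have hG := card_eq hα G hsharp
  haveI : Nontrivial α := Fintype.one_lt_card_iff_nontrivial.1 (by omega)
  haveI : MulAction.IsMultiplyPretransitive G α 2 :=
    MulAction.isMultiplyPretransitive_of_le (n := 4) (by norm_num) (by simp [hα])
  haveI := MulAction.isPreprimitive_of_is_two_pretransitive (G := G) (α := α) inferInstance
  haveI : Nontrivial G := Finite.one_lt_card_iff_nontrivial.1 (by omega)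
  -- a nontrivial normal subgroup contains all elements of order eleven
  have h11 : ∀ N : Subgroup G, N.Normal → N ≠ ⊥ → 11 ∣ Nat.card N := by
    intro N hN hne
    have hfix : MulAction.fixedPoints N α ≠ Set.univ := fun h => hne ((Subgroup.eq_bot_iff_forall N).2
      fun n hn => Subtype.ext (Equiv.ext fun a =>
        (show (⟨n, hn⟩ : N) • a = a from (h ▸ Set.mem_univ a : a ∈ MulAction.fixedPoints N α) ⟨n, hn⟩)))
    haveI : MulAction.IsPretransitive N α := MulAction.IsQuasiPreprimitive.isPretransitive_of_normal hfix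
    obtain ⟨a⟩ : Nonempty α := inferInstance
    have h := MulAction.index_stabilizer_of_transitive N a
    rw [Nat.card_eq_fintype_card, hα] at h
    exact ⟨_, (h ▸ (Subgroup.index_mul_card (MulAction.stabilizer N a))).symm⟩
  refine ⟨fun N hN' => ?_⟩
  by_cases hne : N = ⊥
  · exact Or.inl hne
  right
  haveI := hN'
  have h11N := h11 N hN' hne
  have hNidx : N.index * Nat.card N = 7920 := by rw [Subgroup.index_mul_card, hG]
  obtain ⟨Q⟩ : Nonempty (Sylow 11 G) := inferInstance
  have hQ : Nat.card Q = 11 := by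
    rw [Q.card_eq_multiplicity, hG]
    have : Nat.factorization 7920 11 = 1 := by
      rw [show (7920 : ℕ) = 11 * 720 from rfl, Nat.factorization_mul (by norm_num) (by norm_num)]
      simp [Nat.Prime.factorization_self (Fact.out : Nat.Prime 11),
        Nat.factorization_eq_zero_of_not_dvd (show ¬ 11 ∣ 720 by norm_num)]
    rw [this, pow_one]
  have hQN : (Q : Subgroup G) ≤ N := by
    intro y hy
    have hd : orderOf (QuotientGroup.mk (s := N) y) ∣ 11 :=
      (orderOf_map_dvd (QuotientGroup.mk' N) y).trans
        ((Subgroup.orderOf_dvd_natCard _ hy).trans (dvd_of_eq hQ))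
    have hd' : orderOf (QuotientGroup.mk (s := N) y) ∣ N.index := orderOf_dvd_natCard _
    have hc : Nat.Coprime 11 N.index := (Fact.out : Nat.Prime 11).coprime_iff_not_dvd.2 fun h => by
      have := Nat.mul_dvd_mul h h11N
      rw [hNidx] at this
      norm_num at this
    exact (QuotientGroup.eq_one_iff y).1 (orderOf_eq_one_iff.1 (Nat.eq_one_of_dvd_coprimes hc hd hd'))
  -- the normaliser of a Sylow subgroup
  obtain ⟨x, hx⟩ := exists_prime_orderOf_dvd_card' (G := (Q : Subgroup G)) 11 (by rw [hQ])
  have hx' : orderOf (x : G) = 11 := by rw [Subgroup.orderOf_coe]; exact hx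
  set C := Subgroup.centralizer ((Q : Subgroup G) : Set G) with hCdef
  set M := Subgroup.normalizer ((Q : Subgroup G) : Set G) with hMdef
  have hC : Nat.card C ≤ 11 := by
    obtain ⟨a⟩ : Nonempty α := inferInstance
    rw [← hα, ← Nat.card_eq_fintype_card (α := α)]
    refine Nat.card_le_card_of_injective (fun g : C => (g : G) • a) fun g h hgh => ?_
    have hcm : ∀ g : C, Commute (g : G) (x : G) := fun g =>
      (Subgroup.mem_centralizer_iff.1 g.2 (x : G) x.2).symm
    have := eq_of_commute_of_fix hα G hx' ((hcm h).inv_left.mul_left (hcm g)) (a := a)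
      (by rw [mul_smul, show (g : G) • a = (h : G) • a from hgh, inv_smul_smul])
    exact Subtype.ext (inv_mul_eq_one.1 this).symm
  have hQC : (Q : Subgroup G) ≤ C := by
    haveI : IsCyclic (Q : Subgroup G) := isCyclic_of_prime_card hQ
    intro y hy
    exact Subgroup.mem_centralizer_iff.2 fun z hz =>
      congrArg Subtype.val ((IsCyclic.commGroup (α := (Q : Subgroup G))).mul_comm ⟨z, hz⟩ ⟨y, hy⟩)
  have hCQ : (Q : Subgroup G) = C := Subgroup.eq_of_le_of_card_ge hQC (by rw [hQ]; exact hC)
  have hM : Nat.card M = 55 := by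
    have hd : C.relIndex M ∣ 10 := by
      have h1 : Nat.card ((Subgroup.normalizerMonoidHom (Q : Subgroup G)).range) ∣
          Nat.card (MulAut (Q : Subgroup G)) := Subgroup.card_subgroup_dvd_card _
      rw [← Subgroup.index_ker, Subgroup.normalizerMonoidHom_ker] at h1
      haveI : IsCyclic (Q : Subgroup G) := isCyclic_of_prime_card hQ
      rw [IsCyclic.card_mulAut, hQ, Nat.totient_prime Fact.out] at h1
      exact h1
    have h2 : Nat.card C * C.relIndex M = Nat.card M := by
      rw [← Subgroup.relIndex_bot_left, ← Subgroup.relIndex_bot_left,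
        Subgroup.relIndex_mul_relIndex _ _ _ bot_le (Subgroup.centralizer_le_normalizer _)]
    rw [← hCQ, hQ] at h2
    have hn : M.index % 11 = 1 := by
      have h0 := card_sylow_modEq_one 11 G
      rw [Q.card_eq_index_normalizer] at h0
      exact h0
    have h3 : Nat.card M * M.index = 7920 := by rw [Subgroup.card_mul_index, hG]
    rw [← hCQ] at hd
    set e := (Q : Subgroup G).relIndex M
    rw [← h2] at h3 ⊢
    have : e ≤ 10 := Nat.le_of_dvd (by norm_num) hd
    interval_cases e <;> omega
  have hidx : N.index ∣ 55 := by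
    rw [← hM, ← Subgroup.relIndex_top_right, ← Sylow.normalizer_sup_eq_top' Q hQN,
      Subgroup.relIndex_sup_right]
    exact Subgroup.relIndex_dvd_card _ _
  have hidx5 : N.index = 1 ∨ N.index = 5 := by
    have hc : Nat.Coprime N.index 11 := Nat.Coprime.symm ((Fact.out : Nat.Prime 11).coprime_iff_not_dvd.2
      fun h => by
        have := Nat.mul_dvd_mul h h11N
        rw [hNidx] at this
        norm_num at this)
    have : N.index ∣ 5 := hc.dvd_of_dvd_mul_right (by simpa using hidx : N.index ∣ 5 * 11)
    exact (Nat.dvd_prime (by norm_num)).1 this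
  rcases hidx5 with h | h
  · exact Subgroup.index_eq_one.1 h
  exfalso
  -- a normal complement would be intransitive
  have hN : Nat.card N = 1584 := by rw [h] at hNidx; omega
  let Q' : Sylow 11 N := Q.subtype hQN
  have hQ'c : Nat.card Q' = 11 := by
    refine Eq.trans ?_ hQ
    exact Nat.card_congr (Subgroup.subgroupOfEquivOfLe hQN).toEquiv
  have hle : Subgroup.normalizer ((Q' : Subgroup N) : Set N) ≤
      Subgroup.centralizer ((Q' : Subgroup N) : Set N) := by
    intro g hg
    have hgM : (g : G) ∈ M := by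
      rw [hMdef, Subgroup.mem_normalizer_iff]
      intro y
      constructor
      · intro hy
        exact (Subgroup.mem_normalizer_iff.1 hg ⟨y, hQN hy⟩).1 hy
      · intro hy
        have hyN : y ∈ N := by
          have := hN'.conj_mem _ (hQN hy) (g : G)⁻¹
          rwa [inv_inv, show (g : G)⁻¹ * ((g : G) * y * (g : G)⁻¹) * g = y by group] at this
        exact (Subgroup.mem_normalizer_iff.1 hg ⟨y, hyN⟩).2 hy
    have d1 : orderOf (g : G) ∣ 55 := hM ▸ Subgroup.orderOf_dvd_natCard _ hgM
    have d2 : orderOf (g : G) ∣ 1584 := hN ▸ Subgroup.orderOf_dvd_natCard _ g.2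
    have d3 : orderOf (g : G) ∣ 11 := by simpa using Nat.dvd_gcd d1 d2
    have hgQ : (g : G) ∈ (Q : Subgroup G) := by
      haveI hQnM : ((Q : Subgroup G).subgroupOf M).Normal := Subgroup.normal_in_normalizer
      have hi : ((Q : Subgroup G).subgroupOf M).index = 5 := by
        have := Subgroup.card_mul_index ((Q : Subgroup G).subgroupOf M)
        rw [Nat.card_congr (Subgroup.subgroupOfEquivOfLe Subgroup.le_normalizer).toEquiv, hQ, hM] at this
        omega
      have e1 : orderOf (QuotientGroup.mk (s := (Q : Subgroup G).subgroupOf M) ⟨(g : G), hgM⟩) ∣ 5 := by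
        rw [← hi]; exact orderOf_dvd_natCard _
      have e2 : orderOf (QuotientGroup.mk (s := (Q : Subgroup G).subgroupOf M) ⟨(g : G), hgM⟩) ∣ 11 := by
        refine (orderOf_map_dvd (QuotientGroup.mk' _) _).trans ?_
        rw [Subgroup.orderOf_mk]
        exact d3
      exact Subgroup.mem_subgroupOf.1 ((QuotientGroup.eq_one_iff (⟨(g : G), hgM⟩ : M)).1
        (orderOf_eq_one_iff.1 (Nat.eq_one_of_dvd_coprimes (by norm_num : Nat.Coprime 5 11) e1 e2)))
    refine Subgroup.mem_centralizer_iff.2 fun y hy => Subtype.ext ?_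
    exact Subgroup.mem_centralizer_iff.1 (hQC hgQ) y hy
  set f := MonoidHom.transferSylow Q' hle
  have hK : Nat.card f.ker = 144 := by
    have := (MonoidHom.ker_transferSylow_isComplement' Q' hle).card_mul_card
    rw [hQ'c, hN] at this
    change Nat.card f.ker * 11 = 1584 at this
    omega
  have hmem : ∀ n : N, n ∈ f.ker ↔ orderOf n ∣ 144 := by
    refine fun n => ⟨fun hn => hK ▸ Subgroup.orderOf_dvd_natCard _ hn, fun hn => ?_⟩
    rw [MonoidHom.mem_ker, ← orderOf_eq_one_iff]
    exact Nat.eq_one_of_dvd_coprimes (by norm_num : Nat.Coprime 11 144)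
      ((orderOf_dvd_natCard _).trans (dvd_of_eq hQ'c)) ((orderOf_map_dvd f n).trans hn)
  have hKn : (f.ker.map N.subtype).Normal := by
    refine ⟨fun a ha g => ?_⟩
    obtain ⟨n, hn, rfl⟩ := Subgroup.mem_map.1 ha
    refine Subgroup.mem_map.2 ⟨⟨g * n * g⁻¹, hN'.conj_mem _ n.2 g⟩, ?_, rfl⟩
    rw [hmem]
    have := (hmem n).1 hn
    rwa [← Subgroup.orderOf_coe, show ((⟨g * n * g⁻¹, hN'.conj_mem _ n.2 g⟩ : N) : G) =
      MulAut.conj g (n : G) from rfl, MulEquiv.orderOf_eq, Subgroup.orderOf_coe]
  have hcard : Nat.card (f.ker.map N.subtype) = 144 := by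
    rw [Subgroup.card_map_of_injective N.subtype_injective, hK]
  have := h11 _ hKn (fun hb => by rw [hb, Subgroup.card_bot] at hcard; omega)
  rw [hcard] at this
  norm_num at this

end Cfsg.Agent.Chars.SharpFour
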