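import Cfsg.Agent.Chars.PSolvableLinear
import Cfsg.Agent.Chars.PrimePowerDivisor
import Cfsg.Agent.Core.CoprimeAction
import Cfsg.Agent.Core.NilpotentHall

/-! A `p`-solvable linear group of degree less than `p` without normal Sylow `p`-subgroup. -/

set_option autoImplicit false
set_option linter.style.haveILetI false
set_option linter.unusedSectionVars false

open Cfsg Cfsg.Agent
open scoped ComplexConjugate commutatorElement

namespace Cfsg.Agent.Chars.SchurPBound

universe u

variable {G : Type u} [Group G] [Finite G] {p : ℕ} [hp : Fact p.Prime]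

/-- A `p`-element acting nontrivially on an `s`-subgroup. -/
theorem small_degree_of_action {χ : G → ℂ} (hχ : IsCharacter G χ)
    (hf : ∀ g : G, χ g = χ 1 → g = 1) {n : ℕ} (hn : χ 1 = n) (hnp : n + 1 ≤ p) {s : ℕ}
    (hs : s.Prime) (hsp : s ≠ p) (S : Subgroup G) (hS : IsPGroup s S) (A : Subgroup G)
    (hA : IsPGroup p A) (hAS : A ≤ Subgroup.normalizer (S : Set G))
    (hne : ¬ ∀ x ∈ A, ∀ y ∈ S, x * y = y * x) :
    n + 1 = p ∧ (∃ k : ℕ, n = 2 ^ k) ∧ ∃ H : Subgroup G, IsIrrCharacter H (fun x : H => χ x) := by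
  classical
  set H := S ⊔ A with hH
  haveI : Fintype H := Fintype.ofFinite _
  haveI := Fact.mk hs
  have hHS : H ≤ Subgroup.normalizer (S : Set G) := sup_le Subgroup.le_normalizer hAS
  haveI : (S.subgroupOf H).Normal := Subgroup.normal_subgroupOf_of_le_normalizer hHS
  haveI : Fintype (S.subgroupOf H) := Fintype.ofFinite _
  obtain ⟨i, hi⟩ := IsPGroup.iff_card.1 hS
  obtain ⟨j, hj⟩ := IsPGroup.iff_card.1 hA
  have hcS : Nat.card (S.subgroupOf H) = s ^ i := by
    rw [Nat.card_congr (Subgroup.subgroupOfEquivOfLe (le_sup_left : S ≤ H)).toEquiv, hi]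
  have hidx : (S.subgroupOf H).index ∣ p ^ j := by
    rw [← hj]
    let f : A →* H ⧸ S.subgroupOf H :=
      (QuotientGroup.mk' (S.subgroupOf H)).comp (Subgroup.inclusion le_sup_right)
    have hf : Function.Surjective f := by
      intro y
      obtain ⟨x, rfl⟩ := QuotientGroup.mk_surjective y
      have hx : x ∈ S.subgroupOf H ⊔ A.subgroupOf H := by
        rw [← Subgroup.subgroupOf_sup le_sup_left le_sup_right, Subgroup.subgroupOf_self]
        exact Subgroup.mem_top x
      obtain ⟨a, ha, b, hb, rfl⟩ := Subgroup.mem_sup_of_normal_left.1 hx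
      refine ⟨⟨(b : G), hb⟩, ?_⟩
      show ((b : H) : H ⧸ S.subgroupOf H) = _
      rw [QuotientGroup.mk_mul, (QuotientGroup.eq_one_iff a).2 ha, one_mul]
    rw [Subgroup.index_eq_card]
    exact Subgroup.card_dvd_of_surjective f hf
  have hps : s.Coprime p := (Nat.coprime_primes hs hp.out).2 hsp
  have hcop : (Nat.card (S.subgroupOf H)).Coprime (S.subgroupOf H).index := by
    rw [hcS]
    exact ((hps.pow_left i).pow_right j).coprime_dvd_right hidx
  have hpS : ¬ p ∣ Nat.card (S.subgroupOf H) := fun h => by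
    rw [hcS] at h
    exact hsp ((Nat.prime_dvd_prime_iff_eq hp.out hs).1 (hp.out.dvd_of_dvd_pow h)).symm
  have hχH : IsCharacter H (fun x : H => χ x) := isCharacter_restrict hχ H
  obtain ⟨c, hc⟩ := Chars2.exists_multiplicities hχH
  choose rep hrep hdeg hrat hker using fun ζ : IrrCharacter H =>
    exists_rational_replacement (p := p) (S.subgroupOf H) hcop hpS ζ.2
  choose a b ha hb hab using hdeg
  have hval : ∀ x : H, χ x = ∑ ζ : IrrCharacter H, (c ζ : ℂ) * (ζ : H → ℂ) x := fun x => by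
    refine (Chars2.apply_eq_sum (isClassFunction_of_isCharacter hχH) x).trans ?_
    simp only [hc]
  have hnsum : n = ∑ ζ : IrrCharacter H, c ζ * b ζ := by
    have h1 := hval 1
    simp only [hb, Subgroup.coe_one, hn] at h1
    exact_mod_cast h1
  -- some constituent is moved
  obtain ⟨ζ, hcζ, x, hxA, hζx⟩ : ∃ ζ : IrrCharacter H, c ζ ≠ 0 ∧
      ∃ x : H, (x : G) ∈ A ∧ rep ζ x ≠ rep ζ 1 := by
    by_contra hall
    push Not at hall
    refine hne fun x hx y hy => ?_
    let x' : H := ⟨x, (le_sup_right : A ≤ H) hx⟩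
    let y' : H := ⟨y, (le_sup_left : S ≤ H) hy⟩
    have hmem : ((x' * y' * x'⁻¹ * y'⁻¹ : H) : G) ∈ S :=
      S.mul_mem ((Subgroup.mem_normalizer_iff.1 (hAS hx) y).1 hy) (S.inv_mem hy)
    have hx1 : χ (x' * y' * x'⁻¹ * y'⁻¹ : H) = χ 1 := by
      rw [hval, ← Subgroup.coe_one H, hval]
      refine Finset.sum_congr rfl fun ζ _ => ?_
      by_cases h0 : c ζ = 0
      · rw [h0, Nat.cast_zero, zero_mul, zero_mul]
      congr 1
      refine hker ζ _ (Subgroup.mem_subgroupOf.2 hmem) ?_
      have h1 : x' ∈ charKer (hrep ζ) := hall ζ h0 x' hx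
      have h2 : x' * (y' * x'⁻¹ * y'⁻¹) ∈ charKer (hrep ζ) := by
        refine mul_mem h1 ?_
        show rep ζ _ = rep ζ 1
        rw [isClassFunction_of_isCharacter (hrep ζ) x'⁻¹ y']
        exact inv_mem h1
      have h3 : x' * y' * x'⁻¹ * y'⁻¹ ∈ charKer (hrep ζ) := by simpa only [← mul_assoc] using h2
      exact h3
    have h4 := hf _ hx1
    simp only [Subgroup.coe_mul, Subgroup.coe_inv] at h4
    exact mul_inv_eq_iff_eq_mul.1 (mul_inv_eq_one.1 h4)
  let AH := A.subgroupOf H
  haveI : Fintype AH := Fintype.ofFinite _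
  have hAp : IsPGroup p AH := hA.comap_subtype
  obtain ⟨v, hv, ⟨t, ht⟩, -, hge⟩ := value_bounds (p := p) hAp (n := a ζ)
    (isCharacter_restrict (hrep ζ) AH) (by rw [Subgroup.coe_one]; exact ha ζ)
    (fun σ g => hrat ζ σ g (by
      obtain ⟨m, hm⟩ := hAp g
      exact ⟨m, congrArg Subtype.val hm⟩)) ⟨x, Subgroup.mem_subgroupOf.2 hxA⟩
  change rep ζ x = (v : ℂ) at hv
  have hp2 := hp.out.two_le
  have hbn : c ζ * b ζ ≤ n := hnsum ▸ Finset.single_le_sum (f := fun ζ => c ζ * b ζ)
    (fun _ _ => Nat.zero_le _) (Finset.mem_univ ζ)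
  have hbn1 : b ζ ≤ n := le_trans (Nat.le_mul_of_pos_left _ (Nat.pos_of_ne_zero hcζ)) hbn
  have hbz : 0 < b ζ := by
    obtain ⟨d, hd0, hd⟩ := exists_irr_apply_one_eq ζ.2
    rw [hb ζ] at hd
    rwa [Nat.cast_inj.1 hd]
  have han : (a ζ : ℤ) ≤ n := by exact_mod_cast (hab ζ).trans hbn1
  have hnp' : (n : ℤ) + 1 ≤ p := by exact_mod_cast hnp
  have htne : t ≠ 0 := by
    rintro rfl
    apply hζx
    rw [hv, ha ζ]
    have : v = a ζ := by linarith
    rw [this, Int.cast_natCast]
  have hp2' : (2 : ℤ) ≤ p := by exact_mod_cast hp2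
  have hvz : v = a ζ - p * t := by linarith
  rw [hvz] at hge
  -- `t ≥ 1` and hence `a ζ ≥ p - 1`
  have ha_ge : (p : ℤ) - 1 ≤ a ζ := by
    rcases lt_or_gt_of_ne htne with h | h
    · have h1 : v ≤ a ζ := by
        obtain ⟨v', hv', -, hle, -⟩ := value_bounds (p := p) hAp (n := a ζ)
          (isCharacter_restrict (hrep ζ) AH) (by rw [Subgroup.coe_one]; exact ha ζ)
          (fun σ g => hrat ζ σ g (by
            obtain ⟨m, hm⟩ := hAp g
            exact ⟨m, congrArg Subtype.val hm⟩)) ⟨x, Subgroup.mem_subgroupOf.2 hxA⟩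
        change rep ζ x = (v' : ℂ) at hv'
        rw [hv] at hv'
        rw [Int.cast_inj.1 hv']; exact hle
      nlinarith
    · by_contra hlt
      push Not at hlt
      have : ((p : ℤ) - 1) * (p * 1) ≤ ((p : ℤ) - 1) * (p * t) :=
        mul_le_mul_of_nonneg_left (mul_le_mul_of_nonneg_left (by omega) (by linarith)) (by linarith)
      nlinarith
  have hab' : (a ζ : ℤ) ≤ b ζ := by exact_mod_cast hab ζ
  have hbn' : (b ζ : ℤ) ≤ n := by exact_mod_cast hbn1
  have hnp1 : n + 1 = p := by omega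
  have hbeq : b ζ = n := by omega
  refine ⟨hnp1, ?_, H, ?_⟩
  · obtain ⟨d, -, hd, hdvd⟩ := irr_degree_dvd_card ζ.2
    rw [hb ζ] at hd
    rw [← Nat.cast_inj.1 hd, hbeq, ← (S.subgroupOf H).card_mul_index, hcS] at hdvd
    have hnp2 : n.Coprime (p ^ j) :=
      ((hp.out.coprime_iff_not_dvd.2 (Nat.not_dvd_of_pos_of_lt (by omega) (by omega))).symm).pow_right j
    have : n ∣ s ^ i :=
      (hnp2.coprime_dvd_right hidx).dvd_of_dvd_mul_right hdvd
    obtain ⟨k, -, hk⟩ := (Nat.dvd_prime_pow hs).1 this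
    rcases Nat.eq_zero_or_pos k with rfl | hk0
    · exact ⟨0, by rw [hk, pow_zero, pow_zero]⟩
    refine ⟨k, ?_⟩
    by_cases hs2 : s = 2
    · rw [hk, hs2]
    exfalso
    have hodd : Odd n := hk ▸ (hs.odd_of_ne_two hs2).pow
    have hp2e : p = 2 := (hp.out.eq_two_or_odd').resolve_right fun hpodd =>
      (Nat.not_even_iff_odd.2 hpodd) (hnp1 ▸ hodd.add_one)
    have hn1 : n = 1 := by omega
    rw [hn1] at hk
    exact absurd ((Nat.pow_eq_one.1 hk.symm).resolve_right hk0.ne') hs.ne_one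
  · have hcζ1 : c ζ = 1 := by
      rw [hbeq] at hbn
      have := Nat.le_of_mul_le_mul_right (hbn.trans_eq (one_mul n).symm) (by omega)
      omega
    have hzero : ∀ η, η ≠ ζ → c η = 0 := by
      intro η hη
      have h1 := Finset.sum_le_sum_of_subset (f := fun ζ => c ζ * b ζ)
        (Finset.subset_univ ({ζ, η} : Finset (IrrCharacter H)))
      rw [Finset.sum_pair (Ne.symm hη), ← hnsum, hcζ1, one_mul, hbeq] at h1
      obtain ⟨d, hd0, hd⟩ := exists_irr_apply_one_eq η.2
      rw [hb η] at hd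
      have hbd : b η = d := Nat.cast_inj.1 hd
      have : c η * b η = 0 := by omega
      exact (Nat.mul_eq_zero.1 this).resolve_right (by omega)
    have : (fun x : H => χ x) = (ζ : H → ℂ) := funext fun y => by
      rw [hval, Finset.sum_eq_single ζ (fun η _ hη => by rw [hzero η hη, Nat.cast_zero, zero_mul])
        (fun h => absurd (Finset.mem_univ ζ) h), hcζ1, Nat.cast_one, one_mul]
    rw [this]
    exact ζ.2

/-- The case `n + 1 ≤ p`. -/
theorem small_degree (hsolv : IsPSolvable p G) {χ : G → ℂ} (hχ : IsCharacter G χ)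
    (hf : ∀ g : G, χ g = χ 1 → g = 1) {n : ℕ} (hn : χ 1 = n) (hnp : n + 1 ≤ p)
    (hns : ¬ PrimePower.HasNormalSylow p G) :
    n + 1 = p ∧ (∃ k : ℕ, n = 2 ^ k) ∧ IsIrrCharacter G χ := by
  classical
  haveI := Fintype.ofFinite G
  obtain ⟨N, Q, hpN, hQ, hQN, hN⟩ := exists_action hsolv
  have hne : ¬ ∀ x ∈ Q, ∀ y ∈ N, x * y = y * x := by
    intro hall
    have h := hN Q le_rfl hall
    rw [Subgroup.relIndex_self, Nat.factorization_one, Finsupp.zero_apply, Nat.le_zero,
      Nat.factorization_eq_zero_iff] at h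
    refine hns ⟨pCore p G, inferInstance, Core.isPGroup_pCore p G, ?_⟩
    rcases h with h | h | h
    · exact absurd hp.out h
    · exact h
    · exact absurd h Subgroup.index_ne_zero_of_finite
  obtain ⟨j, hj⟩ := IsPGroup.iff_card.1 hQ
  have hcop : (Nat.card Q).Coprime (Nat.card N) := by
    rw [hj]; exact (hp.out.coprime_iff_not_dvd.2 hpN).pow_left j
  have hQs : Group.IsSolvable Q ∨ Group.IsSolvable N := Or.inl (by
    haveI : Group.IsNilpotent Q := hQ.isNilpotent
    infer_instance)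
  obtain ⟨s, hs, hsN, S, hS, hQS, hmove⟩ : ∃ s : ℕ, s.Prime ∧ s ∣ Nat.card N ∧
      ∃ S : Subgroup G, IsPGroup s S ∧ Q ≤ Subgroup.normalizer (S : Set G) ∧
        ¬ ∀ x ∈ Q, ∀ y ∈ S, x * y = y * x := by
    by_contra hall
    push Not at hall
    refine hne fun x hx => ?_
    let C := N ⊓ Subgroup.centralizer (Q : Set G)
    have hdvd : Nat.card N ∣ Nat.card C := by
      rw [← Nat.factorization_prime_le_iff_dvd Nat.card_pos.ne' Nat.card_pos.ne']
      intro s hs
      by_cases hsN : s ∣ Nat.card N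
      swap
      · rw [Nat.factorization_eq_zero_of_not_dvd hsN]; exact Nat.zero_le _
      haveI := Fact.mk hs
      obtain ⟨S, hSN, hS, hSi, hQS⟩ := Core.exists_invariant_sylow hQN hQs hcop s
      have hSC : S ≤ C := le_inf hSN fun y hy =>
        Subgroup.mem_centralizer_iff.2 fun z hz => hall s hs hsN S hS hQS z hz y hy
      refine le_trans ?_ ((Nat.factorization_le_iff_dvd Nat.card_pos.ne' Nat.card_pos.ne').2
        (Subgroup.card_dvd_of_le hSC) s)
      rw [← Subgroup.card_mul_index (S.subgroupOf N), Nat.factorization_mul Nat.card_pos.ne'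
        Subgroup.index_ne_zero_of_finite, Finsupp.add_apply,
        Nat.card_congr (Subgroup.subgroupOfEquivOfLe hSN).toEquiv,
        show (S.subgroupOf N).index = S.relIndex N from rfl,
        Nat.factorization_eq_zero_of_not_dvd hSi, add_zero]
    have hCN : C = N := Subgroup.eq_of_le_of_card_ge inf_le_left
      (Nat.le_of_dvd Nat.card_pos hdvd)
    intro y hy
    have : y ∈ C := hCN.symm ▸ hy
    exact (Subgroup.mem_centralizer_iff.1 this.2 x hx)
  have hsp : s ≠ p := fun h => hpN (h ▸ hsN)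
  obtain ⟨h1, h2, H, hH⟩ := small_degree_of_action hχ hf hn hnp hs hsp S hS Q hQ hQS hmove
  exact ⟨h1, h2, PrimePower.isIrr_of_restrict hχ H (by convert hH using 2)⟩

end Cfsg.Agent.Chars.SchurPBound
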