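import Mathlib.Analysis.Matrix.Order
import Mathlib.Analysis.SpecialFunctions.Trigonometric.Bounds
import Cfsg.Agent.Chars.Eigen

/-!
Frobenius' lemma on unitary matrices with eigenvalues in a short arc: in a finite group of unitary
matrices such elements commute with each other.
-/

set_option autoImplicit false
set_option linter.style.haveILetI false

namespace Cfsg.Agent.Chars

open scoped ComplexConjugate Matrix MatrixOrder ComplexOrder

variable {n : ℕ}

/-- The squared length of a vector. -/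
def nsq (v : Fin n → ℂ) : ℝ := ∑ i, Complex.normSq (v i)

/-- The real part of the sesquilinear product. -/
def rdot (v w : Fin n → ℂ) : ℝ := (star v ⬝ᵥ w).re

theorem nsq_nonneg (v : Fin n → ℂ) : 0 ≤ nsq v :=
  Finset.sum_nonneg fun i _ => Complex.normSq_nonneg _

theorem nsq_pos {v : Fin n → ℂ} (hv : v ≠ 0) : 0 < nsq v := by
  refine lt_of_le_of_ne (nsq_nonneg v) fun h => hv (funext fun i => Complex.normSq_eq_zero.1 ?_)
  exact (Finset.sum_eq_zero_iff_of_nonneg fun j _ => Complex.normSq_nonneg _).1 h.symm i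
    (Finset.mem_univ i)

theorem nsq_zero : nsq (0 : Fin n → ℂ) = 0 := by simp [nsq]

theorem star_dot_self (v : Fin n → ℂ) : star v ⬝ᵥ v = (nsq v : ℂ) := by
  simp [nsq, dotProduct, Complex.normSq_eq_conj_mul_self]

theorem nsq_eq_rdot (v : Fin n → ℂ) : nsq v = rdot v v := by
  rw [rdot, star_dot_self, Complex.ofReal_re]

theorem nsq_mulVec (B : Matrix (Fin n) (Fin n) ℂ) (v : Fin n → ℂ) :
    nsq (B *ᵥ v) = rdot v ((Bᴴ * B) *ᵥ v) := by
  rw [nsq_eq_rdot, rdot, rdot, Matrix.star_mulVec, ← Matrix.dotProduct_mulVec, Matrix.mulVec_mulVec]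

theorem nsq_unitary {X : Matrix (Fin n) (Fin n) ℂ} (hX : Xᴴ * X = 1) (v : Fin n → ℂ) :
    nsq (X *ᵥ v) = nsq v := by
  rw [nsq_mulVec, hX, Matrix.one_mulVec, ← nsq_eq_rdot]

theorem nsq_sub (v w : Fin n → ℂ) : nsq (v - w) = nsq v + nsq w - 2 * rdot w v := by
  simp only [nsq, rdot, dotProduct, Complex.re_sum, Finset.mul_sum, ← Finset.sum_add_distrib,
    ← Finset.sum_sub_distrib]
  refine Finset.sum_congr rfl fun i _ => ?_
  simp [Complex.normSq_sub]
  ring

theorem nsq_sub_le (v w : Fin n → ℂ) : nsq (v - w) ≤ 2 * nsq v + 2 * nsq w := by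
  simp only [nsq, Finset.mul_sum, ← Finset.sum_add_distrib]
  refine Finset.sum_le_sum fun i _ => ?_
  have h1 := Complex.normSq_sub (v i) (w i)
  have h2 := Complex.normSq_add (v i) (w i)
  have h3 := Complex.normSq_nonneg (v i + w i)
  simp only [Pi.sub_apply]
  linarith

theorem nsq_smul (c : ℂ) (v : Fin n → ℂ) : nsq (c • v) = Complex.normSq c * nsq v := by
  simp [nsq, Finset.mul_sum]

/-- The squared Frobenius norm. -/
def frob (X : Matrix (Fin n) (Fin n) ℂ) : ℝ := ∑ j, nsq (fun i => X i j)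

theorem frob_col_mul (B X : Matrix (Fin n) (Fin n) ℂ) (j : Fin n) :
    (fun i => (B * X) i j) = B *ᵥ fun k => X k j := by
  funext i; simp [Matrix.mul_apply, Matrix.mulVec, dotProduct]

theorem frob_conjTranspose (X : Matrix (Fin n) (Fin n) ℂ) : frob Xᴴ = frob X := by
  simp only [frob, nsq, Matrix.conjTranspose_apply]
  rw [Finset.sum_comm]
  simp

theorem frob_unitary_mul {X : Matrix (Fin n) (Fin n) ℂ} (hX : Xᴴ * X = 1)
    (Y : Matrix (Fin n) (Fin n) ℂ) : frob (X * Y) = frob Y := by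
  simp only [frob, frob_col_mul, nsq_unitary hX]

theorem frob_mul_unitary {X : Matrix (Fin n) (Fin n) ℂ} (hX : X * Xᴴ = 1)
    (Y : Matrix (Fin n) (Fin n) ℂ) : frob (Y * X) = frob Y := by
  rw [← frob_conjTranspose, Matrix.conjTranspose_mul, frob_unitary_mul (by simpa using hX),
    frob_conjTranspose]

theorem frob_pos {X : Matrix (Fin n) (Fin n) ℂ} (hX : X ≠ 0) : 0 < frob X := by
  obtain ⟨j, hj⟩ : ∃ j, (fun i => X i j) ≠ 0 := by
    by_contra h
    push Not at h
    exact hX (Matrix.ext fun i j => congrFun (h j) i)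
  exact Finset.sum_pos' (fun k _ => nsq_nonneg _) ⟨j, Finset.mem_univ _, nsq_pos hj⟩

theorem frob_sub_le (X Y : Matrix (Fin n) (Fin n) ℂ) :
    frob (X - Y) ≤ 2 * frob X + 2 * frob Y := by
  simp only [frob, Finset.mul_sum, ← Finset.sum_add_distrib]
  exact Finset.sum_le_sum fun j _ => nsq_sub_le (fun i => X i j) (fun i => Y i j)

theorem frob_smul (c : ℂ) (X : Matrix (Fin n) (Fin n) ℂ) :
    frob (c • X) = Complex.normSq c * frob X := by
  simp only [frob, Finset.mul_sum]
  exact Finset.sum_congr rfl fun j _ => nsq_smul c fun i => X i j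

/-- Half the square root of three. -/
noncomputable def arcConst : ℝ := Real.sqrt 3 / 2

theorem arcConst_pos : 0 < arcConst := by unfold arcConst; positivity

theorem arcConst_sq : arcConst * arcConst = 3 / 4 := by
  unfold arcConst
  rw [div_mul_div_comm, Real.mul_self_sqrt (by norm_num)]
  norm_num

theorem half_lt_arcConst : 1 / 2 < arcConst := by
  nlinarith [arcConst_sq, arcConst_pos]

/-- The eigenvalues of the unitary matrix lie in an open arc of length a third of pi. -/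
def Small (X : Matrix (Fin n) (Fin n) ℂ) : Prop :=
  ∃ ζ : ℂ, ‖ζ‖ = 1 ∧ ∀ v, v ≠ 0 → arcConst * nsq v < rdot v (ζ • X *ᵥ v)

theorem small_conj {X W : Matrix (Fin n) (Fin n) ℂ} (hW : W * Wᴴ = 1) (h : Small X) :
    Small (W * X * Wᴴ) := by
  obtain ⟨ζ, hζ, h⟩ := h
  refine ⟨ζ, hζ, fun v hv => ?_⟩
  have hv' : Wᴴ *ᵥ v ≠ 0 := fun h0 => hv (by
    have := congrArg (W *ᵥ ·) h0
    simpa [Matrix.mulVec_mulVec, hW] using this)
  have hn : nsq (Wᴴ *ᵥ v) = nsq v := nsq_unitary (by simpa using hW) v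
  have hr : rdot v (ζ • (W * X * Wᴴ) *ᵥ v) = rdot (Wᴴ *ᵥ v) (ζ • X *ᵥ (Wᴴ *ᵥ v)) := by
    simp only [rdot, Matrix.star_mulVec, Matrix.conjTranspose_conjTranspose,
      ← Matrix.dotProduct_mulVec, Matrix.mulVec_smul, Matrix.smul_mulVec, Matrix.mulVec_mulVec,
      mul_assoc]
  rw [hr, ← hn]
  exact h _ hv'

theorem small_bound {X : Matrix (Fin n) (Fin n) ℂ} (hX : Xᴴ * X = 1) (hX' : X * Xᴴ = 1)
    {ζ : ℂ} (hζ : ‖ζ‖ = 1) (h : ∀ v, v ≠ 0 → arcConst * nsq v < rdot v (ζ • X *ᵥ v))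
    {v : Fin n → ℂ} (hv : v ≠ 0) :
    nsq ((ζ • X - (arcConst : ℂ) • (1 : Matrix (Fin n) (Fin n) ℂ)) *ᵥ v) < 1 / 4 * nsq v ∧
    nsq ((ζ • X - (arcConst : ℂ) • (1 : Matrix (Fin n) (Fin n) ℂ))ᴴ *ᵥ v) < 1 / 4 * nsq v := by
  set B := ζ • X - (arcConst : ℂ) • (1 : Matrix (Fin n) (Fin n) ℂ) with hB
  have hn1 : Complex.normSq ζ = 1 := by rw [Complex.normSq_eq_norm_sq, hζ, one_pow]
  have hfirst : nsq (B *ᵥ v) < 1 / 4 * nsq v := by
    rw [hB, Matrix.sub_mulVec, nsq_sub, Matrix.smul_mulVec, Matrix.smul_mulVec, Matrix.one_mulVec,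
      nsq_smul, nsq_smul, nsq_unitary hX, hn1, Complex.normSq_ofReal, arcConst_sq]
    have hr : rdot ((arcConst : ℂ) • v) (ζ • X *ᵥ v) = arcConst * rdot v (ζ • X *ᵥ v) := by
      simp [rdot, Complex.mul_re]
      ring
    rw [hr]
    have h1 := mul_lt_mul_of_pos_left (h v hv) arcConst_pos
    rw [← mul_assoc, arcConst_sq] at h1
    linarith
  have hnormal : B * Bᴴ = Bᴴ * B := by
    simp only [hB, Matrix.conjTranspose_sub, Matrix.conjTranspose_smul, Matrix.conjTranspose_one,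
      Matrix.sub_mul, Matrix.mul_sub, Matrix.smul_mul, Matrix.mul_smul, Matrix.one_mul,
      Matrix.mul_one, hX, hX', smul_smul]
    module
  refine ⟨hfirst, ?_⟩
  rw [nsq_mulVec, Matrix.conjTranspose_conjTranspose, hnormal, ← nsq_mulVec]
  exact hfirst

theorem small_contract {X Y : Matrix (Fin n) (Fin n) ℂ} (hX : Xᴴ * X = 1) (hX' : X * Xᴴ = 1)
    (h : Small X) :
    (Y ≠ 0 → frob (X * Y - Y * X) < frob Y) ∧
    ∀ s : ℝ, 0 ≤ s → (∀ v, nsq (Y *ᵥ v) ≤ s * nsq v) →
      ∀ v, nsq ((X * Y - Y * X) *ᵥ v) ≤ s * nsq v := by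
  obtain ⟨ζ, hζ, h⟩ := h
  set B := ζ • X - (arcConst : ℂ) • (1 : Matrix (Fin n) (Fin n) ℂ) with hB
  have hn1 : Complex.normSq ζ = 1 := by rw [Complex.normSq_eq_norm_sq, hζ, one_pow]
  have hcomm : B * Y - Y * B = ζ • (X * Y - Y * X) := by
    simp only [hB, Matrix.sub_mul, Matrix.mul_sub, Matrix.smul_mul, Matrix.mul_smul, Matrix.one_mul,
      Matrix.mul_one, smul_sub]
    abel
  have hle : ∀ v, nsq (B *ᵥ v) ≤ 1 / 4 * nsq v := fun v => by
    by_cases hv : v = 0
    · simp [hv, nsq_zero]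
    · exact (small_bound hX hX' hζ h hv).1.le
  constructor
  · intro hY
    have hYp := frob_pos hY
    have h1 : frob (B * Y) < 1 / 4 * frob Y := by
      rw [frob, frob, Finset.mul_sum]
      simp only [frob_col_mul]
      obtain ⟨j, hj⟩ : ∃ j, (fun i => Y i j) ≠ 0 := by
        by_contra hc
        push Not at hc
        exact hY (Matrix.ext fun i j => congrFun (hc j) i)
      exact Finset.sum_lt_sum (fun k _ => hle _)
        ⟨j, Finset.mem_univ _, (small_bound hX hX' hζ h hj).1⟩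
    have h2 : frob (Y * B) ≤ 1 / 4 * frob Y := by
      rw [← frob_conjTranspose, Matrix.conjTranspose_mul, ← frob_conjTranspose Y, frob, frob,
        Finset.mul_sum]
      simp only [frob_col_mul]
      refine Finset.sum_le_sum fun k _ => ?_
      by_cases hv : (fun i => Yᴴ i k) = 0
      · rw [hv]; simp [nsq_zero]
      · exact (small_bound hX hX' hζ h hv).2.le
    have h3 := frob_sub_le (B * Y) (Y * B)
    rw [hcomm, frob_smul, hn1, one_mul] at h3
    linarith
  · intro s hs hY v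
    have h1 : nsq ((B * Y) *ᵥ v) ≤ 1 / 4 * (s * nsq v) := by
      rw [← Matrix.mulVec_mulVec]
      exact (hle _).trans (mul_le_mul_of_nonneg_left (hY v) (by norm_num))
    have h2 : nsq ((Y * B) *ᵥ v) ≤ s * (1 / 4 * nsq v) := by
      rw [← Matrix.mulVec_mulVec]
      exact (hY _).trans (mul_le_mul_of_nonneg_left (hle v) hs)
    have h3 := nsq_sub_le ((B * Y) *ᵥ v) ((Y * B) *ᵥ v)
    rw [← Matrix.sub_mulVec, hcomm, Matrix.smul_mulVec, nsq_smul, hn1, one_mul] at h3
    linarith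

variable {G : Type*} [Group G] [Finite G]

/-- A unitary matrix homomorphism. -/
def IsUnitaryHom (U : G →* Matrix (Fin n) (Fin n) ℂ) : Prop :=
  ∀ g, (U g)ᴴ * U g = 1 ∧ U g * (U g)ᴴ = 1

theorem exists_unitary_hom (ρ : Representation ℂ G (Fin n → ℂ)) :
    ∃ U : G →* Matrix (Fin n) (Fin n) ℂ, IsUnitaryHom U ∧
      ∀ g, U g = 1 ↔ ρ g = 1 := by
  classical
  haveI := Fintype.ofFinite G
  let A : G → Matrix (Fin n) (Fin n) ℂ := fun x => LinearMap.toMatrix' (ρ x)
  have hmul : ∀ x y, A (x * y) = A x * A y := fun x y => by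
    simp [A, map_mul, LinearMap.toMatrix'_comp, Module.End.mul_eq_comp]
  have hone : A 1 = 1 := by simp [A, Module.End.one_eq_id]
  let M : Matrix (Fin n) (Fin n) ℂ := ∑ x, (A x)ᴴ * A x
  have hMsd : M.PosSemidef :=
    Matrix.posSemidef_sum _ fun x _ => Matrix.posSemidef_conjTranspose_mul_self _
  have hM : IsUnit M := by
    have hs : M = (A 1)ᴴ * A 1 + ∑ x ∈ Finset.univ.erase 1, (A x)ᴴ * A x :=
      (Finset.add_sum_erase _ _ (Finset.mem_univ _)).symm
    rw [hs, hone, Matrix.conjTranspose_one, mul_one]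
    exact (Matrix.PosDef.one.add_posSemidef
      (Matrix.posSemidef_sum _ fun x _ => Matrix.posSemidef_conjTranspose_mul_self _)).isUnit
  obtain ⟨B, hB⟩ := CStarAlgebra.nonneg_iff_eq_star_mul_self.mp hMsd.nonneg
  rw [Matrix.star_eq_conjTranspose] at hB
  have hd : IsUnit B.det := by
    have h1 := (Matrix.isUnit_iff_isUnit_det M).1 hM
    rw [hB, Matrix.det_mul] at h1
    exact isUnit_of_mul_isUnit_right h1
  have hBi : B⁻¹ * B = 1 := Matrix.nonsing_inv_mul _ hd
  have hBi' : B * B⁻¹ = 1 := Matrix.mul_nonsing_inv _ hd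
  let U : G →* Matrix (Fin n) (Fin n) ℂ :=
    { toFun := fun g => B * A g * B⁻¹
      map_one' := by rw [hone, mul_one, hBi']
      map_mul' := fun x y => by
        show B * A (x * y) * B⁻¹ = B * A x * B⁻¹ * (B * A y * B⁻¹)
        simp only [mul_assoc]
        rw [← mul_assoc B⁻¹ B, hBi, one_mul, ← mul_assoc (A x), hmul] }
  have hinv : ∀ g, (A g)ᴴ * M * A g = M := fun g => by
    rw [Finset.mul_sum, Finset.sum_mul]
    refine Fintype.sum_equiv (Equiv.mulRight g) _ _ fun x => ?_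
    simp [hmul, Matrix.conjTranspose_mul, mul_assoc]
  refine ⟨U, fun g => ?_, fun g => ?_⟩
  · have h1 : (U g)ᴴ * U g = 1 := by
      show (B * A g * B⁻¹)ᴴ * (B * A g * B⁻¹) = 1
      calc (B * A g * B⁻¹)ᴴ * (B * A g * B⁻¹)
          = (B⁻¹)ᴴ * ((A g)ᴴ * (Bᴴ * B) * A g) * B⁻¹ := by
            simp only [Matrix.conjTranspose_mul, mul_assoc]
        _ = (B⁻¹)ᴴ * (Bᴴ * B) * B⁻¹ := by rw [← hB, hinv]
        _ = (B * B⁻¹)ᴴ * (B * B⁻¹) := by simp only [Matrix.conjTranspose_mul, mul_assoc]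
        _ = 1 := by rw [hBi', Matrix.conjTranspose_one, one_mul]
    exact ⟨h1, mul_eq_one_comm.1 h1⟩
  · constructor
    · intro h
      have h1 : A g = 1 := by
        have h2 : B⁻¹ * (B * A g * B⁻¹) * B = B⁻¹ * 1 * B := by
          rw [show B * A g * B⁻¹ = 1 from h]
        simpa [mul_assoc, hBi, ← mul_assoc B⁻¹ B] using h2
      apply LinearMap.toMatrix'.injective
      rw [show LinearMap.toMatrix' (ρ g) = A g from rfl, h1]
      simp [Module.End.one_eq_id]
    · intro h
      show B * A g * B⁻¹ = 1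
      rw [show A g = 1 by simp [A, h, Module.End.one_eq_id], mul_one, hBi']

variable {U : G →* Matrix (Fin n) (Fin n) ℂ}

theorem conjTranspose_hom (hU : IsUnitaryHom U) (g : G) : (U g)ᴴ = U g⁻¹ := by
  calc (U g)ᴴ = (U g)ᴴ * (U g * U g⁻¹) := by rw [← map_mul, mul_inv_cancel, map_one, mul_one]
    _ = U g⁻¹ := by rw [← mul_assoc, (hU g).1, one_mul]

/-- The representation attached to a matrix homomorphism. -/
noncomputable def matRep (U : G →* Matrix (Fin n) (Fin n) ℂ) : Representation ℂ G (Fin n → ℂ) :=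
  Matrix.toLinAlgEquiv'.toMonoidHom.comp U

omit [Finite G] in
theorem matRep_apply (g : G) (v : Fin n → ℂ) : matRep U g v = U g *ᵥ v := by
  simp [matRep, Matrix.toLinAlgEquiv'_apply]

/-- If `x` commutes with its conjugate by an element with numerical range away from zero, then the
two elements commute. -/
theorem commute_of_commutator_commute (hU : IsUnitaryHom U) {x w : G}
    (h : Commute (U x) (U (w * x * w⁻¹))) {η : ℂ}
    (hw : ∀ v, v ≠ 0 → 0 < rdot v (η • U w *ᵥ v)) : Commute (U x) (U w) := by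
  have hWi : U w⁻¹ * U w = 1 := by rw [← map_mul, inv_mul_cancel, map_one]
  obtain ⟨b, z, hb, hz⟩ := exists_eigenbasis (matRep U) x
  have key : ∀ i, U x *ᵥ (U w *ᵥ b i) = z i • (U w *ᵥ b i) := by
    intro i
    have hbi : U x *ᵥ b i = z i • b i := by rw [← matRep_apply]; exact hb i
    set v := U w *ᵥ b i
    set u := U x *ᵥ v - z i • v with hu
    have hX' : ∀ a, U (w * x * w⁻¹) *ᵥ (U w *ᵥ a) = U w *ᵥ (U x *ᵥ a) := fun a => by
      rw [Matrix.mulVec_mulVec, Matrix.mulVec_mulVec, ← map_mul, ← map_mul, inv_mul_cancel_right]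
    have hv' : U (w * x * w⁻¹) *ᵥ v = z i • v := by rw [hX', hbi, Matrix.mulVec_smul]
    have hu' : U (w * x * w⁻¹) *ᵥ u = z i • u := by
      rw [hu, Matrix.mulVec_sub, Matrix.mulVec_smul, Matrix.mulVec_mulVec, ← h.eq,
        ← Matrix.mulVec_mulVec, hv', Matrix.mulVec_smul, smul_sub]
    set e := U w⁻¹ *ᵥ u with he
    have hwe : U w *ᵥ e = u := by
      rw [he, Matrix.mulVec_mulVec, ← map_mul, mul_inv_cancel, map_one, Matrix.one_mulVec]
    have hxe : U x *ᵥ e = z i • e := by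
      have h1 := hX' e
      rw [hwe, hu'] at h1
      have h2 := congrArg (U w⁻¹ *ᵥ ·) h1
      simp only [Matrix.mulVec_smul, Matrix.mulVec_mulVec, ← mul_assoc, hWi, one_mul] at h2
      exact h2.symm
    have hzc : conj (z i) * z i = 1 := by
      rw [Complex.conj_mul', norm_eq_one_of_pow_eq_one (orderOf_pos x).ne' (hz i)]
      simp
    have hstar : (U x)ᴴ *ᵥ e = conj (z i) • e := by
      have h1 := congrArg ((U x)ᴴ *ᵥ ·) hxe
      simp only [Matrix.mulVec_mulVec, (hU x).1, Matrix.one_mulVec, Matrix.mulVec_smul] at h1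
      calc (U x)ᴴ *ᵥ e = (conj (z i) * z i) • ((U x)ᴴ *ᵥ e) := by rw [hzc, one_smul]
        _ = conj (z i) • e := by rw [← smul_smul, ← h1]
    have hrow : star e ᵥ* U x = z i • star e := by
      have h1 := congrArg star hstar
      rwa [Matrix.star_mulVec, Matrix.conjTranspose_conjTranspose, star_smul, Complex.star_def,
        Complex.conj_conj] at h1
    have horth : star e ⬝ᵥ u = 0 := by
      rw [hu, dotProduct_sub, Matrix.dotProduct_mulVec, hrow, smul_dotProduct, dotProduct_smul,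
        sub_self]
    have he0 : e = 0 := by
      by_contra hne
      have hp := hw e hne
      rw [rdot, hwe, dotProduct_smul, horth] at hp
      simp at hp
    have hu0 : u = 0 := by rw [← hwe, he0, Matrix.mulVec_zero]
    exact sub_eq_zero.1 hu0
  have hmat : (matRep U x).comp (matRep U w) = (matRep U w).comp (matRep U x) := b.ext fun i => by
    rw [LinearMap.comp_apply, LinearMap.comp_apply, matRep_apply, matRep_apply, key i, hb i,
      map_smul, matRep_apply]
  show U x * U w = U w * U x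
  rw [← map_mul, ← map_mul]
  apply Matrix.toLinAlgEquiv'.injective
  show matRep U (x * w) = matRep U (w * x)
  rw [map_mul, map_mul]
  exact hmat

theorem small_positive {W : Matrix (Fin n) (Fin n) ℂ} (hW : Small W) :
    ∃ η : ℂ, ∀ v, v ≠ 0 → 0 < rdot v (η • W *ᵥ v) := by
  obtain ⟨ζ, -, h⟩ := hW
  exact ⟨ζ, fun v hv => lt_of_le_of_lt (mul_nonneg arcConst_pos.le (nsq_nonneg v)) (h v hv)⟩

/-- Two small elements of a finite unitary group commute. -/
theorem small_commute (hU : IsUnitaryHom U) {x y : G} (hx : Small (U x)) (hy : Small (U y)) :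
    Commute (U x) (U y) := by
  classical
  let z : ℕ → G := fun k => (fun w => x * w * x⁻¹ * w⁻¹)^[k] y
  have hz0 : z 0 = y := rfl
  have hzs : ∀ k, z (k + 1) = x * z k * x⁻¹ * (z k)⁻¹ := fun k =>
    Function.iterate_succ_apply' _ k y
  have hdiff : ∀ w : G, U (x * w * x⁻¹ * w⁻¹) - 1 =
      (U x * U w - U w * U x) * (U x⁻¹ * U w⁻¹) := fun w => by
    rw [sub_mul]
    simp only [← map_mul]
    rw [show w * x * (x⁻¹ * w⁻¹) = 1 by group, map_one, show x * w * (x⁻¹ * w⁻¹) =
      x * w * x⁻¹ * w⁻¹ by group]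
  have hUn : ∀ a b : G, (U a⁻¹ * U b⁻¹) * (U a⁻¹ * U b⁻¹)ᴴ = 1 := fun a b => by
    rw [← map_mul]; exact (hU _).2
  -- the operator bound along the sequence
  obtain ⟨η, hη1, hη⟩ := hy
  have hn1 : Complex.normSq η = 1 := by rw [Complex.normSq_eq_norm_sq, hη1, one_pow]
  set s : ℝ := 2 - 2 * arcConst with hs
  have hs0 : 0 ≤ s := by nlinarith [arcConst_sq, arcConst_pos]
  have hs1 : s < 1 := by have := half_lt_arcConst; rw [hs]; linarith
  have hWy : ∀ v, nsq ((η • U y - 1) *ᵥ v) ≤ s * nsq v := by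
    intro v
    by_cases hv : v = 0
    · simp [hv, nsq_zero]
    · rw [Matrix.sub_mulVec, Matrix.one_mulVec, nsq_sub, Matrix.smul_mulVec, nsq_smul,
        nsq_unitary (hU y).1, hn1, one_mul]
      have := hη v hv
      rw [hs]
      linarith
  have hstep : ∀ (w : G) (η' : ℂ), Complex.normSq η' = 1 →
      (∀ v, nsq ((η' • U w - 1) *ᵥ v) ≤ s * nsq v) →
      ∀ v, nsq ((U (x * w * x⁻¹ * w⁻¹) - 1) *ᵥ v) ≤ s * nsq v := by
    intro w η' hη' hb v
    have h1 := (small_contract (Y := η' • U w - 1) (hU x).1 (hU x).2 hx).2 s hs0 hb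
      ((U x⁻¹ * U w⁻¹) *ᵥ v)
    rw [show U x * (η' • U w - 1) - (η' • U w - 1) * U x = η' • (U x * U w - U w * U x) by
      simp only [mul_sub, sub_mul, Matrix.mul_smul, Matrix.smul_mul, mul_one, one_mul, smul_sub]
      abel, Matrix.smul_mulVec, nsq_smul, hη', one_mul, Matrix.mulVec_mulVec, ← hdiff,
      nsq_unitary (X := U x⁻¹ * U w⁻¹) (by rw [← map_mul]; exact (hU _).1)] at h1
    exact h1
  have hbound : ∀ k, ∀ v, nsq ((U (z (k + 1)) - 1) *ᵥ v) ≤ s * nsq v := by
    intro k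
    induction k with
    | zero => rw [hzs 0, hz0]; exact hstep y η hn1 hWy
    | succ k ih =>
      rw [hzs (k + 1)]
      exact hstep (z (k + 1)) 1 (by simp) (by simpa using ih)
  have hpos : ∀ k, ∃ η' : ℂ, ∀ v, v ≠ 0 → 0 < rdot v (η' • U (z k) *ᵥ v) := by
    intro k
    cases k with
    | zero => exact small_positive ⟨η, hη1, hη⟩
    | succ k =>
      refine ⟨1, fun v hv => ?_⟩
      have h1 := hbound k v
      rw [Matrix.sub_mulVec, Matrix.one_mulVec, nsq_sub, nsq_unitary (hU _).1] at h1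
      rw [one_smul]
      have := nsq_pos hv
      nlinarith
  -- the sequence reaches the identity
  have hterm : ∃ k, U (z (k + 1)) = 1 := by
    by_contra hne
    push Not at hne
    have hlt : ∀ k, frob (U (z (k + 2)) - 1) < frob (U (z (k + 1)) - 1) := by
      intro k
      rw [hzs (k + 1), hdiff, frob_mul_unitary (hUn x _)]
      have := (small_contract (Y := U (z (k + 1)) - 1) (hU x).1 (hU x).2 hx).1
        (sub_ne_zero.2 (hne k))
      rwa [show U x * (U (z (k + 1)) - 1) - (U (z (k + 1)) - 1) * U x =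
        U x * U (z (k + 1)) - U (z (k + 1)) * U x by
        simp only [mul_sub, sub_mul, mul_one, one_mul]; abel] at this
    have hanti : StrictAnti fun k => frob (U (z (k + 1)) - 1) := strictAnti_nat_of_succ_lt hlt
    exact not_injective_infinite_finite (fun k => z (k + 1)) fun a b hab =>
      hanti.injective (by show frob _ = frob _; rw [show z (a + 1) = z (b + 1) from hab])
  have hcomm_iff : ∀ k, U (z (k + 1)) = 1 ↔ Commute (U x) (U (z k)) := by
    intro k
    rw [← sub_eq_zero, hzs k, hdiff]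
    constructor
    · intro h
      have h1 := congrArg (fun M => M * (U (z k) * U x)) h
      simp only [zero_mul, mul_assoc] at h1
      rw [show U x⁻¹ * (U (z k)⁻¹ * (U (z k) * U x)) = 1 by
        simp only [← map_mul]; rw [show x⁻¹ * ((z k)⁻¹ * (z k * x)) = 1 by group, map_one],
        mul_one, sub_eq_zero] at h1
      exact h1
    · intro h; rw [h.eq, sub_self, zero_mul]
  obtain ⟨k, hk⟩ := hterm
  induction k with
  | zero => exact (hcomm_iff 0).1 hk
  | succ k ih =>
    refine ih ((hcomm_iff k).2 ?_)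
    obtain ⟨η', hη'⟩ := hpos k
    refine commute_of_commutator_commute hU ?_ hη'
    have h1 := (hcomm_iff (k + 1)).1 hk
    rw [hzs k, show x * z k * x⁻¹ * (z k)⁻¹ = x * (z k * x * (z k)⁻¹)⁻¹ by group] at h1
    set c := z k * x * (z k)⁻¹
    have h2 := congrArg (fun M => U (c * x⁻¹) * M * U c) h1.eq
    simp only [← map_mul] at h2
    rw [show c * x⁻¹ * (x * (x * c⁻¹)) * c = c * x by group,
      show c * x⁻¹ * (x * c⁻¹ * x) * c = x * c by group, map_mul U c x, map_mul U x c] at h2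
    exact h2.symm

/-- Eigenvalues close together make an element small. -/
theorem small_of_eigen (hU : IsUnitaryHom U) {g : G} {t : Set (Fin n → ℂ)}
    (ht : Submodule.span ℂ t = ⊤)
    (hev : ∀ v ∈ t, ∃ c : ℂ, ‖c‖ = 1 ∧ arcConst < c.re ∧ U g *ᵥ v = c • v) : Small (U g) := by
  classical
  refine ⟨1, norm_one, fun v hv => ?_⟩
  rw [one_smul]
  have hsup : v ∈ ⨆ c : {c : ℂ // ‖c‖ = 1 ∧ arcConst < c.re},
      Module.End.eigenspace (Matrix.toLin' (U g)) c.1 := by
    have : Submodule.span ℂ t ≤ ⨆ c : {c : ℂ // ‖c‖ = 1 ∧ arcConst < c.re},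
        Module.End.eigenspace (Matrix.toLin' (U g)) c.1 := by
      rw [Submodule.span_le]
      intro w hw
      obtain ⟨c, hc1, hc2, hc⟩ := hev w hw
      exact Submodule.mem_iSup_of_mem ⟨c, hc1, hc2⟩
        (Module.End.mem_eigenspace_iff.2 (by simpa [Matrix.toLin'_apply] using hc))
    exact this (ht ▸ Submodule.mem_top)
  obtain ⟨s, hsv⟩ := Submodule.exists_finset_of_mem_iSup _ hsup
  obtain ⟨f, hf⟩ := (Submodule.mem_iSup_finset_iff_exists_sum _ v).1 hsv
  have hEv : ∀ c ∈ s, U g *ᵥ (f c : Fin n → ℂ) = c.1 • (f c : Fin n → ℂ) := fun c _ => by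
    simpa [Matrix.toLin'_apply] using Module.End.mem_eigenspace_iff.1 (f c).2
  have horth : ∀ c ∈ s, ∀ d ∈ s, c ≠ d →
      star (f c : Fin n → ℂ) ⬝ᵥ (f d : Fin n → ℂ) = 0 := by
    intro c hc d hd hcd
    have h1 : star (U g *ᵥ (f c : Fin n → ℂ)) ⬝ᵥ (U g *ᵥ (f d : Fin n → ℂ)) =
        star (f c : Fin n → ℂ) ⬝ᵥ (f d : Fin n → ℂ) := by
      rw [Matrix.star_mulVec, ← Matrix.dotProduct_mulVec, Matrix.mulVec_mulVec, (hU g).1,
        Matrix.one_mulVec]
    rw [hEv c hc, hEv d hd, star_smul, smul_dotProduct, dotProduct_smul, smul_eq_mul, smul_eq_mul,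
      Complex.star_def] at h1
    by_contra hne
    have h2 : conj c.1 * d.1 = 1 := mul_right_cancel₀ hne (by rw [mul_assoc, h1, one_mul])
    refine hcd (Subtype.ext ?_)
    have h3 : c.1 * conj c.1 = 1 := by rw [Complex.mul_conj', c.2.1]; simp
    calc c.1 = c.1 * (conj c.1 * d.1) := by rw [h2, mul_one]
      _ = d.1 := by rw [← mul_assoc, h3, one_mul]
  have hexp : ∀ a : {c : ℂ // ‖c‖ = 1 ∧ arcConst < c.re} → ℂ,
      star (∑ c ∈ s, (f c : Fin n → ℂ)) ⬝ᵥ (∑ d ∈ s, a d • (f d : Fin n → ℂ)) =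
        ∑ c ∈ s, a c * (nsq (f c : Fin n → ℂ) : ℂ) := by
    intro a
    rw [star_sum, sum_dotProduct]
    refine Finset.sum_congr rfl fun c hc => ?_
    rw [dotProduct_sum, Finset.sum_eq_single c (fun d hd hdc => by
      rw [dotProduct_smul, horth c hc d hd (Ne.symm hdc), smul_zero]) (fun h => absurd hc h),
      dotProduct_smul, star_dot_self, smul_eq_mul]
  have hnv : nsq v = ∑ c ∈ s, nsq (f c : Fin n → ℂ) := by
    have h1 := hexp fun _ => 1
    simp only [one_smul, one_mul, hf] at h1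
    rw [star_dot_self] at h1
    exact_mod_cast h1
  have hrv : rdot v (U g *ᵥ v) = ∑ c ∈ s, c.1.re * nsq (f c : Fin n → ℂ) := by
    have h1 := hexp fun c => c.1
    rw [← Finset.sum_congr rfl hEv, ← Matrix.mulVec_sum, hf] at h1
    rw [rdot, h1, Complex.re_sum]
    exact Finset.sum_congr rfl fun c _ => Complex.re_mul_ofReal _ _
  rw [hnv, hrv, Finset.mul_sum]
  obtain ⟨c, hc, hc0⟩ : ∃ c ∈ s, (f c : Fin n → ℂ) ≠ 0 := by
    by_contra hcon
    push Not at hcon
    exact hv (hf ▸ Finset.sum_eq_zero hcon)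
  exact Finset.sum_lt_sum (fun d _ => mul_le_mul_of_nonneg_right d.2.2.le (nsq_nonneg _))
    ⟨c, hc, mul_lt_mul_of_pos_right c.2.2 (nsq_pos hc0)⟩

end Cfsg.Agent.Chars
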