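import Cfsg.Agent.Chars.SmallEigen

/-!
A normal abelian subgroup generated by small elements, meeting every abelian subgroup in bounded index.
-/

set_option autoImplicit false
set_option linter.style.haveILetI false

namespace Cfsg.Agent.Chars

open scoped Real Matrix

universe u v

/-- A commutative group acts on a space spanned by common eigenvectors. -/
theorem span_common_eigen {G : Type u} [Group G] [Finite G] (hc : ∀ a b : G, a * b = b * a)
    {V : Type v} [AddCommGroup V] [Module ℂ V] [FiniteDimensional ℂ V]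
    (ρ : Representation ℂ G V) :
    Submodule.span ℂ {v : V | v ≠ 0 ∧ ∀ g, ∃ c : ℂ, ρ g v = c • v} = ⊤ := by
  refine rep_induction (P := fun V _ _ ρ =>
    Submodule.span ℂ {v : V | v ≠ 0 ∧ ∀ g, ∃ c : ℂ, ρ g v = c • v} = ⊤) ?_ ?_ ?_ V ρ
  · intro V _ _ ρ _
    exact Subsingleton.elim _ _
  · intro V _ _ _ ρ _
    refine Submodule.eq_top_iff'.2 fun v => ?_
    by_cases hv : v = 0
    · rw [hv]; exact Submodule.zero_mem _
    · refine Submodule.subset_span ⟨hv, fun g => ?_⟩
      obtain ⟨c, hc'⟩ := scalar_of_commute ρ (ρ g) (fun h => by rw [← map_mul, hc, map_mul])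
      exact ⟨c, by rw [hc']; simp⟩
  · intro V _ _ _ ρ S C hSC hS hC
    have hmap : ∀ W : Subrepresentation ρ,
        Submodule.span ℂ {v : W.toSubmodule | v ≠ 0 ∧ ∀ g, ∃ c : ℂ,
          W.toRepresentation g v = c • v} = ⊤ →
        W.toSubmodule ≤ Submodule.span ℂ {v : V | v ≠ 0 ∧ ∀ g, ∃ c : ℂ, ρ g v = c • v} := by
      intro W hW
      rw [← Submodule.map_subtype_top W.toSubmodule, ← hW, Submodule.map_span]
      refine Submodule.span_mono ?_
      rintro _ ⟨v, ⟨hv0, hv⟩, rfl⟩
      refine ⟨fun h => hv0 (Subtype.ext h), fun g => ?_⟩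
      obtain ⟨c, hc'⟩ := hv g
      exact ⟨c, congrArg Subtype.val hc'⟩
    rw [eq_top_iff, ← hSC.sup_eq_top]
    exact sup_le (hmap S hS) (hmap C hC)

/-- The box of an argument. -/
noncomputable def argBox (z : ℂ) : Fin 12 :=
  Fin.ofNat 12 ⌊(π - Complex.arg z) / (π / 6)⌋₊

theorem argBox_close {a b : ℂ} (ha : ‖a‖ = 1) (hb : ‖b‖ = 1) (h : argBox a = argBox b) :
    arcConst < (a * (starRingEnd ℂ) b).re := by
  have hp := Real.pi_pos
  have hlt : ∀ z : ℂ, ⌊(π - Complex.arg z) / (π / 6)⌋₊ < 12 := fun z => by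
    have h1 := Complex.neg_pi_lt_arg z
    rw [Nat.floor_lt (div_nonneg (by linarith [Complex.arg_le_pi z]) (by positivity)),
      div_lt_iff₀ (by positivity)]
    push_cast
    linarith
  have h' : ⌊(π - Complex.arg a) / (π / 6)⌋₊ = ⌊(π - Complex.arg b) / (π / 6)⌋₊ := by
    have := congrArg Fin.val h
    simpa [argBox, Nat.mod_eq_of_lt (hlt a), Nat.mod_eq_of_lt (hlt b)] using this
  have hfl : ∀ z : ℂ, (⌊(π - Complex.arg z) / (π / 6)⌋₊ : ℝ) * (π / 6) ≤ π - Complex.arg z ∧
      π - Complex.arg z < ((⌊(π - Complex.arg z) / (π / 6)⌋₊ : ℝ) + 1) * (π / 6) := fun z => by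
    have h0 : 0 ≤ (π - Complex.arg z) / (π / 6) :=
      div_nonneg (by linarith [Complex.arg_le_pi z]) (by positivity)
    exact ⟨(le_div_iff₀ (by positivity)).1 (Nat.floor_le h0),
      (div_lt_iff₀ (by positivity)).1 (Nat.lt_floor_add_one _)⟩
  obtain ⟨a1, a2⟩ := hfl a
  obtain ⟨b1, b2⟩ := hfl b
  rw [h'] at a1 a2
  have hd : |Complex.arg a - Complex.arg b| < π / 6 := by
    rw [abs_lt]
    constructor <;> linarith
  have hre : (a * (starRingEnd ℂ) b).re = Real.cos (Complex.arg a - Complex.arg b) := by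
    rw [Real.cos_sub, Complex.cos_arg (by intro h0; simp [h0] at ha),
      Complex.cos_arg (by intro h0; simp [h0] at hb), Complex.sin_arg, Complex.sin_arg, ha, hb]
    simp [Complex.mul_re]
  rw [hre, ← Real.cos_abs, show arcConst = Real.cos (π / 6) by rw [Real.cos_pi_div_six]; rfl]
  exact Real.cos_lt_cos_of_nonneg_of_le_pi (abs_nonneg _) (by linarith) hd

variable {G : Type u} [Group G] [Finite G] {n : ℕ}

/-- The bound of the index of the small elements in an abelian subgroup. -/
theorem exists_normal_abelian_small {U : G →* Matrix (Fin n) (Fin n) ℂ} (hU : IsUnitaryHom U)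
    (hinj : Function.Injective U) :
    ∃ A : Subgroup G, A.Normal ∧ (∀ x ∈ A, ∀ y ∈ A, x * y = y * x) ∧
      ∀ H : Subgroup G, (∀ x ∈ H, ∀ y ∈ H, x * y = y * x) →
        (A.subgroupOf H).index ≤ 12 ^ n := by
  classical
  let S : Set G := {g | Small (U g)}
  haveI : (Subgroup.closure S).Normal := by
    constructor
    intro a ha g
    have : Subgroup.closure S ≤ (Subgroup.closure S).comap (MulAut.conj g).toMonoidHom := by
      rw [Subgroup.closure_le]
      intro s hs
      refine Subgroup.subset_closure ?_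
      show Small (U (g * s * g⁻¹))
      rw [map_mul, map_mul, ← conjTranspose_hom hU]
      exact small_conj (hU g).2 hs
    exact this ha
  refine ⟨Subgroup.closure S, inferInstance, ?_, fun H hH => ?_⟩
  · intro x hx y hy
    have hcomm : ∀ a ∈ S, ∀ b ∈ S, a * b = b * a := fun a ha b hb => hinj (by
      rw [map_mul, map_mul]; exact (small_commute hU ha hb).eq)
    haveI := Subgroup.isMulCommutative_closure hcomm
    exact congrArg Subtype.val (mul_comm' (⟨x, hx⟩ : Subgroup.closure S) ⟨y, hy⟩)
  · haveI := Fintype.ofFinite H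
    have hcH : ∀ a b : H, a * b = b * a := fun a b => Subtype.ext (hH a a.2 b b.2)
    obtain ⟨t, hts, htspan, hli⟩ := exists_linearIndependent ℂ
      {v : Fin n → ℂ | v ≠ 0 ∧ ∀ g : H, ∃ c : ℂ, matRep (U.comp H.subtype) g v = c • v}
    rw [span_common_eigen hcH (matRep (U.comp H.subtype))] at htspan
    haveI : Finite t := hli.finite
    haveI := Fintype.ofFinite t
    have htn : Fintype.card t ≤ n := by
      simpa using hli.fintype_card_le_finrank
    choose c hc using fun (v : t) (h : H) => (hts v.2).2 h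
    have hcv : ∀ (v : t) (h : H), U h *ᵥ (v : Fin n → ℂ) = c v h • (v : Fin n → ℂ) := fun v h => by
      have := hc v h
      rwa [matRep_apply] at this
    have hcn : ∀ (v : t) (h : H), ‖c v h‖ = 1 := by
      intro v h
      have h1 := nsq_unitary (hU (h : G)).1 (v : Fin n → ℂ)
      rw [hcv, nsq_smul] at h1
      have h2 : Complex.normSq (c v h) = 1 :=
        mul_right_cancel₀ (nsq_pos (hts v.2).1).ne' (h1.trans (one_mul _).symm)
      rw [Complex.norm_def, h2, Real.sqrt_one]
    let K := (Subgroup.closure S).subgroupOf H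
    let box : H ⧸ K → (t → Fin 12) := fun q v => argBox (c v q.out)
    have hinjb : Function.Injective box := by
      intro q q' hqq
      rw [← q.out_eq', ← q'.out_eq', QuotientGroup.eq, Subgroup.mem_subgroupOf]
      refine Subgroup.subset_closure ?_
      refine small_of_eigen hU (t := t) (by simpa using htspan) fun v hv => ?_
      refine ⟨c ⟨v, hv⟩ q'.out * (starRingEnd ℂ) (c ⟨v, hv⟩ q.out), ?_, ?_, ?_⟩
      · rw [norm_mul, Complex.norm_conj, hcn, hcn, one_mul]
      · exact argBox_close (hcn _ _) (hcn _ _) (congrFun hqq.symm ⟨v, hv⟩)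
      · set a := c ⟨v, hv⟩ q.out
        have ha : (starRingEnd ℂ) a * a = 1 := by
          rw [Complex.conj_mul', hcn]; simp
        have h1 := hcv ⟨v, hv⟩ q.out
        have h2 : U ((q.out : G))⁻¹ *ᵥ v = (starRingEnd ℂ) a • v := by
          have h3 := congrArg (U ((q.out : G))⁻¹ *ᵥ ·) h1
          simp only [Matrix.mulVec_smul, Matrix.mulVec_mulVec, ← map_mul, inv_mul_cancel, map_one,
            Matrix.one_mulVec] at h3
          calc U ((q.out : G))⁻¹ *ᵥ v = ((starRingEnd ℂ) a * a) • (U ((q.out : G))⁻¹ *ᵥ v) := by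
                rw [ha, one_smul]
            _ = (starRingEnd ℂ) a • v := by rw [← smul_smul, ← h3]
        show U ((q.out : G)⁻¹ * (q'.out : G)) *ᵥ v = _
        rw [map_mul, ← Matrix.mulVec_mulVec, hcv ⟨v, hv⟩ q'.out, Matrix.mulVec_smul, h2, smul_smul]
    rw [Subgroup.index_eq_card]
    refine (Nat.card_le_card_of_injective box hinjb).trans ?_
    rw [Nat.card_fun, Nat.card_eq_fintype_card, Nat.card_eq_fintype_card, Fintype.card_fin]
    exact Nat.pow_le_pow_right (by norm_num) htn

end Cfsg.Agent.Chars
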