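import Cfsg.Agent.Chars.ThreeDegCoprime

/-!
Assembly: three character degrees give derived length at most three.
-/

set_option autoImplicit false
set_option linter.style.haveILetI false
set_option linter.unusedSectionVars false

open Cfsg Cfsg.Agent
open scoped commutatorElement

namespace Cfsg.Agent.Chars.ThreeDeg

universe u

variable {G : Type u} [Group G] [Fintype G]

/-- The coprime case, when the group is solvable. -/
theorem derived_three_coprime [Group.IsSolvable G] {m n : ℕ} (h : Setup G m n)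
    (hm : ∃ χ : IrrCharacter G, charDegree (χ : G → ℂ) = m)
    (hn : ∃ χ : IrrCharacter G, charDegree (χ : G → ℂ) = n) : derivedSeries G 3 = ⊥ := by
  classical
  have hnab : ¬ commutator G ≤ (⊥ : Subgroup G) := fun h0 => by
    obtain ⟨χ, hχ⟩ := hm
    have hab : ∀ a b : G, a * b = b * a := fun a b => commutatorElement_eq_one_iff_mul_comm.1
      (h0 (Subgroup.commutator_mem_commutator (Subgroup.mem_top a) (Subgroup.mem_top b)))
    have h1 := irr_apply_one_of_comm hab χ.2
    rw [deg_eq, hχ] at h1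
    have h2 : m = 1 := by exact_mod_cast h1
    have := h.m_gt
    omega
  let S : Set (Subgroup G) := {K | K.Normal ∧ ¬ commutator G ≤ K}
  obtain ⟨K, hKm⟩ := (Set.toFinite S).exists_maximal ⟨⊥, inferInstance, hnab⟩
  obtain ⟨hKn, hK⟩ := hKm.prop
  haveI := hKn
  have hKmax : ∀ M : Subgroup G, M.Normal → K < M → commutator G ≤ M := fun M hM hlt => by
    by_contra h0
    exact hlt.not_ge (hKm.2 ⟨hM, h0⟩ hlt.le)
  by_cases hnil : ⁅commutator G, (⊤ : Subgroup G)⁆ ≤ K
  · exact (no_class_two_quotient h hm hn K hK hKmax hnil).elim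
  set π := QuotientGroup.mk' K with hπdef
  have hπ : Function.Surjective π := QuotientGroup.mk'_surjective K
  set Q := G ⧸ K
  have hcQ : commutator Q = (commutator G).map π := by
    rw [commutator_def, commutator_def, Subgroup.map_commutator,
      Subgroup.map_top_of_surjective π hπ]
  have hmin : ∀ M : Subgroup Q, M.Normal → M ≠ ⊥ → commutator Q ≤ M := by
    intro M hM hM0
    haveI := hM
    have hlt : K < M.comap π := by
      refine lt_of_le_of_ne (fun x hx => ?_) fun e => hM0 ?_
      · rw [Subgroup.mem_comap, QuotientGroup.mk'_apply, (QuotientGroup.eq_one_iff x).2 hx]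
        exact M.one_mem
      · rw [← Subgroup.map_comap_eq_self_of_surjective hπ M, ← e, QuotientGroup.map_mk'_self]
    rw [hcQ, Subgroup.map_le_iff_le_comap]
    exact hKmax _ inferInstance hlt
  have hcQ0 : commutator Q ≠ ⊥ := by
    rw [hcQ, Ne, Subgroup.map_eq_bot_iff, QuotientGroup.ker_mk']
    exact hK
  have habQ : ∀ a ∈ commutator Q, ∀ b ∈ commutator Q, a * b = b * a := by
    have h1 : ⁅commutator Q, commutator Q⁆ = ⊥ := by
      by_contra h0
      exact (Group.IsSolvable.commutator_lt_of_ne_bot hcQ0).not_ge (hmin _ inferInstance h0)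
    exact fun a ha b hb => commutatorElement_eq_one_iff_mul_comm.1
      ((Subgroup.eq_bot_iff_forall _).1 h1 _ (Subgroup.commutator_mem_commutator ha hb))
  have hnc : ¬ commutator Q ≤ Subgroup.center Q := fun hc => hnil (by
    rw [Subgroup.commutator_le]
    intro a ha g _
    rw [← QuotientGroup.eq_one_iff, ← QuotientGroup.mk'_apply, map_commutatorElement,
      commutatorElement_eq_one_iff_mul_comm]
    exact (Subgroup.mem_center_iff.1 (hc (hcQ ▸ Subgroup.mem_map_of_mem π ha)) _).symm)
  have hfix := fixedPointFree hmin habQ hnc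
  set N := commutator G ⊔ K with hNdef
  have hNmem : ∀ x : G, x ∈ N ↔ π x ∈ commutator Q := fun x => by
    rw [hcQ, hNdef, ← Subgroup.mem_comap, Subgroup.comap_map_eq, QuotientGroup.ker_mk']
  have hab : ∀ a ∈ N, ∀ b ∈ N, ⁅a, b⁆ ∈ K := fun a ha b hb => by
    rw [← QuotientGroup.eq_one_iff, ← QuotientGroup.mk'_apply, map_commutatorElement,
      commutatorElement_eq_one_iff_mul_comm]
    exact habQ _ ((hNmem a).1 ha) _ ((hNmem b).1 hb)
  have hNK : ¬ N ≤ K := fun h0 => hK (le_sup_left.trans h0)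
  have hfpf : ∀ x : G, x ∉ N → ∀ a ∈ N, ⁅x, a⁆ ∈ K → a ∈ K := fun x hx a ha hxa => by
    refine (QuotientGroup.eq_one_iff a).1 (hfix (π x) (fun hc => hx ((hNmem x).2 hc)) (π a)
      ((hNmem a).1 ha) ?_)
    rw [← commutatorElement_eq_one_iff_mul_comm, ← map_commutatorElement]
    exact (QuotientGroup.eq_one_iff _).2 hxa
  -- the index of `N` is one of the degrees
  obtain ⟨θ, hθ⟩ : ∃ θ : IrrCharacter Q, charDegree (θ : Q → ℂ) ≠ 1 := by
    by_contra hall
    push Not at hall
    refine hcQ0 (le_bot_iff.1 ?_)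
    rw [commutator_def, Subgroup.commutator_le]
    intro x _ y _
    rw [Subgroup.mem_bot, commutatorElement_eq_one_iff_mul_comm]
    exact Chars2.comm_of_degree_one hall x y
  have hdvd : charDegree (θ : Q → ℂ) ∣ N.index := by
    have h1 := Chars2.charDegree_dvd_index (A := commutator Q) habQ θ
    rwa [hcQ, Subgroup.index_map, QuotientGroup.ker_mk', MonoidHom.range_eq_top.2 hπ,
      Subgroup.index_top, mul_one] at h1
  have hN1 : N.index ≠ 1 := fun h1 => hθ (Nat.dvd_one.1 (h1 ▸ hdvd))
  have hNcd : N.index = m ∨ N.index = n := by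
    obtain ⟨χ, hχ⟩ : ∃ χ : IrrCharacter G, charDegree (χ : G → ℂ) = N.index := index_mem_degrees N K hab hNK le_sup_left hfpf
    rcases h.cd χ with e | e | e
    · exact absurd (hχ.symm.trans e) hN1
    · exact Or.inl (hχ.symm.trans e)
    · exact Or.inr (hχ.symm.trans e)
  rcases hNcd with e | e
  · exact derived_three_frobenius h N K le_sup_left hab hNK hfpf e
  · exact derived_three_frobenius h.symm N K le_sup_left hab hNK hfpf e

theorem derived_three_aux : ∀ (c : ℕ) (G : Type u) [Group G] [Finite G], Nat.card G = c →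
    ∀ T : Finset ℕ, T.card ≤ 3 → (∀ χ : IrrCharacter G, charDegree (χ : G → ℂ) ∈ T) →
      derivedSeries G 3 = ⊥ := by
  intro c
  induction c using Nat.strong_induction_on with
  | _ c ih =>
  intro G _ _ hc T hT hcdT
  classical
  haveI := Fintype.ofFinite G
  subst hc
  by_cases htwo : ∃ m, ∀ χ : IrrCharacter G,
      charDegree (χ : G → ℂ) = 1 ∨ charDegree (χ : G → ℂ) = m
  · obtain ⟨m, hm⟩ := htwo
    rw [← le_bot_iff, ← two_degrees hm]
    exact derivedSeries_antitone G (by omega)
  push Not at htwo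
  obtain ⟨χm, hm1, -⟩ := htwo 1
  obtain ⟨χn, hn1, hnm⟩ := htwo (charDegree (χm : G → ℂ))
  obtain ⟨m, hm⟩ : ∃ m, charDegree (χm : G → ℂ) = m := ⟨_, rfl⟩
  obtain ⟨n, hn⟩ : ∃ n, charDegree (χn : G → ℂ) = n := ⟨_, rfl⟩
  rw [hm] at hm1 hnm
  rw [hn] at hn1 hnm
  have hm2 : 1 < m := by
    have := (Blocks.charDegree_eq χm.2).2
    omega
  have hn2 : 1 < n := by
    have := (Blocks.charDegree_eq χn.2).2
    omega
  have hone : (1 : ℕ) ∈ T := by
    have := hcdT (Blocks.oneChar G)
    simpa [Blocks.coe_oneChar, charDegree] using this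
  have hTeq : ({1, m, n} : Finset ℕ) = T := by
    refine Finset.eq_of_subset_of_card_le ?_ (hT.trans (le_of_eq ?_))
    · intro x hx
      simp only [Finset.mem_insert, Finset.mem_singleton] at hx
      rcases hx with rfl | rfl | rfl
      · exact hone
      · exact hm ▸ hcdT χm
      · exact hn ▸ hcdT χn
    · symm
      refine Finset.card_eq_three.2 ⟨1, m, n, Ne.symm hm1, Ne.symm hn1, Ne.symm hnm, rfl⟩
  have hcd : ∀ χ : IrrCharacter G, charDegree (χ : G → ℂ) = 1 ∨ charDegree (χ : G → ℂ) = m ∨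
      charDegree (χ : G → ℂ) = n := fun χ => by
    have := hcdT χ
    rw [← hTeq] at this
    simpa using this
  by_cases hcop : m.Coprime n
  swap
  · obtain ⟨p, hp, hpm, hpn⟩ := Nat.Prime.not_coprime_iff_dvd.1 hcop
    exact derived_three_common hp hpm hpn hm2 hn2 ⟨χm, hm⟩ hcd
      fun H _ _ hH T' hT' h' => ih _ hH H rfl T' hT' h'
  have h : Setup G m n := ⟨hm2, hn2, hcop, hcd⟩
  haveI : Group.IsSolvable G := isSolvable_of_coprime h fun M hM hM0 => by
    have hlt : Nat.card (G ⧸ M) < Nat.card G := by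
      have h2 : 1 < Nat.card M := Subgroup.one_lt_card_iff_ne_bot M |>.2 hM0
      have h3 : 0 < Nat.card (G ⧸ M) := Nat.card_pos
      rw [Subgroup.card_eq_card_quotient_mul_card_subgroup M]
      nlinarith
    exact ⟨⟨3, ih _ hlt (G ⧸ M) rfl T hT fun θ => quotient_degree M hcdT θ⟩⟩
  exact derived_three_coprime h ⟨χm, hm⟩ ⟨χn, hn⟩

theorem derived_three {G : Type u} [Group G] [Finite G] (T : Finset ℕ) (hT : T.card ≤ 3)
    (hcd : ∀ χ : IrrCharacter G, charDegree (χ : G → ℂ) ∈ T) : derivedSeries G 3 = ⊥ :=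
  derived_three_aux _ G rfl T hT hcd

end Cfsg.Agent.Chars.ThreeDeg
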