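import Cfsg.Agent.Chars.SmallEigenBox
import Cfsg.Agent.Chars.Blichfeldt
import Cfsg.Agent.Chars.Linear
import Cfsg.Agent.Chars2.Clifford
import Cfsg.Agent.Chars2.GoingDown
import Cfsg.Agent.S0065
import Mathlib.Data.Nat.Multiplicity

/-!
Linear groups of degree below `2 p` with a nonabelian `p`-subgroup are monomial, for `p ≥ 7`:
a central element of the derived group of the `p`-subgroup has two eigenvalues in a short arc.
-/

set_option autoImplicit false
set_option linter.style.haveILetI false
set_option linter.unusedSectionVars false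

namespace Cfsg.Agent.Chars.TwoEigen

open scoped ComplexConjugate Matrix MatrixOrder ComplexOrder commutatorElement
open Cfsg

universe u

variable {G : Type u} [Group G] [Fintype G] {p : ℕ} [hp : Fact p.Prime]

/-- The root of unity used. -/
noncomputable def omega (p : ℕ) : ℂ := Complex.exp (2 * Real.pi * Complex.I / p)

/-- Unitary matrices with the character of a representation. -/
theorem exists_unitary_trace {n : ℕ} (ρ : Representation ℂ G (Fin n → ℂ)) :
    ∃ U : G →* Matrix (Fin n) (Fin n) ℂ, IsUnitaryHom U ∧ ∀ g, (U g).trace = ρ.character g := by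
  classical
  let A : G → Matrix (Fin n) (Fin n) ℂ := fun x => LinearMap.toMatrix' (ρ x)
  have hmul : ∀ x y, A (x * y) = A x * A y := fun x y => by
    simp [A, map_mul, LinearMap.toMatrix'_comp, Module.End.mul_eq_comp]
  have hone : A 1 = 1 := by simp [A, Module.End.one_eq_id]
  let M : Matrix (Fin n) (Fin n) ℂ := ∑ x, (A x)ᴴ * A x
  have hMsd : M.PosSemidef :=
    Matrix.posSemidef_sum _ fun x _ => Matrix.posSemidef_conjTranspose_mul_self _
  have hM : IsUnit M := by
    have hs : M = (A 1)ᴴ * A 1 + ∑ x ∈ Finset.univ.erase 1, (A x)ᴴ * A x :=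
      (Finset.add_sum_erase _ _ (Finset.mem_univ _)).symm
    rw [hs, hone, Matrix.conjTranspose_one, mul_one]
    exact (Matrix.PosDef.one.add_posSemidef
      (Matrix.posSemidef_sum _ fun x _ => Matrix.posSemidef_conjTranspose_mul_self _)).isUnit
  obtain ⟨B, hB⟩ := CStarAlgebra.nonneg_iff_eq_star_mul_self.mp hMsd.nonneg
  rw [Matrix.star_eq_conjTranspose] at hB
  have hd : IsUnit B.det := by
    have h1 := (Matrix.isUnit_iff_isUnit_det M).1 hM
    rw [hB, Matrix.det_mul] at h1
    exact isUnit_of_mul_isUnit_right h1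
  have hBi : B⁻¹ * B = 1 := Matrix.nonsing_inv_mul _ hd
  have hBi' : B * B⁻¹ = 1 := Matrix.mul_nonsing_inv _ hd
  let U : G →* Matrix (Fin n) (Fin n) ℂ :=
    { toFun := fun g => B * A g * B⁻¹
      map_one' := by rw [hone, mul_one, hBi']
      map_mul' := fun x y => by
        show B * A (x * y) * B⁻¹ = B * A x * B⁻¹ * (B * A y * B⁻¹)
        simp only [mul_assoc]
        rw [← mul_assoc B⁻¹ B, hBi, one_mul, ← mul_assoc (A x), hmul] }
  have hinv : ∀ g, (A g)ᴴ * M * A g = M := fun g => by
    rw [Finset.mul_sum, Finset.sum_mul]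
    refine Fintype.sum_equiv (Equiv.mulRight g) _ _ fun x => ?_
    simp [hmul, Matrix.conjTranspose_mul, mul_assoc]
  refine ⟨U, fun g => ?_, fun g => ?_⟩
  · have h1 : (U g)ᴴ * U g = 1 := by
      show (B * A g * B⁻¹)ᴴ * (B * A g * B⁻¹) = 1
      calc (B * A g * B⁻¹)ᴴ * (B * A g * B⁻¹)
          = (B⁻¹)ᴴ * ((A g)ᴴ * (Bᴴ * B) * A g) * B⁻¹ := by
            simp only [Matrix.conjTranspose_mul, mul_assoc]
        _ = (B⁻¹)ᴴ * (Bᴴ * B) * B⁻¹ := by rw [← hB, hinv]
        _ = (B * B⁻¹)ᴴ * (B * B⁻¹) := by simp only [Matrix.conjTranspose_mul, mul_assoc]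
        _ = 1 := by rw [hBi', Matrix.conjTranspose_one, one_mul]
    exact ⟨h1, mul_eq_one_comm.1 h1⟩
  · show (B * A g * B⁻¹).trace = _
    rw [Matrix.trace_mul_cycle, hBi, one_mul, Representation.character,
      LinearMap.trace_eq_matrix_trace ℂ (Pi.basisFun ℂ (Fin n)), LinearMap.toMatrix_eq_toMatrix']

/-- Two eigenvalues `1` and `exp (2 π i / p)`, `p ≥ 7`, lie in a short arc. -/
theorem small_two {n : ℕ} {X : Matrix (Fin n) (Fin n) ℂ} (hX : Xᴴ * X = 1) (h7 : 7 ≤ p)
    (hrel : ∀ v, X *ᵥ (X *ᵥ v) = (1 + omega p) • (X *ᵥ v) - omega p • v) : Small X := by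
  set η : ℂ := Complex.exp ((Real.pi / p : ℝ) * Complex.I) with hη
  have hω : omega p = η * η := by
    rw [omega, hη, ← Complex.exp_add]; congr 1; push_cast; ring
  have hp0 : (0 : ℝ) < p := by exact_mod_cast hp.out.pos
  have hn1 : ‖η‖ = 1 := Complex.norm_exp_ofReal_mul_I _
  have hre : η.re = Real.cos (Real.pi / p) := Complex.exp_ofReal_mul_I_re _
  have hcos : arcConst < η.re := by
    rw [hre, show arcConst = Real.cos (Real.pi / 6) by rw [Real.cos_pi_div_six]; rfl]
    have h7' : (7 : ℝ) ≤ p := by exact_mod_cast h7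
    refine Real.cos_lt_cos_of_nonneg_of_le_pi (by positivity) (by linarith [Real.pi_pos]) ?_
    exact div_lt_div_of_pos_left Real.pi_pos (by norm_num) (by linarith)
  have hω1 : omega p - 1 ≠ 0 :=
    sub_ne_zero.2 ((Complex.isPrimitiveRoot_exp p hp.out.ne_zero).ne_one hp.out.one_lt)
  refine ⟨conj η, by rw [Complex.norm_conj, hn1], fun v hv => ?_⟩
  set b := (omega p - 1)⁻¹ • (X *ᵥ v - v) with hb
  set a := v - b with ha
  have hXb : X *ᵥ b = omega p • b := by
    rw [hb, Matrix.mulVec_smul, Matrix.mulVec_sub, hrel, smul_comm]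
    congr 1
    module
  have hXv : X *ᵥ v = (omega p - 1) • b + v := by
    rw [hb, smul_smul, mul_inv_cancel₀ hω1, one_smul]; abel
  have hXa : X *ᵥ a = a := by
    rw [ha, Matrix.mulVec_sub, hXb, hXv]; module
  have horth : star a ⬝ᵥ b = 0 := by
    have h1 : star (X *ᵥ a) ⬝ᵥ (X *ᵥ b) = star a ⬝ᵥ b := by
      rw [Matrix.star_mulVec, ← Matrix.dotProduct_mulVec, Matrix.mulVec_mulVec, hX,
        Matrix.one_mulVec]
    rw [hXa, hXb, dotProduct_smul, smul_eq_mul] at h1
    have h2 : (omega p - 1) * (star a ⬝ᵥ b) = 0 := by rw [sub_mul, h1]; ring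
    exact (mul_eq_zero.1 h2).resolve_left hω1
  have horth' : star b ⬝ᵥ a = 0 := by
    have h1 := congrArg star horth
    rwa [star_zero, ← Matrix.star_dotProduct] at h1
  have hv' : v = a + b := by rw [ha]; abel
  have hn : nsq v = nsq a + nsq b := by
    rw [nsq_eq_rdot, nsq_eq_rdot, nsq_eq_rdot]
    simp only [rdot, hv', star_add, add_dotProduct, dotProduct_add, horth, horth', add_zero,
      zero_add, Complex.add_re]
  have hr : rdot v (conj η • X *ᵥ v) = η.re * nsq v := by
    have e1 : conj η • X *ᵥ v = conj η • a + η • b := by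
      conv_lhs => rw [hv', Matrix.mulVec_add, hXa, hXb]
      rw [smul_add, smul_smul, hω, ← mul_assoc, ← Complex.normSq_eq_conj_mul_self,
        Complex.normSq_eq_norm_sq, hn1]
      simp
    rw [e1, hn]
    simp only [rdot, hv', star_add, add_dotProduct, dotProduct_add, dotProduct_smul, smul_eq_mul,
      horth, horth', mul_zero, add_zero, zero_add, star_dot_self]
    simp [Complex.mul_re]
    ring
  rw [hr]
  exact mul_lt_mul_of_pos_right hcos (nsq_pos hv)

/-- The values of a character of degree below `2 p` at a central element of the derived group of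
a nonabelian `p`-subgroup. -/
theorem exists_element {χ : G → ℂ} (hχ : IsCharacter G χ) (hf : ∀ g : G, χ g = χ 1 → g = 1)
    {n : ℕ} (hn : χ 1 = n) (hn2 : n < 2 * p) (P : Subgroup G) (hP : IsPGroup p P)
    {x y : G} (hx : x ∈ P) (hy : y ∈ P) (hxy : x * y ≠ y * x) :
    p ≤ n ∧ ∃ z : G, ∀ i : ℕ, χ (z ^ i) = ((n - p : ℕ) : ℂ) + p * omega p ^ i := by
  classical
  haveI : Fintype P := Fintype.ofFinite P
  obtain ⟨c, hc, hcs⟩ := exists_eq_sum_nsmul (isCharacter_restrict hχ P)
  obtain ⟨s, hs⟩ := IsPGroup.iff_card.1 hP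
  choose d hd0 hd using fun η : IrrCharacter P => exists_irr_apply_one_eq η.2
  have hsum : n = ∑ η, c η * d η := by
    have h1 := congrFun hcs 1
    simp only [Finset.sum_apply, Pi.smul_apply] at h1
    simp only [Subgroup.coe_one, hn, hd, nsmul_eq_mul] at h1
    exact_mod_cast h1
  have hle : ∀ η, c η * d η ≤ n := fun η => hsum ▸
    Finset.single_le_sum (f := fun η => c η * d η) (fun _ _ => Nat.zero_le _) (Finset.mem_univ η)
  have hdeg : ∀ η, c η ≠ 0 → d η = 1 ∨ d η = p := by
    intro η hη
    obtain ⟨e, -, he, hed⟩ := irr_degree_dvd_card η.2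
    obtain rfl : d η = e := by exact_mod_cast (hd η).symm.trans he
    obtain ⟨j, -, hj⟩ := (Nat.dvd_prime_pow hp.out).1 (hs ▸ hed)
    rcases j with _ | _ | j
    · exact Or.inl (by simpa using hj)
    · exact Or.inr (by simpa using hj)
    · exfalso
      have h1 : p * p ≤ d η := by
        rw [hj, show j + 1 + 1 = 2 + j by omega, pow_add, sq]
        exact Nat.le_mul_of_pos_right _ (pow_pos hp.out.pos j)
      have h2 : d η ≤ n := (Nat.le_mul_of_pos_left _ (Nat.pos_of_ne_zero hη)).trans (hle η)
      have h3 : 2 * p ≤ p * p := Nat.mul_le_mul_right p hp.out.two_le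
      omega
  let X : P := ⟨x, hx⟩
  let Y : P := ⟨y, hy⟩
  have hlinval : ∀ η : IrrCharacter P, d η = 1 → ∀ w ∈ commutator P, (η : P → ℂ) w = 1 := by
    intro η h1 w hw
    obtain ⟨l, hl⟩ := exists_hom_of_degree_one (irr_isCharacter η) (by rw [hd, h1, Nat.cast_one])
    rw [hl]; dsimp only
    rw [show l w = 1 from Abelianization.commutator_subset_ker l hw, Units.val_one]
  obtain ⟨η₀, hη₀, hd₀⟩ : ∃ η, c η ≠ 0 ∧ d η = p := by
    by_contra hno
    push Not at hno
    refine hxy ?_
    have hw : ⁅X, Y⁆ ∈ commutator P :=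
      Subgroup.commutator_mem_commutator (Subgroup.mem_top X) (Subgroup.mem_top Y)
    have h1 := hf ((⁅X, Y⁆ : P) : G) (by
      have e1 := congrFun hcs ⁅X, Y⁆
      have e2 := congrFun hcs 1
      simp only [Finset.sum_apply, Pi.smul_apply, Subgroup.coe_one] at e1 e2
      rw [e1, e2]
      refine Finset.sum_congr rfl fun η _ => ?_
      by_cases hη : c η = 0
      · simp [hη]
      · have h1 : d η = 1 := (hdeg η hη).resolve_right (hno η hη)
        rw [hlinval η h1 _ hw, hd, h1, Nat.cast_one])
    have h2 : ⁅X, Y⁆ = 1 := Subtype.ext h1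
    exact congrArg Subtype.val (commutatorElement_eq_one_iff_mul_comm.1 h2)
  have hc1 : c η₀ = 1 := by
    by_contra hne
    have h1 := hle η₀
    rw [hd₀] at h1
    have h2 : 2 * p ≤ c η₀ * p := Nat.mul_le_mul_right p (by omega)
    omega
  have hpn : p ≤ n := by simpa [hc1, hd₀] using hle η₀
  have hsplit : n = p + ∑ η ∈ Finset.univ.erase η₀, c η * d η := by
    rw [hsum, ← Finset.add_sum_erase _ _ (Finset.mem_univ η₀), hc1, hd₀, one_mul]
  have hother : ∀ η ∈ Finset.univ.erase η₀, c η ≠ 0 → d η = 1 := by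
    intro η hη hne
    refine (hdeg η hne).resolve_right fun h => ?_
    have h1 : c η * d η ≤ ∑ η ∈ Finset.univ.erase η₀, c η * d η :=
      Finset.single_le_sum (f := fun η => c η * d η) (fun _ _ => Nat.zero_le _) hη
    rw [h] at h1
    have h2 : p ≤ c η * p := Nat.le_mul_of_pos_left _ (Nat.pos_of_ne_zero hne)
    omega
  have hval : ∀ w ∈ commutator P,
      χ ((w : P) : G) = (η₀ : P → ℂ) w + ((n - p : ℕ) : ℂ) := by
    intro w hw
    have e1 := congrFun hcs w
    simp only [Finset.sum_apply, Pi.smul_apply] at e1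
    rw [e1, ← Finset.add_sum_erase _ _ (Finset.mem_univ η₀), hc1, one_nsmul,
      show n - p = ∑ η ∈ Finset.univ.erase η₀, c η * d η by omega, Nat.cast_sum]
    congr 1
    refine Finset.sum_congr rfl fun η hη => ?_
    by_cases hne : c η = 0
    · simp [hne]
    · rw [hlinval η (hother η hη hne) w hw, hother η hη hne, mul_one, nsmul_eq_mul, mul_one]
  haveI : Group.IsNilpotent P := hP.isNilpotent
  haveI : (commutator P).Normal := inferInstance
  have hne : commutator P ≠ ⊥ := by
    intro h
    refine hxy (congrArg Subtype.val ((commutatorElement_eq_one_iff_mul_comm (g₁ := X) (g₂ := Y)).1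
      (Subgroup.mem_bot.1 (h ▸ Subgroup.commutator_mem_commutator (Subgroup.mem_top X)
        (Subgroup.mem_top Y)))))
  have hmeet := S0065.result (commutator P) hne
  obtain ⟨z, hzW, hz1⟩ : ∃ z ∈ commutator P ⊓ Subgroup.center P, orderOf z = p := by
    have hd : p ∣ Nat.card ↥(commutator P ⊓ Subgroup.center P) := by
      obtain ⟨j, hj⟩ := IsPGroup.iff_card.1 (hP.to_subgroup (commutator P ⊓ Subgroup.center P))
      rw [hj]
      refine dvd_pow_self p fun h0 => hmeet (Subgroup.card_eq_one.1 ?_)
      rw [hj, h0, pow_zero]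
    obtain ⟨z, hz⟩ := exists_prime_orderOf_dvd_card' p hd
    exact ⟨z, z.2, by rw [← hz, Subgroup.orderOf_coe]⟩
  obtain ⟨m, ρ, hirr, hρ⟩ := η₀.2
  haveI := hirr
  have hm : m = p := by
    have h1 := congrFun hρ 1
    rw [Representation.char_one, Module.finrank_fin_fun, hd, hd₀] at h1
    exact_mod_cast h1
  obtain ⟨r, hr⟩ := scalar_of_commute ρ (ρ z) fun w => by
    rw [← map_mul, ← map_mul, Subgroup.mem_center_iff.1 hzW.2 w]
  have hrk : ∀ k : ℕ, (η₀ : P → ℂ) (z ^ k) = (p : ℂ) * r ^ k := by
    intro k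
    rw [← hρ, Representation.character, map_pow, hr, smul_pow, one_pow, map_smul,
      LinearMap.trace_one, Module.finrank_fin_fun, hm, smul_eq_mul, mul_comm]
  have hrp : r ^ p = 1 := by
    have h1 := hrk p
    rw [← hz1, pow_orderOf_eq_one, hd, hd₀, hz1] at h1
    have hp0 : (p : ℂ) ≠ 0 := by exact_mod_cast hp.out.ne_zero
    exact mul_left_cancel₀ hp0 (h1.symm.trans (mul_one _).symm)
  have hr1 : r ≠ 1 := by
    intro h
    have h1 : χ ((z : P) : G) = χ 1 := by
      rw [hval z hzW.1, hn]
      have h2 := hrk 1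
      rw [pow_one, pow_one, h, mul_one] at h2
      rw [h2, ← Nat.cast_add, Nat.add_sub_cancel' hpn]
    have h2 : z = 1 := Subtype.ext (hf _ h1)
    rw [h2, orderOf_one] at hz1
    exact hp.out.one_lt.ne hz1
  haveI : NeZero p := ⟨hp.out.ne_zero⟩
  have hprim : IsPrimitiveRoot r p :=
    IsPrimitiveRoot.iff_orderOf.2 (orderOf_eq_prime hrp hr1)
  obtain ⟨l, -, hl⟩ := hprim.eq_pow_of_pow_eq_one
    (Complex.isPrimitiveRoot_exp p hp.out.ne_zero).pow_eq_one
  refine ⟨hpn, ((z : P) : G) ^ l, fun i => ?_⟩
  rw [← pow_mul, ← Subgroup.coe_pow, hval _ (pow_mem hzW.1 _), hrk, pow_mul]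
  rw [show r ^ l = omega p from hl]
  ring

/-- A group of matrices of degree below `2 p` containing such an element is monomial. -/
theorem exists_abelian_normal {χ : G → ℂ} (hχ : IsIrrCharacter G χ)
    (hf : ∀ g : G, χ g = χ 1 → g = 1) {n : ℕ} (hn : χ 1 = n) (h7 : 7 ≤ p) (hpn : p ≤ n)
    (hn2 : n < 2 * p) (hnp : n ≠ p) {z : G}
    (hz : ∀ i : ℕ, χ (z ^ i) = ((n - p : ℕ) : ℂ) + p * omega p ^ i) :
    ∃ C : Subgroup G, C.Normal ∧ (∀ a ∈ C, ∀ b ∈ C, a * b = b * a) ∧ ¬ p ^ 2 ∣ C.index := by
  classical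
  obtain ⟨n', ρ, hirr, hρ⟩ := id hχ
  obtain rfl : n' = n := by
    have h1 := congrFun hρ 1
    rw [Representation.char_one, Module.finrank_fin_fun, hn] at h1
    exact_mod_cast h1
  obtain ⟨U, hU, hUt⟩ := exists_unitary_trace ρ
  have hUc : ∀ g, (U g).trace = χ g := fun g => (hUt g).trans (congrFun hρ g)
  have hinj : Function.Injective U := by
    intro a b hab
    have h1 : U (a * b⁻¹) = 1 := by rw [map_mul, hab, ← map_mul, mul_inv_cancel, map_one]
    have h2 := hf (a * b⁻¹) (by rw [← hUc, ← hUc, h1, map_one])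
    exact mul_inv_eq_one.1 h2
  have hMc : ∀ g, (matRep U).character g = χ g := fun g => by
    rw [← hUc, Representation.character]
    exact Matrix.trace_toLin'_eq (U g)
  have hω : IsPrimitiveRoot (omega p) p := Complex.isPrimitiveRoot_exp p hp.out.ne_zero
  have hω1 : omega p ≠ 1 := hω.ne_one hp.out.one_lt
  have hzp : z ^ p = 1 := hf _ (by
    rw [hz, hω.pow_eq_one, mul_one, hn, ← Nat.cast_add, Nat.sub_add_cancel hpn])
  -- the eigenvalues of `z`
  obtain ⟨b, w, hb, hw⟩ := exists_eigenbasis (matRep U) z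
  have hwp : ∀ i, w i ^ p = 1 := fun i => by
    obtain ⟨t, ht⟩ := orderOf_dvd_of_pow_eq_one hzp
    rw [ht, pow_mul, hw, one_pow]
  have hbk : ∀ (k : ℕ) i, matRep U (z ^ k) (b i) = w i ^ k • b i := by
    intro k i
    induction k with
    | zero => simp
    | succ k ih => rw [pow_succ', map_mul, Module.End.mul_apply, ih, map_smul, hb, smul_smul, ← pow_succ]
  have hsum : ∀ k : ℕ, ∑ i, w i ^ k = ((n' - p : ℕ) : ℂ) + p * omega p ^ k := fun k => by
    rw [← hz, ← hMc, Representation.character, LinearMap.trace_eq_matrix_trace ℂ b]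
    simp only [Matrix.trace, Matrix.diag, LinearMap.toMatrix_apply, hbk]
    simp
  let w' : Fin (Module.finrank ℂ (Fin n' → ℂ)) → ℂ := fun i => if i.1 < p then omega p else 1
  have hfr : Module.finrank ℂ (Fin n' → ℂ) = n' := Module.finrank_fin_fun ℂ
  have hw'sum : ∀ k : ℕ, ∑ i, w' i ^ k = ((n' - p : ℕ) : ℂ) + p * omega p ^ k := fun k => by
    simp only [w']
    rw [show (∑ i : Fin (Module.finrank ℂ (Fin n' → ℂ)),
        (if (i : ℕ) < p then omega p else 1) ^ k) =
      ∑ i ∈ Finset.range (Module.finrank ℂ (Fin n' → ℂ)),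
        (if i < p then omega p else 1) ^ k from
      Fin.sum_univ_eq_sum_range (fun i => (if i < p then omega p else 1) ^ k) _, hfr,
      ← Finset.sum_range_add_sum_Ico _ hpn]
    rw [Finset.sum_congr rfl fun i hi => by rw [if_pos (Finset.mem_range.1 hi)],
      Finset.sum_congr rfl (s₁ := Finset.Ico p n') fun i hi => by
        rw [if_neg (not_lt.2 (Finset.mem_Ico.1 hi).1), one_pow]]
    simp [add_comm]
  have hw'p : ∀ i, w' i ^ p = 1 := fun i => by
    simp only [w']; split_ifs
    · exact hω.pow_eq_one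
    · exact one_pow p
  have hcount := count_eq_of_power_sums hp.out.ne_zero w w' hwp hw'p
    fun k => (hsum k).trans (hw'sum k).symm
  have htwo : ∀ i, w i = 1 ∨ w i = omega p := by
    intro i
    by_contra hc
    push Not at hc
    have h1 := hcount (w i) (hwp i)
    have h2 : (Finset.univ.filter fun j => w' j = w i).card = 0 := by
      refine Finset.card_eq_zero.2 (Finset.filter_eq_empty_iff.2 fun j _ hj => ?_)
      simp only [w'] at hj
      split_ifs at hj
      · exact hc.2 hj.symm
      · exact hc.1 hj.symm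
    rw [h2, Finset.card_eq_zero] at h1
    exact Finset.notMem_empty i (h1 ▸ Finset.mem_filter.2 ⟨Finset.mem_univ i, rfl⟩)
  have hrelz : (matRep U z).comp (matRep U z) =
      (1 + omega p) • matRep U z - omega p • LinearMap.id := b.ext fun i => by
    simp only [LinearMap.comp_apply, LinearMap.sub_apply, LinearMap.smul_apply, LinearMap.id_apply,
      hb, map_smul, smul_smul, ← sub_smul]
    congr 1
    rcases htwo i with h | h <;> rw [h] <;> ring
  have hsmall : Small (U z) := by
    refine small_two (hU z).1 h7 fun v => ?_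
    simpa only [LinearMap.comp_apply, LinearMap.sub_apply, LinearMap.smul_apply,
      LinearMap.id_apply, matRep_apply] using LinearMap.congr_fun hrelz v
  -- the normal abelian subgroup generated by the small elements
  let S : Set G := {g | Small (U g)}
  set A := Subgroup.closure S
  haveI hAn : A.Normal := by
    constructor
    intro a ha g
    have : A ≤ A.comap (MulAut.conj g).toMonoidHom := by
      rw [Subgroup.closure_le]
      intro s hs
      refine Subgroup.subset_closure ?_
      show Small (U (g * s * g⁻¹))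
      rw [map_mul, map_mul, ← conjTranspose_hom hU]
      exact small_conj (hU g).2 hs
    exact this ha
  have hAc : ∀ a a' : A, a * a' = a' * a := by
    have hcomm : ∀ a ∈ S, ∀ b ∈ S, a * b = b * a := fun a ha b hb => hinj (by
      rw [map_mul, map_mul]; exact (small_commute hU ha hb).eq)
    haveI := Subgroup.isMulCommutative_closure hcomm
    exact fun a a' => mul_comm' a a'
  have hzA : z ∈ A := Subgroup.subset_closure hsmall
  haveI : Fintype A := Fintype.ofFinite A
  -- a basis of common eigenvectors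
  obtain ⟨t, hts, htspan, hli⟩ := exists_linearIndependent ℂ
    {v : Fin n' → ℂ | v ≠ 0 ∧ ∀ a : A, ∃ c : ℂ, matRep (U.comp A.subtype) a v = c • v}
  rw [span_common_eigen hAc (matRep (U.comp A.subtype))] at htspan
  haveI : Finite t := hli.finite
  haveI := Fintype.ofFinite t
  let e : Module.Basis t ℂ (Fin n' → ℂ) := Module.Basis.mk hli (by simp [htspan])
  have he : ∀ v : t, e v = (v : Fin n' → ℂ) := fun v => by simp [e]
  choose c hc using fun (v : t) (a : A) => (hts v.2).2 a
  have hcU : ∀ (v : t) (a : A), U (a : G) *ᵥ e v = c v a • e v := fun v a => by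
    have := hc v a
    rw [matRep_apply] at this
    rw [he]
    exact this
  have hcmul : ∀ (v : t) (a a' : A), c v (a * a') = c v a * c v a' := fun v a a' => by
    refine smul_left_injective ℂ (e.ne_zero v) ?_
    show c v (a * a') • e v = (c v a * c v a') • e v
    rw [← hcU, Subgroup.coe_mul, map_mul, ← Matrix.mulVec_mulVec, hcU, Matrix.mulVec_smul, hcU,
      smul_smul, mul_comm]
  have hcone : ∀ v : t, c v 1 = 1 := fun v => by
    refine smul_left_injective ℂ (e.ne_zero v) ?_
    show c v 1 • e v = (1 : ℂ) • e v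
    rw [← hcU, Subgroup.coe_one, map_one, Matrix.one_mulVec, one_smul]
  let lam : t → (A →* ℂˣ) := fun v => MonoidHom.toHomUnits
    { toFun := c v, map_one' := hcone v, map_mul' := hcmul v }
  have hlam : ∀ (v : t) (a : A), ((lam v a : ℂˣ) : ℂ) = c v a := fun v a => rfl
  let θ : t → IrrCharacter A := fun v =>
    ⟨fun a => (lam v a : ℂ), isIrrCharacter_hom (lam v)⟩
  have htr : ∀ a : A, χ (a : G) = ∑ v : t, c v a := fun a => by
    rw [← hMc, Representation.character, LinearMap.trace_eq_matrix_trace ℂ e]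
    simp only [Matrix.trace, Matrix.diag, LinearMap.toMatrix_apply, matRep_apply, hcU]
    simp
  have hmult : ∀ v : t, classInner (fun a : A => χ a) (θ v : A → ℂ) =
      ((Finset.univ.filter fun u => θ u = θ v).card : ℂ) := fun v => by
    rw [show (fun a : A => χ a) = ∑ u : t, (θ u : A → ℂ) from funext fun a => by
      rw [htr, Finset.sum_apply]; rfl, classInner_sum_left]
    simp only [classInner_irrCharacter, Finset.sum_boole]
  have hcon : ∀ v : t, classInner (fun a : A => χ a) (θ v : A → ℂ) ≠ 0 := fun v => by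
    rw [hmult, Nat.cast_ne_zero]
    exact Finset.card_ne_zero.2 ⟨v, Finset.mem_filter.2 ⟨Finset.mem_univ v, rfl⟩⟩
  have hcard : Fintype.card t = n' := by
    rw [← Module.finrank_eq_card_basis e, hfr]
  obtain ⟨v₀⟩ : Nonempty t := Fintype.card_pos_iff.1 (by
    rw [hcard]; exact lt_of_lt_of_le hp.out.pos hpn)
  have hθ1 : (θ v₀ : A → ℂ) 1 = ((1 : ℕ) : ℂ) := by
    show c v₀ 1 = _
    rw [hcone, Nat.cast_one]
  obtain ⟨m, hm⟩ := exists_classInner_eq_nat (isCharacter_restrict (isCharacter_of_isIrr hχ) A)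
    (irr_isCharacter (θ v₀))
  have hdeg : n' = (Chars2.inertiaSub (θ v₀ : A → ℂ)).index * m * 1 := by
    have h := Chars2.clifford_degree hχ (θ v₀).2 (hcon v₀)
    rw [hn, hm, hθ1] at h
    exact_mod_cast h
  have hfib : ∀ v : t, (Finset.univ.filter fun u => θ u = θ v).card = m := fun v => by
    have h1 : classInner (fun a : A => χ a) (θ v : A → ℂ) = m := by
      obtain ⟨g, hg⟩ := Chars2.clifford_constituent hχ (θ v₀).2 (hcon v₀) (θ v).2 (hcon v)
      rw [hg, Chars2.classInner_restrict_conjFun
        (isClassFunction_of_isCharacter (isCharacter_of_isIrr hχ)), hm]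
    rw [hmult] at h1
    exact_mod_cast h1
  have hmp : m ∣ p := by
    set Sω : Finset t := Finset.univ.filter fun v => c v ⟨z, hzA⟩ = omega p
    have hS : Sω.card = p := by
      have hcz : ∀ k : ℕ, ∑ v, c v ⟨z, hzA⟩ ^ k = ((n' - p : ℕ) : ℂ) + p * omega p ^ k := by
        intro k
        rw [← hz, show z ^ k = ((⟨z, hzA⟩ ^ k : A) : G) from rfl, htr]
        refine Finset.sum_congr rfl fun v _ => ?_
        induction k with
        | zero => rw [pow_zero, pow_zero, hcone]
        | succ k ih => rw [pow_succ, pow_succ, hcmul, ih]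
      let σ : t ≃ Fin (Module.finrank ℂ (Fin n' → ℂ)) :=
        (Fintype.equivFin t).trans (finCongr (hcard.trans hfr.symm))
      have h1 := count_eq_of_power_sums hp.out.ne_zero (fun v => c v ⟨z, hzA⟩) (fun v => w' (σ v))
        (fun v => by
          rw [show c v ⟨z, hzA⟩ ^ p = c v (⟨z, hzA⟩ ^ p) from
            (map_pow ({ toFun := c v, map_one' := hcone v, map_mul' := hcmul v } : A →* ℂ) _ _).symm,
            show (⟨z, hzA⟩ : A) ^ p = 1 from Subtype.ext hzp, hcone])
        (fun v => hw'p _)
        (fun k => by rw [hcz, Equiv.sum_comp σ (fun i => w' i ^ k), hw'sum])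
        (omega p) hω.pow_eq_one
      refine h1.trans ?_
      rw [Finset.card_equiv σ (t := Finset.univ.filter fun i => w' i = omega p) (by simp)]
      have : (Finset.univ.filter fun i => w' i = omega p) =
          Finset.univ.filter fun i : Fin (Module.finrank ℂ (Fin n' → ℂ)) => i.1 < p := by
        refine Finset.filter_congr fun i _ => ?_
        simp only [w']
        split_ifs with h
        · simp [h]
        · simp [h, hω1.symm]
      rw [this, Fin.card_filter_val_lt]
      rw [hfr]
      exact min_eq_right hpn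
    rw [← hS, Finset.card_eq_sum_card_image θ Sω]
    refine Finset.dvd_sum fun φ hφ => ?_
    obtain ⟨v, hv, rfl⟩ := Finset.mem_image.1 hφ
    have : (Sω.filter fun u => θ u = θ v) = Finset.univ.filter fun u => θ u = θ v := by
      ext u
      simp only [Finset.mem_filter, Finset.mem_univ, true_and, and_iff_right_iff_imp, Sω]
      intro h
      have h2 := congrFun (congrArg Subtype.val h) ⟨z, hzA⟩
      exact h2.trans (Finset.mem_filter.1 hv).2
    rw [this, hfib]
  have hm1 : m = 1 := by
    rcases (Nat.dvd_prime hp.out).1 hmp with h | h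
    · exact h
    · exfalso
      obtain ⟨k, hk⟩ : p ∣ n' := by rw [hdeg, h, mul_one]; exact dvd_mul_left p _
      rcases k with _ | _ | k
      · omega
      · omega
      · have : 2 * p ≤ p * (k + 1 + 1) := by rw [mul_comm 2]; exact Nat.mul_le_mul_left p (by omega)
        omega
  have hθinj : Function.Injective θ := fun u v huv => by
    have h1 := hfib v
    rw [hm1, Finset.card_eq_one] at h1
    obtain ⟨a, ha⟩ := h1
    have hu : u ∈ ({a} : Finset t) := ha ▸ Finset.mem_filter.2 ⟨Finset.mem_univ u, huv⟩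
    have hv : v ∈ ({a} : Finset t) := ha ▸ Finset.mem_filter.2 ⟨Finset.mem_univ v, rfl⟩
    exact (Finset.mem_singleton.1 hu).trans (Finset.mem_singleton.1 hv).symm
  set T := Chars2.inertiaSub (θ v₀ : A → ℂ)
  have hTi : T.index = n' := by rw [hdeg, hm1, mul_one, mul_one]
  set C := Subgroup.centralizer (A : Set G)
  haveI : C.Normal := inferInstance
  -- the core of the inertia group centralizes `A`
  have hcore : T.normalCore ≤ C := by
    intro g hg
    have hfix : ∀ v : t, Chars2.conjFun (θ v : A → ℂ) g = (θ v : A → ℂ) := by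
      intro v
      obtain ⟨h, hh⟩ := Chars2.clifford_constituent hχ (θ v₀).2 (hcon v₀) (θ v).2 (hcon v)
      rw [hh, ← Chars2.conjFun_mul, show g * h = h * (h⁻¹ * g * h) by group, Chars2.conjFun_mul,
        Chars2.mem_inertiaSub.1 (T.normalCore_le (by
          simpa using (Subgroup.normalCore_normal T).conj_mem g hg h⁻¹))]
    rw [Subgroup.mem_centralizer_iff]
    intro a ha
    have hmem : g⁻¹ * a * g⁻¹⁻¹ ∈ A := hAn.conj_mem a ha g⁻¹
    have h1 : U (g⁻¹ * a * g⁻¹⁻¹) = U a := by
      refine Matrix.toLin'.injective (e.ext fun v => ?_)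
      rw [Matrix.toLin'_apply, Matrix.toLin'_apply, hcU v ⟨_, hmem⟩, hcU v ⟨a, ha⟩]
      congr 1
      have h2 := congrFun (hfix v) ⟨a, ha⟩
      rw [Chars2.conjFun_apply] at h2
      exact h2
    have h2 := hinj h1
    rw [inv_inv] at h2
    calc a * g = g * (g⁻¹ * a * g) := by group
      _ = g * a := by rw [h2]
  refine ⟨C, inferInstance, ?_, ?_⟩
  · -- elements centralizing `A` act diagonally
    have hdiag : ∀ g ∈ C, ∀ v : t, ∃ s : ℂ, U g *ᵥ e v = s • e v := by
      intro g hg v
      refine ⟨e.repr (U g *ᵥ e v) v, ?_⟩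
      have hz0 : ∀ u, u ≠ v → e.repr (U g *ᵥ e v) u = 0 := by
        intro u hu
        obtain ⟨a, ha⟩ : ∃ a : A, c u a ≠ c v a := by
          by_contra hall
          push Not at hall
          exact hu (hθinj (Subtype.ext (funext hall)))
        have hcomm : U (a : G) *ᵥ (U g *ᵥ e v) = c v a • (U g *ᵥ e v) := by
          rw [Matrix.mulVec_mulVec, ← map_mul, Subgroup.mem_centralizer_iff.1 hg a a.2, map_mul,
            ← Matrix.mulVec_mulVec, hcU, Matrix.mulVec_smul]
        have h1 := congrArg (fun y => e.repr y u) hcomm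
        simp only [map_smul, Finsupp.smul_apply, smul_eq_mul] at h1
        have h2 : e.repr (U (a : G) *ᵥ (U g *ᵥ e v)) u = c u a * e.repr (U g *ᵥ e v) u := by
          conv_lhs => rw [← e.sum_repr (U g *ᵥ e v)]
          simp only [Matrix.mulVec_sum, Matrix.mulVec_smul, hcU, map_sum, map_smul,
            Module.Basis.repr_self, Finsupp.coe_finsetSum, Finset.sum_apply, Finsupp.smul_apply,
            smul_eq_mul]
          rw [Finset.sum_eq_single u (fun b _ hb => by rw [Finsupp.single_apply, if_neg hb]; simp)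
            (fun h => absurd (Finset.mem_univ u) h), Finsupp.single_eq_same]
          ring
        rw [h2] at h1
        by_contra hne
        exact ha (mul_right_cancel₀ hne h1)
      conv_lhs => rw [← e.sum_repr (U g *ᵥ e v)]
      exact Finset.sum_eq_single v (fun u _ hu => by rw [hz0 u hu, zero_smul])
        (fun h => absurd (Finset.mem_univ v) h)
    intro a ha b hb
    refine hinj (Matrix.toLin'.injective (e.ext fun v => ?_))
    obtain ⟨r, hr⟩ := hdiag a ha v
    obtain ⟨s, hs⟩ := hdiag b hb v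
    simp only [map_mul, Matrix.toLin'_apply, ← Matrix.mulVec_mulVec, hr, hs, Matrix.mulVec_smul,
      smul_smul, mul_comm r s]
  · intro hdvd
    have h1 : T.normalCore.index ∣ Nat.factorial n' := by
      haveI : Fintype (G ⧸ T) := Fintype.ofFinite _
      rw [Subgroup.normalCore_eq_ker, Subgroup.index_ker, ← hTi, Subgroup.index,
        Nat.card_eq_fintype_card (α := G ⧸ T), ← Fintype.card_perm, ← Nat.card_eq_fintype_card]
      exact Subgroup.card_subgroup_dvd_card _
    have h2 : p ^ 2 ∣ Nat.factorial n' :=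
      (hdvd.trans (Subgroup.index_dvd_of_le hcore)).trans h1
    rw [Nat.Prime.pow_dvd_factorial_iff hp.out (b := 2)
      (Nat.log_lt_of_lt_pow (by omega) (hn2.trans_le (by
        rw [sq]; exact Nat.mul_le_mul_right p hp.out.two_le)))] at h2
    rw [show Finset.Ico 1 2 = {1} from rfl, Finset.sum_singleton, pow_one] at h2
    have : n' / p < 2 := Nat.div_lt_of_lt_mul (by rw [mul_comm]; exact hn2)
    omega

end Cfsg.Agent.Chars.TwoEigen
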