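import Cfsg.Agent.OddChar.TICoherent
import Cfsg.Agent.DegreeGraph.Indicator

/-!
Character theory of a doubly transitive group whose point stabiliser is a Frobenius group with a
coherent kernel (Feit): the exceptional characters and their values at one and on the kernel.
-/

set_option autoImplicit false
set_option linter.unusedSectionVars false

open scoped Classical ComplexConjugate

namespace Cfsg.Agent.Chars.ZassFeit

open Cfsg

universe u

variable {G : Type u} [Group G] [Fintype G]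

/-- The hypotheses: `A` a point stabiliser, `H` its kernel, `St` the nonprincipal constituent of the
permutation character. -/
structure Base (A H : Subgroup G) [Fintype A] [(H.subgroupOf A).Normal] (h e : ℕ) (St : G → ℂ) :
    Prop where
  le : H ≤ A
  cent : ∀ u ∈ H, u ≠ 1 → Subgroup.centralizer ({u} : Set G) ≤ H
  ti : ∀ g : G, g ∉ A → ∀ k ∈ H, g * k * g⁻¹ ∈ H → k = 1
  card_H : Nat.card H = h
  index_H : (H.subgroupOf A).index = e
  card_G : Nat.card G = (h + 1) * (h * e)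
  e_odd : Odd e
  e_two : 2 ≤ e
  lt : 2 * e < h - 1
  lin : ∀ φ : A → ℂ, IsIrrCharacter A φ → φ ∉ inducedIrrAbove (H.subgroupOf A) ⊥ →
    φ 1 = 1 ∧ ∀ x : A, (x : G) ∈ H → φ x = 1
  ind_lin : ∀ φ : A → ℂ, IsIrrCharacter A φ → φ ∉ inducedIrrAbove (H.subgroupOf A) ⊥ →
    φ ≠ (fun _ => 1) →
      IsIrrCharacter G (indFun A φ) ∧ ∀ u ∈ H, u ≠ 1 → indFun A φ u = 1
  st_irr : IsIrrCharacter G St
  st_one : St 1 = h
  st_H : ∀ u ∈ H, u ≠ 1 → St u = 0
  st_ind : indFun A (fun _ => (1 : ℂ)) = (fun _ => 1) + St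

/-- The hypotheses together with a coherent extension of induction. -/
structure Setting (A H : Subgroup G) [Fintype A] [(H.subgroupOf A).Normal] (h e : ℕ) (St : G → ℂ)
    (star : (A → ℂ) → (G → ℂ)) : Prop extends Base A H h e St where
  iso : IsLinearIsometryOn (zspan (inducedIrrAbove (H.subgroupOf A) ⊥)) star
  ext : ∀ α ∈ zspanOn (inducedIrrAbove (H.subgroupOf A) ⊥) {1}ᶜ, star α = indFun A α

/-- The members of the coherent family. -/
noncomputable def fam (A H : Subgroup G) [Fintype A] : Finset (IrrCharacter A) :=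
  Finset.univ.filter fun χ : IrrCharacter A => (χ : A → ℂ) ∈ inducedIrrAbove (H.subgroupOf A) ⊥

/-- The nonidentity elements of the kernel, inside the stabiliser. -/
noncomputable def kset (A H : Subgroup G) [Fintype A] : Finset A :=
  Finset.univ.filter fun x : A => (x : G) ∈ H ∧ x ≠ 1

/-- The reduced degree. -/
noncomputable def rdeg (A H : Subgroup G) [Fintype A] (χ : IrrCharacter A) : ℕ :=
  OddChar.deg (χ : A → ℂ) / (H.subgroupOf A).index

/-- The sum of the squares of the reduced degrees. -/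
noncomputable def rsum (A H : Subgroup G) [Fintype A] : ℕ :=
  ∑ χ ∈ fam A H, rdeg A H χ ^ 2

/-- The multiplicity of the trivial character of the kernel. -/
noncomputable def lmult (A H : Subgroup G) [Fintype A] (ψ : G → ℂ) : ℂ :=
  ∑ φ ∈ (Finset.univ : Finset (IrrCharacter A)).filter (fun φ => φ ∉ fam A H),
    classInner ψ (indFun A (φ : A → ℂ))

variable {A H : Subgroup G} [Fintype A] [(H.subgroupOf A).Normal] {h e : ℕ} {St : G → ℂ}
  {star : (A → ℂ) → (G → ℂ)}

theorem mem_fam {χ : IrrCharacter A} :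
    χ ∈ fam A H ↔ (χ : A → ℂ) ∈ inducedIrrAbove (H.subgroupOf A) ⊥ := by simp [fam]

/-- A sum over the characters of the stabiliser, split along the family. -/
theorem sum_split' {M : Type*} [AddCommMonoid M] (F : IrrCharacter A → M) :
    ∑ φ, F φ = ∑ φ ∈ fam A H, F φ +
      ∑ φ ∈ (Finset.univ : Finset (IrrCharacter A)).filter (fun φ => φ ∉ fam A H), F φ := by
  rw [← Finset.sum_filter_add_sum_filter_not Finset.univ (fun φ => φ ∈ fam A H)]
  congr 1
  exact Finset.sum_congr (by ext; simp) fun _ _ => rfl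

theorem mem_kset {x : A} : x ∈ kset A H ↔ (x : G) ∈ H ∧ x ≠ 1 := by simp [kset]

namespace Base

variable (S : Base A H h e St)

include S

theorem cent' : ∀ k ∈ H.subgroupOf A, k ≠ 1 → Subgroup.centralizer ({k} : Set A) ≤ H.subgroupOf A := by
  intro k hk hk1 x hx
  refine Subgroup.mem_subgroupOf.mpr (S.cent k (Subgroup.mem_subgroupOf.mp hk)
    (fun h => hk1 (Subtype.ext h)) ?_)
  rw [Subgroup.mem_centralizer_singleton_iff] at hx ⊢
  exact congrArg Subtype.val hx

theorem h_pos : 0 < h := by have := S.lt; omega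

theorem card_sub : Nat.card (H.subgroupOf A) = h := by
  rw [Nat.card_congr (Subgroup.subgroupOfEquivOfLe S.le).toEquiv, S.card_H]

theorem card_A : Nat.card A = h * e := by
  rw [← (H.subgroupOf A).card_mul_index, S.card_sub, S.index_H]

theorem index_A : A.index = h + 1 := by
  have h1 := A.card_mul_index
  rw [S.card_A, S.card_G] at h1
  refine Nat.eq_of_mul_eq_mul_left (n := h * e) (Nat.mul_pos S.h_pos (by have := S.e_two; omega)) ?_
  rw [h1]; ring

theorem sub_ne_bot : H.subgroupOf A ≠ ⊥ := fun hb => by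
  have h1 := S.card_sub
  rw [hb, Subgroup.card_bot] at h1
  have := S.lt; omega

theorem sub_ne_top : H.subgroupOf A ≠ ⊤ := fun hb => by
  have h1 := S.index_H
  rw [hb, Subgroup.index_top] at h1
  have := S.e_two; omega

theorem fam_irr {χ : IrrCharacter A} (hχ : χ ∈ fam A H) : ∃ k ∈ H.subgroupOf A,
    (χ : A → ℂ) k ≠ (χ : A → ℂ) 1 := by
  have h1 := mem_fam.1 hχ
  rw [OddChar.frob_indAbove_eq S.cent'] at h1
  exact h1.2

theorem rdeg_spec {χ : IrrCharacter A} (hχ : χ ∈ fam A H) :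
    0 < rdeg A H χ ∧ (χ : A → ℂ) 1 = (e : ℂ) * (rdeg A H χ : ℂ) := by
  obtain ⟨θ, hθ, -, -, hχe⟩ := mem_fam.1 hχ
  have hd : OddChar.deg (χ : A → ℂ) = e * OddChar.deg θ := by
    rw [hχe, OddChar.deg_indFun _ (Chars.isCharacter_of_isIrr hθ), S.index_H]
  have hr : rdeg A H χ = OddChar.deg θ := by
    rw [rdeg, hd, S.index_H, Nat.mul_div_cancel_left _ (by have := S.e_two; omega)]
  refine ⟨hr ▸ OddChar.deg_pos_irr hθ, ?_⟩
  rw [OddChar.deg_spec (Chars.irr_isCharacter χ), hr, hd]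
  push_cast
  ring

theorem fam_out {χ : IrrCharacter A} (hχ : χ ∈ fam A H) {x : A} (hx : (x : G) ∉ H) :
    (χ : A → ℂ) x = 0 :=
  OddChar.indAbove_out (mem_fam.1 hχ) fun h => hx (Subgroup.mem_subgroupOf.1 h)

theorem out_apply {φ : IrrCharacter A} (hφ : φ ∉ fam A H) {x : A} (hx : (x : G) ∈ H) :
    (φ : A → ℂ) x = 1 :=
  (S.lin φ φ.2 fun h => hφ (mem_fam.2 h)).2 x hx

theorem out_one {φ : IrrCharacter A} (hφ : φ ∉ fam A H) : (φ : A → ℂ) 1 = 1 :=
  (S.lin φ φ.2 fun h => hφ (mem_fam.2 h)).1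

theorem one_notMem : (⟨fun _ => 1, Chars.isIrrCharacter_one⟩ : IrrCharacter A) ∉ fam A H := fun h => by
  obtain ⟨k, -, hk⟩ := S.fam_irr h
  exact hk rfl

omit S in
/-- A sum over the kernel, split at the identity. -/
theorem sum_kernel (f : A → ℂ) :
    (∑ x : A, if (x : G) ∈ H then f x else 0) = f 1 + ∑ x ∈ kset A H, f x := by
  rw [← Finset.sum_filter, ← Finset.sum_erase_add _ _ (show (1 : A) ∈
    (Finset.univ.filter fun x : A => (x : G) ∈ H) by simp), add_comm]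
  congr 1
  refine Finset.sum_congr ?_ fun _ _ => rfl
  ext x
  simp [mem_kset, and_comm]

theorem card_kset : (kset A H).card + 1 = h := by
  have h2 : (Finset.univ.filter fun x : A => (x : G) ∈ H).card = h := by
    rw [← Fintype.card_subtype, ← Nat.card_eq_fintype_card]
    exact S.card_sub
  have h3 : kset A H = (Finset.univ.filter fun x : A => (x : G) ∈ H).erase 1 := by
    ext x
    simp [mem_kset, and_comm]
  rw [h3, Finset.card_erase_of_mem (by simp), h2]
  have := S.h_pos; omega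

theorem sum_kset_const (c : ℂ) : ∑ _x ∈ kset A H, c = ((h : ℂ) - 1) * c := by
  rw [Finset.sum_const, nsmul_eq_mul, ← S.card_kset]
  push_cast; ring

theorem sum_kset_fam {χ : IrrCharacter A} (hχ : χ ∈ fam A H) :
    ∑ x ∈ kset A H, (χ : A → ℂ) x = -(χ : A → ℂ) 1 := by
  have h0 := OddChar.indAbove_orth_kInd (mem_fam.1 hχ)
  rw [OddChar.classInner_kInd, mul_eq_zero] at h0
  have h1 := h0.resolve_left (inv_ne_zero Chars.card_ne_zero)
  simp only [Subgroup.mem_subgroupOf] at h1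
  rw [sum_kernel] at h1
  linear_combination h1

theorem sum_kset_mul {χ ξ : IrrCharacter A} (hχ : χ ∈ fam A H) (hξ : ξ ∈ fam A H) :
    ∑ x ∈ kset A H, (χ : A → ℂ) x * conj ((ξ : A → ℂ) x) =
      (if χ = ξ then (h : ℂ) * e else 0) - (χ : A → ℂ) 1 * conj ((ξ : A → ℂ) 1) := by
  have h0 := Chars.classInner_irrCharacter χ ξ
  rw [Chars.classInner_def, S.card_A, Finset.sum_congr rfl (g := fun x : A => if (x : G) ∈ H then
    (χ : A → ℂ) x * conj ((ξ : A → ℂ) x) else 0) (fun x _ => by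
      split_ifs with hx
      · rfl
      · rw [S.fam_out hχ hx, zero_mul]), sum_kernel] at h0
  have hne : ((h * e : ℕ) : ℂ) ≠ 0 := by
    exact_mod_cast (Nat.mul_pos S.h_pos (by have := S.e_two; omega)).ne'
  rw [inv_mul_eq_iff_eq_mul₀ hne] at h0
  push_cast at h0
  split_ifs at h0 ⊢ <;> linear_combination h0

theorem card_out : ((Finset.univ : Finset (IrrCharacter A)).filter (fun φ => φ ∉ fam A H)).card = e := by
  have h1 := OddChar.sum_sq_trivial_on (H.subgroupOf A)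
  have heq : (Finset.univ : Finset (IrrCharacter A)).filter
      (fun θ : IrrCharacter A => ∀ m ∈ H.subgroupOf A, (θ : A → ℂ) m = (θ : A → ℂ) 1) =
      (Finset.univ : Finset (IrrCharacter A)).filter (fun φ => φ ∉ fam A H) := by
    ext φ
    simp only [Finset.mem_filter, Finset.mem_univ, true_and]
    refine ⟨fun hφ hf => ?_, fun hφ m hm => by rw [S.out_apply hφ hm, S.out_one hφ]⟩
    obtain ⟨k, hk, hk1⟩ := S.fam_irr hf
    exact hk1 (hφ k hk)
  rw [heq, Finset.sum_congr rfl (g := fun _ : IrrCharacter A => (1 : ℝ)) (fun φ hφ => by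
    have h2 : OddChar.deg (φ : A → ℂ) = 1 := by
      have h3 := OddChar.deg_spec (Chars.irr_isCharacter φ)
      rw [S.out_one (Finset.mem_filter.1 hφ).2] at h3
      exact_mod_cast h3.symm
    simp [h2]), Finset.sum_const, nsmul_eq_mul, mul_one, S.index_H] at h1
  exact_mod_cast h1

omit S in
theorem sum_split {M : Type*} [AddCommMonoid M] (F : IrrCharacter A → M) :
    ∑ φ, F φ = ∑ φ ∈ fam A H, F φ +
      ∑ φ ∈ (Finset.univ : Finset (IrrCharacter A)).filter (fun φ => φ ∉ fam A H), F φ := by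
  rw [← Finset.sum_filter_add_sum_filter_not Finset.univ (fun φ => φ ∈ fam A H)]
  congr 1
  exact Finset.sum_congr (by ext; simp) fun _ _ => rfl

theorem e_ne : (e : ℂ) ≠ 0 := by
  exact_mod_cast (by have := S.e_two; omega : e ≠ 0)

/-- `e R = h - 1`. -/
theorem rsum_eq : e * rsum A H = h - 1 := by
  have h1 := Chars.sum_sq_apply_one (G := A)
  rw [sum_split (H := H), S.card_A] at h1
  rw [Finset.sum_congr rfl (g := fun χ : IrrCharacter A => ((e ^ 2 * rdeg A H χ ^ 2 : ℕ) : ℂ))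
      (fun χ hχ => by rw [(S.rdeg_spec hχ).2]; push_cast; ring),
    Finset.sum_congr rfl (s₁ := Finset.filter _ _) (g := fun _ : IrrCharacter A => (1 : ℂ))
      (fun φ hφ => by rw [S.out_one (Finset.mem_filter.1 hφ).2, one_pow]),
    Finset.sum_const, nsmul_eq_mul, mul_one, S.card_out, ← Nat.cast_sum, ← Finset.mul_sum] at h1
  have h2 : e * (e * rsum A H + 1) = e * h := by
    have h3 : e ^ 2 * rsum A H + e = h * e := by exact_mod_cast h1
    linear_combination h3
  have := Nat.eq_of_mul_eq_mul_left (by have := S.e_two; omega) h2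
  omega

theorem rsum_three : 3 ≤ rsum A H := by
  have h1 := S.rsum_eq
  have h2 := S.lt
  by_contra hlt
  have : e * rsum A H ≤ e * 2 := Nat.mul_le_mul_left _ (by omega)
  omega

theorem column_u {x : A} (hx : x ∈ kset A H) :
    ∑ χ ∈ fam A H, (rdeg A H χ : ℂ) * (χ : A → ℂ) x = -1 := by
  obtain ⟨hxH, hx1⟩ := mem_kset.1 hx
  have h1 := Chars.sum_apply_one_mul (G := A) x
  rw [if_neg hx1, sum_split (H := H), Finset.sum_congr rfl (g := fun χ : IrrCharacter A =>
      (e : ℂ) * ((rdeg A H χ : ℂ) * (χ : A → ℂ) x)) (fun χ hχ => by rw [(S.rdeg_spec hχ).2, mul_assoc]),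
    Finset.sum_congr rfl (s₁ := Finset.filter _ _) (g := fun _ : IrrCharacter A => (1 : ℂ))
      (fun φ hφ => by rw [S.out_one (Finset.mem_filter.1 hφ).2, S.out_apply (Finset.mem_filter.1 hφ).2 hxH,
        one_mul]),
    Finset.sum_const, nsmul_eq_mul, mul_one, S.card_out, ← Finset.mul_sum] at h1
  refine mul_left_cancel₀ S.e_ne ?_
  linear_combination h1

theorem column_uu {x : A} (hx : x ∈ kset A H) (hc : ∀ k ∈ H, k * (x : G) = (x : G) * k) :
    ∑ χ ∈ fam A H, (χ : A → ℂ) x * conj ((χ : A → ℂ) x) = (h : ℂ) - e := by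
  obtain ⟨hxH, hx1⟩ := mem_kset.1 hx
  have hcard : Nat.card (Subgroup.centralizer ({x} : Set A)) = h := by
    rw [show Subgroup.centralizer ({x} : Set A) = H.subgroupOf A from le_antisymm
      (S.cent' x (Subgroup.mem_subgroupOf.2 hxH) hx1) fun k hk => Subgroup.mem_centralizer_singleton_iff.2
        (Subtype.ext (hc k (Subgroup.mem_subgroupOf.1 hk)))]
    exact S.card_sub
  have h1 := Chars.column_orth (G := A) x x
  rw [if_pos (IsConj.refl _), hcard, sum_split (H := H),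
    Finset.sum_congr rfl (s₁ := Finset.filter _ _) (g := fun _ : IrrCharacter A => (1 : ℂ))
      (fun φ hφ => by rw [S.out_apply (Finset.mem_filter.1 hφ).2 hxH, map_one, mul_one]),
    Finset.sum_const, nsmul_eq_mul, mul_one, S.card_out] at h1
  linear_combination h1

theorem exists_central : ∃ x ∈ kset A H, ∀ k ∈ H, k * (x : G) = (x : G) * k := by
  haveI := OddChar.frob_nilpotent (H.subgroupOf A) S.cent' S.sub_ne_top
  haveI : Nontrivial (H.subgroupOf A) := (Subgroup.nontrivial_iff_ne_bot _).2 S.sub_ne_bot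
  obtain ⟨x, -, hx1, hxc⟩ := OddLocal.exists_ne_one_mem_center_of_normal
    (⊤ : Subgroup (H.subgroupOf A)) top_ne_bot
  refine ⟨(x : A), mem_kset.2 ⟨x.2, fun h => hx1 (Subtype.ext h)⟩, fun k hk => ?_⟩
  exact congrArg (fun z : H.subgroupOf A => ((z : A) : G))
    (Subgroup.mem_center_iff.1 hxc ⟨⟨k, S.le hk⟩, hk⟩)

/-! ### Multiplicities of the trivial character of the kernel -/

theorem sum_H {ψ : G → ℂ} (hψ : IsClassFunction G ψ) :
    ψ 1 + ∑ x ∈ kset A H, ψ x = (h : ℂ) * lmult A H ψ := by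
  have hres : IsClassFunction A (fun a : A => ψ a) := fun x g => hψ x g
  have h1 := OddChar.classInner_kInd (K := H.subgroupOf A) (fun a : A => ψ a)
  simp only [Subgroup.mem_subgroupOf] at h1
  rw [sum_kernel (fun a : A => ψ a), OneMemClass.coe_one] at h1
  rw [Chars.classInner_eq_sum hres, sum_split (H := H),
    Finset.sum_eq_zero (s := fam A H) (fun φ hφ => by
      rw [OddChar.indAbove_orth_kInd (mem_fam.1 hφ), mul_zero]), zero_add] at h1
  have hval : ∀ φ ∈ (Finset.univ : Finset (IrrCharacter A)).filter (fun φ => φ ∉ fam A H),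
      classInner (φ : A → ℂ) (OddChar.kInd (H.subgroupOf A)) = (e : ℂ)⁻¹ := fun φ hφ => by
    rw [OddChar.classInner_kInd]
    simp only [Subgroup.mem_subgroupOf]
    rw [sum_kernel (φ : A → ℂ), Finset.sum_congr rfl (fun x hx => S.out_apply (Finset.mem_filter.1 hφ).2
      (mem_kset.1 hx).1), S.sum_kset_const, S.out_one (Finset.mem_filter.1 hφ).2, S.card_A]
    have hh : (h : ℂ) ≠ 0 := by exact_mod_cast S.h_pos.ne'
    push_cast
    field_simp
    ring
  rw [Finset.sum_congr rfl (g := fun φ : IrrCharacter A => (e : ℂ)⁻¹ * classInner ψ (indFun A (φ : A → ℂ)))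
    (fun φ hφ => by rw [hval φ hφ, Chars.classInner_indFun_right A _ hψ, mul_comm]),
    ← Finset.mul_sum, S.card_A] at h1
  rw [lmult]
  have hh : (h : ℂ) ≠ 0 := by exact_mod_cast S.h_pos.ne'
  have he := S.e_ne
  push_cast at h1
  field_simp at h1
  linear_combination -h1

theorem ind_out_cases {φ : IrrCharacter A} (hφ : φ ∉ fam A H) {ψ : G → ℂ} (hψ : IsIrrCharacter G ψ)
    (hne : classInner ψ (indFun A (φ : A → ℂ)) ≠ 0) :
    ((φ : A → ℂ) = (fun _ => 1) ∧ (ψ = (fun _ => 1) ∨ ψ = St)) ∨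
      ((φ : A → ℂ) ≠ (fun _ => 1) ∧ ψ = indFun A (φ : A → ℂ)) := by
  by_cases h1 : (φ : A → ℂ) = fun _ => 1
  · refine Or.inl ⟨h1, ?_⟩
    by_contra hno
    push Not at hno
    rw [h1, S.st_ind, Chars.classInner_add_right, Chars.classInner_irr_of_ne hψ Chars.isIrrCharacter_one hno.1,
      Chars.classInner_irr_of_ne hψ S.st_irr hno.2, add_zero] at hne
    exact hne rfl
  · refine Or.inr ⟨h1, ?_⟩
    by_contra hno
    exact hne (Chars.classInner_irr_of_ne hψ (S.ind_lin φ φ.2 (fun h => hφ (mem_fam.2 h)) h1).1 hno)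

/-- A nonconstant irreducible character is orthogonal to the characters induced from linear ones. -/
theorem ind_orth_of_nonconst {ψ : G → ℂ} (hψ : IsIrrCharacter G ψ)
    (hnc : ∃ a ∈ H, ∃ b ∈ H, a ≠ 1 ∧ b ≠ 1 ∧ ψ a ≠ ψ b) {φ : IrrCharacter A} (hφ : φ ∉ fam A H) :
    classInner ψ (indFun A (φ : A → ℂ)) = 0 := by
  by_contra hne
  obtain ⟨a, ha, b, hb, ha1, hb1, hab⟩ := hnc
  rcases S.ind_out_cases hφ hψ hne with ⟨-, rfl | rfl⟩ | ⟨h1, rfl⟩
  · exact hab rfl
  · exact hab (by rw [S.st_H a ha ha1, S.st_H b hb hb1])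
  · obtain ⟨-, hv⟩ := S.ind_lin φ φ.2 (fun h => hφ (mem_fam.2 h)) h1
    exact hab (by rw [hv a ha ha1, hv b hb hb1])

theorem fam_two : ∃ χ ∈ inducedIrrAbove (H.subgroupOf A) ⊥, ∃ ξ ∈ inducedIrrAbove (H.subgroupOf A) ⊥,
    χ ≠ ξ := by
  haveI := OddChar.frob_nilpotent (H.subgroupOf A) S.cent' S.sub_ne_top
  obtain ⟨ψ₁, hψ₁, hdeg⟩ := OddChar.exists_linear_above (H.subgroupOf A) inferInstance ⊥
    (Ne.bot_lt S.sub_ne_bot)
  have hirr : IsIrrCharacter A ψ₁ := by
    rw [OddChar.frob_indAbove_eq S.cent'] at hψ₁; exact hψ₁.1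
  refine ⟨ψ₁, hψ₁, ?_⟩
  by_contra hall
  push Not at hall
  have hf : fam A H = {(⟨ψ₁, hirr⟩ : IrrCharacter A)} :=
    Finset.eq_singleton_iff_unique_mem.2 ⟨mem_fam.2 hψ₁, fun χ hχ => Subtype.ext (hall _ (mem_fam.1 hχ)).symm⟩
  have h1 := S.rsum_three
  rw [rsum, hf, Finset.sum_singleton, rdeg] at h1
  simp only at h1
  rw [hdeg, Nat.div_self (Nat.pos_of_ne_zero Subgroup.index_ne_zero_of_finite)] at h1
  omega

end Base

namespace Setting

variable (S : Setting A H h e St star)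

include S

theorem fam_zspan {χ : IrrCharacter A} (hχ : χ ∈ fam A H) :
    (χ : A → ℂ) ∈ zspan (inducedIrrAbove (H.subgroupOf A) ⊥) :=
  OddChar.zspan_subset_apply (mem_fam.1 hχ)

end Setting

/-- The exceptional characters, their signs, and the constants. -/
structure Exc (A H : Subgroup G) [Fintype A] (star : (A → ℂ) → (G → ℂ)) where
  f : IrrCharacter A → IrrCharacter G
  sgn : IrrCharacter A → ℂ
  m : ℤ
  c : IrrCharacter G → ℤ
  sgn_sq : ∀ χ ∈ fam A H, sgn χ * sgn χ = 1 ∧ conj (sgn χ) = sgn χ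
  star_eq : ∀ χ ∈ fam A H, ∀ x : G, star (χ : A → ℂ) x = sgn χ * (f χ : G → ℂ) x
  inj : Set.InjOn f (fam A H)
  exc_nonconst : ∀ χ ∈ fam A H, ∃ a ∈ H, ∃ b ∈ H, a ≠ 1 ∧ b ≠ 1 ∧ (f χ : G → ℂ) a ≠ (f χ : G → ℂ) b
  restr : ∀ χ ∈ fam A H, ∀ x ∈ kset A H,
    star (χ : A → ℂ) (x : G) = (χ : A → ℂ) x + (m : ℂ) * (rdeg A H χ : ℂ)
  const : ∀ ψ : IrrCharacter G, ψ ∉ (fam A H).image f → ∀ u ∈ H, u ≠ 1 → (ψ : G → ℂ) u = (c ψ : ℂ)

namespace Setting

variable (S : Setting A H h e St star)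

include S

theorem exists_exc : Nonempty (Exc A H star) := by
  have hC := S.cent'
  have hrep : ∀ χ : IrrCharacter A, ∃ ψ : IrrCharacter G, ∃ ε : ℂ, χ ∈ fam A H →
      ε * ε = 1 ∧ conj ε = ε ∧ (∀ x : G, star (χ : A → ℂ) x = ε * (ψ : G → ℂ) x) ∧
        ((ψ : G → ℂ) = star (χ : A → ℂ) ∨ (ψ : G → ℂ) = -star (χ : A → ℂ)) := by
    intro χ
    by_cases hχ : χ ∈ fam A H
    · have hn : classInner (star (χ : A → ℂ)) (star (χ : A → ℂ)) = 1 := by
        rw [S.iso.2.2.1 _ (S.fam_zspan hχ) _ (S.fam_zspan hχ), Chars.classInner_self_irr χ.2]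
      rcases OddChar.virt_norm_one (S.iso.2.2.2 _ (S.fam_zspan hχ)) hn with h1 | h1
      · exact ⟨⟨_, h1⟩, 1, fun _ => ⟨one_mul _, map_one _, fun x => (one_mul _).symm, Or.inl rfl⟩⟩
      · exact ⟨⟨_, h1⟩, -1, fun _ => ⟨by norm_num, by simp, fun x => by simp, Or.inr rfl⟩⟩
    · exact ⟨⟨fun _ => 1, Chars.isIrrCharacter_one⟩, 1, fun h => absurd h hχ⟩
  choose f ε hfε using hrep
  obtain ⟨m, hm⟩ := OddChar.restriction_constant H A hC S.iso S.ext S.le S.sub_ne_bot S.sub_ne_top S.ti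
  have hnc : ∀ χ ∈ fam A H, ∃ a ∈ H, ∃ b ∈ H, a ≠ 1 ∧ b ≠ 1 ∧ (f χ : G → ℂ) a ≠ (f χ : G → ℂ) b :=
    fun χ hχ => (OddChar.exceptional_iff H A hC S.iso S.ext S.fam_two S.le (f χ).2).1
      ⟨χ, mem_fam.1 hχ, (hfε χ hχ).2.2.2⟩
  have hcst : ∀ ψ : IrrCharacter G, ∃ c : ℤ, ψ ∉ (fam A H).image f → ∀ u ∈ H, u ≠ 1 → (ψ : G → ℂ) u = c := by
    intro ψ
    by_cases hψ : ψ ∈ (fam A H).image f
    · exact ⟨0, fun h => absurd hψ h⟩
    have hall : ∀ a ∈ H, ∀ b ∈ H, a ≠ 1 → b ≠ 1 → (ψ : G → ℂ) a = (ψ : G → ℂ) b := by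
      intro a ha b hb ha1 hb1
      by_contra hab
      obtain ⟨χ, hχ, he⟩ := (OddChar.exceptional_iff H A hC S.iso S.ext S.fam_two S.le ψ.2).2
        ⟨a, ha, b, hb, ha1, hb1, hab⟩
      have hχi : IsIrrCharacter A χ := by rw [OddChar.frob_indAbove_eq hC] at hχ; exact hχ.1
      have hχf : (⟨χ, hχi⟩ : IrrCharacter A) ∈ fam A H := mem_fam.2 hχ
      refine hψ (Finset.mem_image.2 ⟨_, hχf, Subtype.ext ?_⟩)
      obtain ⟨-, -, -, hf⟩ := hfε _ hχf
      -- two irreducible characters equal up to sign are equal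
      have hpm : (f ⟨χ, hχi⟩ : G → ℂ) = (ψ : G → ℂ) ∨ (f ⟨χ, hχi⟩ : G → ℂ) = -(ψ : G → ℂ) := by
        simp only at hf
        rcases hf with h1 | h1 <;> rcases he with h2 | h2 <;> rw [h1, h2] <;> simp
      refine hpm.resolve_right fun h1 => ?_
      obtain ⟨n, hn0, hn⟩ := Chars.exists_irr_apply_one_eq (f ⟨χ, hχi⟩).2
      obtain ⟨n', hn0', hn'⟩ := Chars.exists_irr_apply_one_eq ψ.2
      have h2 := congrFun h1 1
      rw [Pi.neg_apply, hn, hn', eq_neg_iff_add_eq_zero] at h2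
      norm_cast at h2
      omega
    obtain ⟨k, hk, -⟩ := S.exists_central
    obtain ⟨hkH, hk1⟩ := mem_kset.1 hk
    obtain ⟨z, hz⟩ := OddChar.const_is_int (K := H.subgroupOf A) (f := fun a : A => (ψ : G → ℂ) a)
      (Chars.isGen_restrict (OddChar.virt_of_irr ψ.2) A) S.sub_ne_bot (n := (ψ : G → ℂ) k)
      (fun x hx hx1 => hall x (Subgroup.mem_subgroupOf.1 hx) k hkH (fun h => hx1 (Subtype.ext h))
        (fun h => hk1 (Subtype.ext h)))
    exact ⟨z, fun _ u hu hu1 => (hall u hu k hkH hu1 (fun h => hk1 (Subtype.ext h))).trans hz⟩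
  choose c hc using hcst
  refine ⟨⟨f, ε, m, c, fun χ hχ => ⟨(hfε χ hχ).1, (hfε χ hχ).2.1⟩, fun χ hχ => (hfε χ hχ).2.2.1, ?_, hnc,
    fun χ hχ x hx => ?_, hc⟩⟩
  · intro χ hχ ξ hξ hfe
    by_contra hne
    have h0 : classInner (star (χ : A → ℂ)) (star (ξ : A → ℂ)) = 0 := by
      rw [S.iso.2.2.1 _ (S.fam_zspan hχ) _ (S.fam_zspan hξ),
        Chars.classInner_irr_of_ne χ.2 ξ.2 fun h => hne (Subtype.ext h)]
    rw [show star (χ : A → ℂ) = ε χ • (f χ : G → ℂ) from funext (hfε χ hχ).2.2.1,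
      show star (ξ : A → ℂ) = ε ξ • (f χ : G → ℂ) from funext fun x => by
        rw [(hfε ξ hξ).2.2.1 x, ← hfe]; rfl,
      Chars.classInner_smul_left, Chars.classInner_smul_right, Chars.classInner_self_irr (f χ).2,
      mul_one, (hfε ξ hξ).2.1, mul_eq_zero] at h0
    rcases h0 with h0 | h0
    · simpa [h0] using (hfε χ hχ).1
    · simpa [h0] using (hfε ξ hξ).1
  · obtain ⟨hxH, hx1⟩ := mem_kset.1 hx
    have h1 := hm _ (mem_fam.1 hχ) x hxH hx1
    rw [S.index_H, (S.rdeg_spec hχ).2] at h1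
    have he := S.e_ne
    field_simp at h1
    linear_combination h1

variable (D : Exc A H star)

theorem split_G {M : Type*} [AddCommMonoid M] (F : IrrCharacter G → M) :
    ∑ ψ, F ψ = ∑ χ ∈ fam A H, F (D.f χ) + ∑ ψ ∈ ((fam A H).image D.f)ᶜ, F ψ := by
  rw [← Finset.sum_add_sum_compl ((fam A H).image D.f), Finset.sum_image D.inj]

include D in
theorem exc_ind_orth {χ : IrrCharacter A} (hχ : χ ∈ fam A H) {φ : IrrCharacter A} (hφ : φ ∉ fam A H) :
    classInner (star (χ : A → ℂ)) (indFun A (φ : A → ℂ)) = 0 := by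
  rw [show star (χ : A → ℂ) = D.sgn χ • (D.f χ : G → ℂ) from funext (D.star_eq χ hχ),
    Chars.classInner_smul_left, S.ind_orth_of_nonconst (D.f χ).2 (D.exc_nonconst χ hχ) hφ, mul_zero]

theorem star_one {χ : IrrCharacter A} (hχ : χ ∈ fam A H) :
    star (χ : A → ℂ) 1 = (rdeg A H χ : ℂ) * ((e : ℂ) - (D.m : ℂ) * ((h : ℂ) - 1)) := by
  have h1 := S.sum_H (OddChar.virt_isClassFunction (S.iso.2.2.2 _ (S.fam_zspan hχ)))
  rw [show lmult A H (star (χ : A → ℂ)) = 0 from Finset.sum_eq_zero fun φ hφ =>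
      S.exc_ind_orth D hχ (Finset.mem_filter.1 hφ).2,
    mul_zero, Finset.sum_congr rfl (D.restr χ hχ), Finset.sum_add_distrib, S.sum_kset_fam hχ,
    S.sum_kset_const, (S.rdeg_spec hχ).2] at h1
  linear_combination h1

theorem dd_ne : (e : ℂ) - (D.m : ℂ) * ((h : ℂ) - 1) ≠ 0 := by
  intro h0
  obtain ⟨χ, hχ, -⟩ := S.fam_two
  have hχi : IsIrrCharacter A χ := by rw [OddChar.frob_indAbove_eq S.cent'] at hχ; exact hχ.1
  have hf : (⟨χ, hχi⟩ : IrrCharacter A) ∈ fam A H := mem_fam.2 hχ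
  have h1 := S.star_one D hf
  rw [h0, mul_zero, D.star_eq _ hf, mul_eq_zero] at h1
  rcases h1 with h1 | h1
  · simpa [h1] using (D.sgn_sq _ hf).1
  · exact Chars.irr_apply_one_ne_zero (D.f _).2 h1

/-- The squares of the constants of the nonexceptional characters. -/
theorem sum_sq_const :
    ∑ ψ ∈ ((fam A H).image D.f)ᶜ, D.c ψ ^ 2 =
      (e : ℤ) + 2 * D.m - D.m ^ 2 * (rsum A H : ℤ) := by
  obtain ⟨x, hx, hc⟩ := S.exists_central
  obtain ⟨hxH, hx1⟩ := mem_kset.1 hx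
  have hx1' : (x : G) ≠ 1 := fun h => hx1 (Subtype.ext h)
  have hcard : Nat.card (Subgroup.centralizer ({(x : G)} : Set G)) = h := by
    rw [show Subgroup.centralizer ({(x : G)} : Set G) = H from
      le_antisymm (S.cent x hxH hx1') fun k hk => Subgroup.mem_centralizer_singleton_iff.2 (hc k hk)]
    exact S.card_H
  have h1 := Chars.column_orth (G := G) (x : G) (x : G)
  rw [if_pos (IsConj.refl _), hcard, S.split_G D] at h1
  rw [Finset.sum_congr rfl (g := fun χ : IrrCharacter A => (χ : A → ℂ) x * conj ((χ : A → ℂ) x) +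
      (D.m : ℂ) * ((rdeg A H χ : ℂ) * (χ : A → ℂ) x) + (D.m : ℂ) * conj ((rdeg A H χ : ℂ) * (χ : A → ℂ) x) +
        (D.m : ℂ) ^ 2 * ((rdeg A H χ ^ 2 : ℕ) : ℂ)) (fun χ hχ => ?_),
    Finset.sum_congr rfl (s₁ := ((fam A H).image D.f)ᶜ) (g := fun ψ : IrrCharacter G => ((D.c ψ ^ 2 : ℤ) : ℂ))
      (fun ψ hψ => by
        rw [D.const ψ (Finset.mem_compl.1 hψ) x hxH hx1', map_intCast]
        push_cast; ring),
    Finset.sum_add_distrib, Finset.sum_add_distrib, Finset.sum_add_distrib, ← Finset.mul_sum,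
    ← Finset.mul_sum, ← Finset.mul_sum, ← map_sum, S.column_u hx, S.column_uu hx hc, ← Nat.cast_sum,
    map_neg, map_one, ← Int.cast_sum] at h1
  · have h2 : ((∑ ψ ∈ ((fam A H).image D.f)ᶜ, D.c ψ ^ 2 : ℤ) : ℂ) =
        (((e : ℤ) + 2 * D.m - D.m ^ 2 * (rsum A H : ℤ) : ℤ) : ℂ) := by
      rw [rsum]
      push_cast at h1 ⊢
      linear_combination h1
    exact_mod_cast h2
  · have h2 := D.restr χ hχ x hx
    rw [D.star_eq χ hχ] at h2
    have h3 : (D.f χ : G → ℂ) x * conj ((D.f χ : G → ℂ) x) =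
        (D.sgn χ * (D.f χ : G → ℂ) x) * conj (D.sgn χ * (D.f χ : G → ℂ) x) := by
      rw [map_mul, (D.sgn_sq χ hχ).2]
      linear_combination (-((D.f χ : G → ℂ) x * conj ((D.f χ : G → ℂ) x))) * (D.sgn_sq χ hχ).1
    rw [h3, h2]
    simp only [map_add, map_mul, map_intCast, map_natCast, Nat.cast_pow]
    ring

theorem m_bound : D.m ^ 2 * (rsum A H : ℤ) - 2 * D.m ≤ e := by
  have h1 := S.sum_sq_const D
  have h2 : 0 ≤ ∑ ψ ∈ ((fam A H).image D.f)ᶜ, D.c ψ ^ 2 := Finset.sum_nonneg fun ψ _ => sq_nonneg _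
  omega

end Setting

end Cfsg.Agent.Chars.ZassFeit
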