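import Cfsg.Agent.Chars.ZassFeit
import Cfsg.Agent.BlockChar.CharCount

/-!
The coherent case of Feit's inequality for a kernel of even order: counting the pairs of
involutions with a given product in the kernel.
-/

set_option autoImplicit false
set_option linter.unusedSectionVars false

open scoped Classical ComplexConjugate

namespace Cfsg.Agent.Chars.ZassFeit

open Cfsg

universe u

variable {G : Type u} [Group G] [Fintype G]

/-- The number of pairs in a class with a given product. -/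
theorem pair_count (t : G) (ht : ∀ ψ : IrrCharacter G, conj ((ψ : G → ℂ) t) = (ψ : G → ℂ) t) (g : G) :
    (((OddChar.clOf t ×ˢ OddChar.clOf t).filter fun p => p.1 * p.2 = g).card : ℂ) =
      ((OddChar.clOf t).card : ℂ) ^ 2 / (Nat.card G : ℂ) *
        ∑ ψ : IrrCharacter G, (ψ : G → ℂ) t ^ 2 * (ψ : G → ℂ) g / (ψ : G → ℂ) 1 := by
  set I := OddChar.clOf t with hI
  let F : G → ℂ := fun x => (((I ×ˢ I).filter fun p => p.1 * p.2 = x).card : ℂ)
  have hclI : ∀ k a : G, a ∈ I → k * a * k⁻¹ ∈ I := fun k a ha => by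
    rw [hI, OddChar.mem_clOf] at ha ⊢
    exact ha.trans (isConj_iff.2 ⟨k, rfl⟩)
  have hF : IsClassFunction G F := by
    intro x k
    simp only [F]
    norm_cast
    refine (Finset.card_bij (fun p _ => (k * p.1 * k⁻¹, k * p.2 * k⁻¹)) ?_ ?_ ?_).symm
    · intro p hp
      simp only [Finset.mem_filter, Finset.mem_product] at hp ⊢
      exact ⟨⟨hclI k _ hp.1.1, hclI k _ hp.1.2⟩, by rw [← hp.2]; group⟩
    · intro p _ q _ h
      simp only [Prod.mk.injEq] at h
      exact Prod.ext (by simpa using h.1) (by simpa using h.2)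
    · intro p hp
      simp only [Finset.mem_filter, Finset.mem_product] at hp
      refine ⟨(k⁻¹ * p.1 * k, k⁻¹ * p.2 * k), ?_, by simp [mul_assoc]⟩
      simp only [Finset.mem_filter, Finset.mem_product]
      refine ⟨⟨by simpa using hclI k⁻¹ _ hp.1.1, by simpa using hclI k⁻¹ _ hp.1.2⟩, ?_⟩
      calc k⁻¹ * p.1 * k * (k⁻¹ * p.2 * k) = k⁻¹ * (p.1 * p.2) * k := by group
        _ = x := by rw [hp.2]; group
  have hco : ∀ ψ : IrrCharacter G, classInner F (ψ : G → ℂ) =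
      (I.card : ℂ) ^ 2 / (Nat.card G : ℂ) * ((ψ : G → ℂ) t ^ 2 / (ψ : G → ℂ) 1) := by
    intro ψ
    have hsum : ∑ p ∈ I ×ˢ I, (ψ : G → ℂ) (p.1 * p.2) =
        (I.card : ℂ) ^ 2 * (ψ : G → ℂ) t ^ 2 / (ψ : G → ℂ) 1 := by
      rw [Finset.sum_product]
      have h1 : ∀ a ∈ I, ∑ b ∈ I, (ψ : G → ℂ) (a * b) =
          (I.card : ℂ) * (ψ : G → ℂ) t ^ 2 / (ψ : G → ℂ) 1 := by
        intro a ha
        rw [eq_div_iff (Chars.irr_apply_one_ne_zero ψ.2), mul_comm, hI, OddChar.irr_class_sum_mul ψ.2 t a]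
        obtain ⟨k, hk⟩ := isConj_iff.1 (OddChar.mem_clOf.1 ha)
        rw [← hk, Chars.isClassFunction_of_isCharacter (Chars.irr_isCharacter ψ) t k]
        ring
      rw [Finset.sum_congr rfl h1, Finset.sum_const, nsmul_eq_mul]
      ring
    have h2 : ∑ x : G, F x * conj ((ψ : G → ℂ) x) = ∑ p ∈ I ×ˢ I, conj ((ψ : G → ℂ) (p.1 * p.2)) := by
      rw [← Finset.sum_fiberwise' (I ×ˢ I) (fun p => p.1 * p.2) (fun x => conj ((ψ : G → ℂ) x))]
      simp [F, nsmul_eq_mul]
    rw [Chars.classInner_def, h2, ← map_sum, hsum]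
    simp only [map_div₀, map_mul, map_pow, map_natCast, ht ψ, Chars.irr_apply_one_conj (Chars.irr_isCharacter ψ)]
    ring
  have h := congrFun (Chars.eq_sum_classInner hF) g
  rw [Finset.sum_apply] at h
  show F g = _
  rw [h, Finset.mul_sum]
  refine Finset.sum_congr rfl fun ψ _ => ?_
  rw [Pi.smul_apply, smul_eq_mul, hco]
  ring

/-- The involutions of the kernel. -/
noncomputable def iset (A H : Subgroup G) [Fintype A] : Finset A :=
  (kset A H).filter fun s => orderOf (s : G) = 2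

variable {A H : Subgroup G} [Fintype A] [(H.subgroupOf A).Normal] {h e : ℕ} {St : G → ℂ}
  {star : (A → ℂ) → (G → ℂ)}

/-- The value of a member of the family at a central involution. -/
theorem value_involution (S : Setting A H h e St star) (hIc : (iset A H).card = e)
    (hcen : ∀ s : A, s ∈ iset A H → ∀ k ∈ H, k * (s : G) = (s : G) * k)
    (hconj : ∀ s ∈ iset A H, ∀ r ∈ iset A H, ∃ g : A, g * s * g⁻¹ = r)
    {t : A} (ht : t ∈ iset A H) {χ : IrrCharacter A} (hχ : χ ∈ fam A H) :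
    (χ : A → ℂ) t = (e : ℂ) * (rdeg A H χ : ℂ) ∨ (χ : A → ℂ) t = -(rdeg A H χ : ℂ) := by
  obtain ⟨θ, hθ, -, -, hχe⟩ := mem_fam.1 hχ
  have hθc := Chars.isCharacter_of_isIrr hθ
  have hmemK : ∀ s ∈ iset A H, s ∈ (H.subgroupOf A) := fun s hs =>
    Subgroup.mem_subgroupOf.2 (mem_kset.1 (Finset.mem_filter.1 hs).1).1
  let θ' : A → ℂ := extendByZero (H.subgroupOf A) θ
  have hθ'1 : θ' 1 = θ 1 := Chars.extendByZero_coe (H.subgroupOf A) θ 1
  have hd : θ 1 = (rdeg A H χ : ℂ) := by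
    have h1 : (χ : A → ℂ) 1 = (e : ℂ) * θ 1 := by rw [hχe, Chars.indFun_apply_one, S.index_H]
    rw [(S.rdeg_spec hχ).2] at h1
    exact (mul_left_cancel₀ S.e_ne h1).symm
  set T := ∑ s ∈ iset A H, θ' s with hT
  have hχt : (χ : A → ℂ) t = T := by
    have hsame : ∀ s ∈ iset A H, (χ : A → ℂ) s = (χ : A → ℂ) t := by
      intro s hs
      obtain ⟨g, hg⟩ := hconj t ht s hs
      rw [← hg]
      exact Chars.isClassFunction_of_isCharacter (Chars.irr_isCharacter χ) t g
    have hperm : ∀ g : A, ∑ s ∈ iset A H, θ' (g⁻¹ * s * g) = T := by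
      intro g
      have hmem : ∀ (k : A) (s : A), s ∈ iset A H → k * s * k⁻¹ ∈ iset A H := by
        intro k s hs
        simp only [iset, Finset.mem_filter, mem_kset] at hs ⊢
        have ho : orderOf ((k * s * k⁻¹ : A) : G) = 2 := by
          push_cast
          rw [← MulAut.conj_apply, MulEquiv.orderOf_eq]
          exact hs.2
        refine ⟨⟨Subgroup.mem_subgroupOf.1 ((inferInstance : (H.subgroupOf A).Normal).conj_mem s
          (Subgroup.mem_subgroupOf.2 hs.1.1) k), fun h1 => ?_⟩, ho⟩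
        rw [h1, OneMemClass.coe_one, orderOf_one] at ho
        omega
      refine Finset.sum_bij' (fun s _ => g⁻¹ * s * g) (fun s _ => g * s * g⁻¹)
        (fun s hs => by simpa using hmem g⁻¹ s hs) (fun s hs => hmem g s hs)
        (fun s _ => by group) (fun s _ => by group) fun s _ => rfl
    have h1 : ∑ s ∈ iset A H, (χ : A → ℂ) s = (e : ℂ) * T := by
      rw [hχe]
      simp only [Chars.indFun_apply]
      rw [← Finset.mul_sum, Finset.sum_comm, Finset.sum_congr rfl (fun g _ => hperm g), Finset.sum_const,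
        Finset.card_univ, nsmul_eq_mul, ← Nat.card_eq_fintype_card, S.card_A, S.card_sub]
      have hh : (h : ℂ) ≠ 0 := by exact_mod_cast S.h_pos.ne'
      push_cast
      field_simp
    rw [Finset.sum_congr rfl hsame, Finset.sum_const, hIc, nsmul_eq_mul] at h1
    exact mul_left_cancel₀ S.e_ne h1
  rw [hχt]
  by_cases hall : ∀ s ∈ iset A H, θ' s = θ 1
  · exact Or.inl (by rw [hT, Finset.sum_congr rfl hall, Finset.sum_const, hIc, nsmul_eq_mul, hd])
  push Not at hall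
  obtain ⟨z, hz, hzne⟩ := hall
  refine Or.inr ?_
  have hzK := hmemK z hz
  have hzc : (⟨z, hzK⟩ : (H.subgroupOf A)) ∈ Subgroup.center (H.subgroupOf A) := Subgroup.mem_center_iff.2 fun k =>
    Subtype.ext (Subtype.ext (hcen z hz _ (Subgroup.mem_subgroupOf.1 k.2)))
  have hmul : ∀ k ∈ (H.subgroupOf A), θ' (z * k) = θ' z * θ' k / θ 1 := by
    intro k hk
    have h1 : θ' (z * k) = θ (⟨z, hzK⟩ * ⟨k, hk⟩) := Chars.extendByZero_coe (H.subgroupOf A) θ (⟨z, hzK⟩ * ⟨k, hk⟩)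
    have h2 : θ' z = θ ⟨z, hzK⟩ := Chars.extendByZero_coe (H.subgroupOf A) θ ⟨z, hzK⟩
    have h3 : θ' k = θ ⟨k, hk⟩ := Chars.extendByZero_coe (H.subgroupOf A) θ ⟨k, hk⟩
    rw [h1, h2, h3]
    have h4 := BlockChar.sum_conj_mul hθ (⟨z, hzK⟩ : (H.subgroupOf A)) ⟨k, hk⟩
    have h5 : ∀ a : (H.subgroupOf A), a * ⟨z, hzK⟩ * a⁻¹ = ⟨z, hzK⟩ := fun a => by
      rw [Subgroup.mem_center_iff.1 hzc a, mul_inv_cancel_right]
    simp only [h5, Finset.sum_const, Finset.card_univ, nsmul_eq_mul] at h4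
    rw [← Nat.card_eq_fintype_card] at h4
    refine mul_left_cancel₀ (Nat.cast_ne_zero.2 (Nat.card_pos (α := (H.subgroupOf A))).ne' : (Nat.card (H.subgroupOf A) : ℂ) ≠ 0) ?_
    rw [h4]; ring
  have h1not : (1 : A) ∉ iset A H := fun h1 => (mem_kset.1 (Finset.mem_filter.1 h1).1).2 rfl
  have hzz : z * z = 1 := by
    refine Subtype.ext ?_
    push_cast
    rw [← sq, ← (Finset.mem_filter.1 hz).2, pow_orderOf_eq_one]
  set Z := insert (1 : A) (iset A H)
  have hstab : ∀ x ∈ Z, z * x ∈ Z := by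
    intro x hx
    rcases Finset.mem_insert.1 hx with rfl | hx
    · exact Finset.mem_insert_of_mem (by rwa [mul_one])
    by_cases hxz : x = z
    · rw [hxz, hzz]; exact Finset.mem_insert_self _ _
    refine Finset.mem_insert_of_mem ?_
    simp only [iset, Finset.mem_filter, mem_kset] at hx hz ⊢
    have hxH := hx.1.1
    have hne : (z : G) * x ≠ 1 := by
      intro h1
      refine hxz ((mul_left_cancel (a := z) ?_))
      rw [hzz]
      exact Subtype.ext h1
    refine ⟨⟨H.mul_mem hz.1.1 hxH, fun h1 => hne (congrArg Subtype.val h1)⟩, ?_⟩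
    push_cast
    refine orderOf_eq_prime ?_ hne
    have hzx : Commute (z : G) (x : G) := (hcen z (Finset.mem_filter.2 ⟨mem_kset.2 hz.1, hz.2⟩) _ hxH).symm
    have hz2 : (z : G) ^ 2 = 1 := by rw [← hz.2, pow_orderOf_eq_one]
    have hx2 : (x : G) ^ 2 = 1 := by rw [← hx.2, pow_orderOf_eq_one]
    rw [hzx.mul_pow, hz2, hx2, one_mul]
  have hsum : ∑ x ∈ Z, θ' x = θ 1 + T := by rw [Finset.sum_insert h1not, hθ'1]
  have hshift : ∑ x ∈ Z, θ' x = θ' z / θ 1 * ∑ x ∈ Z, θ' x := by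
    conv_lhs => rw [Finset.sum_bij' (s := Z) (t := Z) (g := fun x => θ' (z * x)) (fun x _ => z * x) (fun x _ => z * x)
      hstab hstab (fun x _ => by rw [← mul_assoc, hzz, one_mul]) (fun x _ => by rw [← mul_assoc, hzz, one_mul])
      (fun x _ => by simp [← mul_assoc, hzz])]
    rw [Finset.mul_sum]
    refine Finset.sum_congr rfl fun x hx => ?_
    rcases Finset.mem_insert.1 hx with rfl | hx
    · rw [hmul 1 (Subgroup.one_mem _)]; ring
    · rw [hmul x (hmemK x hx)]; ring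
  have h0 : ∑ x ∈ Z, θ' x = 0 := by
    by_contra h0
    refine hzne ?_
    have h1 : θ' z / θ 1 = 1 := (mul_eq_right₀ h0).1 hshift.symm
    exact (div_eq_one_iff_eq (Chars.irr_apply_one_ne_zero hθ)).1 h1
  rw [hsum, hd] at h0
  linear_combination h0

/-- The coherent case is impossible for a kernel of even order. -/
theorem even_false (S : Setting A H h e St star) (D : Exc A H star)
    (hinv : ∀ x y : G, orderOf x = 2 → orderOf y = 2 → IsConj x y)
    (hI : (Finset.univ.filter fun x : G => orderOf x = 2).card = e * (h + 1))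
    (hIc : (iset A H).card = e)
    (hcen : ∀ s : A, s ∈ iset A H → ∀ k ∈ H, k * (s : G) = (s : G) * k)
    (hconj : ∀ s ∈ iset A H, ∀ r ∈ iset A H, ∃ g : A, g * s * g⁻¹ = r)
    (hprod : ∀ x y : G, orderOf x = 2 → orderOf y = 2 → x * y ∈ H → x * y ≠ 1 → x ∈ H ∧ y ∈ H) :
    False := by
  obtain ⟨t, ht⟩ : (iset A H).Nonempty := Finset.card_pos.1 (by rw [hIc]; have := S.e_two; omega)
  have htk : t ∈ kset A H := (Finset.mem_filter.1 ht).1
  obtain ⟨htH, -⟩ := mem_kset.1 htk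
  have hto : orderOf (t : G) = 2 := (Finset.mem_filter.1 ht).2
  have hinvt : (t : G)⁻¹ = (t : G) := inv_eq_of_mul_eq_one_right (by rw [← sq, ← hto, pow_orderOf_eq_one])
  have hreal : ∀ ψ : IrrCharacter G, conj ((ψ : G → ℂ) t) = (ψ : G → ℂ) t := fun ψ => by
    rw [← Chars.char_inv_eq_conj (Chars.irr_isCharacter ψ), hinvt]
  have hcl : OddChar.clOf (t : G) = Finset.univ.filter fun x : G => orderOf x = 2 := by
    ext x
    rw [OddChar.mem_clOf, Finset.mem_filter]
    refine ⟨fun hx => ⟨Finset.mem_univ _, ?_⟩, fun hx => hinv _ _ hto hx.2⟩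
    obtain ⟨k, hk⟩ := isConj_iff.1 hx
    rw [← hk, ← MulAut.conj_apply, MulEquiv.orderOf_eq, hto]
  have hclc : (OddChar.clOf (t : G)).card = e * (h + 1) := by rw [hcl, hI]
  -- the number of pairs over an element of the kernel
  have hval : ∀ x ∈ kset A H,
      (((OddChar.clOf (t : G) ×ˢ OddChar.clOf (t : G)).filter fun p => p.1 * p.2 = (x : G)).card : ℂ) =
        if x ∈ iset A H then ((e : ℂ) - 1) else 0 := by
    intro x hx
    obtain ⟨hxH, hx1⟩ := mem_kset.1 hx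
    have hx1' : (x : G) ≠ 1 := fun h => hx1 (Subtype.ext h)
    set P := (OddChar.clOf (t : G) ×ˢ OddChar.clOf (t : G)).filter fun p => p.1 * p.2 = (x : G) with hP
    have hin : ∀ p ∈ P, orderOf p.1 = 2 ∧ orderOf p.2 = 2 ∧ p.1 ∈ H ∧ p.2 ∈ H ∧ p.1 * p.2 = (x : G) := by
      intro p hp
      simp only [hP, hcl, Finset.mem_filter, Finset.mem_product, Finset.mem_univ, true_and] at hp
      obtain ⟨h1, h2⟩ := hprod p.1 p.2 hp.1.1 hp.1.2 (hp.2 ▸ hxH) (hp.2 ▸ hx1')
      exact ⟨hp.1.1, hp.1.2, h1, h2, hp.2⟩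
    have hsmem : ∀ g : G, (hg : g ∈ H) → orderOf g = 2 → (⟨g, S.le hg⟩ : A) ∈ iset A H := fun g hg ho =>
      Finset.mem_filter.2 ⟨mem_kset.2 ⟨hg, fun h1 => by
        have h2 : g = 1 := congrArg Subtype.val h1
        rw [h2, orderOf_one] at ho; omega⟩, ho⟩
    split_ifs with hxI
    · have hxo : orderOf (x : G) = 2 := (Finset.mem_filter.1 hxI).2
      have hbij : P.card = ((iset A H).erase x).card := by
        refine Finset.card_bij (fun p hp => (⟨p.1, S.le (hin p hp).2.2.1⟩ : A)) (fun p hp => ?_) ?_ ?_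
        · obtain ⟨h1, h2, h3, h4, h5⟩ := hin p hp
          refine Finset.mem_erase.2 ⟨fun he => ?_, hsmem _ h3 h1⟩
          have h6 : p.1 = (x : G) := congrArg Subtype.val he
          rw [h6, mul_eq_left] at h5
          rw [h5, orderOf_one] at h2
          omega
        · intro p hp q hq hpq
          have h1 : p.1 = q.1 := congrArg Subtype.val hpq
          exact Prod.ext h1 (mul_left_cancel (a := p.1)
            ((hin p hp).2.2.2.2.trans ((hin q hq).2.2.2.2.symm.trans (by rw [h1]))))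
        · intro s hs
          obtain ⟨hsx, hsI⟩ := Finset.mem_erase.1 hs
          have hso : orderOf (s : G) = 2 := (Finset.mem_filter.1 hsI).2
          have hs2 : (s : G) * s = 1 := by rw [← sq, ← hso, pow_orderOf_eq_one]
          have hsx' : orderOf ((s : G) * x) = 2 := by
            have hc : Commute (s : G) (x : G) := (hcen s hsI _ hxH).symm
            refine orderOf_eq_prime (by rw [hc.mul_pow, sq, hs2, one_mul, ← hxo, pow_orderOf_eq_one]) fun h1 => ?_
            exact hsx (Subtype.ext (mul_left_cancel (h1.trans hs2.symm)).symm)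
          refine ⟨((s : G), (s : G) * x), ?_, rfl⟩
          simp only [hP, hcl, Finset.mem_filter, Finset.mem_product, Finset.mem_univ, true_and]
          exact ⟨⟨hso, hsx'⟩, by rw [← mul_assoc, hs2, one_mul]⟩
      rw [hbij, Finset.card_erase_of_mem hxI, hIc, Nat.cast_sub (by have := S.e_two; omega), Nat.cast_one]
    · rw [Nat.cast_eq_zero, Finset.card_eq_zero, Finset.eq_empty_iff_forall_notMem]
      intro p hp
      obtain ⟨h1, h2, h3, h4, h5⟩ := hin p hp
      refine hxI (Finset.mem_filter.2 ⟨hx, ?_⟩)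
      have hc : Commute p.1 p.2 := (hcen ⟨p.1, S.le h3⟩ (hsmem _ h3 h1) _ h4).symm
      have hp1 : p.1 ^ 2 = 1 := by rw [← h1, pow_orderOf_eq_one]
      have hp2 : p.2 ^ 2 = 1 := by rw [← h2, pow_orderOf_eq_one]
      exact orderOf_eq_prime (by rw [← h5, hc.mul_pow, hp1, hp2, one_mul]) hx1'
  -- the equation for each member
  set dd : ℂ := (e : ℂ) - (D.m : ℂ) * ((h : ℂ) - 1) with hdd
  have hdd0 : dd ≠ 0 := S.dd_ne D
  set C : ℂ := ((e * (h + 1) : ℕ) : ℂ) ^ 2 / (Nat.card G : ℂ) with hC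
  let w : IrrCharacter A → ℂ := fun χ =>
    ((χ : A → ℂ) t + (D.m : ℂ) * (rdeg A H χ : ℂ)) ^ 2 / ((rdeg A H χ : ℂ) * dd)
  set Γ : ℂ := ∑ ψ ∈ ((fam A H).image D.f)ᶜ, (D.c ψ : ℂ) ^ 3 / (ψ : G → ℂ) 1 with hΓ
  set Γ' : ℂ := ∑ χ ∈ fam A H, w χ * (rdeg A H χ : ℂ) * ((e : ℂ) + D.m) + Γ with hΓ'
  have hF : ∀ x ∈ kset A H,
      (if x ∈ iset A H then ((e : ℂ) - 1) else 0) =
        C * (∑ χ ∈ fam A H, w χ * ((χ : A → ℂ) x + (D.m : ℂ) * (rdeg A H χ : ℂ)) + Γ) := by
    intro x hx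
    obtain ⟨hxH, hx1⟩ := mem_kset.1 hx
    rw [← hval x hx, pair_count (t : G) hreal, hclc, S.split_G D, hC, hΓ]
    congr 1
    refine congrArg₂ (· + ·) (Finset.sum_congr rfl fun χ hχ => ?_) (Finset.sum_congr rfl fun ψ hψ => ?_)
    · have h1 := D.restr χ hχ t htk
      have h2 := D.restr χ hχ x hx
      have h3 := S.star_one D hχ
      rw [D.star_eq χ hχ] at h1 h2 h3
      simp only [w]
      rw [← h1, ← h2, hdd, ← h3]
      have hs : D.sgn χ ≠ 0 := fun h0 => by simpa [h0] using (D.sgn_sq χ hχ).1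
      have hone : (D.f χ : G → ℂ) 1 ≠ 0 := Chars.irr_apply_one_ne_zero (D.f χ).2
      field_simp
      linear_combination (-((D.f χ : G → ℂ) t ^ 2 * (D.f χ : G → ℂ) x)) * (D.sgn_sq χ hχ).1
    · rw [D.const ψ (Finset.mem_compl.1 hψ) t htH fun h1 => by rw [h1, orderOf_one] at hto; omega,
        D.const ψ (Finset.mem_compl.1 hψ) x hxH fun h1 => hx1 (Subtype.ext h1)]
      ring
  have hnat : ∀ s ∈ iset A H, ∀ χ : IrrCharacter A, conj ((χ : A → ℂ) s) = (χ : A → ℂ) s := fun s hs χ => by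
    rw [← Chars.char_inv_eq_conj (Chars.irr_isCharacter χ), inv_eq_of_mul_eq_one_right]
    refine Subtype.ext ?_
    push_cast
    rw [← sq, ← (Finset.mem_filter.1 hs).2, pow_orderOf_eq_one]
  have heq : ∀ χ ∈ fam A H, ((e : ℂ) - 1) * e * (χ : A → ℂ) t =
      C * ((h : ℂ) * e * w χ - (e : ℂ) * (rdeg A H χ : ℂ) * Γ') := by
    intro χ hχ
    have hl : ∑ x ∈ kset A H, (if x ∈ iset A H then ((e : ℂ) - 1) else 0) * conj ((χ : A → ℂ) x) =
        ((e : ℂ) - 1) * e * (χ : A → ℂ) t := by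
      simp only [ite_mul, zero_mul]
      rw [← Finset.sum_filter, show (kset A H).filter (fun x => x ∈ iset A H) = iset A H from by
        ext x; simp [iset], Finset.sum_congr rfl (g := fun _ : A => ((e : ℂ) - 1) * (χ : A → ℂ) t) (fun s hs => by
          obtain ⟨g, hg⟩ := hconj t ht s hs
          rw [hnat s hs, ← hg, Chars.isClassFunction_of_isCharacter (Chars.irr_isCharacter χ) t g]),
        Finset.sum_const, hIc, nsmul_eq_mul]
      ring
    have hK : ∑ x ∈ kset A H, conj ((χ : A → ℂ) x) = -((e : ℂ) * (rdeg A H χ : ℂ)) := by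
      rw [← map_sum, S.sum_kset_fam hχ, (S.rdeg_spec hχ).2]
      simp
    rw [← hl, Finset.sum_congr rfl (fun x hx => by rw [hF x hx])]
    simp only [mul_assoc C, ← Finset.mul_sum, add_mul, Finset.sum_mul, Finset.sum_add_distrib]
    congr 1
    rw [Finset.sum_comm]
    have hterm : ∀ ξ ∈ fam A H, ∑ x ∈ kset A H,
        w ξ * ((ξ : A → ℂ) x + (D.m : ℂ) * (rdeg A H ξ : ℂ)) * conj ((χ : A → ℂ) x) =
        (if ξ = χ then (h : ℂ) * e * w ξ else 0) -
          (e : ℂ) * (rdeg A H χ : ℂ) * (w ξ * (rdeg A H ξ : ℂ) * ((e : ℂ) + D.m)) := by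
      intro ξ hξ
      simp only [mul_assoc, ← Finset.mul_sum, add_mul, Finset.sum_add_distrib, hK,
        S.sum_kset_mul hξ hχ, (S.rdeg_spec hξ).2, (S.rdeg_spec hχ).2, map_mul, map_natCast]
      split_ifs <;> ring
    rw [Finset.sum_congr rfl hterm, Finset.sum_sub_distrib, Finset.sum_ite_eq' _ χ, if_pos hχ, ← Finset.mul_sum,
      hK, hΓ']
    ring
  -- both values occur
  have hcol := S.column_u htk
  have hR := S.rsum_three
  have he2 := S.e_two
  obtain ⟨χ₁, hχ₁, hv₁⟩ : ∃ χ ∈ fam A H, (χ : A → ℂ) t = (e : ℂ) * (rdeg A H χ : ℂ) := by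
    by_contra hno
    push Not at hno
    rw [Finset.sum_congr rfl (g := fun χ : IrrCharacter A => -((rdeg A H χ ^ 2 : ℕ) : ℂ)) (fun χ hχ => by
      rw [(value_involution S hIc hcen hconj ht hχ).resolve_left (hno χ hχ)]; push_cast; ring),
      Finset.sum_neg_distrib, ← Nat.cast_sum, neg_inj] at hcol
    have : rsum A H = 1 := by rw [rsum]; exact_mod_cast hcol
    omega
  obtain ⟨χ₂, hχ₂, hv₂⟩ : ∃ χ ∈ fam A H, (χ : A → ℂ) t = -(rdeg A H χ : ℂ) := by
    by_contra hno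
    push Not at hno
    rw [Finset.sum_congr rfl (g := fun χ : IrrCharacter A => (e : ℂ) * ((rdeg A H χ ^ 2 : ℕ) : ℂ)) (fun χ hχ => by
      rw [(value_involution S hIc hcen hconj ht hχ).resolve_right (hno χ hχ)]; push_cast; ring),
      ← Finset.mul_sum, ← Nat.cast_sum] at hcol
    have h1 : ((e * rsum A H + 1 : ℕ) : ℂ) = 0 := by rw [rsum, Nat.cast_add, Nat.cast_mul, hcol]; simp
    exact absurd (Nat.cast_eq_zero.1 h1) (by omega)
  have hd₁ : (rdeg A H χ₁ : ℂ) ≠ 0 := by exact_mod_cast (S.rdeg_spec hχ₁).1.ne'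
  have hd₂ : (rdeg A H χ₂ : ℂ) ≠ 0 := by exact_mod_cast (S.rdeg_spec hχ₂).1.ne'
  have q₁ := heq χ₁ hχ₁
  have q₂ := heq χ₂ hχ₂
  have hw₁ : w χ₁ = (rdeg A H χ₁ : ℂ) * ((e : ℂ) + D.m) ^ 2 / dd := by
    simp only [w, hv₁]; field_simp
  have hw₂ : w χ₂ = (rdeg A H χ₂ : ℂ) * ((D.m : ℂ) - 1) ^ 2 / dd := by
    simp only [w, hv₂]; field_simp; ring
  rw [hw₁, hv₁] at q₁
  rw [hw₂, hv₂] at q₂
  have hh : (h : ℂ) ≠ 0 := by exact_mod_cast S.h_pos.ne'
  have hh1 : (h : ℂ) + 1 ≠ 0 := by exact_mod_cast Nat.succ_ne_zero h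
  have he := S.e_ne
  have hCval : C * h = (e : ℂ) * ((h : ℂ) + 1) := by
    rw [hC, S.card_G]
    push_cast
    field_simp
  clear_value dd C Γ' w
  have r₁ : ((e : ℂ) - 1) * e * dd = C * h * ((e : ℂ) + D.m) ^ 2 - C * Γ' * dd := by
    field_simp at q₁
    linear_combination q₁
  have r₂ : -((e : ℂ) - 1) * dd = C * h * ((D.m : ℂ) - 1) ^ 2 - C * Γ' * dd := by
    field_simp at q₂
    linear_combination q₂
  have hfin : ((e : ℂ) - 1) * dd = (e : ℂ) * ((h : ℂ) + 1) * ((e : ℂ) - 1 + 2 * D.m) := by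
    have he1 : (e : ℂ) + 1 ≠ 0 := by exact_mod_cast Nat.succ_ne_zero e
    refine mul_left_cancel₀ he1 ?_
    linear_combination r₁ - r₂ + ((e : ℂ) + 1) * ((e : ℂ) - 1 + 2 * D.m) * hCval
  have hZ : ((e : ℤ) - 1) * ((e : ℤ) - D.m * ((h : ℤ) - 1)) =
      (e : ℤ) * ((h : ℤ) + 1) * ((e : ℤ) - 1 + 2 * D.m) := by
    rw [hdd] at hfin
    exact_mod_cast hfin
  -- arithmetic
  have hb := S.m_bound D
  have hlt := S.lt
  have e3 : (3 : ℤ) ≤ e := by
    obtain ⟨r, hr⟩ := S.e_odd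
    omega
  have h3 : (2 * e + 2 : ℤ) ≤ h := by omega
  have hR' : (3 : ℤ) ≤ rsum A H := by exact_mod_cast hR
  obtain ⟨k, hk⟩ : ∃ k : ℤ, D.m = -k := ⟨-D.m, by ring⟩
  rw [hk] at hZ hb
  have hkey : k * ((3 * (e : ℤ) - 1) * h + e + 1) = (e : ℤ) * ((e : ℤ) - 1) * h := by linear_combination hZ
  have hpos : 0 < (e : ℤ) * ((e : ℤ) - 1) * h := mul_pos (mul_pos (by omega) (by omega)) (by omega)
  have hden : 0 < (3 * (e : ℤ) - 1) * h + e + 1 := by nlinarith
  have hk0 : 0 < k := by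
    by_contra hneg
    nlinarith [mul_nonpos_iff.2 (Or.inr ⟨not_lt.1 hneg, hden.le⟩)]
  have h3k : (e : ℤ) - 1 ≤ 3 * k := by
    by_contra hneg
    have h5 : k * ((3 * (e : ℤ) - 1) * h + e + 1) ≤ k * (3 * e * h) :=
      mul_le_mul_of_nonneg_left (by nlinarith) hk0.le
    have h6 : 0 < ((e : ℤ) * h) * ((e : ℤ) - 1 - 3 * k) := mul_pos (mul_pos (by omega) (by omega)) (by omega)
    nlinarith
  nlinarith [mul_le_mul_of_nonneg_left hR' (sq_nonneg k), mul_le_mul_of_nonneg_left h3k hk0.le]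

end Cfsg.Agent.Chars.ZassFeit
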