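import Cfsg.Agent.Chars.ZassFeitSmall
import Cfsg.Agent.DegreeGraph.Indicator

/-!
The coherent case of Feit's inequality for a kernel of odd order: the Frobenius-Schur count of
square roots, and the character of degree `e` that it forces.
-/

set_option autoImplicit false
set_option linter.unusedSectionVars false

open scoped Classical ComplexConjugate

namespace Cfsg.Agent.Chars.ZassFeit

open Cfsg

universe u

variable {G : Type u} [Group G] [Fintype G]

/-- The Frobenius-Schur indicator. -/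
noncomputable def ind2 (ψ : G → ℂ) : ℂ := (Nat.card G : ℂ)⁻¹ * ∑ s : G, ψ (s * s)

theorem ind2_cases {ψ : G → ℂ} (hψ : IsIrrCharacter G ψ) :
    ∃ ν : ℤ, ind2 ψ = (ν : ℂ) ∧ |ν| ≤ 1 ∧ (ν ≠ 0 → (fun g => conj (ψ g)) = ψ) := by
  by_cases hr : (fun g => conj (ψ g)) = ψ
  · rcases DegreeGraph.indicator_of_real hψ hr with h | h
    · exact ⟨1, by rw [ind2, h, Int.cast_one], by norm_num, fun _ => hr⟩
    · exact ⟨-1, by rw [ind2, h, Int.cast_neg, Int.cast_one], by norm_num, fun _ => hr⟩
  · refine ⟨0, ?_, by norm_num, fun h => absurd rfl h⟩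
    by_contra h
    exact hr (DegreeGraph.real_of_indicator_ne_zero hψ fun h0 => h (by rw [ind2, h0, mul_zero, Int.cast_zero]))

/-- The number of square roots from the indicators. -/
theorem sqrt_count (g : G) :
    ((Finset.univ.filter fun s : G => s * s = g).card : ℂ) =
      ∑ ψ : IrrCharacter G, ind2 (ψ : G → ℂ) * (ψ : G → ℂ) g := by
  let F : G → ℂ := fun x => ((Finset.univ.filter fun s : G => s * s = x).card : ℂ)
  have hF : IsClassFunction G F := by
    intro x k
    simp only [F]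
    norm_cast
    refine (Finset.card_bij (fun s _ => k * s * k⁻¹) ?_ ?_ ?_).symm
    · intro s hs
      simp only [Finset.mem_filter, Finset.mem_univ, true_and] at hs ⊢
      rw [← hs]; group
    · intro s _ r _ h
      simpa using h
    · intro s hs
      simp only [Finset.mem_filter, Finset.mem_univ, true_and] at hs
      refine ⟨k⁻¹ * s * k, ?_, by group⟩
      simp only [Finset.mem_filter, Finset.mem_univ, true_and]
      calc k⁻¹ * s * k * (k⁻¹ * s * k) = k⁻¹ * (s * s) * k := by group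
        _ = x := by rw [hs]; group
  have hco : ∀ ψ : IrrCharacter G, classInner F (ψ : G → ℂ) = ind2 (ψ : G → ℂ) := by
    intro ψ
    have h2 : ∑ x : G, F x * conj ((ψ : G → ℂ) x) = ∑ s : G, conj ((ψ : G → ℂ) (s * s)) := by
      rw [← Finset.sum_fiberwise' Finset.univ (fun s : G => s * s) (fun x => conj ((ψ : G → ℂ) x))]
      simp [F, nsmul_eq_mul]
    obtain ⟨ν, hν, -⟩ := ind2_cases ψ.2
    rw [Chars.classInner_def, h2, ← map_sum, hν]
    have h3 : conj (ind2 (ψ : G → ℂ)) = (ν : ℂ) := by rw [hν, map_intCast]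
    rw [← h3, ind2, map_mul, map_inv₀, map_natCast]
  have h := congrFun (Chars.eq_sum_classInner hF) g
  rw [Finset.sum_apply] at h
  show F g = _
  rw [h]
  exact Finset.sum_congr rfl fun ψ _ => by rw [Pi.smul_apply, smul_eq_mul, hco]

variable {A H : Subgroup G} [Fintype A] [(H.subgroupOf A).Normal] {h e : ℕ} {St : G → ℂ}
  {star : (A → ℂ) → (G → ℂ)}

/-- The constant `m` vanishes. -/
theorem odd_m_zero (S : Setting A H h e St star) (D : Exc A H star) (hodd : Odd h)
    (hI : (Finset.univ.filter fun x : G => x * x = 1).card = 1 + e * h) : D.m = 0 := by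
  obtain ⟨u, hu, hcen⟩ := S.exists_central
  obtain ⟨huH, hu1⟩ := mem_kset.1 hu
  have hu1' : (u : G) ≠ 1 := fun h => hu1 (Subtype.ext h)
  have hoddA : Odd (Nat.card A) := by rw [S.card_A]; exact hodd.mul S.e_odd
  have hcop : (Nat.card H).Coprime 2 := by rw [S.card_H]; exact (Nat.coprime_two_right).2 hodd
  have hroot : (Finset.univ.filter fun s : G => s * s = (u : G)).card = 1 := by
    have hin : ∀ s : G, s * s = (u : G) → s ∈ H := fun s hs =>
      S.cent u huH hu1' (Subgroup.mem_centralizer_singleton_iff.2 (by rw [← hs]; group))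
    have hbij := (powCoprime (G := H) (n := 2) hcop).bijective
    obtain ⟨⟨s, hsH⟩, hs⟩ := hbij.2 ⟨u, huH⟩
    have hs' : s * s = (u : G) := by
      have := congrArg Subtype.val hs
      simpa [powCoprime, sq] using this
    refine Finset.card_eq_one.2 ⟨s, Finset.eq_singleton_iff_unique_mem.2 ⟨by simp [hs'], fun r hr => ?_⟩⟩
    have hr' : r * r = (u : G) := (Finset.mem_filter.1 hr).2
    have := hbij.1 (a₁ := ⟨r, hin r hr'⟩) (a₂ := ⟨s, hsH⟩) (Subtype.ext (by
      simp [powCoprime, sq, hs', hr']))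
    exact congrArg Subtype.val this
  choose ν hν hν1 hνr using fun ψ : IrrCharacter G => ind2_cases ψ.2
  choose l hl hlpos using lmult_nat S.toBase
  set N := ((fam A H).image D.f)ᶜ with hN
  -- the exceptional characters are not real
  have hexc : ∀ χ ∈ fam A H, ν (D.f χ) = 0 := by
    intro χ hχ
    by_contra hne
    have hr := hνr _ hne
    have hconj : Cfsg.conjFun (χ : A → ℂ) = (χ : A → ℂ) := by
      funext x
      show conj ((χ : A → ℂ) x) = _
      by_cases hx1 : x = 1
      · rw [hx1, Chars.irr_apply_one_conj (Chars.irr_isCharacter χ)]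
      by_cases hxH : (x : G) ∈ H
      · have h1 := D.restr χ hχ x (mem_kset.2 ⟨hxH, hx1⟩)
        rw [D.star_eq χ hχ] at h1
        have h2 : (χ : A → ℂ) x = D.sgn χ * (D.f χ : G → ℂ) x - (D.m : ℂ) * (rdeg A H χ : ℂ) := by
          linear_combination -h1
        rw [h2, map_sub, map_mul, map_mul, map_intCast, map_natCast, (D.sgn_sq χ hχ).2, congrFun hr x]
      · rw [S.fam_out hχ hxH, map_zero]
    exact OddChar.frob_conj_ne hoddA S.cent' (mem_fam.1 hχ) hconj
  -- the two counts
  have c1 := sqrt_count (G := G) 1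
  have cu := sqrt_count (G := G) (u : G)
  rw [hI, S.split_G D, Finset.sum_eq_zero (fun χ hχ => by rw [hν, hexc χ hχ, Int.cast_zero, zero_mul]),
    zero_add] at c1
  rw [hroot, S.split_G D, Finset.sum_eq_zero (fun χ hχ => by rw [hν, hexc χ hχ, Int.cast_zero, zero_mul]),
    zero_add] at cu
  have hdiff : ∀ ψ ∈ N, (ψ : G → ℂ) 1 - (ψ : G → ℂ) u = (h : ℂ) * ((l ψ : ℂ) - (D.c ψ : ℂ)) := by
    intro ψ hψ
    have hψ' := Finset.mem_compl.1 hψ
    have h1 := S.sum_H (Chars.isClassFunction_of_isCharacter (Chars.irr_isCharacter ψ))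
    rw [Finset.sum_congr rfl (fun (x : A) hx => D.const ψ hψ' x (mem_kset.1 hx).1
      (fun h => (mem_kset.1 hx).2 (Subtype.ext h))), S.sum_kset_const, hl] at h1
    rw [D.const ψ hψ' u huH hu1']
    linear_combination h1
  have hh0 : (h : ℂ) ≠ 0 := by exact_mod_cast S.h_pos.ne'
  have hsum : (∑ ψ ∈ N, ν ψ * ((l ψ : ℤ) - D.c ψ)) = (e : ℤ) := by
    have h1 : (h : ℂ) * ((∑ ψ ∈ N, ν ψ * ((l ψ : ℤ) - D.c ψ) : ℤ) : ℂ) = (h : ℂ) * ((e : ℤ) : ℂ) := by
      push_cast at c1 cu ⊢
      rw [Finset.mul_sum, Finset.sum_congr rfl (g := fun ψ : IrrCharacter G =>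
        ind2 (ψ : G → ℂ) * (ψ : G → ℂ) 1 - ind2 (ψ : G → ℂ) * (ψ : G → ℂ) u) (fun ψ hψ => by
          rw [← mul_sub, hdiff ψ hψ, hν]; ring), Finset.sum_sub_distrib, ← c1, ← cu]
      ring
    exact_mod_cast mul_left_cancel₀ hh0 h1
  set one : IrrCharacter G := ⟨fun _ => 1, Chars.isIrrCharacter_one⟩ with hone
  set st : IrrCharacter G := ⟨St, S.st_irr⟩ with hst
  have honeN : one ∈ N := Finset.mem_compl.2 fun hmem => by
    obtain ⟨χ, hχ, hf⟩ := Finset.mem_image.1 hmem
    obtain ⟨a, -, b, -, -, -, hab⟩ := D.exc_nonconst χ hχ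
    rw [hf] at hab
    exact hab rfl
  have hstN : st ∈ N := Finset.mem_compl.2 fun hmem => by
    obtain ⟨χ, hχ, hf⟩ := Finset.mem_image.1 hmem
    obtain ⟨a, ha, b, hb, ha1, hb1, hab⟩ := D.exc_nonconst χ hχ
    rw [hf] at hab
    exact hab (show St a = St b by rw [S.st_H a ha ha1, S.st_H b hb hb1])
  have hne : one ≠ st := fun h => by
    have h1 : (1 : ℂ) = St u := congrFun (congrArg Subtype.val h) u
    rw [S.st_H u huH hu1'] at h1
    exact one_ne_zero h1
  have hbound : ∀ ψ ∈ N, |(l ψ : ℤ) - D.c ψ| ≤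
      D.c ψ ^ 2 + (if ψ = st then 1 else 0) - (if ψ = one then 1 else 0) := by
    intro ψ hψ
    have hψ' := Finset.mem_compl.1 hψ
    have hd := hdiff ψ hψ
    have hc : (ψ : G → ℂ) u = (D.c ψ : ℂ) := D.const ψ hψ' u huH hu1'
    by_cases h1 : ψ = one
    · subst h1
      have h9 : (one : G → ℂ) u = 1 := rfl
      have h10 : (one : G → ℂ) 1 = 1 := rfl
      rw [h9] at hc
      have hc1 : D.c one = 1 := by exact_mod_cast hc.symm
      have hl1 : (l one : ℂ) = 1 := by
        rw [h10, hc1, Int.cast_one, sub_self, eq_comm, mul_eq_zero, sub_eq_zero] at hd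
        exact hd.resolve_left hh0
      have hl1' : l one = 1 := by exact_mod_cast hl1
      rw [if_pos rfl, if_neg hne, hc1, hl1']
      norm_num
    by_cases h2 : ψ = st
    · subst h2
      have hc0 : D.c st = 0 := by exact_mod_cast hc.symm.trans (S.st_H u huH hu1')
      have hl1 : (l st : ℂ) = 1 := by
        rw [hc, show (st : G → ℂ) 1 = St 1 from rfl, S.st_one, hc0, Int.cast_zero, sub_zero, sub_zero] at hd
        exact mul_left_cancel₀ hh0 (hd.symm.trans (mul_one _).symm)
      have hl1' : l st = 1 := by exact_mod_cast hl1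
      rw [if_pos rfl, if_neg h1, hc0, hl1']
      norm_num
    rw [if_neg h1, if_neg h2]
    by_cases hl0 : lmult A H (ψ : G → ℂ) = 0
    · have hl0' : l ψ = 0 := by rw [hl] at hl0; exact_mod_cast hl0
      have hsq := Int.natAbs_le_self_sq (D.c ψ)
      rw [hl0', Nat.cast_zero, zero_sub, abs_neg, Int.abs_eq_natAbs]
      omega
    obtain ⟨φ, hφ, hne0⟩ := Finset.exists_ne_zero_of_sum_ne_zero hl0
    rcases S.ind_out_cases (Finset.mem_filter.1 hφ).2 ψ.2 hne0 with ⟨-, h3 | h3⟩ | ⟨hφ1, h3⟩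
    · exact absurd (Subtype.ext h3) h1
    · exact absurd (Subtype.ext h3) h2
    have hφ' := (Finset.mem_filter.1 hφ).2
    have hc1 : D.c ψ = 1 := by
      have := (S.ind_lin φ φ.2 (fun h => hφ' (mem_fam.2 h)) hφ1).2 u huH hu1'
      rw [← h3, hc] at this
      exact_mod_cast this
    have hl2 : (l ψ : ℂ) = 2 := by
      rw [hc, h3, lin_ind_one S.toBase hφ', hc1] at hd
      push_cast at hd
      refine mul_left_cancel₀ hh0 ?_
      linear_combination -hd
    have hl2' : l ψ = 2 := by exact_mod_cast hl2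
    rw [hc1, hl2']
    norm_num
  have hle : (e : ℤ) ≤ ∑ ψ ∈ N, D.c ψ ^ 2 := by
    have h1 : (e : ℤ) ≤ ∑ ψ ∈ N, |(l ψ : ℤ) - D.c ψ| := by
      rw [← hsum]
      refine Finset.sum_le_sum fun ψ _ => (le_abs_self _).trans ?_
      rw [abs_mul]
      exact mul_le_of_le_one_left (abs_nonneg _) (hν1 ψ)
    have h2 := h1.trans (Finset.sum_le_sum hbound)
    rw [Finset.sum_sub_distrib, Finset.sum_add_distrib, Finset.sum_ite_eq' N st, if_pos hstN,
      Finset.sum_ite_eq' N one, if_pos honeN, add_sub_cancel_right] at h2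
    exact h2
  rw [hN, S.sum_sq_const D] at hle
  have hR : (3 : ℤ) ≤ rsum A H := by exact_mod_cast S.rsum_three
  rcases lt_trichotomy D.m 0 with hm | hm | hm
  · nlinarith
  · exact hm
  · nlinarith [mul_le_mul_of_nonneg_left hR (sq_nonneg D.m)]

/-- The coherent case is impossible for a kernel of odd order. -/
theorem odd_false (S : Setting A H h e St star) (D : Exc A H star) (hodd : Odd h)
    (hI : (Finset.univ.filter fun x : G => x * x = 1).card = 1 + e * h) : False := by
  have hm := odd_m_zero S D hodd hI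
  have hlt := S.lt
  have he2 := S.e_two
  haveI := OddChar.frob_nilpotent (H.subgroupOf A) S.cent' S.sub_ne_top
  obtain ⟨ψ₁, hψ₁, hdeg⟩ := OddChar.exists_linear_above (H.subgroupOf A) inferInstance ⊥
    (Ne.bot_lt S.sub_ne_bot)
  have hirr : IsIrrCharacter A ψ₁ := by
    rw [OddChar.frob_indAbove_eq S.cent'] at hψ₁; exact hψ₁.1
  set χ : IrrCharacter A := ⟨ψ₁, hirr⟩ with hχdef
  have hχ : χ ∈ fam A H := mem_fam.2 hψ₁
  have hd1 : rdeg A H χ = 1 := by
    rw [rdeg]
    show OddChar.deg ψ₁ / _ = 1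
    rw [hdeg, Nat.div_self (Nat.pos_of_ne_zero Subgroup.index_ne_zero_of_finite)]
  set X : G → ℂ := (D.f χ : G → ℂ) with hX
  have hX1 : X 1 = (e : ℂ) := by
    have h1 := S.star_one D hχ
    rw [hd1, hm, D.star_eq χ hχ, ← hX] at h1
    simp only [Nat.cast_one, Int.cast_zero, zero_mul, sub_zero, one_mul] at h1
    obtain ⟨n, hn0, hn⟩ := Chars.exists_irr_apply_one_eq (D.f χ).2
    rw [← hX] at hn
    rcases mul_self_eq_one_iff.1 (D.sgn_sq χ hχ).1 with h2 | h2
    · rwa [h2, one_mul] at h1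
    · rw [h2, neg_one_mul, hn] at h1
      have h3 : ((n + e : ℕ) : ℂ) = 0 := by push_cast; linear_combination -h1
      exact absurd (Nat.cast_eq_zero.1 h3) (by omega)
  have hXc := Chars.irr_isCharacter (D.f χ)
  rw [← hX] at hXc
  have hXcl := Chars.isClassFunction_of_isCharacter hXc
  exact small_degree_false S.toBase (hirr := (D.f χ).2) hX1
    fun φ hφ => S.ind_orth_of_nonconst (D.f χ).2 (D.exc_nonconst χ hχ) hφ

end Cfsg.Agent.Chars.ZassFeit
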