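import Cfsg.Agent.Chars.ZassFeitEven
import Cfsg.Agent.Chars.ZassFeitOdd
import Cfsg.Agent.PermGroups.ZassenhausOdd
import Cfsg.Agent.S0157
import Cfsg.Agent.S0190
import Cfsg.Agent.S0878
import Cfsg.Agent.S0882
import Cfsg.Agent.S1534
import Cfsg.Agent.OddChar.ZassInduced

/-!
Feit's inequality for Zassenhaus groups with two-point stabilisers of odd order: the simple case and
the reduction to it.
-/

set_option autoImplicit false
set_option linter.unusedSectionVars false

open scoped Classical ComplexConjugate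

namespace Cfsg.Agent.Chars.ZassFeit

open Cfsg MulAction
open scoped commutatorElement

universe u v

variable {G : Type u} [Group G] [Fintype G] {Ω : Type v} [MulAction G Ω] [Fintype Ω]

/-- The centraliser of a kernel element lies in the kernel. -/
theorem centralizer_le_kernel (hZ : IsZassenhausGroup G Ω) {a : Ω} (H : Subgroup G)
    (hHa : H ≤ stabilizer G a) (hHcard : Nat.card H + 1 = Fintype.card Ω)
    (hHfix : ∀ u ∈ H, u ≠ 1 → ∀ c : Ω, u • c = c → c = a) :
    ∀ u ∈ H, u ≠ 1 → Subgroup.centralizer ({u} : Set G) ≤ H := by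
  obtain ⟨-, -, hKmem⟩ := PermGroups.kernel_props hZ hHa hHcard hHfix
  intro u hu hu1 c hc
  have hcu : c * u = u * c := Subgroup.mem_centralizer_singleton_iff.1 hc
  have hua : u • a = a := mem_stabilizer_iff.1 (hHa hu)
  have hca : c • a = a := hHfix u hu hu1 _ (by rw [← mul_smul, ← hcu, mul_smul, hua])
  by_cases hall : ∀ y, y ≠ a → c • y ≠ y
  · exact hKmem c hca hall
  push Not at hall
  obtain ⟨y, hy, hcy⟩ := hall
  have hne : u • y ≠ y := fun he => hy (hHfix u hu hu1 y he)
  have hne' : u • y ≠ a := fun he => hy (smul_left_cancel u (he.trans hua.symm))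
  have h1 : c = 1 := hZ.2.2.1 c a y (u • y) hy.symm hne.symm hne'.symm hca hcy
    (by rw [← mul_smul, hcu, mul_smul, hcy])
  rw [h1]; exact H.one_mem

/-- The order of the point stabiliser and of the group. -/
theorem card_eqs (hZ : IsZassenhausGroup G Ω) {a b : Ω} (hab : a ≠ b) {h e : ℕ}
    (hh : Fintype.card Ω = h + 1)
    (he : Nat.card ↥(stabilizer G a ⊓ stabilizer G b : Subgroup G) = e) :
    Nat.card (stabilizer G a) = h * e ∧ Nat.card G = (h + 1) * (h * e) := by
  haveI := hZ.2.1
  haveI : IsPretransitive G Ω := isPretransitive_of_is_two_pretransitive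
  have horb : orbit (stabilizer G a) b = ({a} : Set Ω)ᶜ := Set.ext fun z =>
    ⟨fun ⟨g, hg⟩ hz => hab.symm (smul_left_cancel (g : G)
        ((hg.trans hz).trans (mem_stabilizer_iff.1 g.2).symm)),
      fun hz => by
        obtain ⟨g, hga, hgb⟩ := is_two_pretransitive_iff.1 hZ.2.1 hab (Ne.symm (by simpa using hz : z ≠ a))
        exact ⟨⟨g, hga⟩, hgb⟩⟩
  have h2' := (stabilizer (stabilizer G a) b).card_mul_index
  rw [index_stabilizer, horb, Set.ncard_compl, Set.ncard_singleton, Nat.card_eq_fintype_card (α := Ω), hh,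
    Nat.add_sub_cancel] at h2'
  have he' : Nat.card (stabilizer (stabilizer G a) b) = e := by
    rw [← he]
    exact Nat.card_congr
      { toFun := fun g => ⟨g.1.1, g.1.2, g.2⟩
        invFun := fun g => ⟨⟨g.1, g.2.1⟩, g.2.2⟩
        left_inv := fun g => rfl
        right_inv := fun g => rfl }
  have h3 := (stabilizer G a).card_mul_index
  rw [index_stabilizer, orbit_eq_univ, Set.ncard_univ, Nat.card_eq_fintype_card (α := Ω), hh] at h3
  refine ⟨by rw [← h2', he', mul_comm], ?_⟩
  rw [← h3, ← h2', he']; ring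

/-- The group-theoretical hypotheses in a simple group. -/
theorem exists_base (hZ : IsZassenhausGroup G Ω) {a b : Ω} (hab : a ≠ b) [IsSimpleGroup G] (h e : ℕ)
    (hh : Fintype.card Ω = h + 1) (he : Nat.card ↥(stabilizer G a ⊓ stabilizer G b : Subgroup G) = e)
    (hodd : Odd e) (hlt : 2 * e < h - 1) (H : Subgroup G) (hHa : H ≤ stabilizer G a)
    (hHcard : Nat.card H + 1 = Fintype.card Ω) (hHfix : ∀ u ∈ H, u ≠ 1 → ∀ c : Ω, u • c = c → c = a)
    [Fintype (stabilizer G a)] [(H.subgroupOf (stabilizer G a)).Normal] :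
    ∃ St, Base (stabilizer G a) H h e St := by
  obtain ⟨-, hreg, hKmem⟩ := PermGroups.kernel_props hZ hHa hHcard hHfix
  have hcent := centralizer_le_kernel hZ H hHa hHcard hHfix
  obtain ⟨hAcard, hGcard⟩ := card_eqs hZ hab hh he
  have hHh : Nat.card H = h := by omega
  have hK : Nat.card (H.subgroupOf (stabilizer G a)) = h := by
    rw [Nat.card_congr (Subgroup.subgroupOfEquivOfLe hHa).toEquiv, hHh]
  have hidx : (H.subgroupOf (stabilizer G a)).index = e := by
    have h1 := (H.subgroupOf (stabilizer G a)).card_mul_index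
    rw [hK, hAcard] at h1
    exact Nat.eq_of_mul_eq_mul_left (by omega) h1
  haveI := hZ.2.1
  haveI : IsPretransitive G Ω := isPretransitive_of_is_two_pretransitive
  -- `(stabilizer G a)` modulo `H` is commutative
  have hcomm : commutator (stabilizer G a) ≤ H.subgroupOf (stabilizer G a) := by
    haveI hcyc : IsCyclic ↥(stabilizer G a ⊓ stabilizer G b : Subgroup G) :=
      (S0739.result hZ hab (he ▸ hodd) (PermGroups.no_complement_of_simple hZ hab)).1
    set q := QuotientGroup.mk' (H.subgroupOf (stabilizer G a))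
    have hrep : ∀ x : (stabilizer G a), ∃ d : ↥(stabilizer G a ⊓ stabilizer G b : Subgroup G),
        q x = q ⟨(d : G), d.2.1⟩ := by
      intro x
      have hxb : (x : G) • b ≠ a := fun e1 =>
        hab.symm (smul_left_cancel (x : G) (e1.trans (mem_stabilizer_iff.1 x.2).symm))
      obtain ⟨u, hu, -⟩ := hreg b ((x : G) • b) hab.symm hxb
      have hua : (u : G) • a = a := mem_stabilizer_iff.1 (hHa u.2)
      refine ⟨⟨(u : G)⁻¹ * x, ?_, ?_⟩, ?_⟩
      · show (u : G)⁻¹ * x ∈ stabilizer G a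
        exact mul_mem (inv_mem (hHa u.2)) x.2
      · show ((u : G)⁻¹ * x) • b = b
        rw [mul_smul, ← hu, inv_smul_smul]
      · refine (QuotientGroup.mk'_eq_mk' _).2 ⟨x⁻¹ * (⟨u, hHa u.2⟩ : (stabilizer G a))⁻¹ * x, ?_, ?_⟩
        · exact (inferInstance : (H.subgroupOf (stabilizer G a)).Normal).conj_mem' _
            (inv_mem (Subgroup.mem_subgroupOf.2 u.2)) x
        · refine Subtype.ext ?_
          simp [mul_assoc]
    rw [commutator_def, Subgroup.commutator_le]
    intro x _ y _
    refine (QuotientGroup.eq_one_iff _).1 ?_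
    show q ⁅x, y⁆ = 1
    obtain ⟨d, hd⟩ := hrep x
    obtain ⟨d', hd'⟩ := hrep y
    rw [map_commutatorElement, hd, hd', ← map_commutatorElement]
    refine (QuotientGroup.eq_one_iff _).2 ?_
    rw [show ⁅(⟨(d : G), d.2.1⟩ : (stabilizer G a)), (⟨(d' : G), d'.2.1⟩ : (stabilizer G a))⁆ = 1 from ?_]
    · exact one_mem _
    refine commutatorElement_eq_one_iff_mul_comm.2 (Subtype.ext ?_)
    exact congrArg (fun z : ↥(stabilizer G a ⊓ stabilizer G b : Subgroup G) => (z : G)) ((IsCyclic.commGroup (α := ↥(stabilizer G a ⊓ stabilizer G b : Subgroup G))).mul_comm d d')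
  have hC' : ∀ k ∈ H.subgroupOf (stabilizer G a), k ≠ 1 → Subgroup.centralizer ({k} : Set (stabilizer G a)) ≤ H.subgroupOf (stabilizer G a) := by
    intro k hk hk1 x hx
    refine Subgroup.mem_subgroupOf.mpr (hcent k (Subgroup.mem_subgroupOf.mp hk)
      (fun h => hk1 (Subtype.ext h)) ?_)
    rw [Subgroup.mem_centralizer_singleton_iff] at hx ⊢
    exact congrArg Subtype.val hx
  have hlin : ∀ φ : (stabilizer G a) → ℂ, IsIrrCharacter (stabilizer G a) φ → φ ∉ inducedIrrAbove (H.subgroupOf (stabilizer G a)) ⊥ →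
      φ 1 = 1 ∧ ∀ x : (stabilizer G a), (x : G) ∈ H → φ x = 1 := by
    intro φ hφ hno
    rw [OddChar.frob_indAbove_eq hC'] at hno
    simp only [Set.mem_setOf_eq, not_and, not_exists, not_not] at hno
    have hconst : ∀ m ∈ H.subgroupOf (stabilizer G a), φ m = φ 1 := fun m hm => hno hφ m hm
    have h1 : φ 1 = 1 := by
      rw [OddChar.deg_spec (Chars.isCharacter_of_isIrr hφ),
        OddChar.irr_deg_one_of_commutator_le hφ (fun m hm => hconst m (hcomm hm)), Nat.cast_one]
    exact ⟨h1, fun x hx => by rw [hconst x (Subgroup.mem_subgroupOf.2 hx), h1]⟩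
  have hind : ∀ φ : (stabilizer G a) → ℂ, IsIrrCharacter (stabilizer G a) φ → φ ∉ inducedIrrAbove (H.subgroupOf (stabilizer G a)) ⊥ →
      φ ≠ (fun _ => 1) →
      IsIrrCharacter G (indFun (stabilizer G a) φ) ∧ ∀ u ∈ H, u ≠ 1 → indFun (stabilizer G a) φ u = 1 := fun φ hφ hno hne =>
    OddChar.zass_induced hZ hab (he ▸ hodd) H hHa hHcard hHfix φ
      ⟨Chars.isCharacter_of_isIrr hφ, (hlin φ hφ hno).1⟩ (hlin φ hφ hno).2 hne
  -- the permutation character
  have hperm := S0190.result (G := G) Ω a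
  set St : G → ℂ := fun g => (Nat.card (fixedBy Ω g) : ℂ) - 1 with hSt
  have hStirr : IsIrrCharacter G St := (S0157.result Ω (by
    rw [Nat.card_eq_fintype_card, hh]; omega)).2 hZ.2.1
  have hSt1 : St 1 = (h : ℂ) := by
    simp only [hSt]
    rw [show fixedBy Ω (1 : G) = Set.univ from Set.eq_univ_of_forall fun z => one_smul G z,
      Nat.card_coe_set_eq, Set.ncard_univ, Nat.card_eq_fintype_card, hh]
    push_cast; ring
  have hStH : ∀ u ∈ H, u ≠ 1 → St u = 0 := fun u hu hu1 => by
    simp only [hSt]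
    rw [show fixedBy Ω u = {a} from Set.ext fun z => ⟨fun hz => hHfix u hu hu1 z hz, fun hz => by
      rw [Set.mem_singleton_iff.1 hz]; exact mem_stabilizer_iff.1 (hHa hu)⟩,
      Nat.card_coe_set_eq, Set.ncard_singleton]
    simp
  have hStind : indFun (stabilizer G a) (fun _ => (1 : ℂ)) = (fun _ => 1) + St := by
    rw [← hperm]
    funext g
    simp [hSt]
  have he2 : 2 ≤ e := by
    obtain ⟨x, hx, hx1⟩ := PermGroups.exists_ne_one_twoStabilizer hZ hab
    haveI : Nontrivial ↥(stabilizer G a ⊓ stabilizer G b : Subgroup G) :=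
      ⟨⟨⟨x, hx⟩, 1, fun e1 => hx1 (congrArg Subtype.val e1)⟩⟩
    rw [← he]; exact Finite.one_lt_card
  exact ⟨St, hHa, hcent, (S0878.result hZ a H hHa hHcard hHfix).1, hHh, hidx, hGcard, hodd, he2, hlt, hlin, hind,
    hStirr, hSt1, hStH, hStind⟩

/-- An involution fixing the point lies in the kernel. -/
theorem involution_mem_kernel (hZ : IsZassenhausGroup G Ω) {a b : Ω} (hab : a ≠ b) [IsSimpleGroup G]
    (hoddE : Odd (Nat.card ↥(stabilizer G a ⊓ stabilizer G b : Subgroup G))) (H : Subgroup G)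
    (hHa : H ≤ stabilizer G a) (hHcard : Nat.card H + 1 = Fintype.card Ω)
    (hHfix : ∀ u ∈ H, u ≠ 1 → ∀ c : Ω, u • c = c → c = a) :
    ∀ t : G, orderOf t = 2 → t • a = a → t ∈ H := by
  obtain ⟨-, -, hKmem⟩ := PermGroups.kernel_props hZ hHa hHcard hHfix
  exact fun t ht hta =>
    hKmem t hta fun z hz e' => hz (PermGroups.involution_one_fixed hZ hab hoddE ht hta e').symm

/-- The involutions of a kernel of even order: `e` of them, conjugate under the stabiliser, central. -/
theorem even_facts (hZ : IsZassenhausGroup G Ω) {a b : Ω} (hab : a ≠ b) [IsSimpleGroup G] (h e : ℕ)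
    (hh : Fintype.card Ω = h + 1) (he : Nat.card ↥(stabilizer G a ⊓ stabilizer G b : Subgroup G) = e)
    (hodd : Odd e) (hlt : 2 * e < h - 1) (H : Subgroup G) (hHa : H ≤ stabilizer G a)
    (hHcard : Nat.card H + 1 = Fintype.card Ω) (hHfix : ∀ u ∈ H, u ≠ 1 → ∀ c : Ω, u • c = c → c = a)
    [Fintype (stabilizer G a)] [(H.subgroupOf (stabilizer G a)).Normal] (hev : Even h) {St : G → ℂ}
    (S : Base (stabilizer G a) H h e St) :
    (Finset.univ.filter fun x : G => orderOf x = 2).card = e * (h + 1) ∧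
      (iset (stabilizer G a) H).card = e ∧
      (∀ s : stabilizer G a, s ∈ iset (stabilizer G a) H → ∀ k ∈ H, k * (s : G) = (s : G) * k) ∧
      (∀ s ∈ iset (stabilizer G a) H, ∀ r ∈ iset (stabilizer G a) H,
        ∃ g : stabilizer G a, g * s * g⁻¹ = r) ∧
      ∀ s : stabilizer G a, s ∈ iset (stabilizer G a) H ↔ orderOf (s : G) = 2 := by
  obtain ⟨hinv, hIcard⟩ := S0882.result hZ hab h e hh he hodd hlt
  rw [Nat.card_eq_fintype_card, Fintype.card_subtype, if_pos hev] at hIcard
  have hoddE : Odd (Nat.card ↥(stabilizer G a ⊓ stabilizer G b : Subgroup G)) := he ▸ hodd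
  have hinH := involution_mem_kernel hZ hab hoddE H hHa hHcard hHfix
  have hImem : ∀ s : (stabilizer G a), s ∈ iset (stabilizer G a) H ↔ orderOf (s : G) = 2 := by
    intro s
    refine ⟨fun hs => (Finset.mem_filter.1 hs).2, fun ho => Finset.mem_filter.2 ⟨mem_kset.2
      ⟨hinH _ ho (mem_stabilizer_iff.1 s.2), fun h1 => ?_⟩, ho⟩⟩
    rw [h1, OneMemClass.coe_one, orderOf_one] at ho
    omega
  have hmove := PermGroups.card_involution_moving hZ hab hoddE
  rw [he, hh, Nat.add_sub_cancel] at hmove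
  have hIc : (iset (stabilizer G a) H).card = e := by
    set I := Finset.univ.filter fun t : G => orderOf t = 2 with hIdef
    have h1 : (iset (stabilizer G a) H).card = (I.filter fun t => t • a = a).card := by
      refine Finset.card_bij (fun s _ => (s : G)) (fun s hs => ?_) (fun s _ r _ e1 => Subtype.ext e1)
        (fun t ht => ?_)
      · simp only [hIdef, Finset.mem_filter, Finset.mem_univ, true_and]
        exact ⟨(hImem s).1 hs, mem_stabilizer_iff.1 s.2⟩
      · simp only [hIdef, Finset.mem_filter, Finset.mem_univ, true_and] at ht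
        exact ⟨⟨t, mem_stabilizer_iff.2 ht.2⟩, (hImem _).2 ht.1, rfl⟩
    have h2 : (I.filter fun t => ¬ t • a = a).card = h * e := by
      rw [← hmove, hIdef, Finset.filter_filter, Nat.card_eq_fintype_card, Fintype.card_subtype]
    have h3 := Finset.card_filter_add_card_filter_not (s := I) (fun t => t • a = a)
    rw [h2, ← h1, hIdef, hIcard] at h3
    nlinarith
  have hconj : ∀ s ∈ iset (stabilizer G a) H, ∀ r ∈ iset (stabilizer G a) H, ∃ g : (stabilizer G a), g * s * g⁻¹ = r := by
    intro s hs r hr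
    obtain ⟨k, hk⟩ := isConj_iff.1 (PermGroups.involution_isConj hZ hab hoddE ((hImem s).1 hs) ((hImem r).1 hr))
    have hka : k • a = a := by
      refine PermGroups.involution_one_fixed hZ hab hoddE ((hImem r).1 hr) ?_ (mem_stabilizer_iff.1 r.2)
      rw [← hk, mul_smul, mul_smul, inv_smul_smul, mem_stabilizer_iff.1 s.2]
    exact ⟨⟨k, mem_stabilizer_iff.2 hka⟩, Subtype.ext hk⟩
  -- the involutions of the kernel are central in it
  obtain ⟨z, hz, hzc⟩ : ∃ z ∈ iset (stabilizer G a) H, ∀ k ∈ H, k * (z : G) = (z : G) * k := by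
    haveI := OddChar.frob_nilpotent (H.subgroupOf (stabilizer G a)) S.cent' S.sub_ne_top
    haveI : Fact (Nat.Prime 2) := ⟨Nat.prime_two⟩
    obtain ⟨P⟩ : Nonempty (Sylow 2 (H.subgroupOf (stabilizer G a))) := inferInstance
    haveI : (P : Subgroup (H.subgroupOf (stabilizer G a))).Normal := inferInstance
    have hPne : (P : Subgroup (H.subgroupOf (stabilizer G a))) ≠ ⊥ :=
      P.ne_bot_of_dvd_card (by rw [S.card_sub]; exact even_iff_two_dvd.1 hev)
    obtain ⟨x, hxP, hx1, hxc⟩ := OddLocal.exists_ne_one_mem_center_of_normal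
      (P : Subgroup (H.subgroupOf (stabilizer G a))) hPne
    obtain ⟨k, hk⟩ := IsPGroup.iff_orderOf.1 P.isPGroup' ⟨x, hxP⟩
    rw [Subgroup.orderOf_mk] at hk
    have hk0 : k ≠ 0 := fun h0 => hx1 (orderOf_eq_one_iff.1 (by rw [hk, h0, pow_zero]))
    set z := x ^ 2 ^ (k - 1) with hzdef
    have hzo : orderOf z = 2 := by
      rw [hzdef, orderOf_pow_of_dvd (by positivity) (by rw [hk]; exact pow_dvd_pow 2 (by omega)), hk,
        Nat.pow_div (by omega) (by omega)]
      rw [show k - (k - 1) = 1 by omega, pow_one]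
    refine ⟨(z : (stabilizer G a)), (hImem _).2 ?_, fun w hw => ?_⟩
    · rw [Subgroup.orderOf_coe, Subgroup.orderOf_coe, hzo]
    · exact congrArg (fun y : H.subgroupOf (stabilizer G a) => ((y : (stabilizer G a)) : G))
        (Subgroup.mem_center_iff.1 (Subgroup.pow_mem _ hxc _) ⟨⟨w, hHa hw⟩, hw⟩)
  have hcen : ∀ s : (stabilizer G a), s ∈ iset (stabilizer G a) H → ∀ k ∈ H, k * (s : G) = (s : G) * k := by
    intro s hs k hk
    obtain ⟨g, hg⟩ := hconj z hz s hs
    have hconjH : (g : G)⁻¹ * k * (g : G) ∈ H := by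
      have h1 := (inferInstance : (H.subgroupOf (stabilizer G a)).Normal).conj_mem' ⟨k, hHa hk⟩
        (Subgroup.mem_subgroupOf.2 hk) g
      exact Subgroup.mem_subgroupOf.1 h1
    have h2 := hzc _ hconjH
    rw [← hg]
    push_cast
    calc k * ((g : G) * z * (g : G)⁻¹) = (g : G) * (((g : G)⁻¹ * k * g) * z) * (g : G)⁻¹ := by group
      _ = (g : G) * ((z : G) * ((g : G)⁻¹ * k * g)) * (g : G)⁻¹ := by rw [h2]
      _ = _ := by group
  exact ⟨hIcard, hIc, hcen, hconj, hImem⟩

/-- Coherence is impossible. -/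
theorem coherent_false (hZ : IsZassenhausGroup G Ω) {a b : Ω} (hab : a ≠ b) [IsSimpleGroup G] (h e : ℕ)
    (hh : Fintype.card Ω = h + 1) (he : Nat.card ↥(stabilizer G a ⊓ stabilizer G b : Subgroup G) = e)
    (hodd : Odd e) (hlt : 2 * e < h - 1) (H : Subgroup G) (hHa : H ≤ stabilizer G a)
    (hHcard : Nat.card H + 1 = Fintype.card Ω) (hHfix : ∀ u ∈ H, u ≠ 1 → ∀ c : Ω, u • c = c → c = a)
    (A : Subgroup G) [Fintype A] (hA : A = stabilizer G a) [(H.subgroupOf A).Normal]
    (hcoh : IsCoherent (inducedIrrAbove (H.subgroupOf A) ⊥) {1}ᶜ (fun α : A → ℂ => indFun A α)) :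
    False := by
  subst hA
  obtain ⟨-, star, hiso, hext⟩ := hcoh
  obtain ⟨St, hB⟩ := exists_base hZ hab h e hh he hodd hlt H hHa hHcard hHfix
  have S : Setting (stabilizer G a) H h e St star := ⟨hB, hiso, hext⟩
  obtain ⟨D⟩ := S.exists_exc
  obtain ⟨hinv, hIcard⟩ := S0882.result hZ hab h e hh he hodd hlt
  rw [Nat.card_eq_fintype_card, Fintype.card_subtype] at hIcard
  have hoddE : Odd (Nat.card ↥(stabilizer G a ⊓ stabilizer G b : Subgroup G)) := he ▸ hodd
  by_cases hev : Even h
  · rw [if_pos hev] at hIcard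
    obtain ⟨-, hIc, hcen, hconj, -⟩ := even_facts hZ hab h e hh he hodd hlt H hHa hHcard hHfix hev hB
    have hinH := involution_mem_kernel hZ hab hoddE H hHa hHcard hHfix
    refine even_false S D hinv hIcard hIc hcen hconj fun x y hx hy hxy hxy1 => ?_
    have hxx : x * x = 1 := by rw [← sq, ← hx, pow_orderOf_eq_one]
    have hyy : y * y = 1 := by rw [← sq, ← hy, pow_orderOf_eq_one]
    have hua : (x * y) • a = a := mem_stabilizer_iff.1 (hHa hxy)
    have hxa : x • a = a := by
      refine hHfix _ hxy hxy1 (x • a) ?_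
      have e2 : x * y * x * (x * y) = x := by
        calc x * y * x * (x * y) = x * y * (x * x) * y := by group
          _ = x * (y * y) := by rw [hxx]; group
          _ = x := by rw [hyy, mul_one]
      conv_rhs => rw [← e2]
      rw [mul_smul (x * y * x) (x * y) a, hua, mul_smul (x * y) x a]
    have hya : y • a = a := by
      rw [show y = x * (x * y) by rw [← mul_assoc, hxx, one_mul], mul_smul x (x * y) a, hua, hxa]
    exact ⟨hinH x hx hxa, hinH y hy hya⟩
  · rw [if_neg hev] at hIcard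
    refine odd_false S D (Nat.not_even_iff_odd.1 hev) ?_
    have hsplit : (Finset.univ.filter fun x : G => x * x = 1) =
        insert 1 (Finset.univ.filter fun x : G => orderOf x = 2) := by
      ext x
      simp only [Finset.mem_filter, Finset.mem_univ, true_and, Finset.mem_insert]
      constructor
      · intro hx
        by_cases hx1 : x = 1
        · exact Or.inl hx1
        · exact Or.inr (orderOf_eq_prime (by rw [sq]; exact hx) hx1)
      · rintro (rfl | hx)
        · exact one_mul 1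
        · rw [← sq, ← hx, pow_orderOf_eq_one]
    rw [hsplit, Finset.card_insert_of_notMem (by simp), hIcard, add_comm]

/-- The simple case. -/
theorem simple_case (hZ : IsZassenhausGroup G Ω) {a b : Ω} (hab : a ≠ b) [IsSimpleGroup G] (h e : ℕ)
    (hh : Fintype.card Ω = h + 1) (he : Nat.card ↥(stabilizer G a ⊓ stabilizer G b : Subgroup G) = e)
    (hodd : Odd e) (hlt : 2 * e < h - 1) (H : Subgroup G) (hHa : H ≤ stabilizer G a)
    (hHcard : Nat.card H + 1 = Fintype.card Ω) (hHfix : ∀ u ∈ H, u ≠ 1 → ∀ c : Ω, u • c = c → c = a) :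
    IsPGroup 2 H ∧ (∃ u v : H, u * v ≠ v * u) ∧ (commutator H).index ≤ 4 * e ^ 2 + 1 := by
  obtain ⟨hTI, hN⟩ := S0878.result hZ a H hHa hHcard hHfix
  have hcent := centralizer_le_kernel hZ H hHa hHcard hHfix
  haveI : Fintype ↥(Subgroup.normalizer (H : Set G)) := Fintype.ofFinite _
  haveI : (H.subgroupOf (Subgroup.normalizer (H : Set G))).Normal := Subgroup.normal_in_normalizer
  have hC' : ∀ k ∈ H.subgroupOf (Subgroup.normalizer (H : Set G)), k ≠ 1 →
      Subgroup.centralizer ({k} : Set ↥(Subgroup.normalizer (H : Set G))) ≤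
        H.subgroupOf (Subgroup.normalizer (H : Set G)) := by
    intro k hk hk1 x hx
    exact hcent k hk (fun e => hk1 (Subtype.ext e)) (Subgroup.mem_centralizer_singleton_iff.mpr
      (congrArg Subtype.val (Subgroup.mem_centralizer_singleton_iff.mp hx)))
  have hfalse : IsCoherent (inducedIrrAbove (H.subgroupOf (Subgroup.normalizer (H : Set G))) ⊥) {1}ᶜ
      (fun α => indFun (Subgroup.normalizer (H : Set G)) α) → False :=
    coherent_false hZ hab h e hh he hodd hlt H hHa hHcard hHfix _ hN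
  obtain ⟨hAcard, -⟩ := card_eqs hZ hab hh he
  have hK : Nat.card (H.subgroupOf (Subgroup.normalizer (H : Set G))) = Nat.card H :=
    Nat.card_congr (Subgroup.subgroupOfEquivOfLe Subgroup.le_normalizer).toEquiv
  have hidx : (H.subgroupOf (Subgroup.normalizer (H : Set G))).index = e := by
    have h1 := (H.subgroupOf (Subgroup.normalizer (H : Set G))).card_mul_index
    rw [hK, show Nat.card ↥(Subgroup.normalizer (H : Set G)) = h * e by rw [hN, hAcard],
      show Nat.card H = h by omega] at h1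
    exact Nat.eq_of_mul_eq_mul_left (by omega) h1
  have hne1 : e ≠ 0 := fun h0 => by rw [h0] at hodd; exact absurd hodd (by decide)
  have hKtop : H.subgroupOf (Subgroup.normalizer (H : Set G)) ≠ ⊤ := fun ht => by
    rw [ht, Subgroup.index_top] at hidx
    obtain ⟨x, hx, hx1⟩ := PermGroups.exists_ne_one_twoStabilizer hZ hab
    haveI : Nontrivial ↥(stabilizer G a ⊓ stabilizer G b : Subgroup G) :=
      ⟨⟨⟨x, hx⟩, 1, fun e1 => hx1 (congrArg Subtype.val e1)⟩⟩
    have : 1 < e := by rw [← he]; exact Finite.one_lt_card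
    omega
  have hH1 : H ≠ ⊥ := fun hb => by rw [hb, Subgroup.card_bot] at hHcard; omega
  have hTI' : IsTISubset (H : Set G) := fun g hg x hx hgx => hTI g (hN ▸ hg) x hx hgx
  by_cases hcm : ∀ x ∈ H, ∀ y ∈ H, x * y = y * x
  · exfalso
    obtain ⟨h1, h2⟩ := OddChar.ti_isometry H (Subgroup.normalizer (H : Set G)) Subgroup.le_normalizer hTI' rfl
    rcases OddChar.frob_abelian_case (H.subgroupOf (Subgroup.normalizer (H : Set G)))
      (fun hb => hH1 (by rw [← Subgroup.map_subgroupOf_eq_of_le (Subgroup.le_normalizer (H := H)), hb,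
        Subgroup.map_bot])) hC'
      (fun x hx y hy => Subtype.ext (hcm x hx y hy)) _ h1 h2 with ⟨-, c2⟩ | hc
    · rw [hK, hidx] at c2; omega
    · exact hfalse hc
  have hnil : Group.IsNilpotent H := by
    haveI := OddChar.frob_nilpotent _ hC' hKtop
    exact Group.nilpotent_of_mulEquiv (Subgroup.subgroupOfEquivOfLe Subgroup.le_normalizer)
  have hset : {χ : ↥(Subgroup.normalizer (H : Set G)) → ℂ |
      IsIrrCharacter ↥(Subgroup.normalizer (H : Set G)) χ ∧
        ∃ k : ↥(Subgroup.normalizer (H : Set G)), (k : G) ∈ H ∧ χ k ≠ χ 1} =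
      inducedIrrAbove (H.subgroupOf (Subgroup.normalizer (H : Set G))) ⊥ :=
    (OddChar.frob_indAbove_eq (K := H.subgroupOf (Subgroup.normalizer (H : Set G))) hC').symm
  rcases S1534.result H hH1 hnil hTI'
    (lt_of_le_of_ne Subgroup.le_normalizer fun he1 => hKtop (Subgroup.subgroupOf_eq_top.2 he1.ge)) hcent
    with ⟨-, -, p, -, hel⟩ | ⟨hc, hi⟩ | hcoh
  · exact absurd (fun x hx y hy => congrArg Subtype.val (hel.1.is_comm.comm ⟨x, hx⟩ ⟨y, hy⟩)) hcm
  · refine ⟨IsPGroup.of_card hc, ?_, ?_⟩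
    · push Not at hcm
      obtain ⟨x, hx, y, hy, hxy⟩ := hcm
      exact ⟨⟨x, hx⟩, ⟨y, hy⟩, fun e1 => hxy (congrArg Subtype.val e1)⟩
    · have hcomm : ⁅H, H⁆.subgroupOf H = commutator H := by
        apply Subgroup.map_injective (Subgroup.subtype_injective H)
        rw [Subgroup.map_subgroupOf_eq_of_le (Subgroup.commutator_le_self H), commutator_def,
          Subgroup.map_commutator, ← MonoidHom.range_eq_map, Subgroup.range_subtype]
      rw [hcomm, hidx] at hi
      omega
  · rw [hset] at hcoh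
    exact (hfalse hcoh).elim

/-- With a kernel of odd order the inequality always holds. -/
theorem odd_case : ∀ (n : ℕ) (G : Type u) [Group G] [Fintype G] [MulAction G Ω], Nat.card G = n →
    IsZassenhausGroup G Ω → ∀ {a b : Ω}, a ≠ b → ∀ (h e : ℕ), Fintype.card Ω = h + 1 →
    Nat.card ↥(stabilizer G a ⊓ stabilizer G b : Subgroup G) = e → Odd e → Odd h →
    ∀ (H : Subgroup G), H ≤ stabilizer G a → Nat.card H + 1 = Fintype.card Ω →
    (∀ u ∈ H, u ≠ 1 → ∀ c : Ω, u • c = c → c = a) → h - 1 ≤ 2 * e := by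
  intro n
  induction n using Nat.strong_induction_on with
  | _ n ih =>
  intro G _ _ _ hn hZ a b hab h e hh he hodd hoh H hHa hHcard hHfix
  by_contra hlt
  push Not at hlt
  by_cases hs : IsSimpleGroup G
  · obtain ⟨hP, -, -⟩ := simple_case hZ hab h e hh he hodd hlt H hHa hHcard hHfix
    haveI : Fact (Nat.Prime 2) := ⟨Nat.prime_two⟩
    obtain ⟨k, hk⟩ := IsPGroup.iff_card.1 hP
    rcases Nat.eq_zero_or_pos k with hk0 | hk0
    · rw [hk0, pow_zero] at hk; omega
    · have : 2 ∣ h := by
        rw [show h = Nat.card H by omega, hk]; exact dvd_pow_self 2 hk0.ne'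
      exact hoh.not_two_dvd_nat this
  haveI : Nontrivial G := by
    obtain ⟨g, hg, -⟩ := hZ.2.2.2.1
    exact ⟨⟨g, 1, hg⟩⟩
  obtain ⟨N, hN, hN1, hNt⟩ : ∃ N : Subgroup G, N.Normal ∧ N ≠ ⊥ ∧ N ≠ ⊤ := by
    by_contra hno
    push Not at hno
    exact hs ⟨fun N hN => or_iff_not_imp_left.2 (hno N hN)⟩
  haveI := hN
  haveI := hZ.1
  have hZN := Suzuki.zas_of_normal hZ N hN1
  obtain ⟨-, hker, -, -⟩ := Suzuki.zas_normal hZ N hN1
  have hHN : H ≤ N := fun u hu => hker a u (mem_stabilizer_iff.1 (hHa hu)) (or_iff_not_imp_left.2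
    fun hu1 z hz e1 => hz (hHfix u hu hu1 z e1))
  let φ : ↥(stabilizer N a ⊓ stabilizer N b : Subgroup N) → ↥(stabilizer G a ⊓ stabilizer G b : Subgroup G) :=
    fun x => ⟨((x : N) : G), x.2.1, x.2.2⟩
  set d := Nat.card ↥(stabilizer N a ⊓ stabilizer N b : Subgroup N) with hd
  have hdvd : d ∣ e := by
    rw [← he, hd, Nat.card_congr (Subgroup.equivMapOfInjective
      (stabilizer N a ⊓ stabilizer N b : Subgroup N) N.subtype N.subtype_injective).toEquiv]
    refine Subgroup.card_dvd_of_le ?_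
    rintro _ ⟨x, hx, rfl⟩
    exact ⟨hx.1, hx.2⟩
  have hcardlt : Nat.card N < n := by
    rw [← hn]
    exact lt_of_le_of_ne (Subgroup.card_le_card_group N) fun e1 => hNt (Subgroup.eq_top_of_card_eq N e1)
  haveI : Fintype N := Fintype.ofFinite N
  have h1 := ih (Nat.card N) hcardlt N rfl hZN hab h d hh hd.symm (hodd.of_dvd_nat hdvd) hoh
    (H.subgroupOf N) (fun u hu => hHa (Subgroup.mem_subgroupOf.1 hu))
    (by rw [Nat.card_congr (Subgroup.subgroupOfEquivOfLe hHN).toEquiv, hHcard])
    (fun u hu hu1 c hc => hHfix u (Subgroup.mem_subgroupOf.1 hu) (fun e1 => hu1 (Subtype.ext e1)) c hc)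
  have h2 : d ≤ e := Nat.le_of_dvd (by rcases hodd with ⟨r, hr⟩; omega) hdvd
  omega

end Cfsg.Agent.Chars.ZassFeit
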