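import Cfsg.Agent.Chars.ZassFeit

/-!
The characters induced from the linear characters of the stabiliser, and the impossibility of an
irreducible character of degree `e` orthogonal to them.
-/

set_option autoImplicit false
set_option linter.unusedSectionVars false

open scoped Classical ComplexConjugate

namespace Cfsg.Agent.Chars.ZassFeit

open Cfsg

universe u

variable {G : Type u} [Group G] [Fintype G]

variable {A H : Subgroup G} [Fintype A] [(H.subgroupOf A).Normal] {h e : ℕ} {St : G → ℂ}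

/-- The value of an induced linear character at one. -/
theorem lin_ind_one (S : Base A H h e St) {φ : IrrCharacter A} (hφ : φ ∉ fam A H) :
    indFun A (φ : A → ℂ) 1 = ((h + 1 : ℕ) : ℂ) := by
  rw [Chars.indFun_apply_one, S.index_A, S.out_one hφ, mul_one]

/-- A natural number form of the multiplicity of the trivial character of the kernel. -/
theorem lmult_nat (S : Base A H h e St) (ψ : IrrCharacter G) :
    ∃ l : ℕ, lmult A H (ψ : G → ℂ) = l ∧
      ∀ φ : IrrCharacter A, φ ∉ fam A H → (ψ : G → ℂ) = indFun A (φ : A → ℂ) → 1 ≤ l := by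
  have hn : ∀ φ : IrrCharacter A, ∃ n : ℕ, classInner (ψ : G → ℂ) (indFun A (φ : A → ℂ)) = n := fun φ =>
    Chars.exists_classInner_eq_nat (Chars.irr_isCharacter ψ) (Chars.isCharacter_indFun A (Chars.irr_isCharacter φ))
  choose n hn using hn
  refine ⟨∑ φ ∈ (Finset.univ : Finset (IrrCharacter A)).filter (fun φ => φ ∉ fam A H), n φ, ?_, fun φ hφ he => ?_⟩
  · rw [lmult, Nat.cast_sum]; exact Finset.sum_congr rfl fun φ _ => hn φ
  · have h1 : n φ = 1 := by
      have h2 := hn φ
      rw [← he, Chars.classInner_self_irr ψ.2] at h2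
      exact_mod_cast h2.symm
    rw [← h1]
    exact Finset.single_le_sum (f := n) (fun _ _ => Nat.zero_le _) (Finset.mem_filter.2 ⟨Finset.mem_univ _, hφ⟩)

/-- The induced nontrivial linear characters: at least `(e - 1) / 2` of them, each irreducible of
degree `h + 1`. -/
theorem exists_ones (S : Base A H h e St) :
    ∃ O : Finset (IrrCharacter G), e ≤ 2 * O.card + 1 ∧
      (∀ z ∈ O, (z : G → ℂ) 1 = ((h + 1 : ℕ) : ℂ) ∧ (∀ u ∈ H, u ≠ 1 → (z : G → ℂ) u = 1) ∧
        ∃ φ : IrrCharacter A, φ ∉ fam A H ∧ (φ : A → ℂ) ≠ (fun _ => 1) ∧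
          (z : G → ℂ) = indFun A (φ : A → ℂ)) ∧
      ∀ ψ : IrrCharacter G, lmult A H (ψ : G → ℂ) ≠ 0 →
        (ψ : G → ℂ) = (fun _ => 1) ∨ (ψ : G → ℂ) = St ∨ ψ ∈ O := by
  set one : IrrCharacter G := ⟨fun _ => 1, Chars.isIrrCharacter_one⟩ with hone
  -- the induced linear characters
  set L := (Finset.univ : Finset (IrrCharacter A)).filter (fun φ => φ ∉ fam A H ∧ (φ : A → ℂ) ≠ fun _ => 1)
    with hL
  have hLc : L.card + 1 = e := by
    have h1 : L = ((Finset.univ : Finset (IrrCharacter A)).filter (fun φ => φ ∉ fam A H)).erase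
        (⟨fun _ => 1, Chars.isIrrCharacter_one⟩ : IrrCharacter A) := by
      ext φ
      simp only [hL, Finset.mem_filter, Finset.mem_univ, true_and, Finset.mem_erase, ne_eq, Subtype.ext_iff]
      tauto
    rw [h1, Finset.card_erase_of_mem (Finset.mem_filter.2 ⟨Finset.mem_univ _, S.one_notMem⟩ : _ ∈ (Finset.univ : Finset (IrrCharacter A)).filter (fun φ => φ ∉ fam A H)), S.card_out]
    have := S.e_two
    omega
  let ζ : IrrCharacter A → IrrCharacter G := fun φ =>
    if hp : IsIrrCharacter G (indFun A (φ : A → ℂ)) then ⟨_, hp⟩ else one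
  have hζ : ∀ φ ∈ L, (ζ φ : G → ℂ) = indFun A (φ : A → ℂ) := by
    intro φ hφ
    obtain ⟨-, hφ1, hφ2⟩ := Finset.mem_filter.1 hφ
    simp only [ζ, dif_pos (S.ind_lin φ φ.2 (fun h => hφ1 (mem_fam.2 h)) hφ2).1]
  obtain ⟨u, hu, -⟩ := S.exists_central
  obtain ⟨huH, hu1⟩ := mem_kset.1 hu
  have hu1' : (u : G) ≠ 1 := fun h => hu1 (Subtype.ext h)
  -- each is induced from at most two of them
  have hfib : L.card ≤ 2 * (L.image ζ).card := by
    refine Finset.card_le_mul_card_image _ 2 fun z hz => ?_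
    obtain ⟨φ₀, hφ₀, rfl⟩ := Finset.mem_image.1 hz
    obtain ⟨-, hφ1, hφ2⟩ := Finset.mem_filter.1 hφ₀
    have hval := (S.ind_lin φ₀ φ₀.2 (fun h => hφ1 (mem_fam.2 h)) hφ2).2
    have h1 := S.sum_H (Chars.isClassFunction_of_isCharacter (Chars.irr_isCharacter (ζ φ₀)))
    rw [hζ φ₀ hφ₀, lin_ind_one S hφ1, Finset.sum_congr rfl (fun (x : A) hx => hval x (mem_kset.1 hx).1
      (fun h => (mem_kset.1 hx).2 (Subtype.ext h))), S.sum_kset_const] at h1
    have hh0 : (h : ℂ) ≠ 0 := by exact_mod_cast S.h_pos.ne'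
    have hl : lmult A H (indFun A (φ₀ : A → ℂ)) = 2 := by
      push_cast at h1
      refine mul_left_cancel₀ hh0 ?_
      linear_combination -h1
    choose k hk using fun φ : IrrCharacter A => Chars.exists_classInner_eq_nat
      (Chars.irr_isCharacter (ζ φ₀)) (Chars.isCharacter_indFun A (Chars.irr_isCharacter φ))
    rw [lmult, ← hζ φ₀ hφ₀, Finset.sum_congr rfl (fun φ _ => hk φ), ← Nat.cast_sum] at hl
    have hl' : ∑ φ ∈ (Finset.univ : Finset (IrrCharacter A)).filter (fun φ => φ ∉ fam A H), k φ = 2 := by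
      exact_mod_cast hl
    rw [← hl', Finset.card_eq_sum_ones]
    refine (Finset.sum_le_sum fun φ hφ => ?_).trans (Finset.sum_le_sum_of_subset ?_)
    · obtain ⟨hφL, he⟩ := Finset.mem_filter.1 hφ
      have h2 := hk φ
      rw [← hζ φ hφL, he, Chars.classInner_self_irr (ζ φ₀).2] at h2
      exact (show (1 : ℕ) = k φ by exact_mod_cast h2).le
    · intro φ hφ
      exact Finset.mem_filter.2 ⟨Finset.mem_univ _, (Finset.mem_filter.1 (Finset.mem_filter.1 hφ).1).2.1⟩
  refine ⟨L.image ζ, by omega, fun z hz => ?_, fun ψ hψ => ?_⟩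
  · obtain ⟨φ, hφ, rfl⟩ := Finset.mem_image.1 hz
    obtain ⟨-, hφ1, hφ2⟩ := Finset.mem_filter.1 hφ
    refine ⟨by rw [hζ φ hφ, lin_ind_one S hφ1], fun w hw hw1 => ?_, φ, hφ1, hφ2, hζ φ hφ⟩
    rw [hζ φ hφ]
    exact (S.ind_lin φ φ.2 (fun h => hφ1 (mem_fam.2 h)) hφ2).2 w hw hw1
  · obtain ⟨φ, hφ, hne0⟩ := Finset.exists_ne_zero_of_sum_ne_zero hψ
    have hφ' := (Finset.mem_filter.1 hφ).2
    rcases S.ind_out_cases hφ' ψ.2 hne0 with ⟨-, h3 | h3⟩ | ⟨hφ1, h3⟩
    · exact Or.inl h3
    · exact Or.inr (Or.inl h3)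
    · have hL' : φ ∈ L := Finset.mem_filter.2 ⟨Finset.mem_univ _, hφ', hφ1⟩
      exact Or.inr (Or.inr (Finset.mem_image.2 ⟨φ, hL', Subtype.ext ((hζ φ hL').trans h3.symm)⟩))

/-- There is no irreducible character of degree `e` orthogonal to the induced linear characters. -/
theorem small_degree_false (S : Base A H h e St) {X : G → ℂ} (hirr : IsIrrCharacter G X)
    (hX1 : X 1 = (e : ℂ))
    (hXorth : ∀ φ : IrrCharacter A, φ ∉ fam A H → classInner X (indFun A (φ : A → ℂ)) = 0) :
    False := by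
  have hlt := S.lt
  have he2 := S.e_two
  have hXc := Chars.isCharacter_of_isIrr hirr
  have hXcl := Chars.isClassFunction_of_isCharacter hXc
  obtain ⟨O, hOc, hO, -⟩ := exists_ones S
  have hXout : ∀ a : A, (a : G) ∉ H → X a = 0 := by
    intro a ha
    have h1 := congrFun (Chars.eq_sum_classInner (G := A) (f := fun b : A => X b)
      (fun x g => hXcl x g)) a
    rw [Finset.sum_apply] at h1
    rw [h1]
    refine Finset.sum_eq_zero fun φ _ => ?_
    rw [Pi.smul_apply, smul_eq_mul]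
    by_cases hφ : φ ∈ fam A H
    · rw [S.fam_out hφ ha, mul_zero]
    · rw [← Chars.classInner_indFun_right A _ hXcl, hXorth φ hφ, zero_mul]
  set Φ : G → ℂ := fun g => X g * conj (X g) with hΦ
  have hΦc : IsCharacter G Φ := Chars.isCharacter_mul hXc (Chars.isCharacter_star hXc)
  have hΦcl := Chars.isClassFunction_of_isCharacter hΦc
  obtain ⟨n, hn, hΦeq⟩ := Chars.exists_eq_sum_nsmul hΦc
  set one : IrrCharacter G := ⟨fun _ => 1, Chars.isIrrCharacter_one⟩ with hone
  have hn1 : n one = 1 := by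
    have h1 := hn one
    have h2 : classInner Φ (one : G → ℂ) = classInner X X := by
      rw [Chars.classInner_def, Chars.classInner_def]
      simp [Φ, hone]
    rw [h2, Chars.classInner_self_irr hirr] at h1
    exact_mod_cast h1.symm
  -- each is a constituent of `Φ`
  have hΦind : ∀ φ : IrrCharacter A, φ ∉ fam A H →
      classInner Φ (indFun A (φ : A → ℂ)) = classInner Φ (indFun A (fun _ : A => (1 : ℂ))) := by
    intro φ hφ
    rw [Chars.classInner_indFun_right A _ hΦcl, Chars.classInner_indFun_right A _ hΦcl, Chars.classInner_def,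
      Chars.classInner_def]
    congr 1
    refine Finset.sum_congr rfl fun a _ => ?_
    by_cases ha : (a : G) ∈ H
    · rw [S.out_apply hφ ha]
    · simp [Φ, hXout a ha]
  have hge : ∀ z ∈ O, 1 ≤ n z ∧ (z : G → ℂ) 1 = ((h + 1 : ℕ) : ℂ) ∧ z ≠ one := by
    intro z hz
    obtain ⟨hz1, -, φ, hφ1, -, hζφ⟩ := hO z hz
    refine ⟨?_, hz1, fun he => ?_⟩
    · obtain ⟨k, hk⟩ := Chars.exists_classInner_eq_nat hΦc (Chars.isCharacter_of_isIrr S.st_irr)
      have h1 := hn z
      rw [hζφ, hΦind φ hφ1, S.st_ind, Chars.classInner_add_right, hk,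
        show classInner Φ (fun _ => (1 : ℂ)) = (n one : ℂ) from hn one, hn1] at h1
      have h2 : 1 + k = n z := by exact_mod_cast h1
      omega
    · rw [he] at hz1
      rw [show (one : G → ℂ) 1 = 1 from rfl] at hz1
      have h2 : (1 : ℕ) = h + 1 := by exact_mod_cast hz1
      omega
  -- degrees
  have hdegs : (e * e : ℕ) = ∑ z : IrrCharacter G, n z * OddChar.deg (z : G → ℂ) := by
    have h1 := congrFun hΦeq 1
    rw [Finset.sum_apply, show Φ 1 = ((e * e : ℕ) : ℂ) by simp [Φ, hX1]] at h1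
    have h2 : ((e * e : ℕ) : ℂ) = ((∑ z : IrrCharacter G, n z * OddChar.deg (z : G → ℂ) : ℕ) : ℂ) := by
      rw [h1]
      push_cast
      refine Finset.sum_congr rfl fun z _ => ?_
      rw [Pi.smul_apply, nsmul_eq_mul, OddChar.deg_spec (Chars.irr_isCharacter z)]
    exact_mod_cast h2
  have hlow : 1 + (O).card * (h + 1) ≤ e * e := by
    rw [hdegs, ← Finset.add_sum_erase _ _ (Finset.mem_univ one)]
    refine Nat.add_le_add ?_ ?_
    · rw [hn1, one_mul]
      exact OddChar.deg_pos_irr one.2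
    · rw [← smul_eq_mul]
      refine le_trans (Finset.card_nsmul_le_sum _ (fun z : IrrCharacter G => n z * OddChar.deg (z : G → ℂ)) _
        fun z hz => ?_) (Finset.sum_le_sum_of_subset fun z hz => Finset.mem_erase.2 ⟨(hge z hz).2.2, Finset.mem_univ _⟩)
      obtain ⟨hz1, hz2, -⟩ := hge z hz
      rw [OddChar.deg_spec (Chars.irr_isCharacter z)] at hz2
      have hz3 : OddChar.deg (z : G → ℂ) = h + 1 := by exact_mod_cast hz2
      rw [hz3]
      exact Nat.le_mul_of_pos_left _ hz1
  have hle : (e - 1) * (h + 1) ≤ 2 * (O.card * (h + 1)) := by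
    rw [← mul_assoc]; exact Nat.mul_le_mul_right _ (by omega)
  obtain ⟨e', rfl⟩ : ∃ e', e = e' + 1 := ⟨e - 1, by omega⟩
  simp only [Nat.add_sub_cancel] at hle
  have h7 : 2 * e' + 5 ≤ h + 1 := by omega
  have h8 := Nat.mul_le_mul_left e' h7
  nlinarith [h8, hlow, hle]

end Cfsg.Agent.Chars.ZassFeit
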