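import Cfsg.Agent.Suzuki.Zassenhaus
import Cfsg.Agent.PermGroups.ZassenhausSimple

/-!
The kernel of a point stabiliser of a Zassenhaus group, in the two forms used for Feit's theorem.
-/

set_option autoImplicit false
set_option linter.unusedSectionVars false

namespace Cfsg.Agent.Chars.ZassFeit

open MulAction

variable {G Ω : Type*} [Group G] [Finite G] [MulAction G Ω] [Fintype Ω]

/-- A regular subgroup of the point stabiliser has order one less than the degree. -/
theorem card_regular {a : Ω} {U : Subgroup G} (hUa : U ≤ stabilizer G a) {b : Ω} (hb : b ≠ a)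
    (hreg : ∀ y z : Ω, y ≠ a → z ≠ a → ∃! u : U, (u : G) • y = z) :
    Nat.card U + 1 = Fintype.card Ω := by
  classical
  have hne : ∀ u : U, (u : G) • b ≠ a := fun u e =>
    hb (smul_left_cancel (u : G) (e.trans (mem_stabilizer_iff.1 (hUa u.2)).symm))
  have hbij : Function.Bijective (fun u : U => (⟨(u : G) • b, hne u⟩ : {y : Ω // y ≠ a})) :=
    ⟨fun u v e => (hreg b ((v : G) • b) hb (hne v)).unique (congrArg Subtype.val e) rfl, fun y => by
      obtain ⟨u, hu, -⟩ := hreg b y.1 hb y.2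
      exact ⟨u, Subtype.ext hu⟩⟩
  rw [Nat.card_eq_of_bijective _ hbij, Nat.card_eq_fintype_card, Fintype.card_subtype_compl,
    Fintype.card_subtype_eq]
  have : 0 < Fintype.card Ω := Fintype.card_pos_iff.2 ⟨a⟩
  omega

/-- Elements of a regular subgroup other than the identity fix only the point. -/
theorem fix_regular {a : Ω} {U : Subgroup G}
    (hreg : ∀ y z : Ω, y ≠ a → z ≠ a → ∃! u : U, (u : G) • y = z) :
    ∀ u ∈ U, u ≠ 1 → ∀ c : Ω, u • c = c → c = a := by
  intro u hu hu1 c hc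
  by_contra hca
  exact hu1 (congrArg Subtype.val
    ((hreg c c hca hca).unique (y₁ := ⟨u, hu⟩) (y₂ := (1 : U)) hc (one_smul G c)))

/-- The kernel of a point stabiliser. -/
theorem exists_kernel (hZ : Cfsg.IsZassenhausGroup G Ω) (a : Ω) :
    ∃ H : Subgroup G, H ≤ stabilizer G a ∧ (H.subgroupOf (stabilizer G a)).Normal ∧
      (∀ y z : Ω, y ≠ a → z ≠ a → ∃! u : H, (u : G) • y = z) ∧
      Nat.card H + 1 = Fintype.card Ω ∧ ∀ u ∈ H, u ≠ 1 → ∀ c : Ω, u • c = c → c = a := by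
  classical
  obtain ⟨hfaith, h2, h3, hfix, -⟩ := id hZ
  haveI := hfaith
  obtain ⟨L, hLa, hLn, hLmem, hLtr⟩ := Suzuki.zas_kernel h2 h3 (Suzuki.three_le_card (G := G) hfix) a
  have hfree : ∀ l ∈ L, ∀ y, y ≠ a → l • y = y → l = 1 := fun l hl y hy e =>
    ((hLmem l).1 hl).2.resolve_right fun h => h y hy e
  have hreg : ∀ y z : Ω, y ≠ a → z ≠ a → ∃! u : L, (u : G) • y = z := by
    intro y z hy hz
    obtain ⟨l, hl, e⟩ := hLtr y z hy hz
    refine ⟨⟨l, hl⟩, e, fun u hu => ?_⟩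
    refine (inv_mul_eq_one.1 (Subtype.ext (hfree _ ((⟨l, hl⟩ : L)⁻¹ * u).2 y hy ?_))).symm
    show (l⁻¹ * (u : G)) • y = y
    rw [mul_smul, show (u : G) • y = z from hu, ← e, inv_smul_smul]
  obtain ⟨b, hb⟩ : ∃ b : Ω, b ≠ a := by
    obtain ⟨-, -, p, q, hpq, -, -⟩ := hfix
    by_cases hp : p = a
    · exact ⟨q, fun e => hpq (hp.trans e.symm)⟩
    · exact ⟨p, hp⟩
  refine ⟨L, hLa, ⟨fun n hn g => ?_⟩, hreg, card_regular hLa hb hreg, fix_regular hreg⟩
  exact Subgroup.mem_subgroupOf.2 (hLn g g.2 n (Subgroup.mem_subgroupOf.1 hn))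

end Cfsg.Agent.Chars.ZassFeit
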