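import Cfsg.Agent.Chars.ZassFeitSmall
import Cfsg.Agent.Chars.ZassFeitEven
import Cfsg.Agent.Chars.ZassFeitOdd
import Cfsg.Agent.OddChar.IrrCoherence

/-!
A family of members of equal degree with one further member: the exceptional characters of the
family and the shape of the values of all irreducible characters on the kernel.
-/

set_option autoImplicit false
set_option linter.unusedSectionVars false

open scoped Classical ComplexConjugate

namespace Cfsg.Agent.Chars.ZassFeit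

open Cfsg

universe u

variable {G : Type u} [Group G] [Fintype G]

/-- The elements of the kernel of order other than one and two. -/
noncomputable def hset (A H : Subgroup G) [Fintype A] : Finset A :=
  (kset A H).filter fun s => ¬ orderOf (s : G) = 2

/-- The characters of a family, as functions. -/
def fset {X : Type u} [Group X] (F : Finset (IrrCharacter X)) : Set (X → ℂ) :=
  {φ | ∃ χ ∈ F, φ = (χ : X → ℂ)}

variable {A H : Subgroup G} [Fintype A] [(H.subgroupOf A).Normal] {h e : ℕ} {St : G → ℂ}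

theorem kset_split {M : Type*} [AddCommMonoid M] (f : A → M) :
    ∑ x ∈ kset A H, f x = ∑ x ∈ hset A H, f x + ∑ x ∈ iset A H, f x := by
  rw [hset, iset, add_comm, Finset.sum_filter_add_sum_filter_not]

/-- `F` and `χ'` make up the family. -/
structure PairData (A H : Subgroup G) [Fintype A] (F : Finset (IrrCharacter A))
    (χ' : IrrCharacter A) : Prop where
  sub : F ⊆ fam A H
  mem' : χ' ∈ fam A H
  notMem : χ' ∉ F
  cover : ∀ χ ∈ fam A H, χ ∈ F ∨ χ = χ'
  two : 2 ≤ F.card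
  deg_eq : ∀ χ ∈ F, ∀ ξ ∈ F, (χ : A → ℂ) 1 = (ξ : A → ℂ) 1

theorem PairData.sum_fam {F : Finset (IrrCharacter A)} {χ' : IrrCharacter A} (P : PairData A H F χ')
    {M : Type*} [AddCommMonoid M] (f : IrrCharacter A → M) :
    ∑ χ ∈ fam A H, f χ = ∑ χ ∈ F, f χ + f χ' := by
  have h1 : fam A H = insert χ' F := by
    ext χ
    refine ⟨fun hχ => ?_, fun hχ => ?_⟩
    · rcases P.cover χ hχ with h | h
      · exact Finset.mem_insert_of_mem h
      · exact h ▸ Finset.mem_insert_self _ _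
    · rcases Finset.mem_insert.1 hχ with h | h
      · exact h ▸ P.mem'
      · exact P.sub h
  rw [h1, Finset.sum_insert P.notMem, add_comm]

/-- The exceptional characters of the family. -/
structure PExc (A H : Subgroup G) [Fintype A] (F : Finset (IrrCharacter A)) where
  f : IrrCharacter A → IrrCharacter G
  sgn : IrrCharacter A → ℤ
  sgn_sq : ∀ χ ∈ F, sgn χ = 1 ∨ sgn χ = -1
  inj : Set.InjOn f F
  diff : ∀ χ ∈ F, ∀ ξ ∈ F, indFun A ((χ : A → ℂ) - (ξ : A → ℂ)) =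
    (sgn χ : ℂ) • (f χ : G → ℂ) - (sgn ξ : ℂ) • (f ξ : G → ℂ)
  orth : ∀ χ ∈ F, ∀ φ : IrrCharacter A, φ ∉ fam A H →
    classInner (f χ : G → ℂ) (indFun A (φ : A → ℂ)) = 0

namespace Base

variable (S : Base A H h e St)

include S

theorem card_hset (hIc : (iset A H).card = e) : (hset A H).card + e + 1 = h := by
  rw [← S.card_kset, ← hIc, hset, iset]
  have := Finset.card_filter_add_card_filter_not (s := kset A H) (fun s : A => orderOf (s : G) = 2)
  omega

/-- Conjugacy in the group and in the stabiliser agree on the kernel. -/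
theorem isConj_iff_kset {x y : A} (hx : x ∈ kset A H) (hy : y ∈ kset A H) :
    IsConj (x : G) (y : G) ↔ IsConj x y := by
  obtain ⟨hxH, hx1⟩ := mem_kset.1 hx
  obtain ⟨hyH, -⟩ := mem_kset.1 hy
  refine ⟨fun hc => ?_, fun hc => ?_⟩
  · obtain ⟨g, hg⟩ := isConj_iff.1 hc
    have hgA : g ∈ A := by
      by_contra hgA
      exact hx1 (Subtype.ext (S.ti g hgA x hxH (hg ▸ hyH)))
    exact isConj_iff.2 ⟨⟨g, hgA⟩, Subtype.ext hg⟩
  · obtain ⟨g, hg⟩ := isConj_iff.1 hc
    exact isConj_iff.2 ⟨(g : G), congrArg Subtype.val hg⟩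

/-- The columns of `G` and of the stabiliser at elements of the kernel. -/
theorem column_compare {x y : A} (hx : x ∈ kset A H) (hy : y ∈ kset A H) :
    ∑ ψ : IrrCharacter G, (ψ : G → ℂ) x * conj ((ψ : G → ℂ) y) =
      (e : ℂ) + ∑ χ ∈ fam A H, (χ : A → ℂ) x * conj ((χ : A → ℂ) y) := by
  obtain ⟨hxH, hx1⟩ := mem_kset.1 hx
  obtain ⟨hyH, -⟩ := mem_kset.1 hy
  have hcard : Nat.card (Subgroup.centralizer ({(x : G)} : Set G)) =
      Nat.card (Subgroup.centralizer ({x} : Set A)) := by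
    refine Nat.card_congr
      { toFun := fun c => ⟨⟨c.1, S.le (S.cent x hxH (fun e1 => hx1 (Subtype.ext e1)) c.2)⟩, ?_⟩
        invFun := fun c => ⟨c.1.1, ?_⟩
        left_inv := fun _ => rfl
        right_inv := fun _ => rfl }
    · exact Subgroup.mem_centralizer_singleton_iff.2
        (Subtype.ext (Subgroup.mem_centralizer_singleton_iff.1 c.2))
    · exact Subgroup.mem_centralizer_singleton_iff.2
        (congrArg Subtype.val (Subgroup.mem_centralizer_singleton_iff.1 c.2))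
  have h1 : ∑ χ : IrrCharacter A, (χ : A → ℂ) x * conj ((χ : A → ℂ) y) =
      ∑ ψ : IrrCharacter G, (ψ : G → ℂ) x * conj ((ψ : G → ℂ) y) := by
    rw [Chars.column_orth, Chars.column_orth, hcard]
    by_cases hc : IsConj x y
    · rw [if_pos hc, if_pos ((S.isConj_iff_kset hx hy).2 hc)]
    · rw [if_neg hc, if_neg (fun e1 => hc ((S.isConj_iff_kset hx hy).1 e1))]
  rw [← h1, sum_split' (H := H), add_comm]
  congr 1
  rw [Finset.sum_congr rfl (g := fun _ : IrrCharacter A => (1 : ℂ)) (fun φ hφ => by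
    rw [S.out_apply (Finset.mem_filter.1 hφ).2 hxH, S.out_apply (Finset.mem_filter.1 hφ).2 hyH, map_one,
      mul_one]), Finset.sum_const, nsmul_eq_mul, mul_one, S.card_out]

/-- The exceptional characters of a family of equal degrees. -/
theorem exists_pexc {F : Finset (IrrCharacter A)} {χ' : IrrCharacter A} (P : PairData A H F χ') :
    Nonempty (PExc A H F) := by
  have hN : Subgroup.normalizer (H : Set G) = A := by
    ext g
    refine ⟨fun hg => ?_, fun hg => ?_⟩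
    · by_contra hgA
      obtain ⟨x, hx, -⟩ := S.exists_central
      obtain ⟨hxH, hx1⟩ := mem_kset.1 hx
      exact hx1 (Subtype.ext (S.ti g hgA x hxH ((Subgroup.mem_normalizer_iff.1 hg (x : G)).1 hxH)))
    · refine Subgroup.mem_normalizer_iff.2 fun u => ⟨fun hu => ?_, fun hu => ?_⟩
      · exact Subgroup.mem_subgroupOf.1 ((inferInstance : (H.subgroupOf A).Normal).conj_mem ⟨u, S.le hu⟩
          (Subgroup.mem_subgroupOf.2 hu) ⟨g, hg⟩)
      · have h1 := (inferInstance : (H.subgroupOf A).Normal).conj_mem' ⟨_, S.le hu⟩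
          (Subgroup.mem_subgroupOf.2 hu) ⟨g, hg⟩
        have h2 : g⁻¹ * (g * u * g⁻¹) * g ∈ H := Subgroup.mem_subgroupOf.1 h1
        simpa [mul_assoc] using h2
  have hTI : IsTISubset (H : Set G) := fun g hg x hx hgx => S.ti g (hN ▸ hg) x hx hgx
  obtain ⟨hiso, hzero⟩ := OddChar.ti_isometry H A S.le hTI hN
  have hsub : fset F ⊆ inducedIrrAbove (H.subgroupOf A) ⊥ := by
    rintro φ ⟨χ, hχ, rfl⟩
    exact mem_fam.1 (P.sub hχ)
  have hmono : zspanOn (fset F) {1}ᶜ ⊆ zspanOn (inducedIrrAbove (H.subgroupOf A) ⊥) ({1}ᶜ : Set A) :=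
    fun α hα => ⟨OddChar.zspan_mono hsub hα.1, hα.2⟩
  have hiso' : IsLinearIsometryOn (zspanOn (fset F) {1}ᶜ) (fun α : A → ℂ => indFun A α) :=
    ⟨fun α hα β hβ => hiso.1 α (hmono hα) β (hmono hβ), fun α hα n => hiso.2.1 α (hmono hα) n,
      fun α hα β hβ => hiso.2.2.1 α (hmono hα) β (hmono hβ), fun α hα => hiso.2.2.2 α (hmono hα)⟩
  obtain ⟨χ₀, hχ₀, χ₁, hχ₁, hne⟩ := Finset.one_lt_card.1 P.two
  obtain ⟨-, star, hstar, hext⟩ := OddChar.coherent_irr_equal_degree (fset F)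
    (fun φ hφ => by obtain ⟨χ, -, rfl⟩ := hφ; exact χ.2)
    ⟨_, ⟨χ₀, hχ₀, rfl⟩, _, ⟨χ₁, hχ₁, rfl⟩, fun e1 => hne (Subtype.ext e1)⟩
    (fun φ hφ ψ hψ => by
      obtain ⟨χ, hχ, rfl⟩ := hφ
      obtain ⟨ξ, hξ, rfl⟩ := hψ
      exact P.deg_eq χ hχ ξ hξ)
    (fun α : A → ℂ => indFun A α) hiso' (fun α hα => hzero α (hmono hα))
  have hz : ∀ χ ∈ F, (χ : A → ℂ) ∈ zspan (fset F) := fun χ hχ => OddChar.zspan_subset_apply ⟨χ, hχ, rfl⟩
  have hrep : ∀ χ : IrrCharacter A, ∃ ψ : IrrCharacter G, ∃ σ : ℤ, χ ∈ F →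
      (σ = 1 ∨ σ = -1) ∧ star (χ : A → ℂ) = (σ : ℂ) • (ψ : G → ℂ) := by
    intro χ
    by_cases hχ : χ ∈ F
    · have hn : classInner (star (χ : A → ℂ)) (star (χ : A → ℂ)) = 1 := by
        rw [hstar.2.2.1 _ (hz χ hχ) _ (hz χ hχ), Chars.classInner_self_irr χ.2]
      rcases OddChar.virt_norm_one (hstar.2.2.2 _ (hz χ hχ)) hn with h1 | h1
      · exact ⟨⟨_, h1⟩, 1, fun _ => ⟨Or.inl rfl, by simp⟩⟩
      · exact ⟨⟨_, h1⟩, -1, fun _ => ⟨Or.inr rfl, by simp⟩⟩
    · exact ⟨⟨fun _ => 1, Chars.isIrrCharacter_one⟩, 1, fun h => absurd h hχ⟩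
  choose f σ hf using hrep
  have hsne : ∀ χ ∈ F, (σ χ : ℂ) ≠ 0 := fun χ hχ => by
    rcases (hf χ hχ).1 with h1 | h1 <;> simp [h1]
  have hinj : Set.InjOn f F := by
    intro χ hχ ξ hξ hfe
    by_contra hne'
    have h0 : classInner (star (χ : A → ℂ)) (star (ξ : A → ℂ)) = 0 := by
      rw [hstar.2.2.1 _ (hz χ hχ) _ (hz ξ hξ),
        Chars.classInner_irr_of_ne χ.2 ξ.2 fun e1 => hne' (Subtype.ext e1)]
    rw [(hf χ hχ).2, (hf ξ hξ).2, hfe, Chars.classInner_smul_left, Chars.classInner_smul_right,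
      Chars.classInner_self_irr (f ξ).2, mul_one, map_intCast, mul_eq_zero] at h0
    rcases h0 with h0 | h0
    · exact hsne χ hχ h0
    · exact hsne ξ hξ h0
  have hdiff : ∀ χ ∈ F, ∀ ξ ∈ F, indFun A ((χ : A → ℂ) - (ξ : A → ℂ)) =
      (σ χ : ℂ) • (f χ : G → ℂ) - (σ ξ : ℂ) • (f ξ : G → ℂ) := by
    intro χ hχ ξ hξ
    have hmem : (χ : A → ℂ) - (ξ : A → ℂ) ∈ zspanOn (fset F) {1}ᶜ := OddChar.mem_zspanOn_one.2
      ⟨OddChar.zspan_sub_mem (hz χ hχ) (hz ξ hξ), by rw [Pi.sub_apply, P.deg_eq χ hχ ξ hξ, sub_self]⟩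
    rw [← (hf χ hχ).2, ← (hf ξ hξ).2]
    exact (hext _ hmem).symm.trans (OddChar.iso_map_sub hstar hmem.1 (hz ξ hξ))
  refine ⟨⟨f, σ, fun χ hχ => (hf χ hχ).1, hinj, hdiff, fun χ hχ φ hφ => ?_⟩⟩
  -- orthogonality to an irreducible constituent of a character induced from the stabiliser
  have hkey : ∀ z : IrrCharacter G, ∀ n : ℂ, (∀ u ∈ H, u ≠ 1 → (z : G → ℂ) u = n) → f χ ≠ z := by
    intro z n hn hfz
    obtain ⟨ξ, hξ, hne'⟩ : ∃ ξ ∈ F, ξ ≠ χ := Finset.exists_mem_ne P.two χ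
    have hfz' : f ξ ≠ z := fun h1 => hne' (hinj hξ hχ (h1.trans hfz.symm))
    have hcl := Chars.isClassFunction_of_isCharacter (Chars.irr_isCharacter z)
    have h1 : classInner (indFun A ((χ : A → ℂ) - (ξ : A → ℂ))) (z : G → ℂ) = 0 := by
      have hgen : ∀ x ∈ H.subgroupOf A, x ≠ 1 → (fun a : A => (z : G → ℂ) a) x = n := fun x hx hx1 =>
        hn x (Subgroup.mem_subgroupOf.1 hx) fun e1 => hx1 (Subtype.ext e1)
      rw [Chars.classInner_indFun A _ hcl, Chars.classInner_sub_left,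
        OddChar.classInner_const (mem_fam.1 (P.sub hχ)) hgen, OddChar.classInner_const (mem_fam.1 (P.sub hξ)) hgen,
        P.deg_eq χ hχ ξ hξ, sub_self]
    rw [hdiff χ hχ ξ hξ, Chars.classInner_sub_left, Chars.classInner_smul_left, Chars.classInner_smul_left,
      hfz, Chars.classInner_self_irr z.2,
      Chars.classInner_irr_of_ne (f ξ).2 z.2 (fun e1 => hfz' (Subtype.ext e1)), mul_one, mul_zero, sub_zero] at h1
    exact hsne χ hχ h1
  by_contra hne0
  rcases S.ind_out_cases hφ (f χ).2 hne0 with ⟨-, h1 | h1⟩ | ⟨hφ1, h1⟩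
  · exact hkey ⟨_, Chars.isIrrCharacter_one⟩ 1 (fun _ _ _ => rfl) (Subtype.ext h1)
  · exact hkey ⟨St, S.st_irr⟩ 0 S.st_H (Subtype.ext h1)
  · obtain ⟨hi, hv⟩ := S.ind_lin φ φ.2 (fun h => hφ (mem_fam.2 h)) hφ1
    exact hkey ⟨_, hi⟩ 1 hv (Subtype.ext h1)

variable {F : Finset (IrrCharacter A)} {χ' : IrrCharacter A}

/-- A virtual character with equal coordinates on the family, on the kernel. -/
theorem value_formula (P : PairData A H F χ') {f : A → ℂ} (hf : IsGeneralizedCharacter A f)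
    (hc : ∀ χ ∈ F, ∀ ξ ∈ F, classInner f (χ : A → ℂ) = classInner f (ξ : A → ℂ)) :
    ∃ a b L : ℤ, ∀ x ∈ kset A H, f x = (a : ℂ) * ∑ χ ∈ F, (χ : A → ℂ) x + (b : ℂ) * (χ' : A → ℂ) x + (L : ℂ) := by
  obtain ⟨χ₀, hχ₀⟩ := Finset.card_pos.1 (by have := P.two; omega : 0 < F.card)
  choose k hk using fun φ : IrrCharacter A =>
    OddChar.exists_classInner_eq_int hf (OddChar.virt_of_irr φ.2)
  refine ⟨k χ₀, k χ', ∑ φ ∈ (Finset.univ : Finset (IrrCharacter A)).filter (fun φ => φ ∉ fam A H), k φ,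
    fun x hx => ?_⟩
  have h1 := congrFun (Chars.eq_sum_classInner (OddChar.virt_isClassFunction hf)) x
  rw [Finset.sum_apply, sum_split' (H := H), P.sum_fam] at h1
  rw [h1, Int.cast_sum, Finset.mul_sum]
  refine congrArg₂ (· + ·) (congrArg₂ (· + ·) (Finset.sum_congr rfl fun χ hχ => ?_) ?_)
    (Finset.sum_congr rfl fun φ hφ => ?_)
  · rw [Pi.smul_apply, smul_eq_mul, hc χ hχ χ₀ hχ₀, hk]
  · rw [Pi.smul_apply, smul_eq_mul, hk]
  · rw [Pi.smul_apply, smul_eq_mul, hk, S.out_apply (Finset.mem_filter.1 hφ).2 (mem_kset.1 hx).1, mul_one]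

/-- The coordinates of an exceptional character less its member. -/
theorem exc_coord (P : PairData A H F χ') (D : PExc A H F) {χ : IrrCharacter A} (hχ : χ ∈ F) :
    ∀ ξ ∈ F, ∀ η ∈ F,
      classInner ((fun a : A => (D.sgn χ : ℂ) * (D.f χ : G → ℂ) a) - (χ : A → ℂ)) (ξ : A → ℂ) =
        classInner ((fun a : A => (D.sgn χ : ℂ) * (D.f χ : G → ℂ) a) - (χ : A → ℂ)) (η : A → ℂ) := by
  intro ξ hξ η hη
  have hcl : IsClassFunction G ((D.sgn χ : ℂ) • (D.f χ : G → ℂ)) :=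
    Chars.isClassFunction_smul _ (Chars.isClassFunction_irr (D.f χ))
  have h1 := Chars.classInner_indFun A ((ξ : A → ℂ) - (η : A → ℂ)) hcl
  rw [D.diff ξ hξ η hη] at h1
  have h2 := congrArg conj h1
  rw [Chars.classInner_conj_symm, Chars.classInner_conj_symm] at h2
  simp only [Chars.classInner_sub_right, Chars.classInner_smul_left, Chars.classInner_smul_right,
    map_intCast, Chars.classInner_irrCharacter, Pi.smul_apply, smul_eq_mul] at h2
  have hone : ∀ θ ∈ F, (D.sgn θ : ℂ) * (D.sgn θ : ℂ) = 1 := fun θ hθ => by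
    rcases D.sgn_sq θ hθ with h | h <;> simp [h]
  have hdel : ∀ θ ∈ F, (D.sgn θ : ℂ) * ((D.sgn χ : ℂ) * if D.f χ = D.f θ then 1 else 0) =
      if χ = θ then 1 else 0 := by
    intro θ hθ
    by_cases h : χ = θ
    · subst h; rw [if_pos rfl, if_pos rfl, mul_one, hone χ hχ]
    · rw [if_neg h, if_neg (fun e1 => h (D.inj hχ hθ e1)), mul_zero, mul_zero]
  rw [hdel ξ hξ, hdel η hη] at h2
  rw [Chars.classInner_sub_left, Chars.classInner_sub_left, Chars.classInner_irrCharacter,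
    Chars.classInner_irrCharacter]
  linear_combination -h2

/-- The coordinates of a nonexceptional character. -/
theorem non_coord (P : PairData A H F χ') (D : PExc A H F) {ψ : IrrCharacter G} (hψ : ψ ∉ F.image D.f) :
    ∀ ξ ∈ F, ∀ η ∈ F, classInner (fun a : A => (ψ : G → ℂ) a) (ξ : A → ℂ) =
      classInner (fun a : A => (ψ : G → ℂ) a) (η : A → ℂ) := by
  intro ξ hξ η hη
  have h1 := Chars.classInner_indFun A ((ξ : A → ℂ) - (η : A → ℂ))
    (Chars.isClassFunction_irr ψ)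
  have h2 := congrArg conj h1
  rw [Chars.classInner_conj_symm, Chars.classInner_conj_symm, Chars.classInner_sub_right, D.diff ξ hξ η hη,
    Chars.classInner_sub_right, Chars.classInner_smul_right, Chars.classInner_smul_right,
    Chars.classInner_irrCharacter, Chars.classInner_irrCharacter,
    if_neg (fun e1 : ψ = D.f ξ => hψ (Finset.mem_image.2 ⟨ξ, hξ, e1.symm⟩)),
    if_neg (fun e1 : ψ = D.f η => hψ (Finset.mem_image.2 ⟨η, hη, e1.symm⟩)), mul_zero, mul_zero, sub_zero] at h2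
  exact sub_eq_zero.1 h2.symm

end Base

/-- The values on the kernel: constants on the involutions and on the other elements. -/
structure PVals (A H : Subgroup G) [Fintype A] (F : Finset (IrrCharacter A)) (D : PExc A H F)
    (g : ℤ) where
  m : IrrCharacter A → ℤ
  n : IrrCharacter A → ℤ
  c : IrrCharacter G → ℤ
  c' : IrrCharacter G → ℤ
  exc_h : ∀ χ ∈ F, ∀ x ∈ hset A H, (D.sgn χ : ℂ) * (D.f χ : G → ℂ) x = (χ : A → ℂ) x + (m χ : ℂ)
  exc_i : ∀ χ ∈ F, ∀ x ∈ iset A H, (D.sgn χ : ℂ) * (D.f χ : G → ℂ) x = (χ : A → ℂ) x + (n χ : ℂ)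
  exc_dvd : ∀ χ ∈ F, g ∣ n χ - m χ
  non_h : ∀ ψ : IrrCharacter G, ψ ∉ F.image D.f → ∀ x ∈ hset A H, (ψ : G → ℂ) x = (c ψ : ℂ)
  non_i : ∀ ψ : IrrCharacter G, ψ ∉ F.image D.f → ∀ x ∈ iset A H, (ψ : G → ℂ) x = (c' ψ : ℂ)
  non_dvd : ∀ ψ : IrrCharacter G, ψ ∉ F.image D.f → g ∣ c' ψ - c ψ

namespace Base

variable (S : Base A H h e St) {F : Finset (IrrCharacter A)} {χ' : IrrCharacter A}

include S

/-- Existence of the constants, given the sums of the family and the values of `χ'` on the regions. -/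
theorem exists_pvals (P : PairData A H F χ') (D : PExc A H F) {su st pu pt g : ℤ}
    (hsu : ∀ x ∈ hset A H, ∑ χ ∈ F, (χ : A → ℂ) x = (su : ℂ))
    (hst : ∀ x ∈ iset A H, ∑ χ ∈ F, (χ : A → ℂ) x = (st : ℂ))
    (hpu : ∀ x ∈ hset A H, (χ' : A → ℂ) x = (pu : ℂ))
    (hpt : ∀ x ∈ iset A H, (χ' : A → ℂ) x = (pt : ℂ))
    (hgs : g ∣ st - su) (hgp : g ∣ pt - pu) : Nonempty (PVals A H F D g) := by
  have key : ∀ f : A → ℂ, IsGeneralizedCharacter A f →
      (∀ χ ∈ F, ∀ ξ ∈ F, classInner f (χ : A → ℂ) = classInner f (ξ : A → ℂ)) →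
      ∃ p r : ℤ, (∀ x ∈ hset A H, f x = (p : ℂ)) ∧ (∀ x ∈ iset A H, f x = (r : ℂ)) ∧ g ∣ r - p := by
    intro f hf hc
    obtain ⟨a, b, L, hv⟩ := S.value_formula P hf hc
    refine ⟨a * su + b * pu + L, a * st + b * pt + L, fun x hx => ?_, fun x hx => ?_, ?_⟩
    · rw [hv x (Finset.mem_filter.1 hx).1, hsu x hx, hpu x hx]; push_cast; ring
    · rw [hv x (Finset.mem_filter.1 hx).1, hst x hx, hpt x hx]; push_cast; ring
    · rw [show a * st + b * pt + L - (a * su + b * pu + L) = a * (st - su) + b * (pt - pu) by ring]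
      exact dvd_add (hgs.mul_left a) (hgp.mul_left b)
  have hexc : ∀ χ : IrrCharacter A, ∃ p r : ℤ, χ ∈ F →
      (∀ x ∈ hset A H, (D.sgn χ : ℂ) * (D.f χ : G → ℂ) x = (χ : A → ℂ) x + (p : ℂ)) ∧
      (∀ x ∈ iset A H, (D.sgn χ : ℂ) * (D.f χ : G → ℂ) x = (χ : A → ℂ) x + (r : ℂ)) ∧ g ∣ r - p := by
    intro χ
    by_cases hχ : χ ∈ F
    · obtain ⟨p, r, h1, h2, h3⟩ := key ((fun a : A => (D.sgn χ : ℂ) * (D.f χ : G → ℂ) a) - (χ : A → ℂ))
        (OddChar.virt_sub (Chars.isGen_intCast_smul (Chars.isGen_restrict (OddChar.virt_of_irr (D.f χ).2) A) _)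
          (OddChar.virt_of_irr χ.2)) (S.exc_coord P D hχ)
      refine ⟨p, r, fun _ => ⟨fun x hx => ?_, fun x hx => ?_, h3⟩⟩
      · have := h1 x hx
        rw [Pi.sub_apply, sub_eq_iff_eq_add'] at this
        exact this
      · have := h2 x hx
        rw [Pi.sub_apply, sub_eq_iff_eq_add'] at this
        exact this
    · exact ⟨0, 0, fun h1 => absurd h1 hχ⟩
  have hnon : ∀ ψ : IrrCharacter G, ∃ p r : ℤ, ψ ∉ F.image D.f →
      (∀ x ∈ hset A H, (ψ : G → ℂ) x = (p : ℂ)) ∧ (∀ x ∈ iset A H, (ψ : G → ℂ) x = (r : ℂ)) ∧ g ∣ r - p := by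
    intro ψ
    by_cases hψ : ψ ∈ F.image D.f
    · exact ⟨0, 0, fun h1 => absurd hψ h1⟩
    · obtain ⟨p, r, h⟩ := key (fun a : A => (ψ : G → ℂ) a)
        (Chars.isGen_restrict (OddChar.virt_of_irr ψ.2) A) (S.non_coord P D hψ)
      exact ⟨p, r, fun _ => h⟩
  choose m n hmn using hexc
  choose c c' hcc using hnon
  exact ⟨⟨m, n, c, c', fun χ hχ => (hmn χ hχ).1, fun χ hχ => (hmn χ hχ).2.1, fun χ hχ => (hmn χ hχ).2.2,
    fun ψ hψ => (hcc ψ hψ).1, fun ψ hψ => (hcc ψ hψ).2.1, fun ψ hψ => (hcc ψ hψ).2.2⟩⟩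

theorem sum_all (D : PExc A H F) {M : Type*} [AddCommMonoid M] (f : IrrCharacter G → M) :
    ∑ ψ, f ψ = ∑ χ ∈ F, f (D.f χ) + ∑ ψ ∈ (F.image D.f)ᶜ, f ψ := by
  rw [← Finset.sum_add_sum_compl (F.image D.f), Finset.sum_image D.inj]

/-- The nonexceptional characters: the principal one, `St`, the induced ones, and the others. -/
theorem exists_others (D : PExc A H F) :
    ∃ O R : Finset (IrrCharacter G), e ≤ 2 * O.card + 1 ∧
      (∀ z ∈ O, (z : G → ℂ) 1 = ((h + 1 : ℕ) : ℂ) ∧ (∀ u ∈ H, u ≠ 1 → (z : G → ℂ) u = 1) ∧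
        ∃ φ : IrrCharacter A, φ ∉ fam A H ∧ (z : G → ℂ) = indFun A (φ : A → ℂ)) ∧
      (∀ ψ ∈ R, ψ ∉ F.image D.f ∧ lmult A H (ψ : G → ℂ) = 0) ∧
      (⟨fun _ => 1, Chars.isIrrCharacter_one⟩ : IrrCharacter G) ∉ F.image D.f ∧
      (⟨St, S.st_irr⟩ : IrrCharacter G) ∉ F.image D.f ∧ (∀ z ∈ O, z ∉ F.image D.f) ∧
      ∀ {M : Type} [AddCommMonoid M] (f : IrrCharacter G → M),
        ∑ ψ ∈ (F.image D.f)ᶜ, f ψ = f ⟨fun _ => 1, Chars.isIrrCharacter_one⟩ + f ⟨St, S.st_irr⟩ +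
          ∑ z ∈ O, f z + ∑ ψ ∈ R, f ψ := by
  obtain ⟨O, hOc, hO, hl⟩ := exists_ones S
  set one : IrrCharacter G := ⟨fun _ => 1, Chars.isIrrCharacter_one⟩ with hone
  set st : IrrCharacter G := ⟨St, S.st_irr⟩ with hst
  have hp : ∀ z : IrrCharacter G, ∀ φ : IrrCharacter A, φ ∉ fam A H →
      classInner (z : G → ℂ) (indFun A (φ : A → ℂ)) ≠ 0 → z ∉ F.image D.f := by
    intro z φ hφ hne hz
    obtain ⟨χ, hχ, rfl⟩ := Finset.mem_image.1 hz
    exact hne (D.orth χ hχ φ hφ)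
  have hh : (1 : ℕ) ≠ h := by have := S.lt; omega
  have hne1 : one ≠ st := fun e1 => hh (by
    have h1 : (1 : ℂ) = St 1 := congrFun (congrArg Subtype.val e1) 1
    rw [S.st_one] at h1
    exact_mod_cast h1)
  set φ₁ : IrrCharacter A := ⟨fun _ => 1, Chars.isIrrCharacter_one⟩
  have hone' : one ∉ F.image D.f := hp one φ₁ S.one_notMem (by
    show classInner _ (indFun A (fun _ : A => (1 : ℂ))) ≠ 0
    rw [S.st_ind, Chars.classInner_add_right, Chars.classInner_self_irr Chars.isIrrCharacter_one,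
      Chars.classInner_irr_of_ne Chars.isIrrCharacter_one S.st_irr (fun e1 => hne1 (Subtype.ext e1)), add_zero]
    exact one_ne_zero)
  have hst' : st ∉ F.image D.f := hp st φ₁ S.one_notMem (by
    show classInner St (indFun A (fun _ : A => (1 : ℂ))) ≠ 0
    rw [S.st_ind, Chars.classInner_add_right, Chars.classInner_self_irr S.st_irr,
      Chars.classInner_irr_of_ne S.st_irr Chars.isIrrCharacter_one (fun e1 => hne1 (Subtype.ext e1.symm)), zero_add]
    exact one_ne_zero)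
  have hO' : ∀ z ∈ O, z ∉ F.image D.f := fun z hz => by
    obtain ⟨-, -, φ, hφ, -, hzφ⟩ := hO z hz
    refine hp z φ hφ ?_
    rw [← hzφ, Chars.classInner_self_irr z.2]
    exact one_ne_zero
  have hOn : ∀ z ∈ O, z ≠ one ∧ z ≠ st := fun z hz => by
    obtain ⟨hz1, -⟩ := hO z hz
    refine ⟨fun e1 => ?_, fun e1 => ?_⟩
    · rw [e1] at hz1
      have h1 : (1 : ℕ) = h + 1 := by exact_mod_cast (show (1 : ℂ) = ((h + 1 : ℕ) : ℂ) from hz1)
      have := S.h_pos; omega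
    · rw [e1] at hz1
      have h1 : h = h + 1 := by exact_mod_cast S.st_one.symm.trans hz1
      omega
  set R := (F.image D.f)ᶜ \ (insert one (insert st O)) with hR
  refine ⟨O, R, hOc, fun z hz => ?_, fun ψ hψ => ?_, hone', hst', hO', fun {M} _ f => ?_⟩
  · obtain ⟨h1, h2, φ, hφ, -, hzφ⟩ := hO z hz
    exact ⟨h1, h2, φ, hφ, hzφ⟩
  · obtain ⟨h1, h2⟩ := Finset.mem_sdiff.1 hψ
    refine ⟨Finset.mem_compl.1 h1, by_contra fun hne => h2 ?_⟩
    rcases hl ψ hne with h | h | h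
    · exact Finset.mem_insert.2 (Or.inl (Subtype.ext h))
    · exact Finset.mem_insert_of_mem (Finset.mem_insert.2 (Or.inl (Subtype.ext h)))
    · exact Finset.mem_insert_of_mem (Finset.mem_insert_of_mem h)
  · have hsub : insert one (insert st O) ⊆ (F.image D.f)ᶜ := by
      intro z hz
      rw [Finset.mem_compl]
      rcases Finset.mem_insert.1 hz with rfl | hz
      · exact hone'
      rcases Finset.mem_insert.1 hz with rfl | hz
      · exact hst'
      · exact hO' z hz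
    rw [hR, ← Finset.sum_sdiff hsub, add_comm]
    congr 1
    rw [Finset.sum_insert (fun hm => (Finset.mem_insert.1 hm).elim hne1 fun hm => (hOn one hm).1 rfl),
      Finset.sum_insert (fun hm => (hOn st hm).2 rfl), add_assoc]

/-- The degree of a character without trivial constituent on the kernel. -/
theorem other_degree (hIc : (iset A H).card = e) {ψ : IrrCharacter G} {c c' : ℤ}
    (hl : lmult A H (ψ : G → ℂ) = 0) (hu : ∀ x ∈ hset A H, (ψ : G → ℂ) x = (c : ℂ))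
    (ht : ∀ x ∈ iset A H, (ψ : G → ℂ) x = (c' : ℂ)) :
    (OddChar.deg (ψ : G → ℂ) : ℤ) = -(((h : ℤ) - e - 1) * c + (e : ℤ) * c') := by
  have h1 := S.sum_H (Chars.isClassFunction_irr ψ)
  rw [hl, mul_zero, kset_split, Finset.sum_congr rfl hu, Finset.sum_congr rfl ht, Finset.sum_const,
    Finset.sum_const, hIc, nsmul_eq_mul, nsmul_eq_mul, OddChar.deg_spec (Chars.irr_isCharacter ψ)] at h1
  have h2 : (((hset A H).card : ℂ)) = ((((h : ℤ) - e - 1) : ℤ) : ℂ) := by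
    have := S.card_hset hIc
    rw [show ((h : ℤ) - e - 1) = ((hset A H).card : ℤ) by omega]
    simp
  rw [h2] at h1
  have h3 : (((OddChar.deg (ψ : G → ℂ) : ℤ)) : ℂ) =
      ((-(((h : ℤ) - e - 1) * c + (e : ℤ) * c') : ℤ) : ℂ) := by
    push_cast at h1 ⊢
    linear_combination h1
  exact_mod_cast h3

end Base

end Cfsg.Agent.Chars.ZassFeit
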