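import Cfsg.Agent.Chars.ZassTwoFam
import Cfsg.Agent.Chars2.TI
import Cfsg.Agent.Chars2.FSIndicator
import Cfsg.Agent.Chars.Eigen

/-!
A two-group kernel with elementary central squares in a doubly transitive group: the orthogonality
relations and the count of square roots bound the family.
-/

set_option autoImplicit false
set_option linter.unusedSectionVars false

open scoped Classical ComplexConjugate

namespace Cfsg.Agent.Chars.ZassFeit

open Cfsg

universe u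

variable {G : Type u} [Group G] [Fintype G]
variable {A H : Subgroup G} [Fintype A] [(H.subgroupOf A).Normal] {h e : ℕ} {St : G → ℂ}
variable {Z : Subgroup (H.subgroupOf A)} {q : ℕ}

/-- The remaining hypothesis: the elements of the stabiliser outside the kernel are real. -/
structure PairBase (A H : Subgroup G) [Fintype A] [(H.subgroupOf A).Normal] (h e : ℕ) (St : G → ℂ)
    (Z : Subgroup (H.subgroupOf A)) (q : ℕ) : Prop extends TwoBase A H h e St Z q where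
  rev : ∀ g ∈ A, g ∉ H → IsConj g g⁻¹

/-- The sign times the indicator of an exceptional character. -/
noncomputable def wgt {F : Finset (IrrCharacter A)} (D : PExc A H F) (χ : IrrCharacter A) : ℂ :=
  (D.sgn χ : ℂ) * ind2 (D.f χ : G → ℂ)

namespace PairBase

variable (B : PairBase A H h e St Z q)

include B

theorem h_even : Even h := by
  obtain ⟨hc, -⟩ := B.toTwoBase.counts
  have hq : Even q := by rw [B.two.eq]; exact B.e_odd.add_one
  rw [← hc]
  exact Even.add (hq.mul_left _) hq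

theorem e_three : 3 ≤ e := by
  have := B.e_two
  obtain ⟨r, hr⟩ := B.e_odd
  omega

theorem hset_pos : 0 < (hset A H).card := by
  have h1 := B.card_hset B.toTwoBase.iset_card
  have := B.lt
  omega

/-- No element of the kernel other than an involution is a square. -/
theorem no_root {x : A} (hx : x ∈ hset A H) (y : G) : y * y ≠ (x : G) := by
  intro hy
  obtain ⟨hxk, hxo⟩ := Finset.mem_filter.1 hx
  obtain ⟨hxH, hx1⟩ := mem_kset.1 hxk
  have hyH : y ∈ H := B.cent x hxH (fun h1 => hx1 (Subtype.ext h1))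
    (Subgroup.mem_centralizer_singleton_iff.2 (by rw [← hy, mul_assoc]))
  set k : H.subgroupOf A := ⟨⟨y, B.le hyH⟩, Subgroup.mem_subgroupOf.2 hyH⟩
  have hx' : x = ((k * k : H.subgroupOf A) : A) := Subtype.ext hy.symm
  have h1 : x ∈ iset A H := (B.iset_iff x).2 ⟨k * k, B.two.sq_mem k,
    fun e1 => hx1 (by rw [hx', e1]; rfl), hx'.symm⟩
  exact hxo (Finset.mem_filter.1 h1).2

/-- The square roots of an involution of the kernel. -/
theorem roots {t : A} (ht : t ∈ iset A H) :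
    ∃ n : ℕ, n * e + q = h ∧ ((Finset.univ.filter fun s : G => s * s = (t : G)).card : ℂ) = n := by
  obtain ⟨n, hn, hF⟩ := B.two.sum_sq
  rw [B.card_sub] at hn
  refine ⟨n, hn, ?_⟩
  obtain ⟨z, hz, hz1, hzt⟩ := (B.iset_iff t).1 ht
  have h1 := hF fun y => if y = z then 1 else 0
  simp only [Finset.sum_boole] at h1
  simp [Ne.symm hz1, hz1, mem_zset, hz, Finset.filter_eq'] at h1
  rw [← h1]
  norm_cast
  obtain ⟨htH, ht1⟩ := mem_kset.1 (Finset.mem_filter.1 ht).1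
  symm
  refine Finset.card_bij (fun s _ => ((s : A) : G)) (fun s hs => ?_)
    (fun s _ r _ e1 => Subtype.ext (Subtype.ext e1)) (fun s hs => ?_)
  · simp only [Finset.mem_filter, Finset.mem_univ, true_and] at hs ⊢
    rw [← hzt, ← hs]; rfl
  · simp only [Finset.mem_filter, Finset.mem_univ, true_and] at hs
    have hsH : s ∈ H := B.cent t htH (fun h1 => ht1 (Subtype.ext h1))
      (Subgroup.mem_centralizer_singleton_iff.2 (by rw [← hs, mul_assoc]))
    refine ⟨⟨⟨s, B.le hsH⟩, Subgroup.mem_subgroupOf.2 hsH⟩, ?_, rfl⟩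
    simp only [Finset.mem_filter, Finset.mem_univ, true_and]
    refine Subtype.ext (Subtype.ext ?_)
    rw [hzt]
    exact hs

/-- The induced linear characters have indicator one. -/
theorem ones_ind2 {z : IrrCharacter G} (hz1 : (z : G → ℂ) 1 = ((h + 1 : ℕ) : ℂ))
    (hzH : ∀ u ∈ H, u ≠ 1 → (z : G → ℂ) u = 1) {φ : IrrCharacter A}
    (hzφ : (z : G → ℂ) = indFun A (φ : A → ℂ)) : ind2 (z : G → ℂ) = 1 := by
  have hcl := Chars.isClassFunction_irr z
  have hrev : ∀ g : G, (z : G → ℂ) g⁻¹ = (z : G → ℂ) g := by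
    intro g
    by_cases hg : ∃ k : G, k⁻¹ * g * k ∈ A
    · obtain ⟨k, hk⟩ := hg
      have e1 : (z : G → ℂ) g = (z : G → ℂ) (k⁻¹ * g * k) := by
        have h1 := hcl (k⁻¹ * g * k) k
        rw [show k * (k⁻¹ * g * k) * k⁻¹ = g by group] at h1
        exact h1
      have e2 : (z : G → ℂ) g⁻¹ = (z : G → ℂ) (k⁻¹ * g * k)⁻¹ := by
        have h1 := hcl (k⁻¹ * g * k)⁻¹ k
        rw [show k * (k⁻¹ * g * k)⁻¹ * k⁻¹ = g⁻¹ by group] at h1
        exact h1
      rw [e1, e2]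
      by_cases hH : k⁻¹ * g * k ∈ H
      · by_cases h1 : k⁻¹ * g * k = 1
        · rw [h1, inv_one]
        · rw [hzH _ hH h1, hzH _ (H.inv_mem hH) (fun e3 => h1 (inv_eq_one.1 e3))]
      · obtain ⟨c, hc⟩ := isConj_iff.1 (B.rev _ hk hH)
        rw [← hc]
        exact hcl _ _
    · push Not at hg
      rw [hzφ, Chars2.indFun_eq_zero_of_support A _ (A : Set G) (fun x hx => absurd x.2 hx) _
          (fun k hk => hg k (by simpa [mul_assoc] using A.inv_mem hk)),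
        Chars2.indFun_eq_zero_of_support A _ (A : Set G) (fun x hx => absurd x.2 hx) _ (fun k hk => hg k hk)]
  refine Chars2.indicator_eq_one_of_odd z.2 (fun g => Complex.conj_eq_iff_im.1 ?_) hz1 B.h_even.add_one
  rw [← Chars.char_inv_eq_conj (Chars.irr_isCharacter z)]
  exact hrev g

variable {F : Finset (IrrCharacter A)} {χ' : IrrCharacter A}

theorem ti_diff (P : PairData A H F χ') (D : PExc A H F) {χ ξ : IrrCharacter A} (hχ : χ ∈ F) (hξ : ξ ∈ F)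
    {x : A} (hx : x ∈ kset A H) :
    (D.sgn χ : ℂ) * (D.f χ : G → ℂ) x - (D.sgn ξ : ℂ) * (D.f ξ : G → ℂ) x = (χ : A → ℂ) x - (ξ : A → ℂ) x := by
  have h1 := congrFun (D.diff χ hχ ξ hξ) (x : G)
  obtain ⟨hxH, hx1⟩ := mem_kset.1 hx
  rw [Chars2.indFun_eq_of_ti A ((χ : A → ℂ) - (ξ : A → ℂ)) {g : G | g ∈ H ∧ g ≠ 1} (fun a ha => ?_)
    (fun g hg s hs hgs => hs.2 (B.ti g hg s hs.1 hgs.1))
    (Chars.isClassFunction_sub (Chars.isClassFunction_irr χ) (Chars.isClassFunction_irr ξ))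
    x ⟨hxH, fun h2 => hx1 (Subtype.ext h2)⟩] at h1
  · simp only [Pi.sub_apply, Pi.smul_apply, smul_eq_mul] at h1
    exact h1.symm
  · rw [Pi.sub_apply]
    by_cases haH : (a : G) ∈ H
    · have ha1 : a = 1 := by
        by_contra hne
        exact ha ⟨haH, fun h2 => hne (Subtype.ext h2)⟩
      rw [ha1, P.deg_eq χ hχ ξ hξ, sub_self]
    · rw [B.fam_out (P.sub hχ) haH, B.fam_out (P.sub hξ) haH, sub_self]

/-- The constants do not depend on the member. -/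
theorem const_mn (P : PairData A H F χ') (D : PExc A H F) {g : ℤ} (V : PVals A H F D g) :
    ∃ m n : ℤ, g ∣ n - m ∧
      (∀ χ ∈ F, ∀ x ∈ hset A H, (D.sgn χ : ℂ) * (D.f χ : G → ℂ) x = (χ : A → ℂ) x + (m : ℂ)) ∧
      (∀ χ ∈ F, ∀ x ∈ iset A H, (D.sgn χ : ℂ) * (D.f χ : G → ℂ) x = (χ : A → ℂ) x + (n : ℂ)) := by
  obtain ⟨χ₀, hχ₀⟩ := Finset.card_pos.1 (by have := P.two; omega : 0 < F.card)
  obtain ⟨u, hu⟩ := Finset.card_pos.1 B.hset_pos
  obtain ⟨t, ht⟩ := B.toTwoBase.iset_nonempty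
  refine ⟨V.m χ₀, V.n χ₀, V.exc_dvd χ₀ hχ₀, fun χ hχ x hx => ?_, fun χ hχ x hx => ?_⟩
  · have h1 := B.ti_diff P D hχ hχ₀ (Finset.mem_filter.1 hu).1
    rw [V.exc_h χ hχ u hu, V.exc_h χ₀ hχ₀ u hu] at h1
    have h2 : (V.m χ : ℂ) = (V.m χ₀ : ℂ) := by linear_combination h1
    rw [V.exc_h χ hχ x hx, h2]
  · have h1 := B.ti_diff P D hχ hχ₀ (Finset.mem_filter.1 ht).1
    rw [V.exc_i χ hχ t ht, V.exc_i χ₀ hχ₀ t ht] at h1
    have h2 : (V.n χ : ℂ) = (V.n χ₀ : ℂ) := by linear_combination h1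
    rw [V.exc_i χ hχ x hx, h2]

/-- Orthogonality of two columns in terms of the constants. -/
theorem balance (P : PairData A H F χ') (D : PExc A H F) {O R : Finset (IrrCharacter G)}
    (hO : ∀ z ∈ O, ∀ u ∈ H, u ≠ 1 → (z : G → ℂ) u = 1)
    (hsum : ∀ {M : Type} [AddCommMonoid M] (f : IrrCharacter G → M),
        ∑ ψ ∈ (F.image D.f)ᶜ, f ψ = f ⟨fun _ => 1, Chars.isIrrCharacter_one⟩ + f ⟨St, B.st_irr⟩ +
          ∑ z ∈ O, f z + ∑ ψ ∈ R, f ψ)
    {x y : A} (hx : x ∈ kset A H) (hy : y ∈ kset A H) {a b : ℤ} {cx cy : IrrCharacter G → ℤ}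
    (ha : ∀ χ ∈ F, (D.sgn χ : ℂ) * (D.f χ : G → ℂ) x = (χ : A → ℂ) x + (a : ℂ))
    (hb : ∀ χ ∈ F, (D.sgn χ : ℂ) * (D.f χ : G → ℂ) y = (χ : A → ℂ) y + (b : ℂ))
    (hcx : ∀ ψ ∈ R, (ψ : G → ℂ) x = (cx ψ : ℂ)) (hcy : ∀ ψ ∈ R, (ψ : G → ℂ) y = (cy ψ : ℂ))
    {sx sy : ℤ} (hsx : ∑ χ ∈ F, (χ : A → ℂ) x = (sx : ℂ)) (hsy : ∑ χ ∈ F, (χ : A → ℂ) y = (sy : ℂ))
    {px py : ℤ} (hpx : (χ' : A → ℂ) x = (px : ℂ)) (hpy : (χ' : A → ℂ) y = (py : ℂ)) :
    ∑ ψ ∈ R, cx ψ * cy ψ + (O.card + 1 : ℤ) + a * sy + b * sx + (F.card : ℤ) * (a * b) =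
      (e : ℤ) + px * py := by
  obtain ⟨hxH, hx1⟩ := mem_kset.1 hx
  obtain ⟨hyH, hy1⟩ := mem_kset.1 hy
  have hx1' : (x : G) ≠ 1 := fun h1 => hx1 (Subtype.ext h1)
  have hy1' : (y : G) ≠ 1 := fun h1 => hy1 (Subtype.ext h1)
  have h1 := B.column_compare hx hy
  rw [B.sum_all D, hsum, P.sum_fam] at h1
  dsimp only at h1
  rw [B.st_H x hxH hx1', map_one, zero_mul,
    Finset.sum_congr rfl (s₁ := O) (g := fun _ : IrrCharacter G => (1 : ℂ))
      (fun z hz => by rw [hO z hz x hxH hx1', hO z hz y hyH hy1', map_one, mul_one]),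
    Finset.sum_congr rfl (s₁ := R) (g := fun ψ => ((cx ψ * cy ψ : ℤ) : ℂ))
      (fun ψ hψ => by rw [hcx ψ hψ, hcy ψ hψ, map_intCast, Int.cast_mul]),
    Finset.sum_congr rfl (s₁ := F) (f := fun χ => (D.f χ : G → ℂ) x * conj ((D.f χ : G → ℂ) y))
      (g := fun χ : IrrCharacter A => (χ : A → ℂ) x * conj ((χ : A → ℂ) y) + (a : ℂ) * conj ((χ : A → ℂ) y) +
        (b : ℂ) * (χ : A → ℂ) x + (a : ℂ) * (b : ℂ))
      (fun χ hχ => by
        have hs : (D.sgn χ : ℂ) * (D.sgn χ : ℂ) = 1 := by rcases D.sgn_sq χ hχ with h | h <;> simp [h]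
        calc (D.f χ : G → ℂ) x * conj ((D.f χ : G → ℂ) y)
            = ((D.sgn χ : ℂ) * (D.f χ : G → ℂ) x) * conj ((D.sgn χ : ℂ) * (D.f χ : G → ℂ) y) := by
              rw [map_mul, map_intCast]
              linear_combination (-((D.f χ : G → ℂ) x * conj ((D.f χ : G → ℂ) y))) * hs
          _ = _ := by rw [ha χ hχ, hb χ hχ, map_add, map_intCast]; ring),
    Finset.sum_add_distrib, Finset.sum_add_distrib, Finset.sum_add_distrib, ← Finset.mul_sum, ← Finset.mul_sum,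
    ← map_sum, hsx, hsy, map_intCast, Finset.sum_const, Finset.sum_const, nsmul_eq_mul, nsmul_eq_mul,
    hpx, hpy, map_intCast, ← Int.cast_sum] at h1
  have h2 : (((∑ ψ ∈ R, cx ψ * cy ψ + (O.card + 1 : ℤ) + a * sy + b * sx + (F.card : ℤ) * (a * b)) : ℤ) : ℂ) =
      (((e : ℤ) + px * py : ℤ) : ℂ) := by
    rw [Int.cast_add, Int.cast_add, Int.cast_add, Int.cast_add]
    push_cast at h1 ⊢
    linear_combination h1
  exact_mod_cast h2

/-- The square roots in terms of the constants. -/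
theorem root_sum (D : PExc A H F) {O R : Finset (IrrCharacter G)}
    (hO : ∀ z ∈ O, (z : G → ℂ) 1 = ((h + 1 : ℕ) : ℂ) ∧ (∀ u ∈ H, u ≠ 1 → (z : G → ℂ) u = 1) ∧
        ∃ φ : IrrCharacter A, φ ∉ fam A H ∧ (z : G → ℂ) = indFun A (φ : A → ℂ))
    (hsum : ∀ {M : Type} [AddCommMonoid M] (f : IrrCharacter G → M),
        ∑ ψ ∈ (F.image D.f)ᶜ, f ψ = f ⟨fun _ => 1, Chars.isIrrCharacter_one⟩ + f ⟨St, B.st_irr⟩ +
          ∑ z ∈ O, f z + ∑ ψ ∈ R, f ψ)
    {x : A} (hx : x ∈ kset A H) {a : ℤ} {cx ν : IrrCharacter G → ℤ}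
    (hν : ∀ ψ : IrrCharacter G, ind2 (ψ : G → ℂ) = (ν ψ : ℂ))
    (ha : ∀ χ ∈ F, (D.sgn χ : ℂ) * (D.f χ : G → ℂ) x = (χ : A → ℂ) x + (a : ℂ))
    (hcx : ∀ ψ ∈ R, (ψ : G → ℂ) x = (cx ψ : ℂ)) :
    ((Finset.univ.filter fun s : G => s * s = (x : G)).card : ℂ) =
      ((O.card : ℂ) + 1) + ((∑ ψ ∈ R, ν ψ * cx ψ : ℤ) : ℂ) +
        ∑ χ ∈ F, wgt D χ * ((χ : A → ℂ) x + (a : ℂ)) := by
  obtain ⟨hxH, hx1⟩ := mem_kset.1 hx
  have hx1' : (x : G) ≠ 1 := fun h1 => hx1 (Subtype.ext h1)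
  rw [sqrt_count, B.sum_all D, hsum]
  dsimp only
  rw [B.st_H x hxH hx1', mul_zero, mul_one,
    show ind2 (fun _ : G => (1 : ℂ)) = 1 by simp [ind2],
    Finset.sum_congr rfl (s₁ := O) (g := fun _ : IrrCharacter G => (1 : ℂ))
      (fun z hz => by
        obtain ⟨h1, h2, φ, -, h3⟩ := hO z hz
        rw [B.ones_ind2 h1 h2 h3, h2 x hxH hx1', mul_one]),
    Finset.sum_congr rfl (s₁ := R) (g := fun ψ => ((ν ψ * cx ψ : ℤ) : ℂ))
      (fun ψ hψ => by rw [hcx ψ hψ, hν, Int.cast_mul]),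
    Finset.sum_congr rfl (s₁ := F) (g := fun χ => wgt D χ * ((χ : A → ℂ) x + (a : ℂ))) (fun χ hχ => by
      have hs : (D.sgn χ : ℂ) * (D.sgn χ : ℂ) = 1 := by rcases D.sgn_sq χ hχ with h | h <;> simp [h]
      rw [← ha χ hχ, wgt]
      linear_combination (-(ind2 (D.f χ : G → ℂ) * (D.f χ : G → ℂ) x)) * hs),
    Finset.sum_const, nsmul_eq_mul, ← Int.cast_sum]
  ring

/-- In a kernel of order `q²` the group is small: `q` is twice a square. -/
theorem square_two (hh : h = q * q) : ∃ d : ℕ, q = 2 * (d * d) := by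
  obtain ⟨F, χ', d, P, hd0, hNd, hrd, hrd', hpu, hpt, hsu, hFt, hnr⟩ := B.toTwoBase.square_data hh
  refine ⟨d, ?_⟩
  have hIc := B.toTwoBase.iset_card
  have he3 := B.e_three
  have hqe := B.two.eq
  set N := F.card with hN
  obtain ⟨D⟩ := B.exists_pexc P
  have hsu' : ∀ x ∈ hset A H, ∑ χ ∈ F, (χ : A → ℂ) x = ((0 : ℤ) : ℂ) := fun x hx => by simpa using hsu x hx
  have hst : ∀ x ∈ iset A H, ∑ χ ∈ F, (χ : A → ℂ) x = ((-((N : ℤ) * d) : ℤ) : ℂ) := fun x hx => by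
    rw [Finset.sum_congr rfl (fun χ hχ => hFt χ hχ x hx), Finset.sum_const, nsmul_eq_mul]; push_cast; ring
  have hpu' : ∀ x ∈ hset A H, (χ' : A → ℂ) x = ((-1 : ℤ) : ℂ) := fun x hx => by simpa using hpu x hx
  have hpt' : ∀ x ∈ iset A H, (χ' : A → ℂ) x = ((e : ℤ) : ℂ) := fun x hx => by simpa using hpt x hx
  have hgp : ((N : ℤ) * d) ∣ (e : ℤ) - (-1) := by
    refine ⟨(d : ℤ), ?_⟩
    have : ((N * (d * d) : ℕ) : ℤ) = ((e + 1 : ℕ) : ℤ) := by rw [hNd, hqe]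
    push_cast at this
    linarith
  obtain ⟨V⟩ := B.exists_pvals P D (g := (N : ℤ) * d) hsu' hst hpu' hpt' ⟨-1, by ring⟩ hgp
  obtain ⟨m, n, hmn, hm, hn⟩ := B.const_mn P D V
  obtain ⟨O, R, hOc, hO, hR, hone, hstn, hOn, hsum⟩ := B.exists_others D
  choose ν hν hν1 hνr using fun ψ : IrrCharacter G => ind2_cases ψ.2
  obtain ⟨u, hu⟩ := Finset.card_pos.1 B.hset_pos
  obtain ⟨t, ht⟩ := B.toTwoBase.iset_nonempty
  have huk := (Finset.mem_filter.1 hu).1
  have htk := (Finset.mem_filter.1 ht).1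
  have hcu : ∀ ψ ∈ R, (ψ : G → ℂ) u = (V.c ψ : ℂ) := fun ψ hψ => V.non_h ψ (hR ψ hψ).1 u hu
  have hct : ∀ ψ ∈ R, (ψ : G → ℂ) t = (V.c' ψ : ℂ) := fun ψ hψ => V.non_i ψ (hR ψ hψ).1 t ht
  -- the exceptional characters are not real
  have hw : ∀ χ ∈ F, wgt D χ = 0 := by
    intro χ hχ
    rw [wgt, hν, mul_eq_zero]
    right
    rw [Int.cast_eq_zero]
    by_contra hne
    obtain ⟨x, hx, hxr⟩ := hnr χ hχ
    refine hxr ?_
    have h1 := hm χ hχ x hx
    have h2 := congrArg conj h1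
    rw [map_mul, map_intCast, map_add, map_intCast, congrFun (hνr _ hne) (x : G), h1] at h2
    linear_combination -h2
  have fsu := B.root_sum D hO hsum huk hν (fun χ hχ => hm χ hχ u hu) hcu
  rw [Finset.filter_false_of_mem (fun s _ => B.no_root hu s), Finset.card_empty, Nat.cast_zero,
    Finset.sum_eq_zero (s := F) (fun χ hχ => by rw [hw χ hχ, zero_mul]), add_zero] at fsu
  have uu := B.balance P D (fun z hz => (hO z hz).2.1) hsum huk huk (fun χ hχ => hm χ hχ u hu)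
    (fun χ hχ => hm χ hχ u hu) hcu hcu (hsu' u hu) (hsu' u hu) (hpu' u hu) (hpu' u hu)
  have ut := B.balance P D (fun z hz => (hO z hz).2.1) hsum huk htk (fun χ hχ => hm χ hχ u hu)
    (fun χ hχ => hn χ hχ t ht) hcu hct (hsu' u hu) (hst t ht) (hpu' u hu) (hpt' t ht)
  have tt := B.balance P D (fun z hz => (hO z hz).2.1) hsum htk htk (fun χ hχ => hn χ hχ t ht)
    (fun χ hχ => hn χ hχ t ht) hct hct (hst t ht) (hst t ht) (hpt' t ht) (hpt' t ht)
  have hqZ : (q : ℤ) = e + 1 := by exact_mod_cast hqe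
  have hNdZ : (N : ℤ) * (d * d) = q := by exact_mod_cast hNd
  set L : ℤ := (O.card : ℤ) + 1 with hL
  have hfs : ∑ ψ ∈ R, ν ψ * V.c ψ = -L := by
    have h1 : ((∑ ψ ∈ R, ν ψ * V.c ψ + L : ℤ) : ℂ) = 0 := by rw [hL]; push_cast at fsu ⊢; linear_combination -fsu
    have h2 : ∑ ψ ∈ R, ν ψ * V.c ψ + L = 0 := by exact_mod_cast h1
    linarith
  have hLge : (q : ℤ) ≤ 2 * L := by rw [hL]; omega
  have hpt1 : ∀ ψ : IrrCharacter G, 0 ≤ V.c ψ * V.c ψ + ν ψ * V.c ψ := by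
    intro ψ
    have h1 : |ν ψ * V.c ψ| ≤ |V.c ψ| := by
      rw [abs_mul]; exact mul_le_of_le_one_left (abs_nonneg _) (hν1 ψ)
    have h2 : |V.c ψ| ≤ V.c ψ * V.c ψ := by rw [← sq, ← sq_abs]; exact Int.le_self_sq _
    have := neg_abs_le (ν ψ * V.c ψ)
    linarith
  have hS := Finset.sum_nonneg (fun ψ (_ : ψ ∈ R) => hpt1 ψ)
  rw [Finset.sum_add_distrib, hfs] at hS
  have hNm : (N : ℤ) * (m * m) = 0 := by
    have h1 : 0 ≤ (N : ℤ) * (m * m) := mul_nonneg (Int.natCast_nonneg _) (mul_self_nonneg m)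
    linarith
  have hN2 : (2 : ℤ) ≤ N := by exact_mod_cast P.two
  have hm0 : m = 0 := mul_self_eq_zero.1 ((mul_eq_zero.1 hNm).resolve_left (by omega))
  subst hm0
  have hc2 : ∑ ψ ∈ R, V.c ψ * V.c ψ = L := by linarith
  have hLq : 2 * L = q := by linarith
  have hνc : ∀ ψ ∈ R, V.c ψ * V.c ψ + ν ψ * V.c ψ = 0 :=
    (Finset.sum_eq_zero_iff_of_nonneg (fun ψ _ => hpt1 ψ)).1 (by rw [Finset.sum_add_distrib, hfs, hc2]; ring)
  have hcc : ∑ ψ ∈ R, V.c ψ * V.c' ψ = -L := by linarith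
  have htt : ∑ ψ ∈ R, V.c' ψ * V.c' ψ ≤ (q : ℤ) * q - L := by
    have h1 : 0 ≤ (N : ℤ) * ((n - d) * (n - d)) := mul_nonneg (Int.natCast_nonneg _) (mul_self_nonneg _)
    nlinarith
  -- a nonzero value at `u` separates the two values
  have hsep : ∀ ψ ∈ R, V.c ψ * V.c ψ * (((N : ℤ) * d) * ((N : ℤ) * d)) ≤
      (V.c' ψ - V.c ψ) * (V.c' ψ - V.c ψ) := by
    intro ψ hψ
    by_cases hc0 : V.c ψ = 0
    · rw [hc0, zero_mul, zero_mul]; exact mul_self_nonneg _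
    have hc1 : V.c ψ * V.c ψ = 1 := by
      have h1 := hνc ψ hψ
      have h2 : V.c ψ = -ν ψ := by
        have h3 : V.c ψ * (V.c ψ + ν ψ) = 0 := by linarith
        linarith [(mul_eq_zero.1 h3).resolve_left hc0]
      rcases abs_le.1 (hν1 ψ) with ⟨h4, h5⟩
      have : V.c ψ = 1 ∨ V.c ψ = -1 := by omega
      rcases this with h | h <;> rw [h] <;> norm_num
    rw [hc1, one_mul]
    have hne : V.c' ψ - V.c ψ ≠ 0 := by
      intro h0
      have hdeg := B.other_degree hIc (hR ψ hψ).2 (fun x hx => V.non_h ψ (hR ψ hψ).1 x hx)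
        (fun x hx => V.non_i ψ (hR ψ hψ).1 x hx)
      rw [sub_eq_zero.1 h0, hh] at hdeg
      push_cast at hdeg
      have hpos := OddChar.deg_pos_irr ψ.2
      have hq4 : (4 : ℤ) ≤ q := by omega
      rcases (mul_self_eq_one_iff.1 hc1) with h1 | h1
      · rw [h1] at hdeg; nlinarith
      · rw [h1] at hdeg
        have hdd : (OddChar.deg (ψ : G → ℂ) : ℤ) = ((q : ℤ) - 1) * (q + 1) := by rw [hdeg, hqZ]; ring
        obtain ⟨k, -, hk, hkdvd⟩ := Chars.irr_degree_dvd_card ψ.2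
        rw [OddChar.deg_spec (Chars.irr_isCharacter ψ), Nat.cast_inj] at hk
        rw [← hk, B.card_G, hh] at hkdvd
        obtain ⟨r, hr⟩ := Int.natCast_dvd_natCast.2 hkdvd
        push_cast at hr
        rw [hdd] at hr
        have h4 : ((q : ℤ) + 1) ∣ 4 := ⟨((q : ℤ) ^ 4 - 2 * q ^ 3 + 3 * q ^ 2 - 4 * q + 4) - ((q : ℤ) - 1) * r, by
          rw [show (e : ℤ) = q - 1 by omega] at hr
          linear_combination -hr⟩
        have := Int.le_of_dvd (by norm_num) h4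
        omega
    obtain ⟨r, hr⟩ := V.non_dvd ψ (hR ψ hψ).1
    rw [hr] at hne ⊢
    have hr0 : r ≠ 0 := fun h0 => hne (by rw [h0, mul_zero])
    have h1 : 1 ≤ r * r := by have := mul_self_pos.2 hr0; omega
    nlinarith [mul_self_nonneg ((N : ℤ) * d)]
  have hfin := Finset.sum_le_sum hsep
  rw [← Finset.sum_mul, hc2] at hfin
  simp only [sub_mul, mul_sub] at hfin
  rw [Finset.sum_sub_distrib, Finset.sum_sub_distrib, Finset.sum_sub_distrib] at hfin
  have hcc' : ∑ ψ ∈ R, V.c' ψ * V.c ψ = -L := by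
    rw [← hcc]; exact Finset.sum_congr rfl fun ψ _ => mul_comm _ _
  rw [hcc, hcc', hc2] at hfin
  have h7 : (N : ℤ) * q * q ≤ 2 * (q * q + q) := by
    have h8 : L * (((N : ℤ) * d) * ((N : ℤ) * d)) * 2 = (N : ℤ) * q * q := by
      linear_combination (((N : ℤ) * d) * ((N : ℤ) * d)) * hLq + ((N : ℤ) * q) * hNdZ
    linarith
  have hN3 : (N : ℤ) ≤ 2 := by
    by_contra h3
    have hq4 : (4 : ℤ) ≤ q := by omega
    nlinarith
  have hNeq : N = 2 := by omega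
  rw [hNeq] at hNd
  omega

/-- A kernel of order `q³` is impossible. -/
theorem cube_false (hh : h = q * q * q) : False := by
  obtain ⟨F, χ', P, hNc, hrd, hrd', hFt, hsu, hpu, hpt⟩ := B.toTwoBase.cube_data hh
  have hIc := B.toTwoBase.iset_card
  have he3 := B.e_three
  have hqe := B.two.eq
  obtain ⟨D⟩ := B.exists_pexc P
  have hsu' : ∀ x ∈ hset A H, ∑ χ ∈ F, (χ : A → ℂ) x = ((-1 : ℤ) : ℂ) := fun x hx => by simpa using hsu x hx
  have hst : ∀ x ∈ iset A H, ∑ χ ∈ F, (χ : A → ℂ) x = ((((q : ℤ) + 1) * e : ℤ) : ℂ) := fun x hx => by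
    rw [Finset.sum_congr rfl (fun χ hχ => hFt χ hχ x hx), Finset.sum_const, nsmul_eq_mul, hNc]; push_cast; ring
  have hpu' : ∀ x ∈ hset A H, (χ' : A → ℂ) x = ((0 : ℤ) : ℂ) := fun x hx => by simpa using hpu x hx
  have hpt' : ∀ x ∈ iset A H, (χ' : A → ℂ) x = ((-(q : ℤ) : ℤ) : ℂ) := fun x hx => by simpa using hpt x hx
  have hqZ : (q : ℤ) = e + 1 := by exact_mod_cast hqe
  obtain ⟨V⟩ := B.exists_pvals P D (g := (q : ℤ)) hsu' hst hpu' hpt'
    ⟨(q : ℤ), by rw [hqZ]; ring⟩ ⟨-1, by ring⟩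
  obtain ⟨m, n, hmn, hm, hn⟩ := B.const_mn P D V
  obtain ⟨O, R, hOc, hO, hR, hone, hstn, hOn, hsum⟩ := B.exists_others D
  choose ν hν hν1 hνr using fun ψ : IrrCharacter G => ind2_cases ψ.2
  obtain ⟨u, hu⟩ := Finset.card_pos.1 B.hset_pos
  obtain ⟨t, ht⟩ := B.toTwoBase.iset_nonempty
  have huk := (Finset.mem_filter.1 hu).1
  have htk := (Finset.mem_filter.1 ht).1
  have hcu : ∀ ψ ∈ R, (ψ : G → ℂ) u = (V.c ψ : ℂ) := fun ψ hψ => V.non_h ψ (hR ψ hψ).1 u hu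
  have hct : ∀ ψ ∈ R, (ψ : G → ℂ) t = (V.c' ψ : ℂ) := fun ψ hψ => V.non_i ψ (hR ψ hψ).1 t ht
  have uu := B.balance P D (fun z hz => (hO z hz).2.1) hsum huk huk (fun χ hχ => hm χ hχ u hu)
    (fun χ hχ => hm χ hχ u hu) hcu hcu (hsu' u hu) (hsu' u hu) (hpu' u hu) (hpu' u hu)
  have ut := B.balance P D (fun z hz => (hO z hz).2.1) hsum huk htk (fun χ hχ => hm χ hχ u hu)
    (fun χ hχ => hn χ hχ t ht) hcu hct (hsu' u hu) (hst t ht) (hpu' u hu) (hpt' t ht)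
  have tt := B.balance P D (fun z hz => (hO z hz).2.1) hsum htk htk (fun χ hχ => hn χ hχ t ht)
    (fun χ hχ => hn χ hχ t ht) hct hct (hst t ht) (hst t ht) (hpt' t ht) (hpt' t ht)
  rw [hNc] at uu ut tt
  push_cast at uu ut tt
  set L : ℤ := (O.card : ℤ) + 1 with hL
  have hLge : (q : ℤ) ≤ 2 * L := by rw [hL]; omega
  have hL1 : 1 ≤ L := by rw [hL]; omega
  have hc0 : 0 ≤ ∑ ψ ∈ R, V.c ψ * V.c ψ := Finset.sum_nonneg fun ψ _ => mul_self_nonneg _
  have hm0 : m = 0 := by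
    by_contra hne
    rcases lt_or_gt_of_ne hne with h1 | h1
    · nlinarith [mul_self_pos.2 hne]
    · nlinarith [mul_le_mul_of_nonneg_left (show (1 : ℤ) ≤ m by omega) (show (0 : ℤ) ≤ m by omega)]
  subst hm0
  have hc2 : ∑ ψ ∈ R, V.c ψ * V.c ψ = (e : ℤ) - L := by linarith
  -- the sum over the elements which are not involutions
  set W : ℂ := ∑ χ ∈ F, wgt D χ with hW
  set w : ℤ := ∑ χ ∈ F, D.sgn χ * ν (D.f χ) with hw
  have hWw : W = (w : ℂ) := by
    rw [hW, hw]; push_cast; exact Finset.sum_congr rfl fun χ _ => by rw [wgt, hν]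
  set X : ℤ := L + ∑ ψ ∈ R, ν ψ * V.c ψ with hX
  have hfs : ((q : ℤ) + 1) * X = w := by
    have h1 : ∀ x ∈ hset A H, (0 : ℂ) = (X : ℂ) + ∑ χ ∈ F, wgt D χ * (χ : A → ℂ) x := by
      intro x hx
      have fs := B.root_sum D hO hsum (Finset.mem_filter.1 hx).1 hν (fun χ hχ => hm χ hχ x hx)
        (fun ψ hψ => V.non_h ψ (hR ψ hψ).1 x hx)
      rw [Finset.filter_false_of_mem (fun s _ => B.no_root hx s), Finset.card_empty, Nat.cast_zero] at fs
      rw [fs, hX, hL]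
      simp only [Int.cast_zero, add_zero]
      push_cast
      ring
    have h2 : (0 : ℂ) = ((hset A H).card : ℂ) * (X : ℂ) + ∑ χ ∈ F, wgt D χ * ∑ x ∈ hset A H, (χ : A → ℂ) x := by
      rw [Finset.sum_congr rfl (s₁ := F) (fun χ _ => Finset.mul_sum _ _ _), Finset.sum_comm,
        ← nsmul_eq_mul, ← Finset.sum_const, ← Finset.sum_add_distrib]
      exact (Finset.sum_eq_zero fun x hx => (h1 x hx).symm).symm
    rw [Finset.sum_congr rfl (s₁ := F) (g := fun χ => wgt D χ * (-((e : ℂ) + e * e))) (fun χ hχ => by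
      have h3 := B.sum_kset_fam (P.sub hχ)
      rw [kset_split, Finset.sum_congr rfl (s₁ := iset A H) (fun x hx => hFt χ hχ x hx), Finset.sum_const, hIc,
        nsmul_eq_mul, (B.rdeg_spec (P.sub hχ)).2, hrd χ hχ] at h3
      congr 1
      push_cast at h3
      linear_combination h3), ← Finset.sum_mul, ← hW, hWw] at h2
    have h3 := B.card_hset hIc
    have h4 : ((hset A H).card : ℂ) = (e : ℂ) * q * ((q : ℂ) + 1) := by
      have h5 : (hset A H).card = e * q * (q + 1) := by rw [hh, hqe] at h3; rw [hqe]; nlinarith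
      rw [h5]; push_cast; ring
    rw [h4, show (q : ℂ) = (e : ℂ) + 1 by exact_mod_cast hqe] at h2
    have h6 : (((q : ℤ) + 1) * X : ℤ) = w := by
      have he0 : (e : ℂ) * ((e : ℂ) + 1) ≠ 0 := by exact_mod_cast (by positivity : e * (e + 1) ≠ 0)
      have h7 : ((((q : ℤ) + 1) * X : ℤ) : ℂ) = (w : ℂ) := by
        rw [hqZ]; push_cast
        refine mul_left_cancel₀ he0 ?_
        linear_combination -h2
      exact_mod_cast h7
    exact h6
  have hwle : w ≤ (q : ℤ) + 1 := by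
    calc w ≤ ∑ χ ∈ F, (1 : ℤ) := by
          refine Finset.sum_le_sum fun χ hχ => ?_
          obtain ⟨h4, h5⟩ := abs_le.1 (hν1 (D.f χ))
          rcases D.sgn_sq χ hχ with h | h <;> rw [h] <;> omega
      _ = _ := by rw [Finset.sum_const, hNc]; simp
  have hpt1 : ∀ ψ : IrrCharacter G, 0 ≤ V.c ψ * V.c ψ + ν ψ * V.c ψ := by
    intro ψ
    have h1 : |ν ψ * V.c ψ| ≤ |V.c ψ| := by
      rw [abs_mul]; exact mul_le_of_le_one_left (abs_nonneg _) (hν1 ψ)
    have h2 : |V.c ψ| ≤ V.c ψ * V.c ψ := by rw [← sq, ← sq_abs]; exact Int.le_self_sq _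
    have := neg_abs_le (ν ψ * V.c ψ)
    linarith
  have hS := Finset.sum_nonneg (fun ψ (_ : ψ ∈ R) => hpt1 ψ)
  rw [Finset.sum_add_distrib, hc2, show ∑ ψ ∈ R, ν ψ * V.c ψ = X - L by rw [hX]; ring] at hS
  have hX1 : X = 1 := by
    have h1 : X ≤ 1 := by
      by_contra h2
      nlinarith
    omega
  have hLq : 2 * L = q := by omega
  have hw1 : w = (q : ℤ) + 1 := by rw [← hfs, hX1, mul_one]
  have hνc : ∀ ψ ∈ R, V.c ψ * V.c ψ + ν ψ * V.c ψ = 0 :=
    (Finset.sum_eq_zero_iff_of_nonneg (fun ψ _ => hpt1 ψ)).1 (by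
      rw [Finset.sum_add_distrib, hc2, show ∑ ψ ∈ R, ν ψ * V.c ψ = X - L by rw [hX]; ring]; linarith)
  set k : ℤ := (e : ℤ) + n with hk
  have hcc : ∑ ψ ∈ R, V.c ψ * V.c' ψ = k - L := by rw [hk]; linarith
  have htt : ∑ ψ ∈ R, V.c' ψ * V.c' ψ = (q : ℤ) * q * q - L - ((q : ℤ) + 1) * (k * k) := by
    rw [hk]
    linear_combination tt -
      (2 * ((q : ℤ) * q - 1) - ((q : ℤ) + 1) * ((q : ℤ) - e - 1) + 1) * hqZ
  -- the square roots of an involution
  have hroots : ∑ ψ ∈ R, ν ψ * V.c' ψ = (q : ℤ) * (q + 1) - L - ((q : ℤ) + 1) * k := by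
    obtain ⟨r, hr, hr'⟩ := B.roots ht
    have fs := B.root_sum D hO hsum htk hν (fun χ hχ => hn χ hχ t ht) hct
    rw [hr', Finset.sum_congr rfl (s₁ := F) (g := fun χ => wgt D χ * (k : ℂ)) (fun χ hχ => by
      rw [hFt χ hχ t ht, hk]; push_cast; ring), ← Finset.sum_mul, ← hW, hWw, hw1] at fs
    have hrq : (r : ℤ) = (q : ℤ) * (q + 1) := by
      have h1 : r = q * (q + 1) := by
        refine Nat.eq_of_mul_eq_mul_right (show 0 < e by omega) ?_
        rw [hh, hqe] at hr; rw [hqe]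
        nlinarith
      exact_mod_cast h1
    have h2 : ((∑ ψ ∈ R, ν ψ * V.c' ψ : ℤ) : ℂ) = (((r : ℤ) - L - ((q : ℤ) + 1) * k : ℤ) : ℂ) := by
      rw [hL]; push_cast at fs ⊢; linear_combination -fs
    rw [← hrq]; exact_mod_cast h2
  have hzero : ∑ ψ ∈ R, (ν ψ * V.c' ψ + V.c ψ * V.c' ψ) = (q : ℤ) * q - q * k := by
    rw [Finset.sum_add_distrib, hroots, hcc]; linarith
  have hbound : (q : ℤ) * ∑ ψ ∈ R, (ν ψ * V.c' ψ + V.c ψ * V.c' ψ) ≤ ∑ ψ ∈ R, V.c' ψ * V.c' ψ := by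
    rw [Finset.mul_sum]
    refine Finset.sum_le_sum fun ψ hψ => ?_
    by_cases hc : V.c ψ = 0
    · rw [hc, zero_mul, add_zero]
      obtain ⟨r, hr⟩ := V.non_dvd ψ (hR ψ hψ).1
      rw [hc, sub_zero] at hr
      rw [hr]
      have h1 : |ν ψ * r| ≤ |r| := by rw [abs_mul]; exact mul_le_of_le_one_left (abs_nonneg _) (hν1 ψ)
      have h2 : |r| ≤ r * r := by rw [← sq, ← sq_abs]; exact Int.le_self_sq _
      have h3 := le_abs_self (ν ψ * r)
      have h4 : (0 : ℤ) ≤ (q : ℤ) * q := mul_self_nonneg _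
      nlinarith [mul_le_mul_of_nonneg_left (h3.trans (h1.trans h2)) h4]
    · have h1 : V.c ψ + ν ψ = 0 := by
        have h3 : V.c ψ * (V.c ψ + ν ψ) = 0 := by have := hνc ψ hψ; linarith
        exact (mul_eq_zero.1 h3).resolve_left hc
      rw [show ν ψ * V.c' ψ + V.c ψ * V.c' ψ = 0 by linear_combination (V.c' ψ) * h1, mul_zero]
      exact mul_self_nonneg _
  rw [hzero, htt] at hbound
  have hkpos : 0 < k := by
    by_contra h1
    nlinarith [mul_nonpos_iff.2 (Or.inr ⟨not_lt.1 h1, (by positivity : (0 : ℤ) ≤ (q : ℤ) * q)⟩),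
      mul_self_nonneg k]
  have hklt : k < q := by
    by_contra h1
    nlinarith [mul_le_mul_of_nonneg_left (not_lt.1 h1) (mul_nonneg (show (0 : ℤ) ≤ (q : ℤ) + 1 by omega) hkpos.le)]
  obtain ⟨r, hr⟩ := hmn
  rw [sub_zero] at hr
  have hr0 : r = 0 := by
    by_contra h1
    rcases lt_or_gt_of_ne h1 with h2 | h2
    · nlinarith [mul_le_mul_of_nonneg_left (show r ≤ -1 by omega) (show (0 : ℤ) ≤ q by omega)]
    · nlinarith [mul_le_mul_of_nonneg_left (show (1 : ℤ) ≤ r by omega) (show (0 : ℤ) ≤ q by omega)]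
  have hn0 : n = 0 := by rw [hr, hr0, mul_zero]
  subst hn0
  -- an exceptional character has degree `e`
  obtain ⟨χ, hχ⟩ := Finset.card_pos.1 (by omega : 0 < F.card)
  have hl : lmult A H (D.f χ : G → ℂ) = 0 :=
    Finset.sum_eq_zero fun φ hφ => D.orth χ hχ φ (Finset.mem_filter.1 hφ).2
  have h1 := B.sum_H (Chars.isClassFunction_irr (D.f χ))
  have hs : (D.sgn χ : ℂ) * (D.sgn χ : ℂ) = 1 := by rcases D.sgn_sq χ hχ with h | h <;> simp [h]
  rw [hl, mul_zero, Finset.sum_congr rfl (g := fun x : A => (D.sgn χ : ℂ) * (χ : A → ℂ) x) (fun x hx => ?_),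
    ← Finset.mul_sum, B.sum_kset_fam (P.sub hχ), (B.rdeg_spec (P.sub hχ)).2, hrd χ hχ,
    OddChar.deg_spec (Chars.irr_isCharacter (D.f χ))] at h1
  · have hpos := OddChar.deg_pos_irr (D.f χ).2
    have h2 : ((OddChar.deg (D.f χ : G → ℂ) : ℤ) : ℂ) = ((D.sgn χ * e : ℤ) : ℂ) := by
      push_cast at h1 ⊢; linear_combination h1
    have h3 : (OddChar.deg (D.f χ : G → ℂ) : ℤ) = D.sgn χ * e := by exact_mod_cast h2
    rcases D.sgn_sq χ hχ with h | h
    · refine small_degree_false B.toBase (D.f χ).2 ?_ (fun φ hφ => D.orth χ hχ φ hφ)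
      rw [h, one_mul] at h3
      rw [OddChar.deg_spec (Chars.irr_isCharacter (D.f χ)), show OddChar.deg (D.f χ : G → ℂ) = e by exact_mod_cast h3]
    · rw [h] at h3; omega
  · by_cases hxo : orderOf (x : G) = 2
    · have h4 := hn χ hχ x (Finset.mem_filter.2 ⟨hx, hxo⟩)
      rw [Int.cast_zero, add_zero] at h4
      rw [← h4, ← mul_assoc, hs, one_mul]
    · have h4 := hm χ hχ x (Finset.mem_filter.2 ⟨hx, hxo⟩)
      rw [Int.cast_zero, add_zero] at h4
      rw [← h4, ← mul_assoc, hs, one_mul]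

end PairBase

end Cfsg.Agent.Chars.ZassFeit
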