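import Cfsg.Agent.PermGroups.SharplyThree
import Cfsg.Agent.S0727
import Cfsg.Agent.S0307

/-!
A sharply triply transitive group of degree a power of two plus one, given by an action, is a
projective special linear group.
-/

set_option autoImplicit false
set_option linter.unusedSectionVars false

open scoped Classical

namespace Cfsg.Agent.Chars.ZassFeit

open MulAction

universe u v

variable {G : Type u} [Group G] [Finite G] {Ω : Type v} [MulAction G Ω] [Fintype Ω] [FaithfulSMul G Ω]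

theorem image_sharp (h3 : IsMultiplyPretransitive G Ω 3) (hsharp : ∀ t : Fin 3 ↪ Ω, stabilizer G t = ⊥) :
    IsMultiplyPretransitive (MulAction.toPermHom G Ω).range Ω 3 ∧
      ∀ t : Fin 3 ↪ Ω, stabilizer (MulAction.toPermHom G Ω).range t = ⊥ := by
  refine ⟨isMultiplyPretransitive_iff.2 fun x y => ?_, fun t => ?_⟩
  · obtain ⟨g, hg⟩ := isMultiplyPretransitive_iff.1 h3 x y
    exact ⟨⟨MulAction.toPermHom G Ω g, g, rfl⟩, hg⟩
  · rw [Subgroup.eq_bot_iff_forall]
    rintro ⟨_, g, rfl⟩ hg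
    have hg' : g ∈ stabilizer G t := mem_stabilizer_iff.2 (mem_stabilizer_iff.1 hg)
    rw [hsharp t, Subgroup.mem_bot] at hg'
    subst hg'
    exact Subtype.ext (map_one _)

/-- The order of a two-point stabiliser. -/
theorem sharply_card (h3 : IsMultiplyPretransitive G Ω 3) (hsharp : ∀ t : Fin 3 ↪ Ω, stabilizer G t = ⊥)
    {a b : Ω} (hab : a ≠ b) (hn : 3 ≤ Fintype.card Ω) :
    Nat.card ↥(stabilizer G a ⊓ stabilizer G b : Subgroup G) + 2 = Fintype.card Ω := by
  obtain ⟨c, hac, hbc⟩ := PermGroups.exists_third hn hab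
  obtain ⟨h3', hsharp'⟩ := image_sharp h3 hsharp
  have h1 := PermGroups.natCard_twoStabilizer h3' hsharp' hab hac hbc
  have h2 : Nat.card ↥(stabilizer G a ⊓ stabilizer G b : Subgroup G) =
      Nat.card ↥(stabilizer (MulAction.toPermHom G Ω).range a ⊓ stabilizer (MulAction.toPermHom G Ω).range b :
        Subgroup (MulAction.toPermHom G Ω).range) := by
    refine Nat.card_eq_of_bijective
      (fun g => ⟨⟨MulAction.toPermHom G Ω g, g, rfl⟩, g.2.1, g.2.2⟩) ⟨fun g k e => ?_, ?_⟩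
    · exact Subtype.ext (MulAction.toPerm_injective (congrArg (fun z => (z.1.1 : Equiv.Perm Ω)) e))
    · rintro ⟨⟨_, g, rfl⟩, hga, hgb⟩
      exact ⟨⟨g, hga, hgb⟩, rfl⟩
  rw [h2, h1]
  omega

/-- Such a group is a projective special linear group in characteristic two. -/
theorem psl_of_sharply (h3 : IsMultiplyPretransitive G Ω 3) (hsharp : ∀ t : Fin 3 ↪ Ω, stabilizer G t = ⊥)
    {f : ℕ} (hf : 1 ≤ f) (hΩ : Fintype.card Ω = 2 ^ f + 1) :
    ∃ (F : Type) (_ : Field F) (_ : Fintype F),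
      Nonempty (G ≃* Matrix.ProjectiveSpecialLinearGroup (Fin 2) F) := by
  obtain ⟨h3', hsharp'⟩ := image_sharp h3 hsharp
  obtain ⟨F, fF, ftF, hF, ⟨ψ⟩⟩ := S0727.result hf hΩ _ h3' hsharp'
  refine ⟨F, fF, ftF, ?_⟩
  obtain ⟨g, -, hg⟩ := S0307.result hF 2 (by norm_num)
  have hgcd : Nat.gcd 2 (2 ^ f - 1) = 1 := by
    refine (Nat.prime_two.coprime_iff_not_dvd).2 ?_
    have h1 : 2 ∣ 2 ^ f := dvd_pow_self 2 (by omega)
    have h2 := Nat.two_pow_pos f
    omega
  haveI : Subsingleton (ZMod (Nat.gcd 2 (2 ^ f - 1))) := by rw [hgcd]; infer_instance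
  have htop : (Matrix.ProjectiveSpecialLinearGroup.toPGL :
      Matrix.ProjectiveSpecialLinearGroup (Fin 2) F →* Matrix.ProjGenLinGroup (Fin 2) F).range = ⊤ := by
    rw [← hg, eq_top_iff]
    exact fun x _ => Subsingleton.elim (α := Multiplicative (ZMod (Nat.gcd 2 (2 ^ f - 1)))) _ _
  let φ : Matrix.ProjectiveSpecialLinearGroup (Fin 2) F ≃* Matrix.ProjGenLinGroup (Fin 2) F :=
    MulEquiv.ofBijective Matrix.ProjectiveSpecialLinearGroup.toPGL
      ⟨Matrix.ProjectiveSpecialLinearGroup.toPGL_injective, MonoidHom.range_eq_top.1 htop⟩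
  exact ⟨((MonoidHom.ofInjective MulAction.toPerm_injective : G ≃* (MulAction.toPermHom G Ω).range).trans ψ).trans φ.symm⟩

end Cfsg.Agent.Chars.ZassFeit
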