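import Cfsg.Agent.Chars.ZassPairCases
import Cfsg.Agent.Chars.ZassFeitMain
import Cfsg.Agent.Chars.ZassKernel
import Cfsg.Agent.S1137
import Cfsg.Agent.S1138
import Cfsg.Agent.S1139
import Cfsg.Agent.S0738

/-!
A simple Zassenhaus group with a non-abelian kernel: the kernel is a Suzuki two-group of type A
over a field of order an odd power of two, and the order of the group is that of a Suzuki group.
-/

set_option autoImplicit false
set_option linter.unusedSectionVars false

open scoped Classical ComplexConjugate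

namespace Cfsg.Agent.Chars.ZassFeit

open Cfsg MulAction

universe u v

variable {G : Type u} [Group G] [Fintype G] {Ω : Type v} [MulAction G Ω] [Fintype Ω]

/-- An element of the point stabiliser is a kernel element times one fixing a second point. -/
theorem stabilizer_decomp {a b : Ω} (hab : a ≠ b) {H : Subgroup G} (hHa : H ≤ stabilizer G a)
    (hreg : ∀ y z : Ω, y ≠ a → z ≠ a → ∃! u : H, (u : G) • y = z) {g : G} (hg : g ∈ stabilizer G a) :
    ∃ u ∈ H, u⁻¹ * g ∈ stabilizer G a ⊓ stabilizer G b := by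
  have hgb : g • b ≠ a := fun e1 =>
    hab.symm (smul_left_cancel g (e1.trans (mem_stabilizer_iff.1 hg).symm))
  obtain ⟨u, hu, -⟩ := hreg b (g • b) hab.symm hgb
  exact ⟨u, u.2, (stabilizer G a).mul_mem ((stabilizer G a).inv_mem (hHa u.2)) hg,
    mem_stabilizer_iff.2 (by rw [mul_smul, ← hu, inv_smul_smul])⟩

/-- Two-point stabilisers have equal order. -/
theorem card_two_stabilizer (hZ : IsZassenhausGroup G Ω) {a b y : Ω} (hab : a ≠ b) (hay : a ≠ y) {h : ℕ}
    (hh : Fintype.card Ω = h + 1) (hpos : 0 < h) :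
    Nat.card ↥(stabilizer G a ⊓ stabilizer G y : Subgroup G) =
      Nat.card ↥(stabilizer G a ⊓ stabilizer G b : Subgroup G) :=
  Nat.eq_of_mul_eq_mul_left hpos ((card_eqs hZ hay hh rfl).1.symm.trans (card_eqs hZ hab hh rfl).1)

/-- The kernel of a simple Zassenhaus group with two-point stabilisers of odd order, more than
twice as large as they are. -/
theorem suzuki_kernel (hZ : IsZassenhausGroup G Ω) {a b : Ω} (hab : a ≠ b) [IsSimpleGroup G] (h e : ℕ)
    (hh : Fintype.card Ω = h + 1) (he : Nat.card ↥(stabilizer G a ⊓ stabilizer G b : Subgroup G) = e)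
    (hodd : Odd e) (hlt : 2 * e < h - 1) (H : Subgroup G) (hHa : H ≤ stabilizer G a)
    (hHcard : Nat.card H + 1 = Fintype.card Ω) (hHfix : ∀ u ∈ H, u ≠ 1 → ∀ c : Ω, u • c = c → c = a) :
    IsCyclic ↥(stabilizer G a ⊓ stabilizer G b : Subgroup G) ∧
      ∃ n : ℕ, Odd n ∧ 1 < n ∧ h = 2 ^ (2 * n) ∧ e = 2 ^ n - 1 ∧
        Nat.card G = (2 ^ n) ^ 2 * ((2 ^ n) ^ 2 + 1) * (2 ^ n - 1) ∧
        ∃ (F : Type) (_ : Field F) (_ : Fintype F) (φ : F ≃+* F), Fintype.card F = 2 ^ n ∧
          Nonempty (H ≃* suzukiTypeA F (φ : F →+* F)) := by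
  obtain ⟨hnorm, hreg, hKmem⟩ := PermGroups.kernel_props hZ hHa hHcard hHfix
  set A := stabilizer G a with hA
  haveI : Fintype A := Fintype.ofFinite A
  haveI : (H.subgroupOf A).Normal :=
    ⟨fun n hn g => Subgroup.mem_subgroupOf.2 (hnorm g g.2 n (Subgroup.mem_subgroupOf.1 hn))⟩
  obtain ⟨St, S⟩ := exists_base hZ hab h e hh he hodd hlt H hHa hHcard hHfix
  obtain ⟨hP, ⟨u₁, v₁, huv⟩, -⟩ := simple_case hZ hab h e hh he hodd hlt H hHa hHcard hHfix
  haveI : Fact (Nat.Prime 2) := ⟨Nat.prime_two⟩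
  have hHh : Nat.card H = h := by omega
  obtain ⟨k, hk⟩ := IsPGroup.iff_card.1 hP
  rw [hHh] at hk
  have hev : Even h := by
    rcases Nat.eq_zero_or_pos k with hk0 | hk0
    · rw [hk0, pow_zero] at hk; omega
    · rw [hk]; exact (even_two.pow_of_ne_zero hk0.ne')
  obtain ⟨-, hIc, hcen, hconj, hImem⟩ := even_facts hZ hab h e hh he hodd hlt H hHa hHcard hHfix hev S
  have hoddE : Odd (Nat.card ↥(stabilizer G a ⊓ stabilizer G b : Subgroup G)) := he ▸ hodd
  haveI hcyc : IsCyclic ↥(stabilizer G a ⊓ stabilizer G b : Subgroup G) :=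
    (S0739.result hZ hab hoddE (PermGroups.no_complement_of_simple hZ hab)).1
  refine ⟨hcyc, ?_⟩
  set K := H.subgroupOf A with hKdef
  set E := (stabilizer G a ⊓ stabilizer G b : Subgroup G).subgroupOf A with hE
  let eE : ↥E ≃* ↥(stabilizer G a ⊓ stabilizer G b : Subgroup G) := Subgroup.subgroupOfEquivOfLe inf_le_left
  haveI : IsCyclic E := isCyclic_of_surjective eE.symm eE.symm.surjective
  set T : Subgroup (MulAut K) := E.map MulAut.conjNormal with hTdef
  haveI hTcyc : IsCyclic T :=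
    isCyclic_of_surjective (MulAut.conjNormal.subgroupMap E) (MonoidHom.subgroupMap_surjective _ E)
  have hTcard : Nat.card T ≤ e := by
    rw [← he, ← Nat.card_congr eE.toEquiv]
    exact Nat.card_le_card_of_surjective _ (MonoidHom.subgroupMap_surjective MulAut.conjNormal E)
  -- the involutions of the kernel
  have hinvK : ∀ x : K, (x ≠ 1 ∧ x * x = 1) ↔ (x : A) ∈ iset A H := by
    intro x
    refine ⟨fun ⟨h1, h2⟩ => (hImem _).2 ?_, fun hx => ?_⟩
    · refine orderOf_eq_prime ?_ fun h3 => h1 (Subtype.ext (Subtype.ext h3))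
      rw [sq]
      exact congrArg (fun y : K => ((y : A) : G)) h2
    · have ho := (hImem _).1 hx
      refine ⟨fun h1 => (by rw [h1, OneMemClass.coe_one, OneMemClass.coe_one, orderOf_one] at ho; omega), ?_⟩
      refine Subtype.ext (Subtype.ext ?_)
      push_cast
      rw [← sq, ← ho, pow_orderOf_eq_one]
  -- the two-point stabiliser is transitive on them
  have htrans : ∀ x y : K, (x : A) ∈ iset A H → (y : A) ∈ iset A H → ∃ t : T, (t : MulAut K) x = y := by
    intro x y hx hy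
    obtain ⟨g, hg⟩ := hconj _ hx _ hy
    obtain ⟨u, hu, hd⟩ := stabilizer_decomp hab hHa hreg g.2
    refine ⟨⟨MulAut.conjNormal (⟨u⁻¹ * g, hd.1⟩ : A), Subgroup.mem_map_of_mem _ (Subgroup.mem_subgroupOf.2 hd)⟩,
      Subtype.ext (Subtype.ext ?_)⟩
    have hg' : (g : G) * ((x : A) : G) * (g : G)⁻¹ = ((y : A) : G) := congrArg Subtype.val hg
    have hc := hcen _ hy u hu
    rw [MulAut.conjNormal_apply]
    push_cast
    calc u⁻¹ * (g : G) * ((x : A) : G) * (u⁻¹ * (g : G))⁻¹
        = u⁻¹ * ((g : G) * ((x : A) : G) * (g : G)⁻¹) * u := by group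
      _ = u⁻¹ * (((y : A) : G) * u) := by rw [hg', mul_assoc]
      _ = _ := by rw [← hc, inv_mul_cancel_left]
  set J := Finset.univ.filter fun x : K => (x : A) ∈ iset A H with hJ
  have hJc : J.card = e := by
    rw [← hIc]
    refine Finset.card_bij (fun x _ => (x : A)) (fun x hx => (Finset.mem_filter.1 hx).2)
      (fun x _ y _ e1 => Subtype.ext e1) fun x hx => ?_
    exact ⟨⟨x, Subgroup.mem_subgroupOf.2 (mem_kset.1 (Finset.mem_filter.1 hx).1).1⟩,
      Finset.mem_filter.2 ⟨Finset.mem_univ _, hx⟩, rfl⟩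
  have he3 : 3 ≤ e := by
    have := S.e_two
    obtain ⟨r, hr⟩ := hodd
    omega
  have hmapJ : ∀ (t : MulAut K) (x : K), (x : A) ∈ iset A H → (t x : A) ∈ iset A H := by
    intro t x hx
    obtain ⟨h1, h2⟩ := (hinvK x).2 hx
    exact (hinvK _).1 ⟨fun h3 => h1 (t.injective (h3.trans (map_one t).symm)), by rw [← map_mul, h2, map_one]⟩
  haveI : Fintype T := Fintype.ofFinite T
  have hSuz : IsSuzukiTwoGroup K := by
    refine ⟨inferInstance, hP.of_equiv (Subgroup.subgroupOfEquivOfLe hHa).symm, ?_, ?_, T, hTcyc, ?_⟩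
    · refine ⟨(Subgroup.subgroupOfEquivOfLe hHa).symm u₁, (Subgroup.subgroupOfEquivOfLe hHa).symm v₁, fun h1 => huv ?_⟩
      rw [← map_mul, ← map_mul] at h1
      exact (Subgroup.subgroupOfEquivOfLe hHa).symm.injective h1
    · obtain ⟨x, hx, y, hy, hxy⟩ := Finset.one_lt_card.1 (show 1 < J.card by omega)
      obtain ⟨hx1, hx2⟩ := (hinvK x).2 (Finset.mem_filter.1 hx).2
      obtain ⟨hy1, hy2⟩ := (hinvK y).2 (Finset.mem_filter.1 hy).2
      exact ⟨x, y, hxy, hx1, hx2, hy1, hy2⟩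
    · intro x y hx1 hx2 hy1 hy2
      have hx := (hinvK x).1 ⟨hx1, hx2⟩
      have hy := (hinvK y).1 ⟨hy1, hy2⟩
      obtain ⟨t, ht⟩ := htrans x y hx hy
      refine ⟨t, ht, fun t' ht' => ?_⟩
      have himg : (Finset.univ : Finset T).image (fun s : T => (s : MulAut K) x) = J := by
        ext z
        refine ⟨fun hz => ?_, fun hz => ?_⟩
        · obtain ⟨s, -, rfl⟩ := Finset.mem_image.1 hz
          exact Finset.mem_filter.2 ⟨Finset.mem_univ _, hmapJ _ x hx⟩
        · obtain ⟨s, hs⟩ := htrans x z hx (Finset.mem_filter.1 hz).2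
          exact Finset.mem_image.2 ⟨s, Finset.mem_univ _, hs⟩
      have hinj : Set.InjOn (fun s : T => (s : MulAut K) x) ((Finset.univ : Finset T) : Set T) :=
        Finset.card_image_iff.1 (le_antisymm Finset.card_image_le (by
          rw [himg, hJc, Finset.card_univ, ← Nat.card_eq_fintype_card]
          exact hTcard))
      exact hinj (Finset.mem_coe.2 (Finset.mem_univ t')) (Finset.mem_coe.2 (Finset.mem_univ t)) (ht'.trans ht.symm)
  obtain ⟨hsq, hcomm, hcard, -⟩ := S1138.result hSuz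
  obtain ⟨hinvZ, hsqZ⟩ := S1137.result hSuz
  set Z := Subgroup.center K with hZdef
  have hZi : ∀ x : A, x ∈ iset A H ↔ ∃ z ∈ Z, z ≠ 1 ∧ (z : A) = x := by
    intro x
    refine ⟨fun hx => ?_, ?_⟩
    · have hxK : x ∈ K := Subgroup.mem_subgroupOf.2 (mem_kset.1 (Finset.mem_filter.1 hx).1).1
      obtain ⟨h1, h2⟩ := (hinvZ ⟨x, hxK⟩).1 ((hinvK ⟨x, hxK⟩).2 hx)
      exact ⟨_, h1, h2, rfl⟩
    · rintro ⟨z, hz, hz1, rfl⟩
      exact (hinvK z).1 ((hinvZ z).2 ⟨hz, hz1⟩)
  set q := Nat.card Z with hqdef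
  have hq : q = e + 1 := by
    have h1 : (zset Z).erase 1 = J := by
      ext z
      simp only [Finset.mem_erase, mem_zset, hJ, Finset.mem_filter, Finset.mem_univ, true_and, ← hinvK z, hinvZ z,
        hZdef]
      tauto
    have h2 : (zset Z).card = q := by
      rw [zset, ← Fintype.card_subtype, ← Nat.card_eq_fintype_card, hqdef]
    have h3 := Finset.card_erase_of_mem (mem_zset.2 (one_mem Z) : (1 : K) ∈ zset Z)
    rw [h1, hJc, h2] at h3
    have hpos : 0 < q := by rw [hqdef]; exact Nat.card_pos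
    omega
  have hTK : TwoKer K Z q e :=
    { le_center := fun z hz x => (Subgroup.mem_center_iff.1 hz x).symm
      sq_one := hsqZ
      of_sq := fun x hx => by
        by_cases h1 : x = 1
        · rw [h1]; exact one_mem _
        · exact ((hinvZ x).1 ⟨h1, hx⟩).1
      sq_mem := hsq
      comm_mem := fun x y => by have h1 := hcomm x⁻¹ y⁻¹; simpa using h1
      card_Z := rfl
      eq := hq
      index := S.index_H
      e_two := S.e_two
      trans := fun z hz w hw hz1 hw1 => by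
        obtain ⟨g, hg⟩ := hconj _ ((hinvK z).1 ((hinvZ z).2 ⟨hz, hz1⟩)) _ ((hinvK w).1 ((hinvZ w).2 ⟨hw, hw1⟩))
        exact ⟨g, Subtype.ext (by rw [MulAut.conjNormal_apply]; exact hg)⟩ }
  have B : PairBase A H h e St Z q :=
    { toBase := S
      two := hTK
      iset_iff := hZi
      rev := fun g hg hgH => by
        obtain ⟨y, hya, hgy⟩ : ∃ y, y ≠ a ∧ g • y = y := by
          by_contra hno
          push Not at hno
          exact hgH (hKmem g (mem_stabilizer_iff.1 hg) hno)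
        obtain ⟨s, hsa, hsy⟩ := is_two_pretransitive_iff.1 hZ.2.1 hya.symm hya
        obtain ⟨-, hinv⟩ := PermGroups.simple_odd_swap hZ hya.symm
          (by rw [card_two_stabilizer hZ hab hya.symm hh S.h_pos]; exact hoddE) hsa hsy
        exact isConj_iff.2 ⟨s, hinv g ⟨hg, mem_stabilizer_iff.2 hgy⟩⟩ }
  have hKh : Nat.card K = h := S.card_sub
  have hh2 : h = q * q := by
    rcases hcard with h1 | h1
    · rw [← hKh, h1, sq]
    · exact (B.cube_false (by rw [← hKh, h1]; ring)).elim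
  obtain ⟨d, hd⟩ := B.square_two hh2
  have hqdvd : q ∣ 2 ^ k := by rw [← hk, ← hKh]; exact Subgroup.card_subgroup_dvd_card Z
  obtain ⟨n, -, hn⟩ := (Nat.dvd_prime_pow Nat.prime_two).1 hqdvd
  have hddvd : d ∣ 2 ^ n := ⟨2 * d, by rw [← hn, hd]; ring⟩
  obtain ⟨j, -, hj⟩ := (Nat.dvd_prime_pow Nat.prime_two).1 hddvd
  have hnj : n = 2 * j + 1 := by
    refine Nat.pow_right_injective le_rfl (show 2 ^ n = 2 ^ (2 * j + 1) from ?_)
    rw [← hn, hd, hj]; ring
  have hn1 : 1 < n := by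
    by_contra h1
    have h2 : q ≤ 2 ^ 1 := hn ▸ Nat.pow_le_pow_right (by norm_num) (by omega)
    omega
  refine ⟨n, ⟨j, hnj⟩, hn1, ?_, ?_, ?_, ?_⟩
  · rw [hh2, hn]; ring
  · omega
  · rw [S.card_G, hh2, show e = q - 1 by omega, hn]; ring
  · obtain ⟨F, fF, ftF, φ, hF, -, -, ⟨ψ⟩⟩ := S1139.result hSuz (by rw [← hqdef, hKh, hh2, sq])
    exact ⟨F, fF, ftF, φ, hF.trans hn, ⟨(Subgroup.subgroupOfEquivOfLe hHa).symm.trans ψ⟩⟩

/-- A regular non-abelian kernel gives the hypotheses. -/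
theorem nonabelian_kernel (hZ : IsZassenhausGroup G Ω) {a b : Ω} (hab : a ≠ b) [IsSimpleGroup G]
    (U : Subgroup G) (hUa : U ≤ stabilizer G a) (hUn : (U.subgroupOf (stabilizer G a)).Normal)
    (hna : ∃ u ∈ U, ∃ v ∈ U, u * v ≠ v * u)
    (hreg : ∀ y z : Ω, y ≠ a → z ≠ a → ∃! u : U, (u : G) • y = z) :
    ∃ h e : ℕ, Fintype.card Ω = h + 1 ∧ Nat.card ↥(stabilizer G a ⊓ stabilizer G b : Subgroup G) = e ∧
      Odd e ∧ 2 * e < h - 1 := by
  obtain ⟨u, hu, v, hv, huv⟩ := hna
  have hnle : ¬ Fintype.card Ω - 2 ≤ 2 * Nat.card ↥(stabilizer G a ⊓ stabilizer G b : Subgroup G) := fun hd =>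
    huv (congrArg Subtype.val ((S0738.result hZ hab hd U hUa hUn hreg).1.is_comm.comm ⟨u, hu⟩ ⟨v, hv⟩))
  have hpos : 0 < Fintype.card Ω := Fintype.card_pos_iff.2 ⟨a⟩
  refine ⟨Fintype.card Ω - 1, _, by omega, rfl, ?_, by omega⟩
  rcases Nat.even_or_odd (Nat.card ↥(stabilizer G a ⊓ stabilizer G b : Subgroup G)) with he | he
  · have h1 := PermGroups.card_eq_of_simple_even hZ hab he
    exact absurd (by omega) hnle
  · exact he

end Cfsg.Agent.Chars.ZassFeit
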