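import Cfsg.Agent.Chars.ZassFeit
import Cfsg.Agent.BlockChar.CharCount

/-!
Irreducible characters of a two-group with elementary central squares and commutators, normal in a
group which permutes the involutions transitively, and the characters they induce.
-/

set_option autoImplicit false
set_option linter.unusedSectionVars false

open scoped Classical ComplexConjugate

namespace Cfsg.Agent.Chars.ZassFeit

open Cfsg

universe u

variable {A : Type u} [Group A] [Fintype A]

/-- The hypotheses: `Z` the involutions of the normal subgroup, with the identity. -/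
structure TwoKer (K : Subgroup A) [K.Normal] (Z : Subgroup K) (q e : ℕ) : Prop where
  le_center : ∀ z ∈ Z, ∀ x : K, z * x = x * z
  sq_one : ∀ z ∈ Z, z * z = 1
  of_sq : ∀ x : K, x * x = 1 → x ∈ Z
  sq_mem : ∀ x : K, x * x ∈ Z
  comm_mem : ∀ x y : K, x * y * x⁻¹ * y⁻¹ ∈ Z
  card_Z : Nat.card Z = q
  eq : q = e + 1
  index : K.index = e
  e_two : 2 ≤ e
  trans : ∀ z ∈ Z, ∀ w ∈ Z, z ≠ 1 → w ≠ 1 → ∃ g : A, (MulAut.conjNormal g : MulAut K) z = w

variable {K : Subgroup A} [K.Normal] [Fintype K] {Z : Subgroup K} {q e : ℕ} {θ : K → ℂ}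

/-- The central subgroup, as a finite set. -/
noncomputable def zset (Z : Subgroup K) : Finset K := Finset.univ.filter fun z => z ∈ Z

theorem mem_zset {z : K} : z ∈ zset Z ↔ z ∈ Z := by simp [zset]

/-- The normalised values on the central subgroup. -/
noncomputable def omega (θ : K → ℂ) (z : K) : ℂ := θ z / θ 1

/-- The radical of the commutator form of a character. -/
noncomputable def rad (θ : K → ℂ) : Finset K :=
  Finset.univ.filter fun x => ∀ a : K, omega θ (a * x * a⁻¹ * x⁻¹) = 1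

/-- Characters nontrivial on the central subgroup. -/
def NonTriv (Z : Subgroup K) (θ : K → ℂ) : Prop := ∃ z ∈ Z, omega θ z ≠ 1

namespace TwoKer

variable (T : TwoKer K Z q e)

include T

theorem conj_mem (g : A) {z : K} (hz : z ∈ Z) : (MulAut.conjNormal g : MulAut K) z ∈ Z := by
  refine T.of_sq _ ?_
  rw [← map_mul, T.sq_one z hz, map_one]

theorem card_A : (Fintype.card A : ℂ) = (Nat.card K : ℂ) * e := by
  rw [← Nat.card_eq_fintype_card, ← K.card_mul_index, T.index, Nat.cast_mul]

theorem card_zset : (zset Z).card = q := by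
  rw [zset, ← Fintype.card_subtype, ← Nat.card_eq_fintype_card]
  exact T.card_Z

theorem sum_erase (F : K → ℂ) : ∑ z ∈ zset Z, F z = F 1 + ∑ z ∈ (zset Z).erase 1, F z :=
  (Finset.add_sum_erase _ _ (mem_zset.2 Z.one_mem)).symm

/-- The conjugates of a nonidentity central element are equally distributed. -/
theorem sum_conj (F : K → ℂ) {z : K} (hz : z ∈ Z) (hz1 : z ≠ 1) :
    ∑ g : A, F ((MulAut.conjNormal g : MulAut K) z) = (Nat.card K : ℂ) * ∑ w ∈ (zset Z).erase 1, F w := by
  have hshift : ∀ w ∈ (zset Z).erase 1, ∑ g : A, F ((MulAut.conjNormal g : MulAut K) w) =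
      ∑ g : A, F ((MulAut.conjNormal g : MulAut K) z) := by
    intro w hw
    obtain ⟨hw1, hwZ⟩ := Finset.mem_erase.1 hw
    obtain ⟨k, hk⟩ := T.trans z hz w (mem_zset.1 hwZ) hz1 hw1
    refine Fintype.sum_equiv (Equiv.mulRight k) _ _ fun g => ?_
    rw [← hk, Equiv.coe_mulRight, map_mul, MulAut.mul_apply]
  have hperm : ∀ g : A, ∑ w ∈ (zset Z).erase 1, F ((MulAut.conjNormal g : MulAut K) w) =
      ∑ w ∈ (zset Z).erase 1, F w := fun g => by
    have hmem : ∀ a : A, ∀ w ∈ (zset Z).erase 1, (MulAut.conjNormal a : MulAut K) w ∈ (zset Z).erase 1 :=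
      fun a w hw => by
        obtain ⟨hw1, hwZ⟩ := Finset.mem_erase.1 hw
        exact Finset.mem_erase.2 ⟨fun e1 => hw1 ((MulAut.conjNormal a).injective (e1.trans (map_one _).symm)),
          mem_zset.2 (T.conj_mem a (mem_zset.1 hwZ))⟩
    refine Finset.sum_bij' (fun w _ => (MulAut.conjNormal g : MulAut K) w)
      (fun w _ => (MulAut.conjNormal g⁻¹ : MulAut K) w) (hmem g) (hmem g⁻¹) (fun w _ => ?_) (fun w _ => ?_)
      fun w _ => rfl
    · rw [← MulAut.mul_apply, ← map_mul, inv_mul_cancel, map_one, MulAut.one_apply]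
    · rw [← MulAut.mul_apply, ← map_mul, mul_inv_cancel, map_one, MulAut.one_apply]
  have h1 : ∑ w ∈ (zset Z).erase 1, ∑ g : A, F ((MulAut.conjNormal g : MulAut K) w) =
      (Fintype.card A : ℂ) * ∑ w ∈ (zset Z).erase 1, F w := by
    rw [Finset.sum_comm, Finset.sum_congr rfl (fun g _ => hperm g), Finset.sum_const, Finset.card_univ,
      nsmul_eq_mul]
  rw [Finset.sum_congr rfl hshift, Finset.sum_const, Finset.card_erase_of_mem (mem_zset.2 Z.one_mem),
    T.card_zset, T.eq, Nat.add_sub_cancel, nsmul_eq_mul, T.card_A] at h1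
  have he : (e : ℂ) ≠ 0 := by exact_mod_cast (by have := T.e_two; omega : e ≠ 0)
  refine mul_left_cancel₀ he ?_
  linear_combination h1

/-- The sum of a function of the square, the fibres over the involutions being equally large. -/
theorem sum_sq : ∃ n : ℕ, n * e + q = Nat.card K ∧
    ∀ F : K → ℂ, ∑ x : K, F (x * x) = q * F 1 + n * ∑ z ∈ (zset Z).erase 1, F z := by
  obtain ⟨z₀, hz₀⟩ : ((zset Z).erase 1).Nonempty := Finset.card_pos.1 (by
    rw [Finset.card_erase_of_mem (mem_zset.2 Z.one_mem), T.card_zset, T.eq]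
    have := T.e_two; omega)
  obtain ⟨hz01, hz0Z⟩ := Finset.mem_erase.1 hz₀
  have hr : ∀ z ∈ (zset Z).erase 1, (Finset.univ.filter fun x : K => x * x = z).card =
      (Finset.univ.filter fun x : K => x * x = z₀).card := by
    intro z hz
    obtain ⟨hz1, hzZ⟩ := Finset.mem_erase.1 hz
    obtain ⟨g, hg⟩ := T.trans z₀ (mem_zset.1 hz0Z) z (mem_zset.1 hzZ) hz01 hz1
    symm
    refine Finset.card_bij (fun x _ => (MulAut.conjNormal g : MulAut K) x) (fun x hx => ?_)
      (fun x _ y _ e1 => (MulAut.conjNormal g).injective e1) (fun y hy => ?_)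
    · rw [Finset.mem_filter] at hx ⊢
      exact ⟨Finset.mem_univ _, by rw [← map_mul, hx.2, hg]⟩
    · refine ⟨(MulAut.conjNormal g : MulAut K).symm y, ?_, MulEquiv.apply_symm_apply _ _⟩
      rw [Finset.mem_filter] at hy ⊢
      exact ⟨Finset.mem_univ _, by rw [← map_mul, hy.2, MulEquiv.symm_apply_eq, hg]⟩
  have hone : (Finset.univ.filter fun x : K => x * x = 1).card = q := by
    rw [← T.card_zset]
    congr 1
    ext x
    simp only [Finset.mem_filter, Finset.mem_univ, true_and, mem_zset]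
    exact ⟨T.of_sq x, T.sq_one x⟩
  set n := (Finset.univ.filter fun x : K => x * x = z₀).card with hn
  have key : ∀ F : K → ℂ, ∑ x : K, F (x * x) = q * F 1 + n * ∑ z ∈ (zset Z).erase 1, F z := by
    intro F
    rw [← Finset.sum_fiberwise_of_maps_to (s := Finset.univ) (t := zset Z) (g := fun x : K => x * x)
      (fun x _ => mem_zset.2 (T.sq_mem x)) (fun x => F (x * x))]
    rw [Finset.sum_congr rfl (g := fun z => ((Finset.univ.filter fun x : K => x * x = z).card : ℂ) * F z)
      (fun z _ => by rw [Finset.sum_congr rfl (g := fun _ => F z) (fun x hx => by rw [(Finset.mem_filter.1 hx).2]),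
        Finset.sum_const, nsmul_eq_mul]), T.sum_erase, hone, Finset.mul_sum]
    congr 1
    exact Finset.sum_congr rfl fun z hz => by rw [hr z hz]
  refine ⟨n, ?_, key⟩
  have h1 := key fun _ => 1
  rw [Finset.sum_const, Finset.sum_const, Finset.card_univ, Finset.card_erase_of_mem (mem_zset.2 Z.one_mem),
    T.card_zset, T.eq, Nat.add_sub_cancel, nsmul_eq_mul, nsmul_eq_mul, ← Nat.card_eq_fintype_card] at h1
  have h2 : Nat.card K = q + n * e := by
    rw [T.eq]
    push_cast at h1
    have h3 : ((Nat.card K : ℕ) : ℂ) = ((e + 1 + n * e : ℕ) : ℂ) := by push_cast; linear_combination h1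
    exact_mod_cast h3
  omega

variable (hθ : IsIrrCharacter K θ)

include hθ

theorem one_ne : θ 1 ≠ 0 := Chars.irr_apply_one_ne_zero hθ

theorem omega_one : omega θ 1 = 1 := div_self (T.one_ne hθ)

/-- Central elements act by scalars. -/
theorem mul_left {z : K} (hz : z ∈ Z) (x : K) : θ (z * x) = omega θ z * θ x := by
  have h := BlockChar.sum_conj_mul hθ z x
  rw [Finset.sum_congr rfl (g := fun _ : K => θ (z * x)) (fun a _ => by
    rw [← T.le_center z hz a, mul_inv_cancel_right]), Finset.sum_const, Finset.card_univ, nsmul_eq_mul,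
    ← Nat.card_eq_fintype_card] at h
  refine mul_left_cancel₀ (Chars.card_ne_zero (G := K)) ?_
  rw [h, omega]
  ring

theorem omega_mul {z w : K} (hz : z ∈ Z) : omega θ (z * w) = omega θ z * omega θ w := by
  rw [omega, T.mul_left hθ hz, mul_div_assoc]
  rfl

theorem omega_sq {z : K} (hz : z ∈ Z) : omega θ z * omega θ z = 1 := by
  rw [← T.omega_mul hθ hz, T.sq_one z hz, T.omega_one hθ]

theorem omega_conj {z : K} (hz : z ∈ Z) : conj (omega θ z) = omega θ z := by
  rcases mul_self_eq_one_iff.1 (T.omega_sq hθ hz) with h | h <;> simp [h]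

theorem omega_inv {z : K} (hz : z ∈ Z) : omega θ z⁻¹ = omega θ z := by
  rw [inv_eq_of_mul_eq_one_right (T.sq_one z hz)]

theorem sum_omega (hnt : NonTriv Z θ) : ∑ z ∈ (zset Z).erase 1, omega θ z = -1 := by
  obtain ⟨z₀, hz₀, hne⟩ := hnt
  have h1 : ∑ z ∈ zset Z, omega θ z = omega θ z₀ * ∑ z ∈ zset Z, omega θ z := by
    rw [Finset.mul_sum]
    refine Finset.sum_bij' (fun z _ => z₀⁻¹ * z) (fun z _ => z₀ * z)
      (fun z hz => mem_zset.2 (Z.mul_mem (Z.inv_mem hz₀) (mem_zset.1 hz)))
      (fun z hz => mem_zset.2 (Z.mul_mem hz₀ (mem_zset.1 hz)))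
      (fun z _ => mul_inv_cancel_left _ _) (fun z _ => inv_mul_cancel_left _ _) (fun z _ => ?_)
    rw [← T.omega_mul hθ hz₀, mul_inv_cancel_left]
  have h2 : ∑ z ∈ zset Z, omega θ z = 0 := by
    by_contra h0
    exact hne ((mul_eq_right₀ h0).1 h1.symm)
  rw [T.sum_erase, T.omega_one hθ] at h2
  linear_combination h2

/-- A sum of the commutator form over its first argument. -/
theorem sum_form (x : K) :
    ∑ a : K, omega θ (a * x * a⁻¹ * x⁻¹) = if x ∈ rad θ then (Nat.card K : ℂ) else 0 := by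
  split_ifs with hx
  · rw [Finset.sum_congr rfl (fun a _ => (Finset.mem_filter.1 hx).2 a), Finset.sum_const, Finset.card_univ,
      nsmul_eq_mul, mul_one, Nat.card_eq_fintype_card]
  · simp only [rad, Finset.mem_filter, Finset.mem_univ, true_and, not_forall] at hx
    obtain ⟨a₀, ha₀⟩ := hx
    have h1 : ∑ a : K, omega θ (a * x * a⁻¹ * x⁻¹) =
        omega θ (a₀ * x * a₀⁻¹ * x⁻¹) * ∑ a : K, omega θ (a * x * a⁻¹ * x⁻¹) := by
      rw [Finset.mul_sum]
      refine Fintype.sum_equiv (Equiv.mulLeft a₀⁻¹) _ _ fun a => ?_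
      rw [Equiv.coe_mulLeft, ← T.omega_mul hθ (T.comm_mem _ _)]
      congr 1
      calc a * x * a⁻¹ * x⁻¹
          = a₀ * ((a₀⁻¹ * a) * x * (a₀⁻¹ * a)⁻¹ * x⁻¹) * x * a₀⁻¹ * x⁻¹ := by group
        _ = ((a₀⁻¹ * a) * x * (a₀⁻¹ * a)⁻¹ * x⁻¹) * a₀ * x * a₀⁻¹ * x⁻¹ := by
            rw [T.le_center _ (T.comm_mem (a₀⁻¹ * a) x) a₀]
        _ = ((a₀⁻¹ * a) * x * (a₀⁻¹ * a)⁻¹ * x⁻¹) * (a₀ * x * a₀⁻¹ * x⁻¹) := by group
        _ = _ := T.le_center _ (T.comm_mem (a₀⁻¹ * a) x) _
    by_contra h0
    exact ha₀ ((mul_eq_right₀ h0).1 h1.symm)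

theorem key_mul (x y : K) :
    (if x ∈ rad θ then (Nat.card K : ℂ) else 0) * θ (x * y) = (Nat.card K : ℂ) * θ x * θ y / θ 1 := by
  rw [← BlockChar.sum_conj_mul hθ x y, ← T.sum_form hθ x, Finset.sum_mul]
  refine Finset.sum_congr rfl fun a _ => ?_
  rw [← T.mul_left hθ (T.comm_mem a x)]
  congr 1
  group

theorem off_rad {x : K} (hx : x ∉ rad θ) : θ x = 0 := by
  have h := T.key_mul hθ x 1
  rw [if_neg hx, zero_mul, mul_div_assoc, div_self (T.one_ne hθ), mul_one] at h
  exact (mul_eq_zero.1 h.symm).resolve_left (Chars.card_ne_zero (G := K))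

theorem prod_rad {x : K} (hx : x ∈ rad θ) (y : K) : θ x * θ y = θ 1 * θ (x * y) := by
  have h := T.key_mul hθ x y
  rw [if_pos hx] at h
  have h1 := T.one_ne hθ
  have h2 := Chars.card_ne_zero (G := K)
  field_simp at h
  linear_combination -h

theorem norm_rad {x : K} (hx : x ∈ rad θ) : θ x * conj (θ x) = θ 1 * θ 1 := by
  rw [← Chars.char_inv_eq_conj (Chars.isCharacter_of_isIrr hθ), T.prod_rad hθ hx, mul_inv_cancel]

theorem card_rad : (rad θ).card * OddChar.deg θ ^ 2 = Nat.card K := by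
  have h := Chars.classInner_self_irr hθ
  rw [Chars.classInner_def, inv_mul_eq_one₀ (Chars.card_ne_zero (G := K)),
    ← Finset.sum_subset (Finset.subset_univ (rad θ)) (fun x _ hx => by rw [T.off_rad hθ hx, zero_mul]),
    Finset.sum_congr rfl (fun x hx => T.norm_rad hθ hx), Finset.sum_const, nsmul_eq_mul,
    OddChar.deg_spec (Chars.isCharacter_of_isIrr hθ)] at h
  rw [sq]
  exact_mod_cast h.symm

theorem rad_mul {x y : K} (hx : x ∈ rad θ) (hy : y ∈ rad θ) : x * y ∈ rad θ := by
  refine Finset.mem_filter.2 ⟨Finset.mem_univ _, fun a => ?_⟩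
  have h1 : a * (x * y) * a⁻¹ * (x * y)⁻¹ = (a * x * a⁻¹ * x⁻¹) * (a * y * a⁻¹ * y⁻¹) := by
    calc a * (x * y) * a⁻¹ * (x * y)⁻¹ = a * x * a⁻¹ * ((a * y * a⁻¹ * y⁻¹) * x⁻¹) := by group
      _ = a * x * a⁻¹ * (x⁻¹ * (a * y * a⁻¹ * y⁻¹)) := by rw [T.le_center _ (T.comm_mem a y) x⁻¹]
      _ = _ := by group
  rw [h1, T.omega_mul hθ (T.comm_mem a x), (Finset.mem_filter.1 hx).2 a, (Finset.mem_filter.1 hy).2 a, one_mul]

theorem mem_rad_of_mem {z : K} (hz : z ∈ Z) : z ∈ rad θ := by
  refine Finset.mem_filter.2 ⟨Finset.mem_univ _, fun a => ?_⟩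
  rw [show a * z * a⁻¹ * z⁻¹ = 1 by rw [← T.le_center z hz a]; group, T.omega_one hθ]

theorem omega_sq_mul (x y : K) : omega θ (x * y * (x * y)) =
    omega θ (y * x * y⁻¹ * x⁻¹) * (omega θ (x * x) * omega θ (y * y)) := by
  rw [← T.omega_mul hθ (T.sq_mem x), ← T.omega_mul hθ (T.comm_mem y x)]
  congr 1
  calc x * y * (x * y) = x * (y * x * y⁻¹ * x⁻¹) * x * y * y := by group
    _ = (y * x * y⁻¹ * x⁻¹) * x * x * y * y := by rw [T.le_center _ (T.comm_mem y x) x]
    _ = _ := by simp only [mul_assoc]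

/-- The square of the Gauss sum. -/
theorem gauss : (∑ x : K, omega θ (x * x)) * (∑ x : K, omega θ (x * x)) =
    (Nat.card K : ℂ) * ∑ u ∈ rad θ, omega θ (u * u) := by
  have h1 : ∀ x : K, omega θ (x * x) * ∑ y : K, omega θ (y * y) =
      ∑ u : K, omega θ (x * u * x⁻¹ * u⁻¹) * omega θ (u * u) := by
    intro x
    rw [← Equiv.sum_comp (Equiv.mulLeft x) (fun y => omega θ (y * y)), Finset.mul_sum]
    refine Finset.sum_congr rfl fun u _ => ?_
    have h2 : omega θ (u * x * u⁻¹ * x⁻¹) = omega θ (x * u * x⁻¹ * u⁻¹) := by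
      rw [← T.omega_inv hθ (T.comm_mem x u)]; congr 1; group
    rw [Equiv.coe_mulLeft, T.omega_sq_mul hθ, h2]
    linear_combination (omega θ (x * u * x⁻¹ * u⁻¹) * omega θ (u * u)) * T.omega_sq hθ (T.sq_mem x)
  rw [Finset.sum_mul, Finset.sum_congr rfl (fun x _ => h1 x), Finset.sum_comm,
    Finset.sum_congr rfl (g := fun u : K => if u ∈ rad θ then (Nat.card K : ℂ) * omega θ (u * u) else 0)
      (fun u _ => by rw [← Finset.sum_mul, T.sum_form hθ u, ite_mul, zero_mul]),
    Finset.sum_ite_mem, Finset.univ_inter, Finset.mul_sum]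

/-- Either all squares of the radical are trivial for the character or the sum vanishes. -/
theorem rad_dich : (∀ u ∈ rad θ, omega θ (u * u) = 1) ∨ ∑ u ∈ rad θ, omega θ (u * u) = 0 := by
  by_cases h : ∀ u ∈ rad θ, omega θ (u * u) = 1
  · exact Or.inl h
  push Not at h
  obtain ⟨u₀, hu₀, hne⟩ := h
  refine Or.inr ?_
  have hinj : Set.InjOn (fun u => u₀ * u) (rad θ : Set K) := fun a _ b _ e1 => mul_left_cancel e1
  have himg : (rad θ).image (fun u => u₀ * u) = rad θ :=
    Finset.eq_of_subset_of_card_le (fun y hy => by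
      obtain ⟨u, hu, rfl⟩ := Finset.mem_image.1 hy
      exact T.rad_mul hθ hu₀ hu) (by rw [Finset.card_image_of_injOn hinj])
  have h1 : ∑ u ∈ rad θ, omega θ (u * u) = omega θ (u₀ * u₀) * ∑ u ∈ rad θ, omega θ (u * u) := by
    conv_lhs => rw [← himg, Finset.sum_image hinj]
    rw [Finset.mul_sum]
    refine Finset.sum_congr rfl fun u hu => ?_
    rw [T.omega_sq_mul hθ, (Finset.mem_filter.1 hu₀).2 u, one_mul]
  by_contra h0
  exact hne ((mul_eq_right₀ h0).1 h1.symm)

/-- The degree when the kernel has order `q³`. -/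
theorem deg_cube (hnt : NonTriv Z θ) (hQ : Nat.card K = q * q * q) : OddChar.deg θ = q := by
  obtain ⟨n, hn, hF⟩ := T.sum_sq
  have hq := T.eq
  have he := T.e_two
  have hn' : n = q * (q + 1) := by
    refine Nat.eq_of_mul_eq_mul_right (show 0 < e by omega) ?_
    rw [hQ, hq] at hn; rw [hq]
    nlinarith
  have hg := T.gauss hθ
  rw [hF (omega θ), T.omega_one hθ, T.sum_omega hθ hnt, hn', hQ] at hg
  push_cast at hg
  have hq0 : (q : ℂ) ≠ 0 := by exact_mod_cast (by omega : q ≠ 0)
  have hs : ∑ u ∈ rad θ, omega θ (u * u) = q := by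
    refine mul_left_cancel₀ (mul_ne_zero (mul_ne_zero hq0 hq0) hq0) ?_
    linear_combination -hg
  rcases T.rad_dich hθ with h | h
  · rw [Finset.sum_congr rfl h, Finset.sum_const, nsmul_eq_mul, mul_one] at hs
    have h2 : (rad θ).card = q := by exact_mod_cast hs
    have h3 := T.card_rad hθ
    rw [h2, hQ, mul_assoc] at h3
    have h4 := Nat.eq_of_mul_eq_mul_left (show 0 < q by omega) h3
    exact Nat.pow_left_injective two_ne_zero (show OddChar.deg θ ^ 2 = q ^ 2 by rw [h4, sq])
  · exact absurd (hs.symm.trans h) hq0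

/-- The degree and a nonreal value when the kernel has order `q²`. -/
theorem deg_square (hnt : NonTriv Z θ) (hQ : Nat.card K = q * q) :
    OddChar.deg θ ^ 2 < q ∧ ∃ x, θ x ≠ conj (θ x) := by
  obtain ⟨n, hn, hF⟩ := T.sum_sq
  have hq := T.eq
  have he := T.e_two
  have hn' : n = q := by
    refine Nat.eq_of_mul_eq_mul_right (show 0 < e by omega) ?_
    rw [hQ, hq] at hn; rw [hq]
    nlinarith
  have hg := T.gauss hθ
  rw [hF (omega θ), T.omega_one hθ, T.sum_omega hθ hnt, hn', hQ, show ((q : ℂ) * 1 + q * -1) = 0 by ring,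
    zero_mul] at hg
  have hs : ∑ u ∈ rad θ, omega θ (u * u) = 0 :=
    (mul_eq_zero.1 hg.symm).resolve_left (by exact_mod_cast (Nat.mul_pos (by omega) (by omega : 0 < q)).ne')
  obtain ⟨x, hx, hne⟩ : ∃ x ∈ rad θ, omega θ (x * x) ≠ 1 := by
    by_contra hno
    push Not at hno
    rw [Finset.sum_congr rfl hno, Finset.sum_const, nsmul_eq_mul, mul_one, Nat.cast_eq_zero,
      Finset.card_eq_zero] at hs
    exact Finset.notMem_empty (1 : K) (hs ▸ T.mem_rad_of_mem hθ Z.one_mem)
  have hlt : q < (rad θ).card := by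
    rw [← T.card_zset]
    refine Finset.card_lt_card (Finset.ssubset_iff_of_subset
      (fun z hz => T.mem_rad_of_mem hθ (mem_zset.1 hz)) |>.2 ⟨x, hx, fun hxz => hne ?_⟩)
    rw [T.sq_one x (mem_zset.1 hxz), T.omega_one hθ]
  refine ⟨?_, x, fun hr => ?_⟩
  · have h3 := T.card_rad hθ
    rw [hQ] at h3
    have hd := OddChar.deg_pos_irr hθ
    by_contra hge
    push Not at hge
    nlinarith
  · have h1 := T.prod_rad hθ hx x
    have h2 := T.norm_rad hθ hx
    rw [← hr, h1] at h2
    refine hne ?_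
    rw [omega, mul_left_cancel₀ (T.one_ne hθ) h2, div_self (T.one_ne hθ)]

omit hθ in
/-- Conjugation pairs the forms exactly when the characters agree on the centre. -/
theorem sum_pair {θ' : K → ℂ} (hθ : IsIrrCharacter K θ) (hnt : NonTriv Z θ) (hθ' : IsIrrCharacter K θ')
    (hnt' : NonTriv Z θ') :
    (Finset.univ.filter fun g : A => ∀ z ∈ Z, omega θ ((MulAut.conjNormal g : MulAut K) z) = omega θ' z).card =
      Nat.card K := by
  set X := Finset.univ.filter fun g : A =>
    ∀ z ∈ Z, omega θ ((MulAut.conjNormal g : MulAut K) z) = omega θ' z with hX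
  have hinner : ∀ g : A, ∑ z ∈ zset Z, omega θ ((MulAut.conjNormal g : MulAut K) z) * omega θ' z =
      if g ∈ X then (q : ℂ) else 0 := by
    intro g
    split_ifs with hg
    · rw [Finset.sum_congr rfl (g := fun _ : K => (1 : ℂ)) (fun z hz => by
        rw [(Finset.mem_filter.1 hg).2 z (mem_zset.1 hz), T.omega_sq hθ' (mem_zset.1 hz)]),
        Finset.sum_const, T.card_zset, nsmul_eq_mul, mul_one]
    · simp only [hX, Finset.mem_filter, Finset.mem_univ, true_and, not_forall] at hg
      obtain ⟨z₀, hz₀, hne⟩ := hg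
      have hne1 : omega θ ((MulAut.conjNormal g : MulAut K) z₀) * omega θ' z₀ ≠ 1 := by
        intro h1
        refine hne ?_
        rw [← mul_one (omega θ ((MulAut.conjNormal g : MulAut K) z₀)), ← T.omega_sq hθ' hz₀, ← mul_assoc, h1,
          one_mul]
      have h1 : ∑ z ∈ zset Z, omega θ ((MulAut.conjNormal g : MulAut K) z) * omega θ' z =
          (omega θ ((MulAut.conjNormal g : MulAut K) z₀) * omega θ' z₀) *
            ∑ z ∈ zset Z, omega θ ((MulAut.conjNormal g : MulAut K) z) * omega θ' z := by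
        rw [Finset.mul_sum]
        refine Finset.sum_bij' (fun z _ => z₀⁻¹ * z) (fun z _ => z₀ * z)
          (fun z hz => mem_zset.2 (Z.mul_mem (Z.inv_mem hz₀) (mem_zset.1 hz)))
          (fun z hz => mem_zset.2 (Z.mul_mem hz₀ (mem_zset.1 hz)))
          (fun z _ => mul_inv_cancel_left _ _) (fun z _ => inv_mul_cancel_left _ _) (fun z _ => ?_)
        rw [mul_mul_mul_comm, ← T.omega_mul hθ (T.conj_mem g hz₀), ← T.omega_mul hθ' hz₀, ← map_mul,
          mul_inv_cancel_left]
      by_contra h0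
      exact hne1 ((mul_eq_right₀ h0).1 h1.symm)
  have h1 : ∑ z ∈ zset Z, ∑ g : A, omega θ ((MulAut.conjNormal g : MulAut K) z) * omega θ' z =
      (X.card : ℂ) * q := by
    rw [Finset.sum_comm, Finset.sum_congr rfl (fun g _ => hinner g), Finset.sum_ite_mem, Finset.univ_inter,
      Finset.sum_const, nsmul_eq_mul]
  rw [T.sum_erase, Finset.sum_congr rfl (g := fun _ : A => (1 : ℂ)) (fun g _ => by
      rw [map_one, T.omega_one hθ, T.omega_one hθ', one_mul]),
    Finset.sum_const, Finset.card_univ, nsmul_eq_mul, mul_one, T.card_A,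
    Finset.sum_congr rfl (g := fun z => (-(Nat.card K : ℂ)) * omega θ' z) (fun z hz => by
      rw [← Finset.sum_mul, T.sum_conj (omega θ) (mem_zset.1 (Finset.mem_erase.1 hz).2) (Finset.mem_erase.1 hz).1,
        T.sum_omega hθ hnt]
      ring), ← Finset.mul_sum, T.sum_omega hθ' hnt', T.eq] at h1
  have hq0 : ((e + 1 : ℕ) : ℂ) ≠ 0 := by exact_mod_cast Nat.succ_ne_zero e
  have h2 : (X.card : ℂ) = (Nat.card K : ℂ) := by
    refine mul_right_cancel₀ hq0 ?_
    push_cast at h1 ⊢
    linear_combination -h1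
  exact_mod_cast h2

omit hθ in
/-- All characters nontrivial on the centre have the same degree. -/
theorem deg_eq {θ' : K → ℂ} (hθ : IsIrrCharacter K θ) (hnt : NonTriv Z θ) (hθ' : IsIrrCharacter K θ')
    (hnt' : NonTriv Z θ') : OddChar.deg θ = OddChar.deg θ' := by
  obtain ⟨g, hg⟩ : (Finset.univ.filter fun g : A =>
      ∀ z ∈ Z, omega θ ((MulAut.conjNormal g : MulAut K) z) = omega θ' z).Nonempty :=
    Finset.card_pos.1 (by rw [T.sum_pair hθ hnt hθ' hnt']; exact Nat.card_pos)
  have hg' := (Finset.mem_filter.1 hg).2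
  have hc : (rad θ').card = (rad θ).card := by
    refine Finset.card_equiv (MulAut.conjNormal g : MulAut K).toEquiv fun x => ?_
    simp only [rad, Finset.mem_filter, Finset.mem_univ, true_and, MulEquiv.toEquiv_eq_coe, EquivLike.coe_coe]
    refine ⟨fun hx a => ?_, fun hx a => ?_⟩
    · obtain ⟨b, rfl⟩ := (MulAut.conjNormal g : MulAut K).surjective a
      rw [← map_inv, ← map_inv, ← map_mul, ← map_mul, ← map_mul, hg' _ (T.comm_mem b x)]
      exact hx b
    · have h1 := hx ((MulAut.conjNormal g : MulAut K) a)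
      rwa [← map_inv, ← map_inv, ← map_mul, ← map_mul, ← map_mul, hg' _ (T.comm_mem a x)] at h1
  have h1 := T.card_rad hθ
  have h2 := T.card_rad hθ'
  rw [hc] at h2
  have hpos : 0 < (rad θ).card := Finset.card_pos.2 ⟨1, T.mem_rad_of_mem hθ Z.one_mem⟩
  exact Nat.pow_left_injective two_ne_zero (Nat.eq_of_mul_eq_mul_left hpos (h1.trans h2.symm))

omit hθ in
/-- The value of an induced function on the kernel. -/
theorem ind_val (θ : K → ℂ) (x : K) :
    indFun K θ (x : A) = (Nat.card K : ℂ)⁻¹ * ∑ g : A, θ ((MulAut.conjNormal g : MulAut K) x) := by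
  rw [Chars.indFun_coe_normal]
  congr 1
  refine Fintype.sum_equiv (Equiv.inv A) _ _ fun g => congrArg θ (Subtype.ext ?_)
  simp

/-- The value at an involution. -/
theorem ind_center {z : K} (hz : z ∈ Z) (hz1 : z ≠ 1) :
    indFun K θ (z : A) = θ 1 * ∑ w ∈ (zset Z).erase 1, omega θ w := by
  rw [T.ind_val θ, T.sum_conj θ hz hz1, ← mul_assoc, inv_mul_cancel₀ (Chars.card_ne_zero (G := K)), one_mul,
    Finset.mul_sum]
  refine Finset.sum_congr rfl fun w _ => ?_
  rw [omega, mul_div_cancel₀ _ (T.one_ne hθ)]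

/-- The induced character is not real when the character is not. -/
theorem ind_nonreal (hnt : NonTriv Z θ) {x₀ : K} (hx₀ : θ x₀ ≠ conj (θ x₀)) :
    ∃ x : K, indFun K θ (x : A) ≠ conj (indFun K θ (x : A)) := by
  by_contra hno
  push Not at hno
  set X := Finset.univ.filter fun g : A =>
    ∀ z ∈ Z, omega θ ((MulAut.conjNormal g : MulAut K) z) = omega θ z with hX
  have hXc : X.card = Nat.card K := T.sum_pair hθ hnt hθ hnt
  have hXK : X = Finset.univ.filter fun g : A => g ∈ K := by
    symm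
    refine Finset.eq_of_subset_of_card_le (fun g hg => ?_) ?_
    · refine Finset.mem_filter.2 ⟨Finset.mem_univ _, fun z hz => ?_⟩
      congr 1
      refine Subtype.ext ?_
      rw [MulAut.conjNormal_apply]
      have h1 := congrArg Subtype.val (T.le_center z hz ⟨g, (Finset.mem_filter.1 hg).2⟩)
      simp only [Subgroup.coe_mul] at h1
      rw [← h1, mul_inv_cancel_right]
    · rw [hXc, ← Fintype.card_subtype, Nat.card_eq_fintype_card]
  -- pairing against a function with the central behaviour of the character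
  have hpair : ∀ η : K → ℂ, (∀ z ∈ Z, ∀ x, η (z * x) = omega θ z * η x) →
      ∑ x : K, indFun K θ (x : A) * η x = ∑ x : K, θ x * η x := by
    intro η hη
    rw [Finset.sum_congr rfl (g := fun x : K => (Nat.card K : ℂ)⁻¹ * ∑ g : A,
      θ ((MulAut.conjNormal g : MulAut K) x) * η x) (fun x _ => by rw [T.ind_val θ, mul_assoc, Finset.sum_mul]),
      ← Finset.mul_sum, Finset.sum_comm, ← Finset.sum_subset (Finset.subset_univ X) (fun g _ hg => ?_),
      Finset.sum_congr rfl (g := fun _ : A => ∑ x : K, θ x * η x) (fun g hg => ?_), Finset.sum_const,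
      hXc, nsmul_eq_mul, ← mul_assoc, inv_mul_cancel₀ (Chars.card_ne_zero (G := K)), one_mul]
    · rw [hXK, Finset.mem_filter] at hg
      refine Finset.sum_congr rfl fun x _ => ?_
      congr 1
      rw [show (MulAut.conjNormal g : MulAut K) x = ⟨g, hg.2⟩ * x * (⟨g, hg.2⟩ : K)⁻¹ from Subtype.ext (by simp)]
      exact Chars.isCharacter_conj_apply (Chars.isCharacter_of_isIrr hθ) _ _
    · simp only [hX, Finset.mem_filter, Finset.mem_univ, true_and, not_forall] at hg
      obtain ⟨z, hz, hne⟩ := hg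
      have h1 : ∑ x : K, θ ((MulAut.conjNormal g : MulAut K) x) * η x =
          (omega θ ((MulAut.conjNormal g : MulAut K) z) * omega θ z) *
            ∑ x : K, θ ((MulAut.conjNormal g : MulAut K) x) * η x := by
        conv_lhs => rw [← Equiv.sum_comp (Equiv.mulLeft z)]
        rw [Finset.mul_sum]
        refine Finset.sum_congr rfl fun x _ => ?_
        rw [Equiv.coe_mulLeft, map_mul, T.mul_left hθ (T.conj_mem g hz), hη z hz]
        ring
      by_contra h0
      have h2 := (mul_eq_right₀ h0).1 h1.symm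
      refine hne ?_
      rw [← mul_one (omega θ ((MulAut.conjNormal g : MulAut K) z)), ← T.omega_sq hθ hz, ← mul_assoc, h2, one_mul]
  have hA := hpair θ fun z hz x => T.mul_left hθ hz x
  have hB := hpair (fun x => conj (θ x)) fun z hz x => by
    show conj (θ (z * x)) = _
    rw [T.mul_left hθ hz, map_mul, T.omega_conj hθ hz]
  have h0 : ∑ x : K, θ x * θ x = 0 := by
    have h1 := Chars.classInner_irr_of_ne hθ (Chars.isIrrCharacter_star hθ) (fun e1 => hx₀ (congrFun e1 x₀))
    rw [Chars.classInner_def, mul_eq_zero, inv_eq_zero] at h1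
    simpa using h1.resolve_left (Chars.card_ne_zero (G := K))
  have h1 : ∑ x : K, θ x * conj (θ x) = (Nat.card K : ℂ) := by
    have h2 := Chars.classInner_self_irr hθ
    rw [Chars.classInner_def, inv_mul_eq_one₀ (Chars.card_ne_zero (G := K))] at h2
    exact h2.symm
  refine Chars.card_ne_zero (G := K) ?_
  rw [← h1, ← hB, show (∑ x : K, indFun K θ (x : A) * conj (θ x)) = conj (∑ x : K, indFun K θ (x : A) * θ x) by
    rw [map_sum]; exact Finset.sum_congr rfl fun x _ => by rw [map_mul, ← hno x], hA, h0, map_zero]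

/-- A character trivial on the centre is linear. -/
theorem deg_triv (hnt : ¬ NonTriv Z θ) : θ 1 = 1 := by
  have h1 : OddChar.deg θ = 1 := by
    refine OddChar.irr_deg_one_of_commutator_le hθ fun m hm => ?_
    have hmZ : m ∈ Z := by
      refine (Subgroup.commutator_le.2 fun a _ b _ => ?_) hm
      rw [commutatorElement_def]
      exact T.comm_mem a b
    have h2 : omega θ m = 1 := by
      by_contra hne
      exact hnt ⟨m, hmZ, hne⟩
    exact (div_eq_one_iff_eq (T.one_ne hθ)).1 h2
  rw [OddChar.deg_spec (Chars.isCharacter_of_isIrr hθ), h1, Nat.cast_one]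

/-- The value at an involution of an induced character. -/
theorem ind_center_cases {z : K} (hz : z ∈ Z) (hz1 : z ≠ 1) :
    (¬ NonTriv Z θ ∧ OddChar.deg θ = 1 ∧ indFun K θ (z : A) = (e : ℂ)) ∨
      (NonTriv Z θ ∧ indFun K θ (z : A) = -(OddChar.deg θ : ℂ)) := by
  have hd := OddChar.deg_spec (Chars.isCharacter_of_isIrr hθ)
  by_cases hnt : NonTriv Z θ
  · exact Or.inr ⟨hnt, by rw [T.ind_center hθ hz hz1, T.sum_omega hθ hnt, ← hd]; ring⟩
  · have h1 := T.deg_triv hθ hnt
    refine Or.inl ⟨hnt, by rw [hd] at h1; exact_mod_cast h1, ?_⟩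
    rw [T.ind_center hθ hz hz1, h1, one_mul, Finset.sum_congr rfl (g := fun _ : K => (1 : ℂ)) (fun w hw => by
      by_contra hne
      exact hnt ⟨w, mem_zset.1 (Finset.mem_erase.1 hw).2, hne⟩), Finset.sum_const,
      Finset.card_erase_of_mem (mem_zset.2 Z.one_mem), T.card_zset, T.eq, Nat.add_sub_cancel, nsmul_eq_mul, mul_one]

end TwoKer

end Cfsg.Agent.Chars.ZassFeit
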