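import Cfsg.Agent.Chars.ZassTwo
import Cfsg.Agent.Chars.ZassPair

/-!
The family of a two-group kernel with elementary central squares: the two kinds of members and their
sums on the kernel.
-/

set_option autoImplicit false
set_option linter.unusedSectionVars false

open scoped Classical ComplexConjugate

namespace Cfsg.Agent.Chars.ZassFeit

open Cfsg

universe u

variable {G : Type u} [Group G] [Fintype G]
variable {A H : Subgroup G} [Fintype A] [(H.subgroupOf A).Normal] {h e : ℕ} {St : G → ℂ}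

/-- The kernel data inside the stabiliser. -/
structure TwoBase (A H : Subgroup G) [Fintype A] [(H.subgroupOf A).Normal] (h e : ℕ) (St : G → ℂ)
    (Z : Subgroup (H.subgroupOf A)) (q : ℕ) : Prop extends Base A H h e St where
  two : TwoKer (H.subgroupOf A) Z q e
  iset_iff : ∀ x : A, x ∈ iset A H ↔ ∃ z ∈ Z, z ≠ 1 ∧ (z : A) = x

/-- The members trivial on the involutions. -/
noncomputable def triv (A H : Subgroup G) [Fintype A] (e : ℕ) : Finset (IrrCharacter A) :=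
  (fam A H).filter fun χ => ∀ t ∈ iset A H, (χ : A → ℂ) t = (e : ℂ)

theorem mem_triv {χ : IrrCharacter A} :
    χ ∈ triv A H e ↔ χ ∈ fam A H ∧ ∀ t ∈ iset A H, (χ : A → ℂ) t = (e : ℂ) := by
  simp [triv]

namespace TwoBase

variable {Z : Subgroup (H.subgroupOf A)} {q : ℕ} (B : TwoBase A H h e St Z q)

include B

theorem iset_card : (iset A H).card = e := by
  have h1 : ((zset Z).erase 1).card = (iset A H).card := by
    refine Finset.card_bij (fun z _ => (z : A)) (fun z hz => ?_) (fun z _ w _ e1 => Subtype.ext e1) (fun x hx => ?_)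
    · obtain ⟨hz1, hzZ⟩ := Finset.mem_erase.1 hz
      exact (B.iset_iff _).2 ⟨z, mem_zset.1 hzZ, hz1, rfl⟩
    · obtain ⟨z, hz, hz1, hzx⟩ := (B.iset_iff x).1 hx
      exact ⟨z, Finset.mem_erase.2 ⟨hz1, mem_zset.2 hz⟩, hzx⟩
  rw [← h1, Finset.card_erase_of_mem (mem_zset.2 Z.one_mem), B.two.card_zset, B.two.eq, Nat.add_sub_cancel]

theorem iset_nonempty : ∃ t, t ∈ iset A H :=
  Finset.card_pos.1 (by rw [B.iset_card]; have := B.e_two; omega)

theorem central {s : A} (hs : s ∈ iset A H) : ∀ k ∈ H, k * (s : G) = (s : G) * k := by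
  intro k hk
  obtain ⟨z, hz, -, rfl⟩ := (B.iset_iff s).1 hs
  have h1 := B.two.le_center z hz ⟨⟨k, B.le hk⟩, Subgroup.mem_subgroupOf.2 hk⟩
  exact (congrArg (fun y : H.subgroupOf A => ((y : A) : G)) h1).symm

/-- The two kinds of members. -/
theorem member_cases {χ : IrrCharacter A} (hχ : χ ∈ fam A H) :
    (rdeg A H χ = 1 ∧ ∀ t ∈ iset A H, (χ : A → ℂ) t = (e : ℂ)) ∨
      ((∀ t ∈ iset A H, (χ : A → ℂ) t = -(rdeg A H χ : ℂ)) ∧ (h = q * q * q → rdeg A H χ = q) ∧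
        (h = q * q → rdeg A H χ ^ 2 < q ∧ ∃ x ∈ hset A H, conj ((χ : A → ℂ) x) ≠ (χ : A → ℂ) x)) := by
  obtain ⟨θ, hθ, -, -, hχe⟩ := mem_fam.1 hχ
  have hd : rdeg A H χ = OddChar.deg θ := by
    rw [rdeg, hχe, OddChar.deg_indFun _ (Chars.isCharacter_of_isIrr hθ), B.index_H,
      Nat.mul_div_cancel_left _ (by have := B.e_two; omega)]
  have hK : Nat.card (H.subgroupOf A) = h := B.card_sub
  by_cases hnt : NonTriv Z θ
  · refine Or.inr ⟨fun t ht => ?_, fun hh => ?_, fun hh => ?_⟩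
    · obtain ⟨z, hz, hz1, rfl⟩ := (B.iset_iff t).1 ht
      rw [hχe, hd]
      rcases B.two.ind_center_cases hθ hz hz1 with ⟨hno, -⟩ | ⟨-, hv⟩
      · exact absurd hnt hno
      · exact hv
    · rw [hd]; exact B.two.deg_cube hθ hnt (hK.trans hh)
    · obtain ⟨hlt, x₀, hx₀⟩ := B.two.deg_square hθ hnt (hK.trans hh)
      refine ⟨hd ▸ hlt, ?_⟩
      obtain ⟨x, hx⟩ := B.two.ind_nonreal hθ hnt hx₀
      rw [← hχe] at hx
      refine ⟨(x : A), Finset.mem_filter.2 ⟨mem_kset.2 ⟨Subgroup.mem_subgroupOf.1 x.2, fun h1 => hx ?_⟩,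
        fun ho => hx ?_⟩, fun h1 => hx h1.symm⟩
      · rw [h1, Chars.irr_apply_one_conj (Chars.irr_isCharacter χ)]
      · rw [← Chars.char_inv_eq_conj (Chars.irr_isCharacter χ), inv_eq_of_mul_eq_one_right]
        refine Subtype.ext ?_
        push_cast
        rw [← sq, ← ho, pow_orderOf_eq_one]
  · refine Or.inl ⟨?_, fun t ht => ?_⟩
    · have h1 := B.two.deg_triv hθ hnt
      rw [OddChar.deg_spec (Chars.isCharacter_of_isIrr hθ)] at h1
      rw [hd]; exact_mod_cast h1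
    · obtain ⟨z, hz, hz1, rfl⟩ := (B.iset_iff t).1 ht
      rw [hχe]
      rcases B.two.ind_center_cases hθ hz hz1 with ⟨-, -, hv⟩ | ⟨hno, -⟩
      · exact hv
      · exact absurd hno hnt

/-- Members of the second kind have one degree. -/
theorem rdeg_eq {t : A} (ht : t ∈ iset A H) {χ ξ : IrrCharacter A} (hχ : χ ∈ fam A H) (hξ : ξ ∈ fam A H)
    (h1 : (χ : A → ℂ) t ≠ e) (h2 : (ξ : A → ℂ) t ≠ e) : rdeg A H χ = rdeg A H ξ := by
  obtain ⟨θ, hθ, -, -, hχe⟩ := mem_fam.1 hχ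
  obtain ⟨η, hη, -, -, hξe⟩ := mem_fam.1 hξ
  obtain ⟨z, hz, hz1, rfl⟩ := (B.iset_iff t).1 ht
  have key : ∀ (ω : H.subgroupOf A → ℂ), IsIrrCharacter (H.subgroupOf A) ω →
      indFun (H.subgroupOf A) ω (z : A) ≠ e → NonTriv Z ω := fun ω hω hne => by
    rcases B.two.ind_center_cases hω hz hz1 with ⟨-, -, hv⟩ | ⟨hno, -⟩
    · exact absurd hv hne
    · exact hno
  have he : 0 < (H.subgroupOf A).index := by rw [B.index_H]; have := B.e_two; omega
  rw [rdeg, rdeg, hχe, hξe, OddChar.deg_indFun _ (Chars.isCharacter_of_isIrr hθ),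
    OddChar.deg_indFun _ (Chars.isCharacter_of_isIrr hη), Nat.mul_div_cancel_left _ he,
    Nat.mul_div_cancel_left _ he]
  exact B.two.deg_eq hθ (key θ hθ (hχe ▸ h1)) hη (key η hη (hξe ▸ h2))


theorem triv_val {χ : IrrCharacter A} (hχ : χ ∈ (triv A H e)) :
    rdeg A H χ = 1 ∧ ∀ t ∈ iset A H, (χ : A → ℂ) t = (e : ℂ) := by
  obtain ⟨hf, hv⟩ := mem_triv.1 hχ
  rcases B.member_cases hf with h1 | ⟨h1, -⟩
  · exact h1
  · obtain ⟨t, ht⟩ := B.iset_nonempty
    have h2 := (hv t ht).symm.trans (h1 t ht)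
    have h3 : ((e + rdeg A H χ : ℕ) : ℂ) = 0 := by push_cast; linear_combination h2
    exact absurd (Nat.cast_eq_zero.1 h3) (by have := B.e_two; omega)

theorem rest_val {χ : IrrCharacter A} (hf : χ ∈ fam A H) (hχ : χ ∉ (triv A H e)) :
    (∀ t ∈ iset A H, (χ : A → ℂ) t = -(rdeg A H χ : ℂ)) ∧ (h = q * q * q → rdeg A H χ = q) ∧
      (h = q * q → rdeg A H χ ^ 2 < q ∧ ∃ x ∈ hset A H, conj ((χ : A → ℂ) x) ≠ (χ : A → ℂ) x) :=
  (B.member_cases hf).resolve_left fun h1 => hχ (mem_triv.2 ⟨hf, h1.2⟩)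

theorem split (F : IrrCharacter A → ℂ) :
    ∑ χ ∈ fam A H, F χ = ∑ χ ∈ (triv A H e), F χ + ∑ χ ∈ fam A H \ (triv A H e), F χ := by
  rw [add_comm, Finset.sum_sdiff (fun χ hχ => (mem_triv.1 hχ).1)]

/-- The counts. -/
theorem counts : ((triv A H e).card * e * q + q = h) ∧
    ∑ χ ∈ fam A H \ (triv A H e), rdeg A H χ ^ 2 = e * (triv A H e).card + 1 := by
  obtain ⟨t, ht⟩ := B.iset_nonempty
  have h1 := B.column_u (Finset.mem_filter.1 ht).1
  rw [B.split, Finset.sum_congr rfl (g := fun _ : IrrCharacter A => (e : ℂ)) (fun χ hχ => by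
      rw [(B.triv_val hχ).1, (B.triv_val hχ).2 t ht, Nat.cast_one, one_mul]),
    Finset.sum_congr rfl (s₁ := fam A H \ (triv A H e)) (g := fun χ : IrrCharacter A => -((rdeg A H χ ^ 2 : ℕ) : ℂ))
      (fun χ hχ => by
        rw [(B.rest_val (Finset.mem_sdiff.1 hχ).1 (Finset.mem_sdiff.1 hχ).2).1 t ht]; push_cast; ring),
    Finset.sum_const, nsmul_eq_mul, Finset.sum_neg_distrib, ← Nat.cast_sum] at h1
  have h2 : ∑ χ ∈ fam A H \ (triv A H e), rdeg A H χ ^ 2 = e * (triv A H e).card + 1 := by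
    have h3 : ((∑ χ ∈ fam A H \ (triv A H e), rdeg A H χ ^ 2 : ℕ) : ℂ) = ((e * (triv A H e).card + 1 : ℕ) : ℂ) := by
      push_cast at h1 ⊢; linear_combination -h1
    exact_mod_cast h3
  refine ⟨?_, h2⟩
  have h3 : rsum A H = (triv A H e).card + (e * (triv A H e).card + 1) := by
    rw [rsum, ← Finset.sum_sdiff (show (triv A H e) ⊆ fam A H from fun χ hχ => (mem_triv.1 hχ).1), h2,
      Finset.sum_congr rfl (g := fun _ : IrrCharacter A => 1) (fun χ hχ => by rw [(B.triv_val hχ).1, one_pow]),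
      Finset.sum_const, smul_eq_mul, mul_one, add_comm]
  have h4 := B.rsum_eq
  rw [h3] at h4
  have hh := B.h_pos
  obtain ⟨h', rfl⟩ : ∃ h', h = h' + 1 := ⟨h - 1, by omega⟩
  rw [Nat.add_sub_cancel] at h4
  rw [← h4, B.two.eq]
  ring

/-- The two columns at an element which is not an involution. -/
theorem column_hset {d : ℕ} (hd : ∀ χ ∈ fam A H \ (triv A H e), rdeg A H χ = d) (hd0 : 0 < d) {x : A}
    (hx : x ∈ hset A H) :
    ∑ χ ∈ (triv A H e), (χ : A → ℂ) x = -1 ∧ ∑ χ ∈ fam A H \ (triv A H e), (χ : A → ℂ) x = 0 := by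
  obtain ⟨t, ht⟩ := B.iset_nonempty
  obtain ⟨hxk, hxo⟩ := Finset.mem_filter.1 hx
  have hnc : ¬ IsConj x t := fun hc => hxo (by
    obtain ⟨g, hg⟩ := isConj_iff.1 hc
    have h1 : orderOf (t : G) = 2 := (Finset.mem_filter.1 ht).2
    rw [← h1, ← hg, Subgroup.coe_mul, Subgroup.coe_mul, Subgroup.coe_inv, ← MulAut.conj_apply,
      MulEquiv.orderOf_eq])
  have hreal : ∀ φ : IrrCharacter A, conj ((φ : A → ℂ) t) = (φ : A → ℂ) t := fun φ => by
    rw [← Chars.char_inv_eq_conj (Chars.irr_isCharacter φ), inv_eq_of_mul_eq_one_right]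
    refine Subtype.ext ?_
    push_cast
    rw [← sq, ← (Finset.mem_filter.1 ht).2, pow_orderOf_eq_one]
  have h1 := Chars.column_orth (G := A) x t
  rw [if_neg hnc, sum_split' (H := H), Finset.sum_congr rfl (s₁ := Finset.filter _ _)
      (g := fun _ : IrrCharacter A => (1 : ℂ)) (fun φ hφ => by
        rw [B.out_apply (Finset.mem_filter.1 hφ).2 (mem_kset.1 hxk).1,
          B.out_apply (Finset.mem_filter.1 hφ).2 (mem_kset.1 (Finset.mem_filter.1 ht).1).1, map_one, mul_one]),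
    Finset.sum_const, nsmul_eq_mul, mul_one, B.card_out, B.split,
    Finset.sum_congr rfl (g := fun χ : IrrCharacter A => (e : ℂ) * (χ : A → ℂ) x) (fun χ hχ => by
      rw [hreal, (B.triv_val hχ).2 t ht, mul_comm]),
    Finset.sum_congr rfl (s₁ := fam A H \ (triv A H e)) (g := fun χ : IrrCharacter A => -(d : ℂ) * (χ : A → ℂ) x)
      (fun χ hχ => by
        rw [hreal, (B.rest_val (Finset.mem_sdiff.1 hχ).1 (Finset.mem_sdiff.1 hχ).2).1 t ht, hd χ hχ, mul_comm]),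
    ← Finset.mul_sum, ← Finset.mul_sum] at h1
  have h2 := B.column_u hxk
  rw [B.split, Finset.sum_congr rfl (g := fun χ : IrrCharacter A => (χ : A → ℂ) x) (fun χ hχ => by
      rw [(B.triv_val hχ).1, Nat.cast_one, one_mul]),
    Finset.sum_congr rfl (s₁ := fam A H \ (triv A H e)) (g := fun χ : IrrCharacter A => (d : ℂ) * (χ : A → ℂ) x)
      (fun χ hχ => by rw [hd χ hχ]), ← Finset.mul_sum] at h2
  have hq : ((e : ℂ) + 1) ≠ 0 := by exact_mod_cast Nat.succ_ne_zero e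
  have hdC : (d : ℂ) ≠ 0 := by exact_mod_cast hd0.ne'
  have hA : ∑ χ ∈ (triv A H e), (χ : A → ℂ) x = -1 := mul_left_cancel₀ hq (by linear_combination h1 + h2)
  exact ⟨hA, mul_left_cancel₀ hdC (by linear_combination h2 - hA)⟩

/-- The family when the kernel has order `q²`. -/
theorem square_data (hh : h = q * q) :
    ∃ (F : Finset (IrrCharacter A)) (χ' : IrrCharacter A) (d : ℕ), PairData A H F χ' ∧ 0 < d ∧
      F.card * (d * d) = q ∧ (∀ χ ∈ F, rdeg A H χ = d) ∧ rdeg A H χ' = 1 ∧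
      (∀ x ∈ hset A H, (χ' : A → ℂ) x = -1) ∧ (∀ x ∈ iset A H, (χ' : A → ℂ) x = (e : ℂ)) ∧
      (∀ x ∈ hset A H, ∑ χ ∈ F, (χ : A → ℂ) x = 0) ∧
      (∀ χ ∈ F, ∀ x ∈ iset A H, (χ : A → ℂ) x = -(d : ℂ)) ∧
      ∀ χ ∈ F, ∃ x ∈ hset A H, conj ((χ : A → ℂ) x) ≠ (χ : A → ℂ) x := by
  obtain ⟨hc, hs⟩ := B.counts
  have he := B.e_two
  have hq := B.two.eq
  have hM : (triv A H e).card = 1 := by
    rw [hh] at hc
    refine Nat.eq_of_mul_eq_mul_right (show 0 < e * q from Nat.mul_pos (by omega) (by omega)) ?_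
    rw [hq] at hc ⊢
    nlinarith
  rw [hM, mul_one, ← hq] at hs
  obtain ⟨χ', hχ'⟩ := Finset.card_eq_one.1 hM
  obtain ⟨t, ht⟩ := B.iset_nonempty
  set F := fam A H \ (triv A H e) with hF
  obtain ⟨χ₀, hχ₀⟩ : F.Nonempty := by
    by_contra hne
    rw [Finset.not_nonempty_iff_eq_empty] at hne
    rw [hne, Finset.sum_empty] at hs
    omega
  have hdeg : ∀ χ ∈ F, rdeg A H χ = rdeg A H χ₀ := by
    intro χ hχ
    have hne : ∀ ξ ∈ F, (ξ : A → ℂ) t ≠ e := fun ξ hξ h1 => by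
      rw [(B.rest_val (Finset.mem_sdiff.1 hξ).1 (Finset.mem_sdiff.1 hξ).2).1 t ht] at h1
      have h3 : ((e + rdeg A H ξ : ℕ) : ℂ) = 0 := by push_cast; linear_combination -h1
      exact absurd (Nat.cast_eq_zero.1 h3) (by omega)
    exact B.rdeg_eq ht (Finset.mem_sdiff.1 hχ).1 (Finset.mem_sdiff.1 hχ₀).1 (hne χ hχ) (hne χ₀ hχ₀)
  have hd0 := (B.rdeg_spec (Finset.mem_sdiff.1 hχ₀).1).1
  rw [Finset.sum_congr rfl (fun χ hχ => by rw [hdeg χ hχ]), Finset.sum_const, smul_eq_mul, sq] at hs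
  have hmem : χ' ∈ (triv A H e) := by rw [hχ']; exact Finset.mem_singleton_self _
  have hcol := fun x hx => B.column_hset hdeg hd0 (x := x) hx
  refine ⟨F, χ', rdeg A H χ₀, ⟨Finset.sdiff_subset, (mem_triv.1 hmem).1,
    fun h1 => (Finset.mem_sdiff.1 h1).2 hmem, fun χ hχ => ?_, ?_, fun χ hχ ξ hξ => ?_⟩, hd0, hs, hdeg,
    (B.triv_val hmem).1, fun x hx => ?_, (B.triv_val hmem).2, fun x hx => (hcol x hx).2, fun χ hχ x hx => ?_,
    fun χ hχ => ?_⟩
  · by_cases h1 : χ ∈ (triv A H e)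
    · right; rw [hχ'] at h1; exact Finset.mem_singleton.1 h1
    · exact Or.inl (Finset.mem_sdiff.2 ⟨hχ, h1⟩)
  · have hlt := ((B.rest_val (Finset.mem_sdiff.1 hχ₀).1 (Finset.mem_sdiff.1 hχ₀).2).2.2 hh).1
    rw [sq] at hlt
    by_contra hlt2
    have : F.card * (rdeg A H χ₀ * rdeg A H χ₀) ≤ 1 * (rdeg A H χ₀ * rdeg A H χ₀) :=
      Nat.mul_le_mul_right _ (by omega)
    omega
  · rw [(B.rdeg_spec (Finset.mem_sdiff.1 hχ).1).2, (B.rdeg_spec (Finset.mem_sdiff.1 hξ).1).2, hdeg χ hχ, hdeg ξ hξ]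
  · have h1 := (hcol x hx).1
    rwa [hχ', Finset.sum_singleton] at h1
  · rw [(B.rest_val (Finset.mem_sdiff.1 hχ).1 (Finset.mem_sdiff.1 hχ).2).1 x hx, hdeg χ hχ]
  · exact ((B.rest_val (Finset.mem_sdiff.1 hχ).1 (Finset.mem_sdiff.1 hχ).2).2.2 hh).2

/-- The family when the kernel has order `q³`. -/
theorem cube_data (hh : h = q * q * q) :
    ∃ (F : Finset (IrrCharacter A)) (χ' : IrrCharacter A), PairData A H F χ' ∧
      F.card = q + 1 ∧ (∀ χ ∈ F, rdeg A H χ = 1) ∧ rdeg A H χ' = q ∧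
      (∀ χ ∈ F, ∀ x ∈ iset A H, (χ : A → ℂ) x = (e : ℂ)) ∧
      (∀ x ∈ hset A H, ∑ χ ∈ F, (χ : A → ℂ) x = -1) ∧
      (∀ x ∈ hset A H, (χ' : A → ℂ) x = 0) ∧ ∀ x ∈ iset A H, (χ' : A → ℂ) x = -(q : ℂ) := by
  obtain ⟨hc, hs⟩ := B.counts
  have he := B.e_two
  have hq := B.two.eq
  have hM : (triv A H e).card = q + 1 := by
    rw [hh] at hc
    refine Nat.eq_of_mul_eq_mul_right (show 0 < e * q from Nat.mul_pos (by omega) (by omega)) ?_
    rw [hq] at hc ⊢
    nlinarith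
  have hdeg : ∀ χ ∈ fam A H \ (triv A H e), rdeg A H χ = q := fun χ hχ =>
    (B.rest_val (Finset.mem_sdiff.1 hχ).1 (Finset.mem_sdiff.1 hχ).2).2.1 hh
  rw [Finset.sum_congr rfl (fun χ hχ => by rw [hdeg χ hχ]), Finset.sum_const, smul_eq_mul, hM] at hs
  have hone : (fam A H \ (triv A H e)).card = 1 := by
    refine Nat.eq_of_mul_eq_mul_right (pow_pos (show 0 < q by omega) 2) ?_
    rw [hs, hq]; ring
  obtain ⟨χ', hχ'⟩ := Finset.card_eq_one.1 hone
  have hmem : χ' ∈ fam A H \ (triv A H e) := by rw [hχ']; exact Finset.mem_singleton_self _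
  have hcol := fun x hx => B.column_hset hdeg (by omega) (x := x) hx
  refine ⟨(triv A H e), χ', ⟨fun χ hχ => (mem_triv.1 hχ).1, (Finset.mem_sdiff.1 hmem).1,
    (Finset.mem_sdiff.1 hmem).2, fun χ hχ => ?_, by omega, fun χ hχ ξ hξ => ?_⟩, hM,
    fun χ hχ => (B.triv_val hχ).1, hdeg χ' hmem, fun χ hχ => (B.triv_val hχ).2, fun x hx => (hcol x hx).1,
    fun x hx => ?_, fun x hx => ?_⟩
  · by_cases h1 : χ ∈ (triv A H e)
    · exact Or.inl h1
    · right
      have h2 := Finset.mem_sdiff.2 ⟨hχ, h1⟩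
      rw [hχ'] at h2
      exact Finset.mem_singleton.1 h2
  · rw [(B.rdeg_spec (mem_triv.1 hχ).1).2, (B.rdeg_spec (mem_triv.1 hξ).1).2, (B.triv_val hχ).1,
      (B.triv_val hξ).1]
  · have h1 := (hcol x hx).2
    rwa [hχ', Finset.sum_singleton] at h1
  · rw [(B.rest_val (Finset.mem_sdiff.1 hmem).1 (Finset.mem_sdiff.1 hmem).2).1 x hx, hdeg χ' hmem]

end TwoBase

end Cfsg.Agent.Chars.ZassFeit
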